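import Cfsg.Statements.S0821
import Cfsg.Agent.Class.Orth.TwoRank
import Cfsg.Agent.Class.Orth.Simple
import Cfsg.Agent.Class.Sp.Basic

set_option autoImplicit false
open Cfsg

namespace Cfsg.Agent.S0821

/-- PSp_2m(q) ≇ PΩ_(2m+1)(q) for q odd and m ≥ 3 (they have the same order). -/
theorem result {F : Type*} [Field F] [Fintype F] (hodd : Odd (Fintype.card F)) (m : ℕ) (hm : 3 ≤ m) : IsEmpty (Cfsg.PSp m F ≃* Cfsg.POmega F (Cfsg.quadFormOdd m F)) := by
  have h2 := Class.Orth.two_ne_zero_of_odd_card hodd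
  have hQ := Class.Orth.nd_oddQF m F h2
  have hd : Module.finrank F (Unit ⊕ (Fin m ⊕ Fin m) → F) = 2 * m + 1 := by simp; ring
  refine ⟨fun e => ?_⟩
  have h3 := hQ.pRankAtLeast_sub_one h2 (by omega) (Or.inl (hd ▸ odd_two_mul_add_one m))
  rw [hd, Nat.add_sub_cancel] at h3
  have hinj : Function.Injective (QuotientGroup.mk' (Subgroup.center
      (commutator (Class.Orth.OG (Class.Orth.oddQF m F))))) := by
    rw [← MonoidHom.ker_eq_bot_iff, QuotientGroup.ker_mk', eq_bot_iff]
    intro g hg
    rcases (hQ.mem_center_Omega (by omega) g).1 hg with h | h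
    · exact Subtype.ext h
    · exfalso
      have := ((Class.Orth.negOne_mem_commutator_iff hQ (hQ.reflGen_odd h2) h2
        (Pi.basisFun F _)).1 (h ▸ g.2)).1
      rw [hd] at this
      exact (Nat.not_even_iff_odd.2 (odd_two_mul_add_one m)) this
  have e' := e.trans (Class.Orth.pOmegaCongr (Class.Orth.oddEquiv m F))
  obtain ⟨A, -, hA2, hA⟩ := Class.Diag.pRankAtLeast_of_injective e'.symm.toMonoidHom
    e'.symm.injective (Class.Diag.pRankAtLeast_of_injective _ hinj h3)
  let Z := Subgroup.center (Matrix.symplecticGroup (Fin m) F)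
  let E := A.comap (QuotientGroup.mk' Z)
  let K := AlgebraicClosure F
  have hK2 : (2 : K) ≠ 0 := by
    rw [← map_ofNat (algebraMap F K) 2]
    exact (map_ne_zero _).2 h2
  obtain ⟨i, hi⟩ := IsAlgClosed.exists_eq_mul_self (-1 : K)
  let φ : Matrix (Fin m ⊕ Fin m) (Fin m ⊕ Fin m) F →+* Module.End K (Fin m ⊕ Fin m → K) :=
    (Matrix.toLinAlgEquiv' (R := K)).toRingEquiv.toRingHom.comp (algebraMap F K).mapMatrix
  have hφ : Function.Injective φ :=
    (Matrix.toLinAlgEquiv' (R := K)).injective.comp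
      (Matrix.map_injective (algebraMap F K).injective)
  let ρ : E →* Module.End K (Fin m ⊕ Fin m → K) :=
    (φ.toMonoidHom.comp (Matrix.symplecticGroup (Fin m) F).subtype).comp E.subtype
  have hρ : ∀ x : E, ρ x = φ x.1.1 := fun _ => rfl
  have h4 := Class.Diag.card_le_of_sq_eq_pm_of_det hK2 hi.symm ρ
    (hφ.comp (Subtype.val_injective.comp Subtype.val_injective)) (fun x => by
      have h5 : (x.1 ^ 2) ∈ Z := by
        rw [← QuotientGroup.eq_one_iff, QuotientGroup.mk_pow]
        exact hA2 _ x.2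
      rw [← map_mul, hρ]
      rcases Class.Sp.mem_center_iff.1 h5 with h | h
      · left
        rw [Subgroup.coe_mul, ← pow_two, h]
        exact map_one φ
      · right
        rw [Subgroup.coe_mul, ← pow_two, h, ← map_one φ, ← map_neg]
        rfl)
    (fun x => by
      rw [hρ]
      show LinearMap.det (Matrix.toLin' (x.1.1.map (algebraMap F K))) = 1
      rw [LinearMap.det_toLin', ← RingHom.mapMatrix_apply, ← RingHom.map_det,
        SymplecticGroup.det_eq_one x.1.2, map_one])
    (by simp; omega)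
  have h5 : Nat.card E = Nat.card Z * Nat.card A := QuotientGroup.card_preimage_mk Z A
  have h6 : 1 < Nat.card Z := by
    rw [Finite.one_lt_card_iff_nontrivial]
    refine ⟨1, ⟨_, Class.Sp.negOne_mem_center⟩, fun h => h2 ?_⟩
    have := congrFun (congrFun (congrArg (fun x : Z => x.1.1) h) (.inl ⟨0, by omega⟩))
      (.inl ⟨0, by omega⟩)
    simp [Class.Sp.negOne] at this
    linear_combination this
  have h7 : Module.finrank K (Fin m ⊕ Fin m → K) = 2 * m := by simp; ring
  rw [h7, h5] at h4
  have h8 : 0 < 2 ^ (2 * m) := by positivity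
  nlinarith

end Cfsg.Agent.S0821
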