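import Cfsg.Statements.S4717
import Cfsg.Agent.Block.BrauerPair
import Cfsg.Agent.Block.Height

set_option autoImplicit false
open Cfsg

namespace Cfsg.Agent.S4717

open Cfsg.Agent.Block Subgroup

theorem card_of_isDef {G : Type*} [Group G] [Finite G] {p : ℕ} [Fact p.Prime] {M : Ideal AlgInt}
    (hM : IsPModular p M) {H D : Subgroup G} {b : Set (IrrCharacter H)} (hb : IsPBlock M b)
    (hD : Alg.IsDef p H (sbar M H b) D) : Nat.card D = p ^ blockDefect p b := by
  obtain ⟨h1, h2⟩ := (isDef_bar_subtype_iff' hM hb).1 hD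
  rw [← card_defectGroup hM hb h2]
  exact (Nat.card_congr (subgroupOfEquivOfLe h1).toEquiv).symm


/-- Let p be a prime, M a maximal ideal of the algebraic integers containing p, and r a natural number; say that a finite group X has deficiency class r when X has no non-principal p-block of defect ≥ r. If G has deficiency class r then so does the centralizer of every p-element of G; conversely, if r > 0 and the centralizer of every element of order p has deficiency class r, then G has deficiency class r. -/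
theorem result {G : Type*} [Group G] [Finite G] (p : ℕ) [Fact p.Prime] (M : Ideal Cfsg.AlgInt) (hM : Cfsg.IsPModular p M) (r : ℕ) : ((∀ B' : Set (Cfsg.IrrCharacter G), Cfsg.IsPBlock M B' → B' ≠ Cfsg.principalBlock M G → Cfsg.blockDefect p B' < r) → ∀ y : G, (∃ k : ℕ, orderOf y = p ^ k) → (∀ B' : Set (Cfsg.IrrCharacter ↥(Subgroup.centralizer ({y} : Set G))), Cfsg.IsPBlock M B' → B' ≠ Cfsg.principalBlock M ↥(Subgroup.centralizer ({y} : Set G)) → Cfsg.blockDefect p B' < r)) ∧ (0 < r → (∀ y : G, orderOf y = p → (∀ B' : Set (Cfsg.IrrCharacter ↥(Subgroup.centralizer ({y} : Set G))), Cfsg.IsPBlock M B' → B' ≠ Cfsg.principalBlock M ↥(Subgroup.centralizer ({y} : Set G)) → Cfsg.blockDefect p B' < r)) → (∀ B' : Set (Cfsg.IrrCharacter G), Cfsg.IsPBlock M B' → B' ≠ Cfsg.principalBlock M G → Cfsg.blockDefect p B' < r)) := by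
  have := charP_resField hM
  have hp : p.Prime := Fact.out
  have hC : ∀ y : G, ⊤ ⊓ centralizer (zpowers y : Set G) = centralizer ({y} : Set G) := fun y => by
    rw [top_inf_eq, PLocal.Amb.centralizer_zpowers]
  constructor
  · rintro h y ⟨k, hk⟩ B' hB' hne
    have hQ : IsPGroup p (zpowers y) := IsPGroup.of_card (by rw [Nat.card_zpowers, hk])
    have hf : Alg.BP p ⊤ (zpowers y) (sbar M _ B') :=
      ⟨le_top, hQ, by rw [hC]; exact isPrim_bar_subtype hM hB'⟩
    obtain ⟨b, hb⟩ := hf.exists_of
    obtain ⟨B, hB, rfl⟩ := exists_block_of_isPrim_top hM hb.block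
    obtain ⟨P, e, hm, -⟩ := hb.exists_maxBP
    obtain ⟨D, hD⟩ := hf.exists_isDef le_rfl hf.centralizer_le_nst
    have h1 := hm.card_le_of_isDef hb hf.centralizer_le_nst hD
    rw [hC] at hD
    rw [card_of_isDef hM hB' hD, card_defectGroup hM hB ((isDef_top_iff hM hB).1 hm.isDef),
      Nat.pow_le_pow_iff_right hp.one_lt] at h1
    refine h1.trans_lt (h B hB fun e => hne ?_)
    exact (aug_bar_iff hM _ hB').1 (hb.aug_eq ((aug_gbar_iff hM hB).2 e))
  · intro hr h B hB hne
    have hb := isPrim_redAlg_eSet hM hB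
    obtain ⟨P, hP⟩ := Alg.exists_isDef p le_rfl le_normalizer hb
    obtain ⟨e, hm⟩ := hP.exists_maxBP hb
    have hc := card_defectGroup hM hB ((isDef_top_iff hM hB).1 hP)
    by_contra hlt
    have hP1 : Nontrivial P := by
      rw [← Finite.one_lt_card_iff_nontrivial, hc]
      exact Nat.one_lt_pow (by omega) hp.one_lt
    have := hP.pgroup.center_nontrivial
    obtain ⟨z, hz⟩ : ∃ z : center P, orderOf z = p := by
      refine exists_prime_orderOf_dvd_card' p ?_
      obtain ⟨n, hn, h⟩ := (hP.pgroup.to_subgroup (center P)).nontrivial_iff_card.1 this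
      rw [h]
      exact dvd_pow_self p hn.ne'
    have hz' : orderOf ((z : P) : G) = p := by rw [orderOf_coe, orderOf_coe, hz]
    obtain ⟨f, hf⟩ := Alg.exists_ple hm.of.pair (zpowers_le.2 (z : P).2)
    have hD := hm.isDef_of_le hf le_rfl hf.left.centralizer_le_nst (by
      rw [hC]
      rintro x hx _ rfl
      exact congrArg Subtype.val (mem_center_iff.1 z.2 ⟨x, hx⟩).symm)
    have hf' := hf.left.prim
    rw [hC] at hD hf'
    obtain ⟨B', hB', rfl⟩ := exists_block_of_isPrim_subtype hM hf'
    have h1 := card_of_isDef hM hB' hD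
    rw [hc] at h1
    refine hlt (Nat.pow_right_injective hp.two_le h1 ▸ h _ hz' B' hB' fun e => hne ?_)
    exact (aug_gbar_iff hM hB).1 ((hm.of.down hf).aug_block ((aug_bar_iff hM _ hB').2 e))

end Cfsg.Agent.S4717
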