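import Cfsg.Statements.S4966
import Cfsg.Agent.Char.Realize

set_option autoImplicit false
open Cfsg

namespace Cfsg.Agent.S4966

open Module

universe v

variable {F : Type*} [Field F] {G : Type*} [Group G]

section
variable {V : Type*} [AddCommGroup V] [Module F V]

def Inv (ρ : Representation F G V) (U : Submodule F V) : Prop := ∀ g : G, ∀ u ∈ U, ρ g u ∈ U

def Frm (ρ : Representation F G V) (ε : Bool) (U : Submodule F V) : Prop :=
  Inv ρ U ∧ (ε = false → (2 : F) = 0 → ∀ g, ∀ w ∈ U, ρ g w = w) ∧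
  ∃ A : LinearMap.BilinForm F V, (ε = true → ∀ x ∈ U, A x x = 0) ∧
    (ε = false → ∀ x ∈ U, ∀ y ∈ U, A x y = A y x) ∧
    (∀ g : G, ∀ x ∈ U, ∀ y ∈ U, A (ρ g x) (ρ g y) = A x y) ∧ ∀ x ∈ U, (∀ y ∈ U, A x y = 0) → x = 0

variable {ρ : Representation F G V}

theorem exists_proj {U W : Submodule F V} (h : Disjoint U W) :
    ∃ π : V →ₗ[F] V, (∀ u ∈ U, π u = u) ∧ (∀ w ∈ W, π w = 0) ∧ ∀ x, π x ∈ U := by
  obtain ⟨W', hW, hc⟩ := h.symm.exists_isCompl
  refine ⟨U.subtype.comp (U.projectionOnto W' hc.symm), fun u hu => ?_, fun w hw => ?_,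
    fun x => (U.projectionOnto W' hc.symm x).2⟩
  · exact congrArg Subtype.val (Submodule.projectionOnto_apply_left hc.symm ⟨u, hu⟩)
  · exact congrArg Subtype.val (Submodule.projectionOnto_apply_right hc.symm ⟨w, hW hw⟩)

theorem Frm.bot (ε : Bool) : Frm ρ ε ⊥ := by
  refine ⟨fun g u hu => ?_, fun _ _ g w hw => ?_, 0, by simp, by simp, by simp, fun x hx _ => ?_⟩
  · rw [Submodule.mem_bot] at hu ⊢
    rw [hu, map_zero]
  · rw [Submodule.mem_bot] at hw
    rw [hw, map_zero]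
  · exact (Submodule.mem_bot F).1 hx

theorem Frm.sup {ε : Bool} {U W : Submodule F V} (hU : Frm ρ ε U) (hW : Frm ρ ε W)
    (h : Disjoint U W) : Frm ρ ε (U ⊔ W) := by
  obtain ⟨π, a1, a2, -⟩ := exists_proj h
  obtain ⟨π', b1, b2, -⟩ := exists_proj h.symm
  obtain ⟨hU1, hU2, A, hA1, hA2, hA3, hA4⟩ := hU
  obtain ⟨hW1, hW2, B, hB1, hB2, hB3, hB4⟩ := hW
  have key : ∀ u ∈ U, ∀ w ∈ W, ∀ u' ∈ U, ∀ w' ∈ W,
      (A.comp π π + B.comp π' π') (u + w) (u' + w') = A u u' + B w w' := by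
    intro u hu w hw u' hu' w' hw'
    simp only [LinearMap.add_apply, LinearMap.BilinForm.comp_apply]
    rw [map_add π, map_add π, map_add π', map_add π', a1 u hu, a1 u' hu', a2 w hw, a2 w' hw',
      b1 w hw, b1 w' hw', b2 u hu, b2 u' hu', add_zero, add_zero, zero_add, zero_add]
  refine ⟨?_, fun e h2 g => ?_, A.comp π π + B.comp π' π', fun e => ?_, fun e => ?_, fun g => ?_,
    ?_⟩
  · intro g
    simp only [Submodule.forall_mem_sup, map_add]
    exact fun u hu w hw => Submodule.add_mem_sup (hU1 g u hu) (hW1 g w hw)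
  · simp only [Submodule.forall_mem_sup, map_add]
    intro u hu w hw
    rw [hU2 e h2 g u hu, hW2 e h2 g w hw]
  · simp only [Submodule.forall_mem_sup]
    intro u hu w hw
    rw [key u hu w hw u hu w hw, hA1 e u hu, hB1 e w hw, add_zero]
  · simp only [Submodule.forall_mem_sup]
    intro u hu w hw u' hu' w' hw'
    rw [key u hu w hw u' hu' w' hw', key u' hu' w' hw' u hu w hw, hA2 e u hu u' hu',
      hB2 e w hw w' hw']
  · simp only [Submodule.forall_mem_sup]
    intro u hu w hw u' hu' w' hw'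
    rw [map_add (ρ g), map_add (ρ g), key u hu w hw u' hu' w' hw',
      key _ (hU1 g u hu) _ (hW1 g w hw) _ (hU1 g u' hu') _ (hW1 g w' hw'), hA3 g u hu u' hu',
      hB3 g w hw w' hw']
  · simp only [Submodule.forall_mem_sup]
    intro u hu w hw hz
    have h1 : u = 0 := hA4 u hu fun y hy => by
      have := hz y hy 0 W.zero_mem
      rwa [key u hu w hw y hy 0 W.zero_mem, map_zero, add_zero] at this
    have h2 : w = 0 := hB4 w hw fun y hy => by
      have := hz 0 U.zero_mem y hy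
      rwa [key u hu w hw 0 U.zero_mem y hy, map_zero, zero_add] at this
    rw [h1, h2, add_zero]

theorem Frm.map {ε : Bool} (X : Subrepresentation ρ) {U : Submodule F X.toSubmodule}
    (hU : Frm X.toRepresentation ε U) : Frm ρ ε (U.map X.toSubmodule.subtype) := by
  obtain ⟨π, hπ⟩ := LinearMap.exists_leftInverse_of_injective X.toSubmodule.subtype
    X.toSubmodule.ker_subtype
  have h0 : ∀ x : X.toSubmodule, π x = x := fun x => LinearMap.congr_fun hπ x
  have h1 : ∀ g (x : X.toSubmodule), ρ g x = X.toRepresentation g x := fun _ _ => rfl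
  obtain ⟨hU1, hU2, A, hA1, hA2, hA3, hA4⟩ := hU
  refine ⟨?_, fun e h2 g => ?_, A.comp π π, fun e => ?_, fun e => ?_, fun g => ?_, ?_⟩
  · rintro g _ ⟨u, hu, rfl⟩
    exact ⟨_, hU1 g u hu, rfl⟩
  · rintro _ ⟨u, hu, rfl⟩
    exact congrArg Subtype.val (hU2 e h2 g u hu)
  · rintro _ ⟨u, hu, rfl⟩
    simp only [LinearMap.BilinForm.comp_apply, Submodule.subtype_apply, h0]
    exact hA1 e u hu
  · rintro _ ⟨u, hu, rfl⟩ _ ⟨w, hw, rfl⟩
    simp only [LinearMap.BilinForm.comp_apply, Submodule.subtype_apply, h0]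
    exact hA2 e u hu w hw
  · rintro _ ⟨u, hu, rfl⟩ _ ⟨w, hw, rfl⟩
    simp only [LinearMap.BilinForm.comp_apply, Submodule.subtype_apply, h1, h0]
    exact hA3 g u hu w hw
  · rintro _ ⟨u, hu, rfl⟩ hz
    rw [hA4 u hu fun y hy => by
      have := hz _ ⟨y, hy, rfl⟩
      simpa only [LinearMap.BilinForm.comp_apply, Submodule.subtype_apply, h0] using this]
    rfl

def IsMin' (ρ : Representation F G V) (M : Submodule F V) : Prop :=
  Inv ρ M ∧ M ≠ ⊥ ∧ ∀ K ≤ M, Inv ρ K → K = ⊥ ∨ K = M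

theorem exists_min [FiniteDimensional F V] {X : Submodule F V} (hX : Inv ρ X) (h0 : X ≠ ⊥) :
    ∃ M ≤ X, IsMin' ρ M := by
  obtain ⟨M, hM, hmin⟩ := (wellFounded_lt (α := Submodule F V)).has_min
    {M | M ≤ X ∧ Inv ρ M ∧ M ≠ ⊥} ⟨X, le_rfl, hX, h0⟩
  refine ⟨M, hM.1, hM.2.1, hM.2.2, fun K hK hKi => ?_⟩
  by_cases h : K = ⊥
  · exact Or.inl h
  · exact Or.inr (eq_of_le_of_not_lt hK (hmin K ⟨hK.trans hM.1, hKi, h⟩))

theorem inv_left {B : LinearMap.BilinForm F V} (hB : ∀ g x y, B (ρ g x) (ρ g y) = B x y) (g : G)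
    (x y : V) : B x (ρ g y) = B (ρ g⁻¹ x) y := by
  rw [← hB g (ρ g⁻¹ x) y, ← Module.End.mul_apply, ← map_mul, mul_inv_cancel, map_one,
    Module.End.one_apply]

/-- the right radical of a pairing `N × M` inside a minimal `M` -/
theorem IsMin'.rad {M N : Submodule F V} (hM : IsMin' ρ M) (hN : Inv ρ N)
    {B : LinearMap.BilinForm F V} (hB : ∀ g x y, B (ρ g x) (ρ g y) = B x y) :
    (∀ m ∈ M, (∀ n ∈ N, B n m = 0) → m = 0) ∨ ∀ m ∈ M, ∀ n ∈ N, B n m = 0 := by
  rcases hM.2.2 (M ⊓ B.orthogonal N) inf_le_left (fun g u hu => ⟨hM.1 g u hu.1, fun n hn => by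
    change B n (ρ g u) = 0
    rw [inv_left hB]
    exact hu.2 _ (hN _ n hn)⟩) with h | h
  · exact Or.inl fun m hm h' => (Submodule.mem_bot F).1 (h ▸ ⟨hm, h'⟩)
  · exact Or.inr fun m hm n hn => (h.ge hm).2 n hn

theorem hyperbolic {M N : Submodule F V} (hM : IsMin' ρ M) (hN : Inv ρ N)
    {B : LinearMap.BilinForm F V} (hB : ∀ g x y, B (ρ g x) (ρ g y) = B x y)
    (h0 : ∀ m ∈ M, ∀ n ∈ M, B n m = 0) (h1 : ∀ n ∈ N, (∀ m ∈ M, B m n = 0) → n = 0)
    (h2 : ∃ n ∈ N, ∃ m ∈ M, B n m ≠ 0) :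
    Frm ρ true (M ⊔ N) ∧ Disjoint (M ⊔ N) (B.orthogonal (M ⊔ N)) := by
  have hd : Disjoint M N := Submodule.disjoint_def.2 fun x hx hx' =>
    h1 x hx' fun m hm => h0 x hx m hm
  obtain ⟨n0, hn0, m0, hm0, hne⟩ := h2
  have hR := (hM.rad hN hB).resolve_right fun h => hne (h m0 hm0 n0 hn0)
  have hL := (hM.rad hN (B := B.flip) (fun g x y => hB g y x)).resolve_right fun h =>
    hne (by rw [h1 n0 hn0 fun m hm => h m hm n0 hn0]; simp)
  obtain ⟨π, a1, a2, -⟩ := exists_proj hd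
  have key : ∀ m ∈ M, ∀ n ∈ N, ∀ m' ∈ M, ∀ n' ∈ N,
      (B.compLeft π - (B.compLeft π).flip) (m + n) (m' + n') = B m n' - B m' n := by
    intro m hm n hn m' hm' n' hn'
    simp only [LinearMap.sub_apply, LinearMap.BilinForm.flip_apply,
      LinearMap.BilinForm.compLeft_apply, map_add π, a1 m hm, a1 m' hm', a2 n hn, a2 n' hn',
      add_zero]
    rw [map_add, map_add, h0 m' hm' m hm, h0 m hm m' hm', zero_add, zero_add]
  refine ⟨⟨?_, by simp, B.compLeft π - (B.compLeft π).flip, fun _ x _ => by simp, by simp,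
    fun g => ?_, ?_⟩, ?_⟩
  · intro g
    simp only [Submodule.forall_mem_sup, map_add]
    exact fun u hu w hw => Submodule.add_mem_sup (hM.1 g u hu) (hN g w hw)
  · simp only [Submodule.forall_mem_sup]
    intro u hu w hw u' hu' w' hw'
    rw [map_add (ρ g), map_add (ρ g), key u hu w hw u' hu' w' hw',
      key _ (hM.1 g u hu) _ (hN g w hw) _ (hM.1 g u' hu') _ (hN g w' hw'), hB, hB]
  · simp only [Submodule.forall_mem_sup]
    intro u hu w hw hz
    have e1 : u = 0 := hL u hu fun y hy => by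
      have := hz 0 M.zero_mem y hy
      rw [key u hu w hw 0 M.zero_mem y hy] at this
      simpa using this
    have e2 : w = 0 := h1 w hw fun y hy => by
      have := hz y hy 0 N.zero_mem
      rw [key u hu w hw y hy 0 N.zero_mem] at this
      simpa using this
    rw [e1, e2, add_zero]
  · rw [Submodule.disjoint_def]
    simp only [Submodule.forall_mem_sup]
    intro m hm n hn hz
    have e2 : n = 0 := h1 n hn fun y hy => by
      have : B y (m + n) = 0 := hz y (Submodule.mem_sup_left hy)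
      rwa [map_add, h0 m hm y hy, zero_add] at this
    subst e2
    rw [add_zero] at hz ⊢
    exact hR m hm fun y hy => hz y (Submodule.mem_sup_right hy)

theorem aniso {M : Submodule F V} (hM : IsMin' ρ M)
    {B : LinearMap.BilinForm F V} (hB : ∀ g x y, B (ρ g x) (ρ g y) = B x y)
    (h1 : ∀ m ∈ M, (∀ n ∈ M, B n m = 0) → m = 0) : ∃ ε, Frm ρ ε M := by
  rcases hM.rad hM.1 (B := B - B.flip) (fun g x y => by simp [hB]) with h | h
  · refine ⟨true, hM.1, by simp, B.flip - B, fun _ x _ => by simp, by simp,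
      fun g x _ y _ => by simp [hB], fun x hx hz => h x hx fun y hy => ?_⟩
    simpa using hz y hy
  have hs : ∀ x ∈ M, ∀ y ∈ M, B x y = B y x := fun x hx y hy => by
    simpa [sub_eq_zero] using h y hy x hx
  have hnd : ∀ x ∈ M, (∀ y ∈ M, B x y = 0) → x = 0 := fun x hx hz =>
    h1 x hx fun y hy => (hs y hy x hx).trans (hz y hy)
  by_cases h2 : (2 : F) = 0
  swap
  · exact ⟨false, hM.1, fun _ h => absurd h h2, B, by simp, fun _ => hs, fun g x _ y _ => hB g x y,
      hnd⟩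
  let K : Submodule F V :=
    { carrier := {x | x ∈ M ∧ B x x = 0}
      add_mem' := fun {a b} ha hb => ⟨M.add_mem ha.1 hb.1, by
        simp only [map_add, LinearMap.add_apply, ha.2, hb.2, hs b hb.1 a ha.1]
        linear_combination (B a b) * h2⟩
      zero_mem' := ⟨M.zero_mem, by simp⟩
      smul_mem' := fun c x hx => ⟨M.smul_mem c hx.1, by simp [hx.2]⟩ }
  rcases hM.2.2 K (fun x hx => hx.1) (fun g x hx => ⟨hM.1 g x hx.1, (hB g x x).trans hx.2⟩) with
    h3 | h3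
  · refine ⟨false, hM.1, fun _ _ g x hx => ?_, B, by simp, fun _ => hs, fun g x _ y _ => hB g x y,
      hnd⟩
    rw [← sub_eq_zero, ← Submodule.mem_bot F, ← h3]
    refine ⟨M.sub_mem (hM.1 g x hx) hx, ?_⟩
    simp only [map_sub, LinearMap.sub_apply, hB, hs x hx _ (hM.1 g x hx)]
    linear_combination (B x x - B (ρ g x) x) * h2
  · exact ⟨true, hM.1, by simp, B, fun _ x hx => (h3.ge hx).2, by simp, fun g x _ y _ => hB g x y,
      hnd⟩

theorem inv_orth {M : Submodule F V} (hM : Inv ρ M)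
    {B : LinearMap.BilinForm F V} (hB : ∀ g x y, B (ρ g x) (ρ g y) = B x y) :
    Inv ρ (B.orthogonal M) := fun g u hu n hn => by
  change B n (ρ g u) = 0
  rw [inv_left hB]
  exact hu _ (hM _ n hn)

theorem step [Finite G] [NeZero (Nat.card G : F)] [FiniteDimensional F V] [Nontrivial V]
    {B : LinearMap.BilinForm F V} (hn : B.Nondegenerate)
    (hB : ∀ g x y, B (ρ g x) (ρ g y) = B x y) :
    ∃ H : Submodule F V, H ≠ ⊥ ∧ (∃ ε, Frm ρ ε H) ∧ Disjoint H (B.orthogonal H) := by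
  obtain ⟨M, -, hM⟩ := exists_min (ρ := ρ) (X := ⊤) (fun _ _ _ => trivial) top_ne_bot
  rcases hM.rad hM.1 hB with h0 | h0
  · exact ⟨M, hM.2.1, aniso hM hB h0, Submodule.disjoint_def.2 h0⟩
  suffices h : ∃ N, Inv ρ N ∧ (∀ n ∈ N, (∀ m ∈ M, B m n = 0) → n = 0) ∧
      ∃ n ∈ N, ∃ m ∈ M, B n m ≠ 0 by
    obtain ⟨N, a, b, c⟩ := h
    obtain ⟨h1, h2⟩ := hyperbolic hM a hB h0 b c
    exact ⟨M ⊔ N, fun h => hM.2.1 (le_bot_iff.1 (h ▸ le_sup_left)), ⟨_, h1⟩, h2⟩
  obtain ⟨C, hC⟩ := Char.exists_isCompl_subrep_field (ρ := ρ)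
    ⟨B.orthogonal M, fun g _ h => inv_orth hM.1 hB g _ h⟩
  have hC0 : C.toSubmodule ≠ ⊥ := fun h => by
    have h1 : B.orthogonal M = ⊤ := by
      have := hC.sup_eq_top
      rwa [h, sup_bot_eq] at this
    refine hM.2.1 (eq_bot_iff.2 fun m hm => hn.1 m fun y => ?_)
    exact (h1.ge (Submodule.mem_top (x := y))) m hm
  obtain ⟨N, hNC, hN⟩ := exists_min (ρ := ρ) (fun g _ h => C.apply_mem_toSubmodule g h) hC0
  have hN1 : ∀ n ∈ N, (∀ m ∈ M, B m n = 0) → n = 0 := fun n hn h =>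
    Submodule.disjoint_def.1 hC.disjoint n h (hNC hn)
  by_cases c1 : ∃ n ∈ N, ∃ m ∈ M, B n m ≠ 0
  · exact ⟨N, hN.1, hN1, c1⟩
  push Not at c1
  let τ : V →ₗ[F] V := LinearMap.BilinForm.symmCompOfNondegenerate B.flip B hn
  have hτ : ∀ y x, B (τ y) x = B x y := fun y x =>
    LinearMap.BilinForm.symmCompOfNondegenerate_left_apply B.flip hn x y
  have hτg : ∀ g y, τ (ρ g y) = ρ g (τ y) := fun g y => by
    rw [← sub_eq_zero]
    refine hn.1 _ fun x => ?_
    have e : B (ρ g (τ y)) x = B (τ y) (ρ g⁻¹ x) :=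
      inv_left (B := B.flip) (fun g x y => hB g y x) g x (τ y)
    rw [map_sub, LinearMap.sub_apply, hτ, e, hτ, inv_left hB, sub_self]
  obtain ⟨n0, hn0, hn00⟩ := (Submodule.ne_bot_iff N).1 hN.2.1
  obtain ⟨m0, hm0, hne⟩ : ∃ m ∈ M, B m n0 ≠ 0 := by
    by_contra h
    push Not at h
    exact hn00 (hN1 n0 hn0 h)
  rcases hN.rad hM.1 (B := B.compRight τ) (fun g x y => by simp [hτg, hB]) with c2 | c2
  · refine ⟨N.map τ, ?_, ?_, τ n0, ⟨n0, hn0, rfl⟩, m0, hm0, by rwa [hτ]⟩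
    · rintro g _ ⟨n, hn, rfl⟩
      exact ⟨_, hN.1 g n hn, hτg g n⟩
    · rintro _ ⟨n, hn, rfl⟩ h
      rw [c2 n hn h, map_zero]
  · refine ⟨N.map (LinearMap.id + τ), ?_, ?_, n0 + τ n0, ⟨n0, hn0, rfl⟩, m0, hm0, ?_⟩
    · rintro g _ ⟨n, hn, rfl⟩
      exact ⟨_, hN.1 g n hn, by simp [hτg]⟩
    · rintro _ ⟨n, hn, rfl⟩ h
      rw [hN1 n hn fun m hm => by
        have h1 : B m (τ n) = 0 := c2 n hn m hm
        simpa [h1] using h m hm, map_zero]
    · rw [map_add, LinearMap.add_apply, c1 n0 hn0 m0 hm0, zero_add, hτ]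
      exact hne

end

theorem main [Finite G] [NeZero (Nat.card G : F)] (n : ℕ) : ∀ (V : Type v) [AddCommGroup V]
    [Module F V] [FiniteDimensional F V] (ρ : Representation F G V)
    (B : LinearMap.BilinForm F V), finrank F V = n → B.Nondegenerate →
    (∀ g x y, B (ρ g x) (ρ g y) = B x y) →
    ∃ U W : Submodule F V, IsCompl U W ∧ Frm ρ true U ∧ Frm ρ false W := by
  induction n using Nat.strong_induction_on with
  | _ n ih =>
  intro V _ _ _ ρ B hn hB hBi
  rcases subsingleton_or_nontrivial V with h | h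
  · exact ⟨⊥, ⊥, ⟨disjoint_bot_left, codisjoint_iff.2 (Subsingleton.elim _ _)⟩, Frm.bot _,
      Frm.bot _⟩
  obtain ⟨H, hH0, ⟨ε, hH⟩, hd⟩ := step (ρ := ρ) hB hBi
  have hf := LinearMap.BilinForm.finrank_orthogonal hB H
  have hpos : 0 < finrank F H := Submodule.one_le_finrank_iff.2 hH0
  have hle := H.finrank_le
  have hc : IsCompl H (B.orthogonal H) := (Submodule.isCompl_iff_disjoint _ _ (by omega)).2 hd
  let X : Subrepresentation ρ := ⟨B.orthogonal H, fun g _ h => inv_orth hH.1 hBi g _ h⟩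
  obtain ⟨U, W, hUW, hU, hW⟩ := ih _ (by change finrank F (B.orthogonal H) < n; omega)
    X.toSubmodule X.toRepresentation (B.restrict X.toSubmodule) rfl
    (LinearMap.BilinForm.Nondegenerate.ofSeparatingRight fun y hy => Subtype.ext (hB.2 _ fun x => by
      have : x ∈ H ⊔ B.orthogonal H := hc.sup_eq_top ▸ Submodule.mem_top
      obtain ⟨a, ha, b, hb, rfl⟩ := Submodule.mem_sup.1 this
      rw [map_add, LinearMap.add_apply, show B a y = 0 from y.2 a ha, zero_add]
      exact hy ⟨b, hb⟩)) (fun g x y => hBi g x y)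
  have hU' := hU.map X
  have hW' := hW.map X
  set U' := U.map X.toSubmodule.subtype
  set W' := W.map X.toSubmodule.subtype
  have e1 : U' ⊔ W' = B.orthogonal H := by
    rw [← Submodule.map_sup, hUW.sup_eq_top, Submodule.map_subtype_top]
  have e2 : Disjoint U' W' := Submodule.disjoint_map (Submodule.subtype_injective _) hUW.disjoint
  have d1 : Disjoint H U' := hd.mono_right (e1 ▸ le_sup_left)
  have d2 : Disjoint H W' := hd.mono_right (e1 ▸ le_sup_right)
  cases ε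
  · refine ⟨U', H ⊔ W', ⟨?_, ?_⟩, hU', hH.sup hW' d2⟩
    · exact (e2.symm.disjoint_sup_left_of_disjoint_sup_right
        (by rw [sup_comm, e1]; exact hd)).symm
    · rw [codisjoint_iff, sup_left_comm, e1, hc.sup_eq_top]
  · refine ⟨H ⊔ U', W', ⟨?_, ?_⟩, hH.sup hU' d1, hW'⟩
    · exact e2.disjoint_sup_left_of_disjoint_sup_right (by rw [e1]; exact hd)
    · rw [codisjoint_iff, sup_assoc, e1, hc.sup_eq_top]

/-- Let F be a finite field of characteristic p, G a finite group of order prime to p, and V a finite-dimensional representation of G over F carrying a nondegenerate G-invariant bilinear form (equivalently, V is self-dual). Then V is the direct sum of two G-invariant subspaces U and W such that U carries a G-invariant alternating bilinear form that is nondegenerate on U and W carries a G-invariant symmetric bilinear form that is nondegenerate on W; moreover when p = 2 the decomposition can be chosen with G acting trivially on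 W. -/
theorem result {F : Type*} [Field F] [Fintype F] (p : ℕ) [Fact p.Prime] [CharP F p] {G : Type*} [Group G] [Finite G] (hcop : ¬ p ∣ Nat.card G) {V : Type*} [AddCommGroup V] [Module F V] [FiniteDimensional F V] (ρ : Representation F G V) (B : LinearMap.BilinForm F V) (hB : B.Nondegenerate) (hBinv : ∀ g : G, ∀ x y : V, B (ρ g x) (ρ g y) = B x y) : ∃ U W : Submodule F V, IsCompl U W ∧ (∀ g : G, ∀ u ∈ U, ρ g u ∈ U) ∧ (∀ g : G, ∀ w ∈ W, ρ g w ∈ W) ∧ (∃ A : LinearMap.BilinForm F V, (∀ x : V, A x x = 0) ∧ (∀ g : G, ∀ x ∈ U, ∀ y ∈ U, A (ρ g x) (ρ g y) = A x y) ∧ (∀ x ∈ U, (∀ y ∈ U, A x y = 0) → x = 0)) ∧ (∃ S : LinearMap.BilinForm F V, (∀ x y : V, S x y = S y x) ∧ (∀ g : G, ∀ x ∈ W, ∀ y ∈ W, S (ρ g x) (ρ g y) = S x y) ∧ (∀ x ∈ W, (∀ y ∈ W, S x y = 0) → x = 0)) ∧ (p = 2 → ∀ g : G, ∀ w ∈ W, ρ g w = w) := by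
  haveI : NeZero (Nat.card G : F) := ⟨fun h => hcop ((CharP.cast_eq_zero_iff F p _).1 h)⟩
  obtain ⟨U, W, h, ⟨a1, -, A, a2, -, a3, a4⟩, ⟨b1, b0, S, -, b2, b3, b4⟩⟩ :=
    main _ V ρ B rfl hB hBinv
  obtain ⟨π, p1, -, p2⟩ := exists_proj h.disjoint
  obtain ⟨π', q1, -, q2⟩ := exists_proj h.disjoint.symm
  refine ⟨U, W, h, a1, b1, ⟨A.comp π π, fun x => a2 rfl _ (p2 x), fun g x hx y hy => ?_,
    fun x hx hz => a4 x hx fun y hy => ?_⟩, ⟨S.comp π' π', fun x y => b2 rfl _ (q2 x) _ (q2 y),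
    fun g x hx y hy => ?_, fun x hx hz => b4 x hx fun y hy => ?_⟩, fun h2 => b0 rfl ?_⟩
  · simp only [LinearMap.BilinForm.comp_apply, p1 _ hx, p1 _ hy, p1 _ (a1 g x hx),
      p1 _ (a1 g y hy), a3 g x hx y hy]
  · simpa only [LinearMap.BilinForm.comp_apply, p1 _ hx, p1 _ hy] using hz y hy
  · simp only [LinearMap.BilinForm.comp_apply, q1 _ hx, q1 _ hy, q1 _ (b1 g x hx),
      q1 _ (b1 g y hy), b3 g x hx y hy]
  · simpa only [LinearMap.BilinForm.comp_apply, q1 _ hx, q1 _ hy] using hz y hy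
  · subst h2
    exact CharP.cast_eq_zero F 2

end Cfsg.Agent.S4966
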