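import Cfsg.Statements.S0714
import Cfsg.Agent.Perm.MultTrans
import Cfsg.Agent.Perm.PermModule

set_option autoImplicit false
open Cfsg

namespace Cfsg.Agent.S0714

open MulAction Equiv

/-- Over any field, the permutation module of the alternating group of degree at least 5 has exactly four invariant subspaces: zero, the constant functions, the functions with coordinate sum zero, and everything. -/
theorem result {α : Type*} [Fintype α] [DecidableEq α] (hα : 5 ≤ Fintype.card α) {K : Type*} [Field K] (W : Subrepresentation (Cfsg.permRep K (alternatingGroup α) α)) : W.toSubmodule = ⊥ ∨ W = Cfsg.permConstants K (alternatingGroup α) α ∨ W = Cfsg.permSumZero K (alternatingGroup α) α ∨ W.toSubmodule = ⊤ := by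
  have hn : Nat.card α = Fintype.card α := Nat.card_eq_fintype_card
  by_cases hc : ∀ f ∈ W.toSubmodule, ∀ a b, f a = f b
  · by_cases h0 : W.toSubmodule = ⊥
    · exact Or.inl h0
    right; left
    obtain ⟨f, hf, hf0⟩ := Submodule.exists_mem_ne_zero_of_ne_bot h0
    obtain ⟨a, ha⟩ := Function.ne_iff.1 hf0
    apply Subrepresentation.toSubmodule_injective
    apply le_antisymm
    · intro u hu
      exact (Cfsg.Agent.Perm.mem_permConstants u).2 ⟨u a, funext fun x => hc u hu x a⟩
    · intro u hu
      obtain ⟨c, rfl⟩ := (Cfsg.Agent.Perm.mem_permConstants u).1 hu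
      have := W.toSubmodule.smul_mem (c / f a) hf
      convert this using 1
      funext x
      have ha' : f a ≠ 0 := ha
      rw [Pi.smul_apply, smul_eq_mul, hc f hf x a, div_mul_cancel₀ _ ha']
  push Not at hc
  obtain ⟨f, hf, a, b, hab⟩ := hc
  have hab' : a ≠ b := fun e => hab (e ▸ rfl)
  obtain ⟨c, d, e, hc, hd, he, hcd, hce, hde⟩ := Finset.two_lt_card_iff.1
    (show 2 < (({a, b} : Finset α)ᶜ).card by
      rw [Finset.card_compl, Finset.card_pair hab']; omega)
  simp only [Finset.mem_compl, Finset.mem_insert, Finset.mem_singleton, not_or] at hc hd he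
  have hact : ∀ (σ : Perm α), σ.IsThreeCycle → ∀ u ∈ W.toSubmodule,
      (fun x => u (σ x)) - u ∈ W.toSubmodule := fun σ hσ u hu =>
    W.toSubmodule.sub_mem (W.apply_mem_toSubmodule
      (⟨σ, hσ.mem_alternatingGroup⟩ : alternatingGroup α)⁻¹ hu) hu
  have h1 := hact _ (Perm.isThreeCycle_swap_mul_swap_same (Ne.symm hc.1) hab' hc.2) f hf
  have h2 := hact _ (Perm.isThreeCycle_swap_mul_swap_same (Ne.symm hd.1) (Ne.symm he.1) hde) _ h1
  have h3 : (Pi.single d 1 - Pi.single a 1 : α → K) ∈ W.toSubmodule := by
    have := W.toSubmodule.smul_mem (f b - f a)⁻¹ h2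
    convert this using 1
    funext x
    have hne : f b - f a ≠ 0 := sub_ne_zero.2 hab.symm
    rw [Pi.smul_apply, smul_eq_mul, eq_inv_mul_iff_mul_eq₀ hne]
    simp only [Pi.sub_apply, Perm.mul_apply, Pi.single_apply, swap_apply_def]
    have := hc.1; have := hc.2; have := hd.1; have := hd.2; have := he.1; have := he.2
    by_cases x1 : x = a
    · subst x1; simp [*, Ne.symm]
    by_cases x2 : x = d
    · subst x2; simp [*, Ne.symm]
    by_cases x3 : x = e
    · subst x3; simp [*, Ne.symm]
    simp [*]
  have h2t : IsMultiplyPretransitive (alternatingGroup α) α 2 :=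
    haveI := alternatingGroup.isMultiplyPretransitive α
    isMultiplyPretransitive_of_le (n := Nat.card α - 2) (by omega) (by omega)
  have h4 : ∀ x, (Pi.single x 1 - Pi.single a 1 : α → K) ∈ W.toSubmodule := by
    intro x
    by_cases hx : x = a
    · rw [hx, sub_self]; exact W.toSubmodule.zero_mem
    obtain ⟨g, hg1, hg2⟩ := is_two_pretransitive_iff.1 h2t hd.1 hx
    have := W.apply_mem_toSubmodule g h3
    rwa [map_sub, Cfsg.Agent.Perm.permRep_single, Cfsg.Agent.Perm.permRep_single, hg1, hg2] at this
  have h5 : ∀ u : α → K, u - (∑ x, u x) • Pi.single a 1 ∈ W.toSubmodule := by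
    intro u
    have := W.toSubmodule.sum_mem (t := Finset.univ) fun x _ => W.toSubmodule.smul_mem (u x) (h4 x)
    convert this using 1
    simp only [smul_sub, Finset.sum_sub_distrib, Finset.sum_smul]
    congr 1
    funext y
    simp [Finset.sum_apply, Pi.single_apply]
  right; right
  by_cases h6 : ∀ u ∈ W.toSubmodule, ∑ x, u x = 0
  · left
    apply Subrepresentation.toSubmodule_injective
    refine le_antisymm h6 fun u hu => ?_
    have := h5 u
    rwa [(Cfsg.Agent.Perm.mem_permSumZero u).1 hu, zero_smul, sub_zero] at this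
  · right
    push Not at h6
    obtain ⟨w, hw, hw0⟩ := h6
    have h7 : (Pi.single a 1 : α → K) ∈ W.toSubmodule := by
      have := W.toSubmodule.smul_mem (∑ x, w x)⁻¹ (W.toSubmodule.sub_mem hw (h5 w))
      rwa [sub_sub_cancel, smul_smul, inv_mul_cancel₀ hw0, one_smul] at this
    rw [eq_top_iff]
    intro u _
    have := W.toSubmodule.add_mem (h5 u) (W.toSubmodule.smul_mem (∑ x, u x) h7)
    rwa [sub_add_cancel] at this

end Cfsg.Agent.S0714
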