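import Cfsg.Statements.S0406
import Cfsg.Agent.Spor.LeechChar
-- import your own Cfsg.Agent.* helpers here

set_option autoImplicit false
open Matrix
open Cfsg

namespace Cfsg.Agent.S0406

/-- A rank-24 even lattice with no roots and the stated numbers of vectors of norms 4, 6, 8 is isomorphic to the Leech lattice. -/
theorem result (B : Matrix (Fin 24) (Fin 24) ℤ) (hsymm : B.IsSymm) (hpos : ∀ x : Fin 24 → ℤ, x ≠ 0 → 0 < x ⬝ᵥ (B *ᵥ x)) (heven : ∀ x : Fin 24 → ℤ, (2 : ℤ) ∣ x ⬝ᵥ (B *ᵥ x)) (h2 : ∀ x : Fin 24 → ℤ, x ⬝ᵥ (B *ᵥ x) ≠ 2) (h4 : {x : Fin 24 → ℤ | x ⬝ᵥ (B *ᵥ x) = 4}.ncard = 196560) (h6 : {x : Fin 24 → ℤ | x ⬝ᵥ (B *ᵥ x) = 6}.ncard = 16773120) (h8 : {x : Fin 24 → ℤ | x ⬝ᵥ (B *ᵥ x) = 8}.ncard = 398034000) : ∃ f : (Fin 24 → ℤ) ≃+ Cfsg.leechLattice, ∀ x : Fin 24 → ℤ, Cfsg.sqNorm ((f x : Cfsg.leechLattice) : Cfsg.GolayPt → ℤ) = 8 * (x ⬝ᵥ (B *ᵥ x)) := by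
  let d : (Fin 24 → ℤ) →ₗ[ℤ] (Fin 24 → ℤ) →ₗ[ℤ] ℤ := (8 : ℤ) • Matrix.toBilin' B
  have hd : ∀ x y, d x y = 8 * (x ⬝ᵥ (B *ᵥ y)) := by
    intro x y
    simp only [d, LinearMap.smul_apply, smul_eq_mul]
    rw [Matrix.toBilin'_apply']
  have e : ∀ n : ℤ, {x | d x x = 8 * n} = {x | x ⬝ᵥ (B *ᵥ x) = n} := by
    intro n; ext x; simp only [Set.mem_setOf_eq, hd]; omega
  have h : Spor.Leech.IsLeechForm d :=
    { free := inferInstance
      fin := inferInstance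
      rank := by simp
      symm := fun x y => by
        rw [hd, hd, Matrix.dotProduct_mulVec, ← Matrix.mulVec_transpose, hsymm.eq, dotProduct_comm]
      min := fun x hx => by
        have a := hpos x hx; have b := heven x; have c := h2 x
        rw [hd]; omega
      even := fun x => by have b := heven x; rw [hd]; omega
      c32 := by rw [← h4, ← e]; rfl
      c48 := by rw [← h6, ← e]; rfl
      c64 := by rw [← h8, ← e]; rfl }
  obtain ⟨f0, hf0⟩ : {x | d x x = 64}.Nonempty := Set.nonempty_of_ncard_ne_zero (by rw [h.c64]; norm_num)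
  obtain ⟨φ, h1, -⟩ := h.exists_equiv hf0
  exact ⟨φ, fun x => by rw [← Spor.Leech.dotInt_self, h1, hd]⟩

end Cfsg.Agent.S0406
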