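import Cfsg.Statements.S0036
import Mathlib
import Cfsg.Agent.Solv.Frobenius

set_option autoImplicit false
open Cfsg

namespace Cfsg.Agent.S0036

/-- When a Frobenius complement contains an involution, an elementary argument shows the Frobenius kernel is closed under multiplication (hence a subgroup). -/
theorem result {G : Type*} [Group G] [Finite G] (H : Subgroup G) (hH : Cfsg.IsFrobeniusComplement H)
    (t : G) (ht : t ∈ H) (ht1 : t ≠ 1) (ht2 : t * t = 1) :
    ∀ x ∈ Cfsg.frobeniusKernel H, ∀ y ∈ Cfsg.frobeniusKernel H, x * y ∈ Cfsg.frobeniusKernel H := by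
  let f : G ⧸ H → G := fun q => q.out * t * q.out⁻¹
  have hff : ∀ q, f q * f q = 1 := by
    intro q
    calc f q * f q = q.out * (t * t) * q.out⁻¹ := by simp only [f]; group
      _ = 1 := by rw [ht2]; group
  have hf1 : ∀ q, f q ≠ 1 := fun q => by simpa [f] using ht1
  have hq : ∀ (q : G ⧸ H) (g : G), g * f q * g⁻¹ ∈ H → q = (g⁻¹ : G) := by
    intro q g hg
    have : g * q.out ∈ H := Solv.Frob.mem_of_conj_mem hH ht ht1 (by simpa [f, mul_assoc] using hg)
    rw [← QuotientGroup.out_eq' q]
    exact (QuotientGroup.eq.2 (by simpa using this)).symm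
  have hinj : Function.Injective f := by
    intro q q' h
    have h1 : q.out⁻¹ * f q * q.out⁻¹⁻¹ ∈ H := by simpa [f, mul_assoc] using ht
    have h2 := hq q _ h1
    rw [h] at h1
    exact h2.trans (hq q' _ h1).symm
  have hinv : ∀ q, (f q)⁻¹ = f q := fun q => inv_eq_of_mul_eq_one_left (hff q)
  have hK : ∀ q q', f q * f q' ∈ frobeniusKernel H := by
    intro q q'
    rw [Solv.Frob.mem_frobeniusKernel_iff']
    intro g hg
    by_contra h1
    have ha1 : g * (f q * f q') * g⁻¹ ≠ 1 := by simpa using h1
    have e1 : g * f q * g⁻¹ ∈ H := by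
      refine Solv.Frob.mem_of_conj_mem hH hg ha1 ?_
      have : g * f q * g⁻¹ * (g * (f q * f q') * g⁻¹) * (g * f q * g⁻¹)⁻¹ =
          (g * (f q * f q') * g⁻¹)⁻¹ := by
        calc _ = g * ((f q * f q) * f q' * (f q)⁻¹) * g⁻¹ := by group
          _ = g * ((f q')⁻¹ * (f q)⁻¹) * g⁻¹ := by rw [hff, hinv q', one_mul]
          _ = _ := by group
      rw [this]; exact H.inv_mem hg
    have e2 : g * f q' * g⁻¹ ∈ H := by
      have := H.mul_mem (H.inv_mem e1) hg
      simpa [mul_assoc] using this
    have : q = q' := (hq q g e1).trans (hq q' g e2).symm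
    subst this
    exact h1 (hff q)
  have hcard : Nat.card (G ⧸ H) = Nat.card (frobeniusKernel H) :=
    (Solv.Frob.card_frobeniusKernel hH).symm
  let q0 : G ⧸ H := (1 : G)
  have s1 : Function.Bijective
      (fun q : G ⧸ H => (⟨f q * f q0, hK q q0⟩ : frobeniusKernel H)) := by
    apply Function.Injective.bijective_of_nat_card_le _ hcard.ge
    intro a b h
    exact hinj (mul_right_cancel (congrArg Subtype.val h))
  have s2 : Function.Bijective
      (fun q : G ⧸ H => (⟨f q0 * f q, hK q0 q⟩ : frobeniusKernel H)) := by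
    apply Function.Injective.bijective_of_nat_card_le _ hcard.ge
    intro a b h
    exact hinj (mul_left_cancel (congrArg Subtype.val h))
  intro x hx y hy
  obtain ⟨a, ha⟩ := s1.2 ⟨x, hx⟩
  obtain ⟨b, hb⟩ := s2.2 ⟨y, hy⟩
  have ha' : f a * f q0 = x := congrArg Subtype.val ha
  have hb' : f q0 * f b = y := congrArg Subtype.val hb
  have : x * y = f a * f b := by
    rw [← ha', ← hb']
    calc f a * f q0 * (f q0 * f b) = f a * (f q0 * f q0) * f b := by group
      _ = _ := by rw [hff, mul_one]
  rw [this]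
  exact hK a b

end Cfsg.Agent.S0036
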