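import Cfsg.Statements.S0037
import Mathlib
import Cfsg.Agent.Solv.Frobenius

set_option autoImplicit false
open Pointwise
open Cfsg

namespace Cfsg.Agent.S0037

/-- Of two Frobenius complements in one finite group, the one of smaller (or equal) order is conjugate to a subgroup of the other. -/
theorem result {G : Type*} [Group G] [Finite G] (H H₀ : Subgroup G)
    (hH : Cfsg.IsFrobeniusComplement H) (hH₀ : Cfsg.IsFrobeniusComplement H₀) (hle : Nat.card H₀ ≤ Nat.card H) :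
    ∃ g : G, MulAut.conj g • H₀ ≤ H := by
  obtain ⟨g, x, hx1, hxH, hx0⟩ := Solv.Frob.exists_conj_inf_ne_bot hH hH₀
  refine ⟨g, ?_⟩
  have hH1 := Solv.Frob.conj_smul hH₀ g
  rw [← Solv.Frob.card_conj_smul H₀ g] at hle
  generalize MulAut.conj g • H₀ = H₁ at *
  have hD0 : H ⊓ H₁ ≠ ⊥ :=
    (Subgroup.ne_bot_iff_exists_ne_one).2 ⟨⟨x, hxH, hx0⟩, fun e => hx1 (congrArg Subtype.val e)⟩
  have hD := Solv.Frob.inf hH hH1 hD0
  by_contra hne
  have hne' : ¬ H ≤ H₁ := fun h => hne (Subgroup.eq_of_le_of_card_ge h hle).ge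
  -- the kernel of the intersection is covered by the two kernels
  have hsub : frobeniusKernel (H ⊓ H₁) ⊆ frobeniusKernel H ∪ (frobeniusKernel H₁ \ {1}) := by
    intro y hy
    by_contra hy'
    rw [Set.mem_union, not_or] at hy'
    obtain ⟨h1, a, ha⟩ := Solv.Frob.not_mem_frobeniusKernel_iff.1 hy'.1
    have h2 : y ∉ frobeniusKernel H₁ := fun h => hy'.2 ⟨h, h1⟩
    obtain ⟨-, b, hb⟩ := Solv.Frob.not_mem_frobeniusKernel_iff.1 h2
    have ha' : y ∈ MulAut.conj a⁻¹ • H := by rw [Solv.Frob.mem_conj_smul_iff]; simpa using ha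
    have hb' : y ∈ MulAut.conj b⁻¹ • H₁ := by rw [Solv.Frob.mem_conj_smul_iff]; simpa using hb
    have hD' := Solv.Frob.inf (Solv.Frob.conj_smul hH a⁻¹) (Solv.Frob.conj_smul hH1 b⁻¹)
      ((Subgroup.ne_bot_iff_exists_ne_one).2
        ⟨⟨y, ha', hb'⟩, fun e => h1 (congrArg Subtype.val e)⟩)
    obtain ⟨c, z, hz1, hz, hz'⟩ := Solv.Frob.exists_conj_inf_ne_bot hD' hD
    have hz1' : z ∈ MulAut.conj c • H := Subgroup.pointwise_smul_le_pointwise_smul_iff.2 inf_le_left hz'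
    have hz2' : z ∈ MulAut.conj c • H₁ := Subgroup.pointwise_smul_le_pointwise_smul_iff.2 inf_le_right hz'
    rw [Solv.Frob.conj_eq_of_mem hH hz1 hz.1 hz1', Solv.Frob.mem_conj_smul_iff] at ha'
    rw [Solv.Frob.conj_eq_of_mem hH1 hz1 hz.2 hz2', Solv.Frob.mem_conj_smul_iff] at hb'
    exact h1 (Solv.Frob.mem_frobeniusKernel_iff'.1 hy c⁻¹ (by simpa using ⟨ha', hb'⟩))
  have h1 := (Set.ncard_le_ncard hsub).trans (Set.ncard_union_le _ _)
  rw [Set.ncard_sdiff_singleton_of_mem (Solv.Frob.one_mem_frobeniusKernel H₁),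
    ← Nat.card_coe_set_eq, ← Nat.card_coe_set_eq, ← Nat.card_coe_set_eq,
    Solv.Frob.card_frobeniusKernel hH, Solv.Frob.card_frobeniusKernel hH1,
    Solv.Frob.card_frobeniusKernel hD] at h1
  have key : ∀ U : Subgroup G, H ⊓ H₁ ≤ U → ¬ U ≤ H ⊓ H₁ → 2 * U.index ≤ (H ⊓ H₁).index := by
    intro U hU hU'
    rw [← Subgroup.relIndex_mul_index hU]
    apply Nat.mul_le_mul_right
    have a1 : (H ⊓ H₁).relIndex U ≠ 1 := fun e => hU' (Subgroup.relIndex_eq_one.1 e)
    have a2 : (H ⊓ H₁).relIndex U ≠ 0 := Subgroup.index_ne_zero_of_finite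
    omega
  have c1 := key H inf_le_left (fun h => hne' (h.trans inf_le_right))
  have c2 := key H₁ inf_le_right (fun h => hne (h.trans inf_le_left))
  have c3 : 0 < H₁.index := Nat.pos_of_ne_zero Subgroup.index_ne_zero_of_finite
  omega

end Cfsg.Agent.S0037
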