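import Cfsg.Statements.S0038
import Cfsg.Agent.Solv.FrobeniusKernel

set_option autoImplicit false
open Pointwise
open Cfsg

namespace Cfsg.Agent.S0038

/-- All Frobenius complements of a finite group are conjugate to one another. -/
theorem result {G : Type*} [Group G] [Finite G] (H H₀ : Subgroup G)
    (hH : Cfsg.IsFrobeniusComplement H) (hH₀ : Cfsg.IsFrobeniusComplement H₀) :
    ∃ g : G, MulAut.conj g • H₀ = H := by
  have h1 := Solv.Frob.isComplement'_fitting hH
  have h2 := Solv.Frob.isComplement'_fitting hH₀
  obtain ⟨g, -, hg⟩ := Solv.complement_conj (fittingSubgroup G) (by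
    rw [← h1.index_eq_card, h1.symm.index_eq_card]
    exact (Solv.Frob.coprime_card_index hH).symm) (Or.inl inferInstance) H₀ H h2 h1
  exact ⟨g, hg⟩

end Cfsg.Agent.S0038
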