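import Mathlib
import Cfsg.Statements.S0572
import Cfsg.Agent.PLocal.Ito
-- import your own Cfsg.Agent.* helpers here

set_option autoImplicit false
open Cfsg
open scoped Pointwise commutatorElement

namespace Cfsg.Agent.S0572



/-- Itô's Theorem: if a group G is the product AB of two abelian subgroups, then the commutator subgroup of G is abelian, i.e. the second term of the derived series is trivial. -/
theorem result {G : Type*} [Group G] (A B : Subgroup G) [IsMulCommutative A] [IsMulCommutative B] (hAB : ∀ g : G, ∃ a ∈ A, ∃ b ∈ B, g = a * b) : derivedSeries G 2 = ⊥ := by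
  have hsup : A ⊔ B = ⊤ := by
    rw [eq_top_iff]
    intro g _
    obtain ⟨a, ha, b, hb, rfl⟩ := hAB g
    exact mul_mem (Subgroup.mem_sup_left ha) (Subgroup.mem_sup_right hb)
  have hset : ((A ⊔ B : Subgroup G) : Set G) = (A : Set G) * (B : Set G) := by
    rw [hsup]
    symm
    rw [Subgroup.coe_top, Set.eq_univ_iff_forall]
    intro g
    obtain ⟨a, ha, b, hb, rfl⟩ := hAB g
    exact ⟨a, ha, b, hb, rfl⟩
  have hc := PLocal.ito_commutator inferInstance inferInstance hset
  have hn : (⁅A, B⁆).Normal := by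
    rw [← Subgroup.normalizer_eq_top_iff, eq_top_iff, ← hsup, sup_le_iff]
    constructor
    · intro a ha
      rw [Subgroup.mem_normalizer_iff]
      have key : ∀ a ∈ A, ∀ x ∈ ⁅A, B⁆, a * x * a⁻¹ ∈ ⁅A, B⁆ := by
        intro a ha x hx
        have : ⁅A, B⁆ ≤ (⁅A, B⁆).comap (MulAut.conj a).toMonoidHom := by
          rw [Subgroup.commutator_le]
          intro a' ha' b hb
          change a * ⁅a', b⁆ * a⁻¹ ∈ ⁅A, B⁆
          have : a * ⁅a', b⁆ * a⁻¹ = ⁅a * a', b⁆ * ⁅a, b⁆⁻¹ := by
            simp only [commutatorElement_def]; group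
          rw [this]
          exact mul_mem (Subgroup.commutator_mem_commutator (mul_mem ha ha') hb)
            (inv_mem (Subgroup.commutator_mem_commutator ha hb))
        exact this hx
      intro x
      refine ⟨key a ha x, fun h => ?_⟩
      simpa [mul_assoc] using key a⁻¹ (inv_mem ha) _ h
    · intro b hb
      rw [Subgroup.mem_normalizer_iff]
      have key : ∀ b ∈ B, ∀ x ∈ ⁅A, B⁆, b * x * b⁻¹ ∈ ⁅A, B⁆ := by
        intro b hb x hx
        have : ⁅A, B⁆ ≤ (⁅A, B⁆).comap (MulAut.conj b).toMonoidHom := by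
          rw [Subgroup.commutator_le]
          intro a ha b' hb'
          change b * ⁅a, b'⁆ * b⁻¹ ∈ ⁅A, B⁆
          have : b * ⁅a, b'⁆ * b⁻¹ = ⁅a, b⁆⁻¹ * ⁅a, b * b'⁆ := by
            simp only [commutatorElement_def]; group
          rw [this]
          exact mul_mem (inv_mem (Subgroup.commutator_mem_commutator ha hb))
            (Subgroup.commutator_mem_commutator ha (mul_mem hb hb'))
        exact this hx
      intro x
      refine ⟨key b hb x, fun h => ?_⟩
      simpa [mul_assoc] using key b⁻¹ (inv_mem hb) _ h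
  have hle : ⁅(⊤ : Subgroup G), ⊤⁆ ≤ ⁅A, B⁆ := by
    rw [Subgroup.commutator_le]
    intro x _ y _
    obtain ⟨a, ha, b, hb, rfl⟩ := hAB x
    obtain ⟨a', ha', b', hb', rfl⟩ := hAB y
    rw [← QuotientGroup.eq_one_iff]
    have c : ∀ a ∈ A, ∀ b ∈ B, Commute (a : G ⧸ ⁅A, B⁆) (b : G ⧸ ⁅A, B⁆) := by
      intro a ha b hb
      rw [← commutatorElement_eq_one_iff_commute]
      have := (QuotientGroup.eq_one_iff _).2 (Subgroup.commutator_mem_commutator ha hb)
      simpa [commutatorElement_def] using this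
    have cA : Commute (a : G ⧸ ⁅A, B⁆) (a' : G ⧸ ⁅A, B⁆) := by
      have := PLocal.comm_of_isMulCommutative inferInstance ha ha'
      change (a : G ⧸ ⁅A, B⁆) * a' = a' * a
      rw [← QuotientGroup.mk_mul, this, QuotientGroup.mk_mul]
    have cB : Commute (b : G ⧸ ⁅A, B⁆) (b' : G ⧸ ⁅A, B⁆) := by
      have := PLocal.comm_of_isMulCommutative inferInstance hb hb'
      change (b : G ⧸ ⁅A, B⁆) * b' = b' * b
      rw [← QuotientGroup.mk_mul, this, QuotientGroup.mk_mul]
    have : Commute ((a : G ⧸ ⁅A, B⁆) * b) ((a' : G ⧸ ⁅A, B⁆) * b') :=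
      (cA.mul_right (c a ha b' hb')).mul_left ((c a' ha' b hb).symm.mul_right cB)
    rw [← commutatorElement_eq_one_iff_commute] at this
    simpa [commutatorElement_def] using this
  rw [eq_bot_iff]
  change ⁅⁅(⊤ : Subgroup G), ⊤⁆, ⁅(⊤ : Subgroup G), ⊤⁆⁆ ≤ ⊥
  refine (Subgroup.commutator_mono hle hle).trans ?_
  rw [le_bot_iff, Subgroup.commutator_eq_bot_iff_le_centralizer]
  exact PLocal.isMulCommutative_iff_le_centralizer.1 hc

end Cfsg.Agent.S0572
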