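import Cfsg.Statements.S0064
import Mathlib

set_option autoImplicit false
open Cfsg

namespace Cfsg.Agent.S0064

/-- A finite group is nilpotent exactly when each of its subgroups is subnormal. -/
theorem result {G : Type*} [Group G] [Finite G] :
    Group.IsNilpotent G ↔ ∀ H : Subgroup G, H.IsSubnormal := by
  constructor
  · intro hG H
    have hN : NormalizerCondition G := Group.normalizerCondition_of_isNilpotent
    induction H using WellFoundedGT.induction with
    | ind H ih =>
      rcases eq_or_ne H ⊤ with rfl | hH
      · exact Subgroup.IsSubnormal.top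
      · have hlt := hN H hH.lt_top
        exact Subgroup.IsSubnormal.step H _ hlt.le (ih _ hlt) Subgroup.normal_in_normalizer
  · intro h
    refine ((Group.isNilpotent_of_finite_tfae (G := G)).out 2 0).1 ?_
    intro H hH
    obtain ⟨K, hK, hHK, hKt⟩ := (h H).exists_normal_and_le_and_lt_top_of_ne hH.1
    have : K = H := by
      by_contra hne
      exact hKt.ne (hH.2 K (lt_of_le_of_ne hHK (Ne.symm hne)))
    exact this ▸ hK

end Cfsg.Agent.S0064
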