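import Cfsg.Statements.S0068
import Mathlib
import Cfsg.Agent.Solv.Frobenius

set_option autoImplicit false
open Cfsg

namespace Cfsg.Agent.S0068

/-- Frobenius complements of even order: if H complements a nontrivial normal subgroup K, each nonidentity element of H has trivial centraliser in K, and H has even order, then H contains a unique involution s, K is abelian, and s inverts every element of K. -/
theorem result {G : Type*} [Group G] [Finite G] (K H : Subgroup G) [K.Normal]
    (hc : Subgroup.IsComplement' K H) (hK : K ≠ ⊥) (hfpf : ∀ h ∈ H, h ≠ 1 → K ⊓ Subgroup.centralizer {h} = ⊥)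
    (heven : 2 ∣ Nat.card H) :
    (∃ s ∈ H, orderOf s = 2 ∧ (∀ t ∈ H, orderOf t = 2 → t = s) ∧ ∀ k ∈ K, s * k * s⁻¹ = k⁻¹) ∧ IsMulCommutative K := by
  have hfp := Solv.Frob.fpf_iff.1 hfpf
  have key : ∀ s ∈ H, orderOf s = 2 → (∀ k ∈ K, s * k * s⁻¹ = k⁻¹) ∧ IsMulCommutative K := by
    intro s hs ho
    have hs1 : s ≠ 1 := by rintro rfl; simp at ho
    have hss : s * s = 1 := by rw [← sq, ← ho, pow_orderOf_eq_one]
    have hφ : MonoidHom.FixedPointFree (MulAut.conjNormal (H := K) s) := by
      intro k hk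
      have hk' : s * k * s⁻¹ = k := congrArg Subtype.val hk
      have := hfp s hs k k.2 (by calc s * k = s * k * s⁻¹ * s := by group
        _ = k * s := by rw [hk'])
      exact Subtype.ext (this.resolve_left hs1)
    have hinv : Function.Involutive (MulAut.conjNormal (H := K) s) := by
      intro k
      apply Subtype.ext
      show s * (s * k * s⁻¹) * s⁻¹ = k
      calc s * (s * k * s⁻¹) * s⁻¹ = (s * s) * k * (s * s)⁻¹ := by group
        _ = k := by rw [hss]; group
    refine ⟨fun k hk => ?_, ⟨⟨fun a b => hφ.commute_all_of_involutive hinv a b⟩⟩⟩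
    have := congrFun (hφ.coe_eq_inv_of_involutive hinv) ⟨k, hk⟩
    exact congrArg Subtype.val this
  obtain ⟨s, hs⟩ := exists_prime_orderOf_dvd_card' 2 heven
  have hs' : orderOf (s : G) = 2 := by rw [Subgroup.orderOf_coe, hs]
  refine ⟨⟨s, s.2, hs', fun t ht ho => ?_, (key s s.2 hs').1⟩, (key s s.2 hs').2⟩
  obtain ⟨⟨k, hk⟩, hk1⟩ := (Subgroup.ne_bot_iff_exists_ne_one).1 hK
  have e1 := (key s s.2 hs').1 k hk
  have e2 := (key t ht ho).1 k hk
  have := hfp ((s : G)⁻¹ * t) (H.mul_mem (H.inv_mem s.2) ht) k hk (by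
    calc (s : G)⁻¹ * t * k = (s : G)⁻¹ * (t * k * t⁻¹) * t := by group
      _ = (s : G)⁻¹ * (s * k * (s : G)⁻¹) * t := by rw [e1, e2]
      _ = _ := by group)
  rcases this with h | h
  · exact (inv_mul_eq_one.1 h).symm
  · exact absurd (Subtype.ext h) hk1

end Cfsg.Agent.S0068
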