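import Cfsg.Statements.S0069
import Mathlib
import Cfsg.Agent.Solv.FrobeniusAction
import Cfsg.Agent.S0068

set_option autoImplicit false
open Cfsg

namespace Cfsg.Agent.S0069

/-- A Frobenius complement has nontrivial centre: if H ≠ 1 complements a nontrivial normal subgroup K and every nonidentity element of H has trivial centraliser in K, then the centre of H is nontrivial. -/
theorem result {G : Type*} [Group G] [Finite G] (K H : Subgroup G) [K.Normal]
    (hc : Subgroup.IsComplement' K H) (hK : K ≠ ⊥) (hH : H ≠ ⊥) (hfpf : ∀ h ∈ H, h ≠ 1 → K ⊓ Subgroup.centralizer {h} = ⊥) :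
    Subgroup.center H ≠ ⊥ := by
  suffices h : H ⊓ Subgroup.centralizer (H : Set G) ≠ ⊥ by
    obtain ⟨⟨x, hx, hx'⟩, hx1⟩ := (Subgroup.ne_bot_iff_exists_ne_one).1 h
    refine (Subgroup.ne_bot_iff_exists_ne_one).2 ⟨⟨⟨x, hx⟩, ?_⟩, fun e => hx1 ?_⟩
    · exact Subgroup.mem_center_iff.2 fun g =>
        Subtype.ext (Subgroup.mem_centralizer_iff.1 hx' g g.2)
    · have e1 : (⟨x, hx⟩ : H) = 1 := Subtype.ext_iff.1 e
      have e2 : x = 1 := Subtype.ext_iff.1 e1
      exact Subtype.ext e2
  rcases Nat.even_or_odd (Nat.card H) with he | ho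
  · obtain ⟨⟨s, hs, hs2, huniq, -⟩, -⟩ := S0068.result K H hc hK hfpf he.two_dvd
    refine (Subgroup.ne_bot_iff_exists_ne_one).2 ⟨⟨s, hs, ?_⟩, fun e => ?_⟩
    · refine Subgroup.mem_centralizer_iff.2 fun g hg => ?_
      have := huniq (g * s * g⁻¹) (H.mul_mem (H.mul_mem hg hs) (H.inv_mem hg))
        (((MulAut.conj g).orderOf_eq s).trans hs2)
      calc g * s = g * s * g⁻¹ * g := by group
        _ = s * g := by rw [this]
    · have : s = 1 := Subtype.ext_iff.1 e
      simp [this] at hs2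
  · exact Solv.Frob.inf_centralizer_ne_bot_of_fpf_of_odd ho hH hK
      (by rw [Subgroup.normalizer_eq_top]; exact le_top) hfpf

end Cfsg.Agent.S0069
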