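import Cfsg.Statements.S0073
import Mathlib
import Cfsg.Agent.Transfer.Wielandt


set_option autoImplicit false
open Cfsg

namespace Cfsg.Agent.S0073

/-- For a finite non-abelian simple group, either the cube of the least prime divisor of the order divides the order, or 12 does. -/
theorem result {G : Type*} [Group G] [Finite G] [IsSimpleGroup G] (hG : ∃ x y : G, x * y ≠ y * x) : (Nat.card G).minFac ^ 3 ∣ Nat.card G ∨ 12 ∣ Nat.card G := by
  have hG1 : Nat.card G ≠ 1 := (Finite.one_lt_card (α := G)).ne'
  have hp := Nat.minFac_prime hG1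
  have hpd := Nat.minFac_dvd (Nat.card G)
  have hmin : ∀ q, q.Prime → q ∣ Nat.card G → (Nat.card G).minFac ≤ q := fun q hq hd =>
    Nat.minFac_le_of_dvd hq.two_le hd
  generalize (Nat.card G).minFac = p at hp hpd hmin
  have := Fact.mk hp
  have hn : ¬ HasNormalPComplement p G := by
    intro h
    rcases (Transfer.pResidual_normal p G).eq_bot_or_eq_top with h1 | h1
    · have h2 := Transfer.pResidual_eq_bot_iff.mp h1
      have h3 := (inferInstance : (Subgroup.center G).Normal).eq_bot_or_eq_top.resolve_left
        h2.bot_lt_center.ne'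
      obtain ⟨x, y, hxy⟩ := hG
      exact hxy (Subgroup.mem_center_iff.mp (h3 ▸ Subgroup.mem_top y) x)
    · have h2 := Transfer.hasNormalPComplement_iff_coprime.mp h
      rw [h1, Subgroup.card_top] at h2
      exact hp.one_lt.ne' (Nat.Coprime.eq_one_of_dvd h2.symm hpd)
  obtain ⟨q, i, hq, hne, hd, hi, hpi, hqi⟩ :=
    Transfer.exists_prime_dvd_pow_sub_one_of_not_hasNormalPComplement hn
  have hlt : p < q := lt_of_le_of_ne (hmin q hq hd) hne.symm
  have hp2 := hp.two_le
  have h1 : ¬ q ∣ p - 1 := fun h => by
    have := Nat.le_of_dvd (by omega) h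
    omega
  by_cases h3 : 3 ≤ i
  · exact Or.inl ((pow_dvd_pow p h3).trans hpi)
  right
  have h3' : i ≤ 2 := by omega
  interval_cases i
  · exact absurd (by simpa using hqi) h1
  · have e : p ^ 2 - 1 = (p + 1) * (p - 1) := by simpa using Nat.sq_sub_sq p 1
    rw [e] at hqi
    have h4 := ((Nat.Prime.dvd_mul hq).mp hqi).resolve_right h1
    have h5 : q = p + 1 := le_antisymm (Nat.le_of_dvd (by omega) h4) hlt
    have h6 : p = 2 := by
      rcases hp.eq_two_or_odd with h | h
      · exact h
      · rcases hq.eq_two_or_odd with h' | h' <;> omega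
    subst h6
    subst h5
    exact Nat.Coprime.mul_dvd_of_dvd_of_dvd (show Nat.Coprime 4 3 by norm_num) hpi hd

end Cfsg.Agent.S0073
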