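import Cfsg.Statements.S0078
import Mathlib
import Cfsg.Agent.Transfer.Focal


set_option autoImplicit false
open Cfsg

namespace Cfsg.Agent.S0078

/-- In a p-normal group, a Sylow p-subgroup P meets O^p(G) exactly where it meets O^p(V), for any subgroup V containing the normalizer of the centre of P. -/
theorem result {G : Type*} [Group G] [Finite G] {p : ℕ} [Fact p.Prime] (P : Sylow p G) (hn : ∀ Q : Sylow p G, (P : Subgroup G) ⊓ Subgroup.centralizer (P : Set G) ≤ (Q : Subgroup G) → (Q : Subgroup G) ⊓ Subgroup.centralizer (Q : Set G) = (P : Subgroup G) ⊓ Subgroup.centralizer (P : Set G)) (V : Subgroup G) (hV : Subgroup.normalizer (((P : Subgroup G) ⊓ Subgroup.centralizer (P : Set G) : Subgroup G) : Set G) ≤ V) : (P : Subgroup G) ⊓ Cfsg.pResidual p G = (P : Subgroup G) ⊓ (Cfsg.pResidual p V).map V.subtype := by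
  have hW : IsWeaklyClosed ((P : Subgroup G) ⊓ Subgroup.centralizer (P : Set G)) P := by
    refine ⟨inf_le_left, fun g hg => ?_⟩
    have h1 := hn (g⁻¹ • P) (PLocal.Amb.cj_le_iff.mp hg)
    have h2 : Subgroup.centralizer ((g⁻¹ • P : Sylow p G) : Set G) =
        (Subgroup.centralizer (P : Set G)).map (MulAut.conj g⁻¹).toMonoidHom :=
      PLocal.Amb.centralizer_cj g⁻¹ (P : Subgroup G)
    rw [h2, PLocal.Amb.coe_smul_sylow, ← PLocal.Amb.cj_inf] at h1
    conv_lhs => rw [← h1]
    exact PLocal.Amb.cj_cj_inv g _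
  refine Transfer.sylow_inf_pResidual_eq_of_controls P ?_ fun x hx g hg => ?_
  · exact ((Subgroup.le_centralizer_iff.mp inf_le_right).trans
      (Subgroup.centralizer_le_normalizer _)).trans hV
  · obtain ⟨v, hv, e⟩ :=
      Transfer.normalizer_controls_elem_of_weaklyClosed_central P inf_le_right hW x hx g hg
    exact ⟨v, hV hv, e⟩

end Cfsg.Agent.S0078
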