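import Cfsg.Statements.S0083
import Mathlib
import Cfsg.Agent.Transfer.AbelianHall


set_option autoImplicit false
open Cfsg

namespace Cfsg.Agent.S0083

/-- For an abelian Sylow p-subgroup P, a normal p-complement exists exactly when the normalizer of P is an internal direct product of P with some subgroup. -/
theorem result {G : Type*} [Group G] [Finite G] {p : ℕ} [Fact p.Prime] (P : Sylow p G) (hP : IsMulCommutative P) : Cfsg.HasNormalPComplement p G ↔ ∃ Q : Subgroup G, Q ≤ Subgroup.centralizer (P : Set G) ∧ Q ⊓ (P : Subgroup G) = ⊥ ∧ Q ⊔ (P : Subgroup G) = Subgroup.normalizer (P : Set G) := by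
  constructor
  · intro h
    have hc := Transfer.HasNormalPComplement.isComplement' h P
    refine ⟨pResidual p G ⊓ Subgroup.normalizer (P : Set G), fun g hg => ?_, ?_, ?_⟩
    · exact Transfer.HasNormalPComplement.mem_centralizer h P.isPGroup' hg.2
        ((Transfer.HasNormalPComplement.mem_pResidual_iff h).mp hg.1)
    · exact eq_bot_iff.mpr ((inf_le_inf_right _ inf_le_left).trans (disjoint_iff.mp hc.disjoint).le)
    · have := PLocal.Amb.sup_inf_of_le_normalizer (A := (P : Subgroup G)) (B := pResidual p G)
        (C := Subgroup.normalizer (P : Set G)) Subgroup.le_normalizer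
        (by rw [Subgroup.normalizer_eq_top]; exact le_top)
      rw [sup_comm, ← this, sup_comm, hc.sup_eq_top, top_inf_eq]
  · rintro ⟨Q, h1, -, h3⟩
    apply Transfer.hasNormalPComplement_of_normalizer_le_centralizer P
    exact h3.ge.trans (sup_le h1 (Transfer.le_centralizer_self_of_comm hP))

end Cfsg.Agent.S0083
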