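import Cfsg.Statements.S0084
import Mathlib
import Cfsg.Agent.Transfer.Wielandt


set_option autoImplicit false
open Cfsg

namespace Cfsg.Agent.S0084

/-- A group whose Sylow 2-subgroups are Klein four-groups and whose order is prime to 3 has a normal 2-complement. -/
theorem result {G : Type*} [Group G] [Finite G] (T : Sylow 2 G) (hT : IsKleinFour T) (h3 : ¬ 3 ∣ Nat.card G) : Cfsg.HasNormalPComplement 2 G := by
  by_contra hn
  obtain ⟨q, i, hq, hne, hd, hi, hpi, hqi⟩ :=
    Transfer.exists_prime_dvd_pow_sub_one_of_not_hasNormalPComplement hn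
  have h1 := T.pow_dvd_card_of_pow_dvd_card hpi
  have h4 : Nat.card T = 2 ^ 2 := hT.card_four
  rw [show Nat.card (T : Subgroup G) = 2 ^ 2 from h4, Nat.pow_dvd_pow_iff_le_right (by norm_num)] at h1
  interval_cases i
  · exact hq.one_lt.ne' (Nat.dvd_one.mp hqi)
  · have := (Nat.prime_dvd_prime_iff_eq hq Nat.prime_three).mp hqi
    exact h3 (this ▸ hd)

end Cfsg.Agent.S0084
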