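import Cfsg.Statements.S0085
import Mathlib
import Cfsg.Agent.Transfer.Wielandt


set_option autoImplicit false
open Cfsg

namespace Cfsg.Agent.S0085

/-- A group whose Sylow 2-subgroups are elementary abelian of order 8 and whose order is prime to 3 and to 7 has a normal 2-complement. -/
theorem result {G : Type*} [Group G] [Finite G] (T : Sylow 2 G) (h8 : Nat.card T = 8) (he : ∀ x : T, x * x = 1) (h3 : ¬ 3 ∣ Nat.card G) (h7 : ¬ 7 ∣ Nat.card G) : Cfsg.HasNormalPComplement 2 G := by
  by_contra hn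
  obtain ⟨q, i, hq, hne, hd, hi, hpi, hqi⟩ :=
    Transfer.exists_prime_dvd_pow_sub_one_of_not_hasNormalPComplement hn
  have h1 := T.pow_dvd_card_of_pow_dvd_card hpi
  rw [show Nat.card (T : Subgroup G) = 2 ^ 3 from h8, Nat.pow_dvd_pow_iff_le_right (by norm_num)] at h1
  interval_cases i
  · exact hq.one_lt.ne' (Nat.dvd_one.mp hqi)
  · have := (Nat.prime_dvd_prime_iff_eq hq Nat.prime_three).mp hqi
    exact h3 (this ▸ hd)
  · have := (Nat.prime_dvd_prime_iff_eq hq (by norm_num : Nat.Prime 7)).mp hqi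
    exact h7 (this ▸ hd)

end Cfsg.Agent.S0085
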