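import Cfsg.Statements.S0087
import Mathlib
import Cfsg.Agent.Transfer.Wielandt
import Cfsg.Agent.Transfer.Focal


set_option autoImplicit false
open Cfsg

namespace Cfsg.Agent.S0087

/-- A Hall subgroup that is central in its normalizer has a normal complement. -/
theorem result {G : Type*} [Group G] [Finite G] (H : Subgroup G) (hHall : Nat.Coprime (Nat.card H) H.index) (h : Subgroup.normalizer (H : Set G) ≤ Subgroup.centralizer (H : Set G)) : ∃ N : Subgroup G, N.Normal ∧ N.IsComplement' H := by
  have hc : H ≤ Subgroup.centralizer (H : Set G) := Subgroup.le_normalizer.trans h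
  have : IsMulCommutative H := Subgroup.le_centralizer_iff_isMulCommutative.mp hc
  have := Grp.isNilpotent_of_isMulCommutative H
  refine ⟨_, inferInstance, Transfer.isComplement'_pResidual_of_no_fusion (n := Nat.card H)
    IsPGroup.card hHall.symm fun x hx g hg => ⟨1, one_mem _, ?_⟩⟩
  have h1 : H ≤ Subgroup.centralizer {g * x * g⁻¹} := by
    rintro y hy _ rfl
    exact hc hy _ hg
  have h2 : H.map (MulAut.conj g).toMonoidHom ≤ Subgroup.centralizer {g * x * g⁻¹} := by
    rw [PLocal.Amb.centralizer_singleton_conj]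
    apply PLocal.Amb.cj_mono
    rintro y hy _ rfl
    exact hc hy _ hx
  obtain ⟨c, hc1, hc2⟩ := Transfer.exists_cj_le_of_nilpotent_hall h1 _ h2 (by
    rw [PLocal.Amb.card_cj]
    exact Nat.Coprime.coprime_dvd_right (Subgroup.relIndex_dvd_index_of_le h1) hHall)
  rw [← PLocal.Amb.cj_mul] at hc2
  have h3 := h (PLocal.Amb.mem_normalizer_of_cj_le hc2) x hx
  have h4 := hc1 _ rfl
  calc 1 * x * 1⁻¹ = (x * (c * g)) * (c * g)⁻¹ := by group
    _ = c * (g * x * g⁻¹) * c⁻¹ := by rw [h3]; group
    _ = _ := by rw [← h4]; group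

end Cfsg.Agent.S0087
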