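import Cfsg.Statements.S0089
import Mathlib
import Cfsg.Agent.Transfer.Focal


set_option autoImplicit false
open Cfsg

namespace Cfsg.Agent.S0089

/-- When all Sylow subgroups are abelian, the derived subgroup meets the centre trivially. -/
theorem result {G : Type*} [Group G] [Finite G] (h : ∀ p : ℕ, p.Prime → ∀ P : Sylow p G, IsMulCommutative P) : commutator G ⊓ Subgroup.center G = ⊥ := by
  by_contra hne
  obtain ⟨p, hp, hd⟩ := Nat.exists_prime_and_dvd (Subgroup.card_eq_one.not.mpr hne)
  have := Fact.mk hp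
  obtain ⟨x, hx⟩ := exists_prime_orderOf_dvd_card' p hd
  have hz : IsPGroup p (Subgroup.zpowers (x : G)) :=
    IsPGroup.of_card (n := 1) (by rw [Nat.card_zpowers, Subgroup.orderOf_coe, hx, pow_one])
  obtain ⟨P, hP⟩ := hz.exists_le_sylow
  have h1 := Transfer.mem_commutator_of_hall_of_central P.card_coprime_index
    (hP (Subgroup.mem_zpowers _)) x.2.2 x.2.1
  rw [Subgroup.commutator_eq_bot_iff_le_centralizer.mpr
    (Transfer.le_centralizer_self_of_comm (h p hp P)), Subgroup.mem_bot] at h1
  rw [← Subgroup.orderOf_coe, h1, orderOf_one] at hx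
  exact hp.one_lt.ne hx

end Cfsg.Agent.S0089
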