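import Cfsg.Statements.S0090
import Mathlib
import Cfsg.Agent.Transfer.AbelianHall


set_option autoImplicit false
open Cfsg

namespace Cfsg.Agent.S0090

/-- An abelian normal Hall subgroup A splits as the internal direct product of G' ∩ A and Z(G) ∩ A, and [A, G] = G' ∩ A. -/
theorem result {G : Type*} [Group G] [Finite G] (A : Subgroup G) [A.Normal] (hc : IsMulCommutative A) (hHall : Nat.Coprime (Nat.card A) A.index) : ⁅A, (⊤ : Subgroup G)⁆ = commutator G ⊓ A ∧ (commutator G ⊓ A) ⊓ (Subgroup.center G ⊓ A) = ⊥ ∧ (commutator G ⊓ A) ⊔ (Subgroup.center G ⊓ A) = A := by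
  have h1 : ⁅A, (⊤ : Subgroup G)⁆ = commutator G ⊓ A := by
    apply le_antisymm
    · exact le_inf (Subgroup.commutator_mono le_top le_rfl) (Subgroup.commutator_le_left _ _)
    · rw [Transfer.commutator_inf_eq_focal (Transfer.coprime_index_relIndex_of_hall hHall _)]
      exact Transfer.focalSubgroup_le_commutator_of_controls fun x _ g _ => ⟨g, trivial, rfl⟩
  obtain ⟨h2, h3⟩ := Transfer.fitting_decomposition_of_hall (M := ⊤) hc le_top
    (by rw [Subgroup.normalizer_eq_top]) (by rwa [Subgroup.relIndex_top_right])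
  rw [Subgroup.coe_top, Subgroup.centralizer_univ, h1, inf_comm A] at h2 h3
  exact ⟨h1, by rw [inf_comm, h2], h3⟩

end Cfsg.Agent.S0090
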