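import Cfsg.Statements.S0091
import Mathlib
import Cfsg.Agent.Transfer.Control


set_option autoImplicit false
open Cfsg

namespace Cfsg.Agent.S0091

/-- If a nontrivial Sylow p-subgroup controls its own fusion then it is not contained in the derived subgroup. -/
theorem result {G : Type*} [Group G] [Finite G] {p : ℕ} [Fact p.Prime] (P : Sylow p G) (hp : p ∣ Nat.card G) (h : ∀ x ∈ P, ∀ y ∈ P, (∃ g : G, g * x * g⁻¹ = y) → ∃ z ∈ P, z * x * z⁻¹ = y) : ¬ (P : Subgroup G) ≤ commutator G := by
  intro hle
  have h1 := Transfer.hasNormalPComplement_of_no_fusion P fun x hx g hg => h x hx _ hg ⟨g, rfl⟩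
  have hc := Transfer.HasNormalPComplement.isComplement' h1 P
  have hq : IsPGroup p (G ⧸ pResidual p G) := Transfer.isPGroup_quotient_pResidual
  have := hq.isNilpotent
  let f := QuotientGroup.mk' (pResidual p G)
  have hs : (P : Subgroup G).map f = ⊤ := by
    have h3 := congrArg (Subgroup.map f) hc.sup_eq_top
    rwa [Subgroup.map_sup, Subgroup.map_top_of_surjective f (QuotientGroup.mk'_surjective _),
      (Subgroup.map_eq_bot_iff _).mpr (QuotientGroup.ker_mk' _).ge, bot_sup_eq] at h3
  have h4 : (⊤ : Subgroup (G ⧸ pResidual p G)) = ⊥ := by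
    apply Transfer.eq_bot_of_le_commutator_top
    conv_lhs => rw [← hs]
    refine (Subgroup.map_mono hle).trans ?_
    rw [commutator_def, Subgroup.map_commutator]
    exact Subgroup.commutator_mono le_top le_top
  rw [h4, Subgroup.map_eq_bot_iff, QuotientGroup.ker_mk'] at hs
  exact P.ne_bot_of_dvd_card hp (hc.disjoint.symm.eq_bot_of_le hs)

end Cfsg.Agent.S0091
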