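import Cfsg.Statements.S0092
import Mathlib
import Cfsg.Agent.Transfer.AbelianHall
import Cfsg.Agent.Solv.Coprime
import Cfsg.Agent.Grp.PChain

set_option autoImplicit false
open Cfsg

namespace Cfsg.Agent.S0092

open Subgroup Cfsg.Agent.PLocal.Amb
open scoped commutatorElement

/-- If the Sylow p-subgroups of O^p(G) are abelian then G splits over O^p(G). -/
theorem result {G : Type*} [Group G] [Finite G] {p : ℕ} [Fact p.Prime] (h : ∀ Q : Sylow p (Cfsg.pResidual p G), IsMulCommutative Q) : ∃ K : Subgroup G, K.IsComplement' (Cfsg.pResidual p G) := by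
  have hpp : p.Prime := Fact.out
  set N := Cfsg.pResidual p G with hN
  let Q₀ : Sylow p N := default
  have hQ : IsSyl p ((Q₀ : Subgroup N).map N.subtype) N := isSyl_map_subtype Q₀
  set Q := (Q₀ : Subgroup N).map N.subtype with hQdef
  have hQc : IsMulCommutative Q := have := h Q₀; inferInstance
  have hNn : ∀ g : G, g ∈ 𝐍[N] := fun g => by rw [normalizer_eq_top]; trivial
  have hQM : Q ≤ N ⊓ 𝐍[Q] := le_inf hQ.le le_normalizer
  have hQs : IsSyl p Q (N ⊓ 𝐍[Q]) := hQ.mono hQM inf_le_left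
  have hcop : (Nat.card Q).Coprime (Q.relIndex (N ⊓ 𝐍[Q])) := by
    obtain ⟨k, hk⟩ := hQ.pgrp.exists_card_eq
    rw [hk]
    exact Nat.Coprime.pow_left k (hpp.coprime_iff_not_dvd.2 hQs.not_dvd_relIndex)
  obtain ⟨L, hLM, hLc, hLQ, hLQ'⟩ := Transfer.exists_complement_of_hall hQM inf_le_right hcop
  have hLn : L ≤ 𝐍[Q] := hLM.trans inf_le_right
  -- no nontrivial element of `Q` normalizes `L`
  have hC : Q ⊓ 𝐍[L] = ⊥ := by
    have h1 := (Transfer.isComplement'_pResidual_of_comm Q₀ (h Q₀)).disjoint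
    rw [Transfer.pResidual_pResidual, top_disjoint] at h1
    rw [eq_bot_iff]
    rintro _ ⟨⟨x, hx, rfl⟩, hxL⟩
    have h2 : (x : G) ∈ 𝐂[L] := by
      intro l hl
      have h3 : ⁅(x : G), l⁆ ∈ L ⊓ Q := by
        constructor
        · exact L.mul_mem ((mem_normalizer_iff.1 hxL l).1 hl) (L.inv_mem hl)
        · have := Q.mul_mem ⟨x, hx, rfl⟩
            ((mem_normalizer_iff.1 (hLn hl) _).1 (Q.inv_mem ⟨x, hx, rfl⟩))
          simpa [commutatorElement_def, mul_assoc] using this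
      rw [hLQ', mem_bot, commutatorElement_eq_one_iff_mul_comm] at h3
      exact h3.symm
    have h3 : (x : G) ∈ 𝐂[N ⊓ 𝐍[Q]] := by
      rw [← hLQ, centralizer_sup]
      exact ⟨h2, le_centralizer Q ⟨x, hx, rfl⟩⟩
    have h4 : x ∈ (Q₀ : Subgroup N) ⊓ 𝐂[𝐍[(Q₀ : Subgroup N)]] := by
      refine ⟨hx, fun y hy => Subtype.ext (h3 y ⟨y.2, ?_⟩)⟩
      rw [normalizer_eq_subgroupOf] at hy
      exact hy
    rw [h1, mem_bot] at h4
    rw [h4]; exact one_mem _
  -- Frattini arguments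
  have hsup : N ⊔ (𝐍[Q] ⊓ 𝐍[L]) = ⊤ := by
    rw [eq_top_iff]
    intro g _
    obtain ⟨n, hn, x, hx, rfl⟩ := hQ.frattini (hNn g)
    refine mul_mem (mem_sup_left hn) ?_
    have hxM : cj(x, N ⊓ 𝐍[Q]) = N ⊓ 𝐍[Q] := by
      rw [cj_inf, cj_of_normal, cj_of_mem hx]
    obtain ⟨k, hk, e⟩ := Solv.exists_conj_eq_of_coprime cj(x, L) L Q
      ((cj_mono x hLM).trans (hxM.le.trans inf_le_right))
      (by rw [card_cj, hLc]; exact hcop.symm) (Or.inr (have := hQ.pgrp.isNilpotent; inferInstance))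
      (by rw [card_cj]) (fun a ha => by
        have h1 : a ∈ Q ⊔ L := by
          rw [sup_comm, hLQ, ← hxM]; exact cj_mono x hLM ha
        obtain ⟨q, hq, l, hl, rfl⟩ := (mem_sup_of_le_normalizer_left hLn).1 h1
        exact ⟨q, hq, by simpa using hl⟩)
    have h2 : k * x ∈ 𝐍[L] := by rw [← cj_eq_iff, cj_mul]; exact e
    have h3 : k * x ∈ N ⊔ (𝐍[Q] ⊓ 𝐍[L]) :=
      mem_sup_right ⟨mul_mem (le_normalizer hk) hx, h2⟩
    exact (mul_mem_cancel_left (mem_sup_left (hQ.le hk))).1 h3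
  obtain ⟨K, hK⟩ := exists_isSyl p (𝐍[Q] ⊓ 𝐍[L])
  refine ⟨K, (Grp.isComplement'_of_sup_eq_top ?_ ?_).symm⟩
  · rw [eq_bot_iff, ← hC]
    refine le_inf (hQ.le_of_normalizes (hK.pgrp.to_le inf_le_right) inf_le_left
      (inf_le_right.trans (hK.le.trans inf_le_left))) (inf_le_right.trans (hK.le.trans inf_le_right))
  · have h1 := hK.map (QuotientGroup.mk' N)
    have h2 : (𝐍[Q] ⊓ 𝐍[L]).map (QuotientGroup.mk' N) = ⊤ := by
      rw [← comap_injective (QuotientGroup.mk'_surjective N) |>.eq_iff, comap_map_eq,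
        QuotientGroup.ker_mk', sup_comm, hsup, comap_top]
    rw [h2] at h1
    have h3 := h1.eq (Transfer.isPGroup_quotient_pResidual.to_subgroup ⊤) le_top le_rfl
    have h4 := congrArg (comap (QuotientGroup.mk' N)) h3
    rw [comap_map_eq, QuotientGroup.ker_mk', comap_top, sup_comm] at h4
    exact h4.symm

end Cfsg.Agent.S0092
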