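import Cfsg.Statements.S0097
import Mathlib
import Cfsg.Agent.Grp.Extraspecial

set_option autoImplicit false
open Cfsg

namespace Cfsg.Agent.S0097

/-- For odd p and E extraspecial, the subgroup generated by the elements of order dividing p has exponent dividing p and index at most p. -/
theorem result {E : Type*} [Group E] [Finite E] {p : ℕ} [Fact p.Prime] (hp : p ≠ 2) (h : Cfsg.IsExtraspecial p E) : (Subgroup.closure {x : E | x ^ p = 1}).index ≤ p ∧ ∀ g ∈ Subgroup.closure {x : E | x ^ p = 1}, g ^ p = 1 := by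
  obtain ⟨z, hz, hne, -⟩ := Grp.ES.isES_top_of_isExtraspecial h
  have hpp : p.Prime := Fact.out
  have hodd : Odd p := hpp.odd_of_ne_two hp
  have hch : p ∣ p.choose 2 := hpp.dvd_choose_self two_ne_zero (lt_of_le_of_ne hpp.two_le hp.symm)
  have hmul : ∀ a b : E, (a * b) ^ p = a ^ p * b ^ p := by
    intro a b
    obtain ⟨k, hk⟩ := hch
    rw [hz.mul_pow trivial trivial, hk, pow_mul, hz.pow_eq_one (hz.comm b trivial a trivial),
      one_pow, mul_one]
  let f : E →* E := MonoidHom.mk' (fun x => x ^ p) hmul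
  have hker : Subgroup.closure {x : E | x ^ p = 1} = f.ker := by
    rw [← Subgroup.closure_eq f.ker]; rfl
  rw [hker]
  refine ⟨?_, fun g hg => hg⟩
  rw [Subgroup.index_ker, ← hz.ord, ← Nat.card_zpowers]
  apply Subgroup.card_le_of_le
  rintro _ ⟨x, rfl⟩
  exact hz.pow_mem trivial

end Cfsg.Agent.S0097
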