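import Cfsg.Statements.S0099
import Mathlib
import Cfsg.Agent.Grp.ExtraspecialIso

set_option autoImplicit false
open Cfsg

namespace Cfsg.Agent.S0099

open Grp.ES

theorem plus {G₁ G₂ : Type*} [Group G₁] [Group G₂]
    {z₁ : G₁} {z₂ : G₂} (h₁ : IsES 2 z₁ ⊤) (h₂ : IsES 2 z₂ ⊤) {n : ℕ} {x₁ y₁ : Fin n → G₁}
    {x₂ y₂ : Fin n → G₂} (B₁ : IsSympBasis 2 z₁ ⊤ x₁ y₁) (B₂ : IsSympBasis 2 z₂ ⊤ x₂ y₂)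
    (t₁ : ∀ i, x₁ i ^ 2 = 1 ∧ y₁ i ^ 2 = 1) (t₂ : ∀ i, x₂ i ^ 2 = 1 ∧ y₂ i ^ 2 = 1) :
    Nonempty (G₁ ≃* G₂) := by
  obtain ⟨φ, -⟩ := B₁.exists_mulEquiv two_pos h₁ h₂ B₂ (fun i => ⟨0, by simp [t₁, t₂]⟩)
    (fun i => ⟨0, by simp [t₁, t₂]⟩)
  exact ⟨φ⟩

theorem minus {G₁ G₂ : Type*} [Group G₁] [Group G₂]
    {z₁ : G₁} {z₂ : G₂} (h₁ : IsES 2 z₁ ⊤) (h₂ : IsES 2 z₂ ⊤) {n : ℕ} {x₁ y₁ : Fin n → G₁}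
    {x₂ y₂ : Fin n → G₂} (B₁ : IsSympBasis 2 z₁ ⊤ x₁ y₁) (B₂ : IsSympBasis 2 z₂ ⊤ x₂ y₂)
    (t₁ : ∀ i : Fin n, if (i : ℕ) + 1 = n then x₁ i ^ 2 = z₁ ∧ y₁ i ^ 2 = z₁
          else x₁ i ^ 2 = 1 ∧ y₁ i ^ 2 = 1)
    (t₂ : ∀ i : Fin n, if (i : ℕ) + 1 = n then x₂ i ^ 2 = z₂ ∧ y₂ i ^ 2 = z₂
          else x₂ i ^ 2 = 1 ∧ y₂ i ^ 2 = 1) :
    Nonempty (G₁ ≃* G₂) := by
  obtain ⟨φ, -⟩ := B₁.exists_mulEquiv two_pos h₁ h₂ B₂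
    (fun i => by
      have a := t₁ i
      have b := t₂ i
      split_ifs at a b
      · exact ⟨1, by simp [a, b]⟩
      · exact ⟨0, by simp [a, b]⟩)
    (fun i => by
      have a := t₁ i
      have b := t₂ i
      split_ifs at a b
      · exact ⟨1, by simp [a, b]⟩
      · exact ⟨0, by simp [a, b]⟩)
  exact ⟨φ⟩

/-- Among three extraspecial 2-groups of equal order, some two are isomorphic. -/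
theorem result {E₁ : Type*} {E₂ : Type*} {E₃ : Type*} [Group E₁] [Group E₂] [Group E₃] [Finite E₁] [Finite E₂] [Finite E₃] (h₁ : Cfsg.IsExtraspecial 2 E₁) (h₂ : Cfsg.IsExtraspecial 2 E₂) (h₃ : Cfsg.IsExtraspecial 2 E₃) (h12 : Nat.card E₁ = Nat.card E₂) (h23 : Nat.card E₂ = Nat.card E₃) : Nonempty (E₁ ≃* E₂) ∨ Nonempty (E₂ ≃* E₃) ∨ Nonempty (E₁ ≃* E₃) := by
  obtain ⟨z₁, hz₁, -, -⟩ := isES_top_of_isExtraspecial h₁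
  obtain ⟨z₂, hz₂, -, -⟩ := isES_top_of_isExtraspecial h₂
  obtain ⟨z₃, hz₃, -, -⟩ := isES_top_of_isExtraspecial h₃
  obtain ⟨n₁, x₁, y₁, B₁, t₁⟩ := hz₁.exists_sympBasis_two
  obtain ⟨n₂, x₂, y₂, B₂, t₂⟩ := hz₂.exists_sympBasis_two
  obtain ⟨n₃, x₃, y₃, B₃, t₃⟩ := hz₃.exists_sympBasis_two
  obtain rfl : n₁ = n₂ := B₁.length_eq one_lt_two B₂ (by rw [Subgroup.card_top, Subgroup.card_top, h12])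
  obtain rfl : n₁ = n₃ := B₂.length_eq one_lt_two B₃ (by rw [Subgroup.card_top, Subgroup.card_top, h23])
  rcases t₁ with t₁ | ⟨-, t₁⟩ <;> rcases t₂ with t₂ | ⟨-, t₂⟩ <;> rcases t₃ with t₃ | ⟨-, t₃⟩
  · exact Or.inl (plus hz₁ hz₂ B₁ B₂ t₁ t₂)
  · exact Or.inl (plus hz₁ hz₂ B₁ B₂ t₁ t₂)
  · exact Or.inr (Or.inr (plus hz₁ hz₃ B₁ B₃ t₁ t₃))
  · exact Or.inr (Or.inl (minus hz₂ hz₃ B₂ B₃ t₂ t₃))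
  · exact Or.inr (Or.inl (plus hz₂ hz₃ B₂ B₃ t₂ t₃))
  · exact Or.inr (Or.inr (minus hz₁ hz₃ B₁ B₃ t₁ t₃))
  · exact Or.inl (minus hz₁ hz₂ B₁ B₂ t₁ t₂)
  · exact Or.inl (minus hz₁ hz₂ B₁ B₂ t₁ t₂)

end Cfsg.Agent.S0099
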