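import Cfsg.Statements.S0114
import Cfsg.Agent.Grp.MaxClass
import Cfsg.Agent.Inv.Dihedral

set_option autoImplicit false
open Cfsg

namespace Cfsg.Agent.S0114

/-- The central quotient of a 2-group of maximal class is dihedral. -/
theorem result {X : Type*} [Group X] [Finite X] (n : ℕ) (hn : 3 ≤ n) (hX : Nat.card X = 2 ^ n) (hc : Group.nilpotencyClass X = n - 1) : Nonempty (X ⧸ Subgroup.center X ≃* DihedralGroup (2 ^ (n - 2))) := by
  have : Fact (Nat.Prime 2) := ⟨Nat.prime_two⟩
  obtain ⟨c, hco, hi, hZ, hx⟩ := Grp.MaxClass.exists_gens_of_index_commutator_le hn hX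
    (Grp.MaxClass.index_commutator hX hn hc).le
  obtain ⟨x, hxc⟩ := Grp.MaxClass.exists_not_mem_of_index_ne_one (H := Subgroup.zpowers c) (by omega)
  set π := QuotientGroup.mk' (Subgroup.center X) with hπ
  have hπs : Function.Surjective π := QuotientGroup.mk'_surjective _
  have hZc : π.ker ≤ Subgroup.zpowers c := by
    rw [hπ, QuotientGroup.ker_mk', hx x hxc]; exact inf_le_left
  have hsq : ∀ y, y ∉ Subgroup.zpowers c → π y * π y = 1 := by
    intro y hy
    rw [← map_mul, ← MonoidHom.mem_ker, hπ, QuotientGroup.ker_mk', hx y hy]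
    exact ⟨Subgroup.mul_self_mem_of_index_two hi y,
      Subgroup.mem_centralizer_singleton_iff.mpr (mul_assoc y y y)⟩
  have hq : Nat.card (X ⧸ Subgroup.center X) = 2 ^ (n - 2) * 2 := by
    have := Grp.card_quotient_mul_card (Subgroup.center X)
    rw [hZ, hX, show n = (n - 2) + 2 by omega, pow_add] at this
    omega
  have hi' : (Subgroup.zpowers (π c)).index = 2 := by
    rw [← MonoidHom.map_zpowers, Subgroup.index_map_eq _ hπs hZc, hi]
  have ho : orderOf (π c) = 2 ^ (n - 2) := by
    have := Subgroup.card_mul_index (Subgroup.zpowers (π c))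
    rw [hi', hq, Nat.card_zpowers] at this
    omega
  have hxc' : π x ∉ Subgroup.zpowers (π c) := by
    rw [← MonoidHom.map_zpowers, ← Subgroup.mem_comap, Subgroup.comap_map_eq_self hZc]
    exact hxc
  have h1 := hsq x hxc
  have h2 := hsq (x * c) fun h => hxc (by
    simpa using Subgroup.mul_mem _ h (Subgroup.inv_mem _ (Subgroup.mem_zpowers c)))
  have h3 : π x * π c * (π x)⁻¹ = (π c)⁻¹ := by
    rw [map_mul] at h2
    rw [inv_eq_of_mul_eq_one_left h1, eq_inv_iff_mul_eq_one, ← h2]; group
  obtain ⟨e⟩ := Cfsg.Agent.Inv.Dihedral.nonempty_closure_equiv_dihedral (Nat.two_pow_pos (n - 2)).ne' ho h1 h3 hxc'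
  have h4 : Subgroup.closure {π c, π x} = ⊤ := by
    rw [← Grp.MaxClass.sup_zpowers_eq_top_of_prime_index Nat.prime_two hi' hxc',
      Subgroup.zpowers_eq_closure, Subgroup.zpowers_eq_closure, ← Subgroup.closure_union]
    rfl
  exact ⟨Subgroup.topEquiv.symm.trans ((MulEquiv.subgroupCongr h4.symm).trans e)⟩

end Cfsg.Agent.S0114
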