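import Cfsg.Statements.S0125
import Mathlib
import Cfsg.Agent.Transfer.Focal


set_option autoImplicit false
open Cfsg

namespace Cfsg.Agent.S0125

/-- The centralizer of a self-centralizing normal subgroup A of a Sylow p-subgroup is the direct product of A with a normal p'-subgroup. -/
theorem result {G : Type*} [Group G] [Finite G] {p : ℕ} [Fact p.Prime] (R : Sylow p G) (A : Subgroup G) (hAR : A ≤ (R : Subgroup G)) (hAn : (R : Subgroup G) ≤ Subgroup.normalizer (A : Set G)) (hC : (R : Subgroup G) ⊓ Subgroup.centralizer (A : Set G) = A) : ∃ H : Subgroup G, H ≤ Subgroup.centralizer (A : Set G) ∧ Nat.Coprime (Nat.card H) p ∧ Subgroup.centralizer (A : Set G) ≤ Subgroup.normalizer (H : Set G) ∧ H ⊓ A = ⊥ ∧ H ⊔ A = Subgroup.centralizer (A : Set G) := by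
  have hCN := PLocal.Amb.centralizer_le_normalizer' A
  have hS : PLocal.Amb.IsSyl p A (Subgroup.centralizer (A : Set G)) := by
    have := (PLocal.Amb.isSyl_of_le R hAn).inf_of_le hCN
      (PLocal.Amb.normalizer_le_normalizer_centralizer A)
    rwa [hC] at this
  obtain ⟨S, hS'⟩ := hS.exists_sylow
  have h1 : HasNormalPComplement p (Subgroup.centralizer (A : Set G)) := by
    apply Transfer.hasNormalPComplement_of_normalizer_le_centralizer S
    rw [hS', PLocal.Amb.centralizer_subgroupOf hS.le, Subgroup.subgroupOf_self]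
    exact le_top
  have h2 : (Nat.card ((pResidual p (Subgroup.centralizer (A : Set G))).map
      (Subgroup.centralizer (A : Set G)).subtype)).Coprime p := by
    rw [Subgroup.card_map_of_injective (Subgroup.subtype_injective _)]
    exact Transfer.hasNormalPComplement_iff_coprime.mp h1
  refine ⟨_, PLocal.Amb.pRes_le p _, h2, PLocal.Amb.le_normalizer_pRes p _, ?_, hS.pRes_sup⟩
  rw [eq_bot_iff]
  intro x hx
  exact Transfer.eq_one_of_mem_isPGroup_of_coprime hS.pgrp hx.2
    (Transfer.coprime_orderOf_of_mem h2 hx.1)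

end Cfsg.Agent.S0125
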