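import Cfsg.Statements.S0131
import Mathlib
import Cfsg.Agent.Transfer.Focal


set_option autoImplicit false
open Cfsg

namespace Cfsg.Agent.S0131

/-- P/P' has a normal complement in G exactly when the focal subgroup G' ∩ P is as small as possible, namely P'. -/
theorem result {G : Type*} [Group G] [Finite G] {p : ℕ} [Fact p.Prime] (P : Sylow p G) : (∃ N : Subgroup G, N.Normal ∧ N ⊓ (P : Subgroup G) = ⁅(P : Subgroup G), (P : Subgroup G)⁆ ∧ N ⊔ (P : Subgroup G) = ⊤) ↔ commutator G ⊓ (P : Subgroup G) = ⁅(P : Subgroup G), (P : Subgroup G)⁆ := by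
  have h := Transfer.sylow_coprime_index_relIndex P ⁅(P : Subgroup G), (P : Subgroup G)⁆
  have hle : ⁅(P : Subgroup G), (P : Subgroup G)⁆ ≤ (P : Subgroup G) :=
    (Subgroup.commutator_le_focalSubgroup _).trans (Subgroup.focalSubgroup_le _)
  constructor
  · rintro ⟨N, hN, h1, h2⟩
    refine le_antisymm ?_ (le_inf (Subgroup.commutator_mono le_top le_top) hle)
    have h3 := Transfer.commutator_le_sup_of_sup_eq_top h2
    rw [sup_eq_left.mpr (h1.ge.trans inf_le_left)] at h3
    exact (inf_le_inf_right _ h3).trans h1.le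
  · intro h1
    refine ⟨(P : Subgroup G).transferFocal.ker, inferInstance, ?_, Transfer.ker_transferFocal_sup h⟩
    rw [Transfer.ker_transferFocal_inf h, ← Transfer.commutator_inf_eq_focal h, h1]

end Cfsg.Agent.S0131
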