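import Cfsg.Statements.S0162
import Cfsg.Agent.Char.FS
import Cfsg.Agent.Char.Ito

set_option autoImplicit false
open Cfsg

namespace Cfsg.Agent.S0162

/-- If a finite group has odd order, its order is congruent to its number of conjugacy classes modulo 16. -/
theorem result {G : Type*} [Group G] [Finite G] (hodd : Odd (Nat.card G)) : Nat.card G ≡ Nat.card (ConjClasses G) [MOD 16] := by
  classical
  have hd : ∀ χ : IrrCharacter G, ∃ f : ℕ, (χ : G → ℂ) 1 ^ 2 = 8 * f + 1 := by
    intro χ
    obtain ⟨n, -, hn⟩ := Char.Cfsg.IsIrrCharacter.exists_nat_one χ.2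
    obtain ⟨k, rfl⟩ := hodd.of_dvd_nat (Char.Cfsg.IsIrrCharacter.deg_dvd_card χ.2 hn)
    obtain ⟨f, hf⟩ := Nat.even_mul_succ_self k
    refine ⟨f, ?_⟩
    rw [hn]
    have : (2 * k + 1) ^ 2 = 8 * f + 1 := by nlinarith
    exact_mod_cast this
  choose f hf using hd
  let σ : IrrCharacter G → IrrCharacter G := fun χ => ⟨_, Char.Cfsg.IsIrrCharacter.conj χ.2⟩
  have h1 : ∑ χ : IrrCharacter G, (f χ : ZMod 2) = 0 := by
    refine Finset.sum_involution (fun χ _ => σ χ) (fun χ _ => ?_) (fun χ _ h e => h ?_)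
      (fun _ _ => Finset.mem_univ _) (fun χ _ => ?_)
    · have h2 := hf (σ χ)
      simp only [σ, Char.Cfsg.IsCharacter.conj_one (Char.Cfsg.IsIrrCharacter.isCharacter χ.2),
        hf χ] at h2
      have h3 : f χ = f (σ χ) := by
        have : 8 * f χ + 1 = 8 * f (σ χ) + 1 := by exact_mod_cast h2
        omega
      rw [← h3, ← two_mul]
      exact mul_eq_zero_of_left rfl _
    · have h2 : (χ : G → ℂ) = fun _ => 1 := by
        by_contra h2
        exact Char.conj_ne_self_of_odd hodd χ.2 h2 (congrArg Subtype.val e)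
      have h3 := hf χ
      rw [h2] at h3
      have : 1 ^ 2 = 8 * f χ + 1 := by beta_reduce at h3; exact_mod_cast h3
      rw [show f χ = 0 by omega, Nat.cast_zero]
    · ext g; simp [σ]
  rw [← Nat.cast_sum, ZMod.natCast_eq_zero_iff] at h1
  obtain ⟨m, hm⟩ := h1
  have h2 := Char.sum_irr_one_sq (G := G)
  simp only [hf, Finset.sum_add_distrib, ← Finset.mul_sum, Finset.sum_const, Finset.card_univ,
    nsmul_eq_mul, mul_one, ← Nat.cast_sum, hm, ← Nat.card_eq_fintype_card, Char.card_irr] at h2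
  have h3 : 8 * (2 * m) + Nat.card (ConjClasses G) = Nat.card G := by exact_mod_cast h2
  rw [← h3]
  unfold Nat.ModEq
  omega

end Cfsg.Agent.S0162
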