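import Cfsg.Statements.S0163
import Cfsg.Agent.Char.Brauer

set_option autoImplicit false
open Cfsg

namespace Cfsg.Agent.S0163

/-- Brauer's induction Theorem: every character of a finite group is a ℤ-linear combination of functions induced from linear characters (homomorphisms to ℂˣ) of elementary subgroups. -/
theorem result {G : Type*} [Group G] [Fintype G] (χ : G → ℂ) (hχ : Cfsg.IsCharacter G χ) : ∃ l : List ((E : Subgroup G) × ((E →* ℂˣ) × ℤ)), (∀ t ∈ l, ∃ p : ℕ, p.Prime ∧ Cfsg.IsElementary p t.1) ∧ χ = (l.map fun t => (t.2.2 : ℂ) • Cfsg.indFun t.1 (fun e => (t.2.1 e : ℂ))).sum := by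
  have hf := Char.mem_brauerSpan (Char.Cfsg.IsCharacter.isGen hχ)
  clear hχ
  induction hf using Submodule.span_induction with
  | mem x hx =>
    obtain ⟨E, φ, hE, rfl⟩ := hx
    exact ⟨[⟨E, φ, 1⟩], by simpa using hE, by simp⟩
  | zero => exact ⟨[], by simp, by simp⟩
  | add x y _ _ hx hy =>
    obtain ⟨l, hl, rfl⟩ := hx
    obtain ⟨l', hl', rfl⟩ := hy
    refine ⟨l ++ l', fun t ht => ?_, by simp⟩
    rcases List.mem_append.mp ht with h | h
    exacts [hl t h, hl' t h]
  | smul a x _ hx =>
    obtain ⟨l, hl, rfl⟩ := hx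
    refine ⟨l.map fun t => ⟨t.1, t.2.1, a * t.2.2⟩, fun t ht => ?_, ?_⟩
    · obtain ⟨s, hs, rfl⟩ := List.mem_map.mp ht
      exact hl s hs
    · rw [List.smul_sum, List.map_map, List.map_map]
      congr 1
      refine List.map_congr_left fun t _ => ?_
      simp only [Function.comp, Int.cast_mul, mul_smul, Int.cast_smul_eq_zsmul]

end Cfsg.Agent.S0163
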