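import Cfsg.Statements.S0167
import Cfsg.Agent.Char.Prod

set_option autoImplicit false
open Cfsg

namespace Cfsg.Agent.S0167
open Cfsg.Agent.Char

/-- An element g of a finite group is a commutator if and only if the sum over the irreducible characters χ of χ g / χ 1 is nonzero. -/
theorem result {G : Type*} [Group G] [Finite G] (g : G) : (∃ a b : G, g = a * b * a⁻¹ * b⁻¹) ↔ ∑ᶠ χ : Cfsg.IrrCharacter G, (χ : G → ℂ) g / (χ : G → ℂ) 1 ≠ 0 := by
  classical
  haveI := Fintype.ofFinite G
  rw [finsum_eq_sum_of_fintype]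
  have h := card_commutator_eq g
  constructor
  · rintro ⟨a, b, rfl⟩ h0
    rw [h0, mul_zero, Nat.cast_eq_zero, Finset.card_eq_zero, Finset.filter_eq_empty_iff] at h
    exact h (Finset.mem_univ (a, b)) rfl
  · intro h0
    by_contra hc
    push Not at hc
    rw [Finset.filter_eq_empty_iff.2 (fun p _ e => hc p.1 p.2 e.symm)] at h
    simp only [Finset.card_empty, Nat.cast_zero] at h
    exact mul_ne_zero (card_ne_zero G) h0 h.symm

end Cfsg.Agent.S0167
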