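import Cfsg.Statements.S0168
import Cfsg.Agent.Char.Irr
import Cfsg.Agent.Char.Values

set_option autoImplicit false
open Cfsg

namespace Cfsg.Agent.S0168
open Cfsg.Agent.Char

/-- The Burnside–Brauer Theorem. Let χ be the character of a faithful complex representation of a finite group, taking m distinct values. Then every irreducible character has nonzero inner product with χ ^ i for some i < m. -/
theorem result {G : Type*} [Group G] [Fintype G] {V : Type*} [AddCommGroup V] [Module ℂ V] [FiniteDimensional ℂ V] (ρ : Representation ℂ G V) (hfaithful : Function.Injective ρ) (ψ : G → ℂ) (hψ : Cfsg.IsIrrCharacter G ψ) : ∃ i : ℕ, i < Nat.card (Set.range ρ.character) ∧ Cfsg.classInner (fun g => ρ.character g ^ i) ψ ≠ 0 := by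
  classical
  by_contra hc
  push Not at hc
  set S : Finset ℂ := Finset.univ.image ρ.character with hS
  have hcard : Nat.card (Set.range ρ.character) = S.card := by
    rw [← Nat.card_eq_finsetCard]
    exact Nat.card_congr (Equiv.subtypeEquivRight fun x => by simp [hS])
  have h1 : ρ.character 1 ∈ S := Finset.mem_image_of_mem _ (Finset.mem_univ _)
  set p : Polynomial ℂ := ∏ a ∈ S.erase (ρ.character 1), (Polynomial.X - Polynomial.C a) with hp
  have hdeg : p.natDegree < S.card := by
    rw [hp, Polynomial.natDegree_finsetProd_X_sub_C_eq_card, Finset.card_erase_of_mem h1]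
    have := Finset.card_pos.2 ⟨_, h1⟩
    omega
  have h2 : classInner (fun g => p.eval (ρ.character g)) ψ = 0 := by
    have : (fun g => p.eval (ρ.character g)) =
        ∑ i ∈ Finset.range S.card, p.coeff i • fun g => ρ.character g ^ i := by
      ext g
      rw [Polynomial.eval_eq_sum_range' hdeg]
      simp [Finset.sum_apply]
    rw [this, classInner_sum_left]
    refine Finset.sum_eq_zero fun i hi => ?_
    rw [classInner_smul_left, hc i (hcard ▸ Finset.mem_range.1 hi), mul_zero]
  rw [classInner_def, Finset.sum_eq_single 1] at h2
  · rcases mul_eq_zero.1 h2 with h | h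
    · exact inv_ne_zero (card_ne_zero G) h
    rcases mul_eq_zero.1 h with h | h
    · rw [hp, Polynomial.eval_prod, Finset.prod_eq_zero_iff] at h
      obtain ⟨a, ha, h⟩ := h
      simp only [Polynomial.eval_sub, Polynomial.eval_X, Polynomial.eval_C] at h
      exact (Finset.mem_erase.1 ha).1 (sub_eq_zero.1 h).symm
    · exact hψ.one_ne_zero (by simpa using h)
  · intro g _ hg
    have : ρ.character g ∈ S.erase (ρ.character 1) := by
      refine Finset.mem_erase.2 ⟨fun e => hg (hfaithful ?_), Finset.mem_image_of_mem _ (Finset.mem_univ _)⟩
      rw [Representation.char_one, rep_char_eq_finrank_iff] at e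
      rw [e, map_one]; rfl
    rw [hp, Polynomial.eval_prod, Finset.prod_eq_zero this (by simp), zero_mul]
  · simp

end Cfsg.Agent.S0168
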