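import Cfsg.Statements.S0172
import Cfsg.Agent.Char.BrauerPerm

set_option autoImplicit false
open Cfsg

namespace Cfsg.Agent.S0172


/-- Class number of a Frobenius group: if G = K H with K normal, K ⊓ H trivial and no non-identity element of H commuting with a non-identity element of K, then |H| * k(G) + 1 = |H| * k(H) + k(K), where k denotes the number of conjugacy classes. -/
theorem result {G : Type*} [Group G] [Finite G] (K H : Subgroup G) [K.Normal] (hKH : K ⊓ H = ⊥) (hKH' : K ⊔ H = ⊤) (hfpf : ∀ h ∈ H, h ≠ 1 → ∀ k ∈ K, h * k = k * h → k = 1) : Nat.card H * Nat.card (ConjClasses G) + 1 = Nat.card H * Nat.card (ConjClasses H) + Nat.card (ConjClasses K) := by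
  have hc : H.IsComplement' K := by
    refine Subgroup.isComplement'_of_disjoint_and_mul_eq_univ ?_ ?_
    · rw [disjoint_iff, inf_comm, hKH]
    · rw [← Subgroup.mul_normal, sup_comm, hKH']; rfl
  have h := Char.index_mul_card_conjClasses K (Char.centralizer_le_of_fpf K H hKH' hfpf)
  rw [hc.index_eq_card, ← Char.card_irr (G := G ⧸ K),
    ← Nat.card_congr (Char.irrCongr hc.QuotientMulEquiv), Char.card_irr] at h
  exact h

end Cfsg.Agent.S0172
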