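import Cfsg.Statements.S0173
import Cfsg.Agent.Char.BrauerPerm

set_option autoImplicit false
open Cfsg

namespace Cfsg.Agent.S0173


/-- Brauer's permutation lemma for a single automorphism: the number of conjugacy classes mapped to themselves equals the number of irreducible complex characters χ with χ ∘ α = χ. -/
theorem result {G : Type*} [Group G] [Finite G] (α : G ≃* G) : Nat.card {C : ConjClasses G // ConjClasses.map α.toMonoidHom C = C} = Nat.card {χ : Cfsg.IrrCharacter G // (χ : G → ℂ) ∘ α = (χ : G → ℂ)} := by
  have h := Char.brauer_permutation (fun g => α g)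
    (fun χ hχ => Char.Cfsg.IsIrrCharacter.comp_mulEquiv hχ α)
  refine Eq.trans (Nat.card_congr (Equiv.subtypeEquivRight fun C => ?_)) h
  obtain ⟨a, rfl⟩ := ConjClasses.exists_rep C
  have e : ConjClasses.map α.toMonoidHom (ConjClasses.mk a) = ConjClasses.mk (α a) := rfl
  rw [e, ConjClasses.mk_eq_mk_iff_isConj]
  constructor
  · intro h1 g hg
    have hg' := ConjClasses.mk_eq_mk_iff_isConj.1 hg
    exact hg'.trans (h1.symm.trans (α.toMonoidHom.map_isConj hg'.symm))
  · exact fun h1 => (h1 a rfl).symm

end Cfsg.Agent.S0173
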