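import Cfsg.Statements.S0175
import Cfsg.Agent.Char.PermRank
import Cfsg.Agent.Char.Ito
import Cfsg.Agent.Char.Quot
import Cfsg.Agent.Char.Induction

set_option autoImplicit false
open Cfsg

namespace Cfsg.Agent.S0175

/-- Taketa's Theorem on M-groups: if every irreducible complex character of a finite group is induced from a linear character (a homomorphism to ℂˣ) of some subgroup, the group is solvable. -/
theorem result {G : Type*} [Group G] [Fintype G] (hM : ∀ χ : G → ℂ, Cfsg.IsIrrCharacter G χ → ∃ (H : Subgroup G) (lam : H →* ℂˣ), χ = Cfsg.indFun H (fun h => (lam h : ℂ))) : Group.IsSolvable G := by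
  classical
  have step : ∀ k : ℕ, (∀ χ : G → ℂ, IsIrrCharacter G χ → ∀ n : ℕ, χ 1 = n → n ≤ k →
      ∀ g ∈ derivedSeries G k, χ g = χ 1) → ∀ φ : G → ℂ, IsCharacter G φ → ∀ n : ℕ, φ 1 = n →
      n ≤ k → ∀ g ∈ derivedSeries G k, φ g = φ 1 := by
    intro k h φ hφ
    refine Char.Cfsg.IsCharacter.induction_on hφ (by simp) ?_
    intro ξ θ hξ hθ ih n hn hnk g hg
    obtain ⟨a, -, ha⟩ := Char.Cfsg.IsIrrCharacter.exists_nat_one hξ
    obtain ⟨b, hb⟩ := Char.Cfsg.IsCharacter.exists_nat_one hθ
    rw [Pi.add_apply, ha, hb] at hn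
    have : a + b = n := by exact_mod_cast hn
    rw [Pi.add_apply, Pi.add_apply, h ξ hξ a ha (by omega) g hg, ih b hb (by omega) g hg]
  have key : ∀ k : ℕ, ∀ χ : G → ℂ, IsIrrCharacter G χ → ∀ n : ℕ, χ 1 = n → n ≤ k →
      ∀ g ∈ derivedSeries G k, χ g = χ 1 := by
    intro k
    induction k with
    | zero =>
      intro χ hχ n hn hnk
      obtain rfl : n = 0 := by omega
      exact (Char.Cfsg.IsIrrCharacter.one_ne_zero hχ (by simpa using hn)).elim
    | succ k ih =>
      intro χ hχ n hn hnk g hg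
      obtain ⟨H, lam, rfl⟩ := hM χ hχ
      have hidx : H.index = n := by
        rw [Char.indFun_one] at hn
        simpa using hn
      have hpos : 0 < n := hidx ▸ Nat.pos_of_ne_zero Subgroup.index_ne_zero_of_finite
      have hD : derivedSeries G k ≤ H := by
        intro x hx
        have h1 := step k ih _ (Char.isCharacter_permChar_sub_one (G := G) (G ⧸ H)) (n - 1) (by
          rw [Pi.sub_apply, Char.permChar_one, Nat.cast_sub hpos, ← hidx, Nat.cast_one]; rfl)
          (by omega) x hx
        rw [Pi.sub_apply, Pi.sub_apply, sub_left_inj, Char.permChar_one, Char.permChar_apply,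
          Nat.cast_inj] at h1
        have h2 : MulAction.fixedBy (G ⧸ H) x = Set.univ :=
          (Set.eq_univ_iff_ncard _).mpr h1
        have h3 : ((1 : G) : G ⧸ H) ∈ MulAction.fixedBy (G ⧸ H) x := h2 ▸ Set.mem_univ _
        rw [MulAction.mem_fixedBy, MulAction.Quotient.smul_mk, QuotientGroup.eq] at h3
        simpa using h3
      have hD' : derivedSeries G (k + 1) ≤ lam.ker.map H.subtype := by
        rw [derivedSeries_succ, Subgroup.commutator_le]
        intro a ha b hb
        refine ⟨(⟨a, hD ha⟩ : H) * ⟨b, hD hb⟩ * (⟨a, hD ha⟩ : H)⁻¹ * (⟨b, hD hb⟩ : H)⁻¹, ?_, rfl⟩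
        rw [SetLike.mem_coe, MonoidHom.mem_ker, map_mul, map_mul, map_mul, map_inv, map_inv,
          mul_inv_cancel_comm, mul_inv_cancel]
      have hval : ∀ y ∈ derivedSeries G (k + 1),
          extendByZero H (fun h => (lam h : ℂ)) y = 1 := by
        intro y hy
        obtain ⟨z, hz, rfl⟩ := hD' hy
        rw [Subgroup.coe_subtype, Char.extendByZero_coe, MonoidHom.mem_ker.mp hz, Units.val_one]
      rw [Char.indFun_apply', Char.indFun_apply']
      congr 1
      refine Finset.sum_congr rfl fun x _ => ?_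
      rw [hval _ ((derivedSeries_normal G (k + 1)).conj_mem g hg x),
        hval _ ((derivedSeries_normal G (k + 1)).conj_mem 1 (Subgroup.one_mem _) x)]
  refine ⟨⟨Nat.card G, eq_bot_iff.mpr fun g hg => ?_⟩⟩
  rw [Subgroup.mem_bot, ← isConj_one_left, Char.isConj_iff_irr]
  intro χ
  obtain ⟨n, -, hn⟩ := Char.Cfsg.IsIrrCharacter.exists_nat_one χ.2
  exact key _ _ χ.2 n hn
    (Nat.le_of_dvd Nat.card_pos (Char.Cfsg.IsIrrCharacter.deg_dvd_card χ.2 hn)) g hg

end Cfsg.Agent.S0175
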