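import Cfsg.Statements.S0177
import Cfsg.Agent.Char.Artin

set_option autoImplicit false
open Cfsg

namespace Cfsg.Agent.S0177

/-- The Artin induction Theorem: for a character χ of a finite group, |G| • χ is a ℤ-linear combination of functions induced from homomorphisms of cyclic subgroups into ℂˣ. -/
theorem result {G : Type*} [Group G] [Fintype G] (χ : G → ℂ) (hχ : Cfsg.IsCharacter G χ) : ∃ l : List ((A : Subgroup G) × ((A →* ℂˣ) × ℤ)), (∀ t ∈ l, IsCyclic t.1) ∧ (Nat.card G : ℂ) • χ = (l.map fun t => (t.2.2 : ℂ) • Cfsg.indFun t.1 (fun a => (t.2.1 a : ℂ))).sum := by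
  let V : AddSubgroup (G → ℂ) :=
    { carrier := {f | ∃ l : List ((A : Subgroup G) × ((A →* ℂˣ) × ℤ)), (∀ t ∈ l, IsCyclic t.1) ∧
        f = (l.map fun t => (t.2.2 : ℂ) • Cfsg.indFun t.1 (fun a => (t.2.1 a : ℂ))).sum}
      zero_mem' := ⟨[], by simp, by simp⟩
      add_mem' := by
        rintro _ _ ⟨l, hl, rfl⟩ ⟨l', hl', rfl⟩
        refine ⟨l ++ l', fun t ht => ?_, by simp⟩
        rcases List.mem_append.mp ht with h | h
        exacts [hl t h, hl' t h]
      neg_mem' := by
        rintro _ ⟨l, hl, rfl⟩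
        refine ⟨l.map fun t => ⟨t.1, t.2.1, (-1) * t.2.2⟩, fun t ht => ?_, ?_⟩
        · obtain ⟨s, hs, rfl⟩ := List.mem_map.mp ht
          exact hl s hs
        · rw [← neg_one_zsmul, List.smul_sum, List.map_map, List.map_map]
          congr 1
          refine List.map_congr_left fun t _ => ?_
          simp only [Function.comp, Int.cast_mul, mul_smul, Int.cast_smul_eq_zsmul] }
  exact Char.card_smul_mem_of_indFun_linear_cyclic_mem V
    (fun A hA lam => ⟨[⟨A, lam, 1⟩], by simpa using hA, by simp⟩) hχ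

end Cfsg.Agent.S0177
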