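import Cfsg.Statements.S0180
import Cfsg.Agent.Char.Galois

set_option autoImplicit false
open Cfsg

namespace Cfsg.Agent.S0180

open Cfsg.Agent.Char

/-- Every irreducible complex character of a finite group takes only rational values if and only if g is conjugate to g ^ m for every element g and every m coprime to the group order. -/
theorem result {G : Type*} [Group G] [Finite G] : (∀ χ : Cfsg.IrrCharacter G, ∀ g : G, ∃ q : ℚ, (χ : G → ℂ) g = (q : ℂ)) ↔ ∀ m : ℕ, m.Coprime (Nat.card G) → ∀ g : G, IsConj g (g ^ m) := by
  constructor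
  · intro h m hm g
    rw [isConj_iff_irr]
    intro χ
    obtain ⟨q, hq⟩ := h χ g
    exact (χ.2.isGen.pow_eq_of_rat g hq (hm.coprime_dvd_right (orderOf_dvd_natCard g))).symm
  · intro h χ g
    obtain ⟨z, hz⟩ := χ.2.isGen.exists_int_of_isConj g fun m hm => h m hm g
    exact ⟨z, by simpa using hz⟩

end Cfsg.Agent.S0180
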