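import Cfsg.Statements.S0186
import Cfsg.Agent.Char.DefectZero
import Cfsg.Agent.Char.Quot

set_option autoImplicit false
open Cfsg

namespace Cfsg.Agent.S0186

open Cfsg.Agent.Char

/-- Let G be a finite simple group of order n and p a prime dividing n. If G has more than n / p^2 conjugacy classes, then every Sylow p-subgroup of G is abelian. -/
theorem result {G : Type*} [Group G] [Finite G] [IsSimpleGroup G] (p : ℕ) [Fact p.Prime] (hp : p ∣ Nat.card G) (hmany : Nat.card G < p ^ 2 * Nat.card (ConjClasses G)) (P : Sylow p G) (a b : G) (ha : a ∈ P) (hb : b ∈ P) : a * b = b * a := by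
  classical
  have hpp : p.Prime := Fact.out
  by_contra hab
  -- `p ^ 2` divides the group order since `P` is not commutative
  have hp2 : p ^ 2 ∣ Nat.card G := by
    obtain ⟨k, hk⟩ := IsPGroup.iff_card.mp P.isPGroup'
    refine dvd_trans ?_ (P : Subgroup G).card_subgroup_dvd_card
    rw [hk]
    apply pow_dvd_pow
    by_contra hlt
    have hcyc : IsCyclic (P : Subgroup G) := by
      interval_cases hk' : k
      · have : Subsingleton (P : Subgroup G) := (Nat.card_eq_one_iff_unique.mp hk).1
        infer_instance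
      · exact isCyclic_of_prime_card (p := p) (by simpa using hk)
    exact hab (congrArg Subtype.val (mul_comm' (⟨a, ha⟩ : (P : Subgroup G)) ⟨b, hb⟩))
  -- a non-principal irreducible character of degree less than `p`
  obtain ⟨χ, hχ1, hχ⟩ : ∃ χ : IrrCharacter G, χ ≠ irrOne G ∧ charDegree (χ : G → ℂ) < p := by
    by_contra hcon
    push Not at hcon
    have h1 : ∑ χ : IrrCharacter G, charDegree (χ : G → ℂ) ^ 2 = Nat.card G := by
      have := sum_irr_one_sq (G := G)
      simp only [← coe_charDegree_irr] at this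
      exact_mod_cast this
    rw [← Finset.add_sum_erase _ _ (Finset.mem_univ (irrOne G))] at h1
    have h2 : (Finset.univ.erase (irrOne G)).card • p ^ 2 ≤
        ∑ χ ∈ Finset.univ.erase (irrOne G), charDegree (χ : G → ℂ) ^ 2 :=
      Finset.card_nsmul_le_sum _ _ _ fun χ hχ =>
        Nat.pow_le_pow_left (hcon χ (Finset.mem_erase.mp hχ).1) 2
    rw [Finset.card_erase_of_mem (Finset.mem_univ _), Finset.card_univ,
      ← Nat.card_eq_fintype_card, card_irr, smul_eq_mul] at h2
    have h3 := charDegree_irr_pos (irrOne G)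
    obtain ⟨c, hc⟩ := hp2
    rw [hc] at hmany h1
    have h4 : c < Nat.card (ConjClasses G) := lt_of_mul_lt_mul_left hmany (Nat.zero_le _)
    have h5 : c ≤ Nat.card (ConjClasses G) - 1 := by omega
    have h6 := Nat.mul_le_mul_right (p ^ 2) h5
    nlinarith [pow_pos h3 2]
  have hker : charKer (χ : G → ℂ) = ⊥ :=
    (Subgroup.Normal.eq_bot_or_eq_top inferInstance).resolve_right fun h =>
      hχ1 (Subtype.ext (eq_one_of_charKer_eq_top χ.2 h))
  have h := (χ.2.isCharacter.restrict (P : Subgroup G)).apply_commutator_of_small_degree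
    (coe_charDegree_irr χ).symm (fun q hq hqd => by
      obtain ⟨k, hk⟩ := IsPGroup.iff_card.mp P.isPGroup'
      rw [hk] at hqd
      rwa [(Nat.prime_dvd_prime_iff_eq hq hpp).mp (hq.dvd_of_dvd_pow hqd)]) ⟨a, ha⟩ ⟨b, hb⟩
  have h2 : a * b * a⁻¹ * b⁻¹ = 1 := (charKer_eq_bot_iff χ.2.isCharacter).mp hker _ h
  apply hab
  calc a * b = a * b * a⁻¹ * b⁻¹ * (b * a) := by group
    _ = b * a := by rw [h2, one_mul]

end Cfsg.Agent.S0186
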