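import Cfsg.Statements.S0187
import Cfsg.Agent.Char.Irr

set_option autoImplicit false
open Cfsg

namespace Cfsg.Agent.S0187
open Cfsg.Agent.Char

/-- A finite group is commutative if and only if every irreducible complex character has degree 1. -/
theorem result {G : Type*} [Group G] [Finite G] : (∀ a b : G, a * b = b * a) ↔ ∀ χ : Cfsg.IrrCharacter G, (χ : G → ℂ) 1 = 1 := by
  refine ⟨fun h χ => χ.2.one_eq_one_of_comm h, fun h a b => ?_⟩
  have : IsConj (a * b * a⁻¹ * b⁻¹) 1 := by
    rw [isConj_iff_irr]
    intro χ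
    obtain ⟨lam, hl⟩ := χ.2.isCharacter.exists_linear (h χ)
    rw [hl]
    simp only [map_mul, map_inv, map_one, Units.val_mul, Units.val_one]
    rw [← Units.val_mul, ← Units.val_mul, ← Units.val_mul, mul_comm (lam a) (lam b)]
    simp
  rw [isConj_one_left] at this
  calc a * b = (a * b * a⁻¹ * b⁻¹) * (b * a) := by group
    _ = b * a := by rw [this, one_mul]

end Cfsg.Agent.S0187
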