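import Cfsg.Statements.S0192
import Cfsg.Agent.Char.Irr

set_option autoImplicit false
open Cfsg

namespace Cfsg.Agent.S0192

/-- Brauer's generation criterion. Let G be a finite simple group, H₁ and H₂ subgroups, and χ a non-principal irreducible character. If the multiplicity of the principal character in χ restricted to H₁ ⊓ H₂ is less than the sum of the corresponding multiplicities for H₁ and H₂, then H₁ and H₂ do not generate G. -/
theorem result {G : Type*} [Group G] [Fintype G] [IsSimpleGroup G] (H₁ H₂ : Subgroup G) [Fintype H₁] [Fintype H₂] [Fintype ↥(H₁ ⊓ H₂)] (χ : G → ℂ) (hχ : Cfsg.IsIrrCharacter G χ) (hχ1 : χ ≠ fun _ => 1) (hlt : (Cfsg.classInner (fun x : ↥(H₁ ⊓ H₂) => χ x) (fun _ => 1)).re < (Cfsg.classInner (fun x : H₁ => χ x) (fun _ => 1)).re + (Cfsg.classInner (fun x : H₂ => χ x) (fun _ => 1)).re) : H₁ ⊔ H₂ ≠ ⊤ := by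
  intro htop
  have hχ' := hχ
  obtain ⟨n, ρ, hρ, rfl⟩ := hχ
  have key : ∀ (H : Subgroup G) [Fintype H], Cfsg.classInner (fun x : H => ρ.character x)
      (fun _ => 1) = Module.finrank ℂ (Representation.invariants (ρ.comp H.subtype)) :=
    fun H _ => Char.classInner_character_one (ρ.comp H.subtype)
  rw [key, key, key] at hlt
  simp only [Complex.natCast_re] at hlt
  set U₁ := Representation.invariants (ρ.comp H₁.subtype)
  set U₂ := Representation.invariants (ρ.comp H₂.subtype)
  have h1 : U₁ ⊔ U₂ ≤ Representation.invariants (ρ.comp (H₁ ⊓ H₂).subtype) :=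
    sup_le (fun v hv g => hv ⟨g, g.2.1⟩) (fun v hv g => hv ⟨g, g.2.2⟩)
  have h2 := Submodule.finrank_mono h1
  have h3 := Submodule.finrank_sup_add_finrank_inf_eq U₁ U₂
  have h4 : U₁ ⊓ U₂ ≤ ρ.invariants := by
    rintro v ⟨hv1, hv2⟩ g
    let S : Subgroup G := (MulAction.stabilizer (Module.End ℂ (Fin n → ℂ))ˣ v).comap ρ.toHomUnits
    have : H₁ ⊔ H₂ ≤ S := sup_le (fun g hg => hv1 ⟨g, hg⟩) (fun g hg => hv2 ⟨g, hg⟩)
    exact this (htop ▸ Subgroup.mem_top g)
  have h5 := Submodule.finrank_mono h4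
  have h6 := Char.classInner_character_one ρ
  rw [Char.Cfsg.IsIrrCharacter.inner_eq_zero hχ' Char.isIrrCharacter_one hχ1] at h6
  have h7 : 0 = Module.finrank ℂ ρ.invariants := by exact_mod_cast h6
  have h8 : Module.finrank ℂ (Representation.invariants (ρ.comp (H₁ ⊓ H₂).subtype)) <
      Module.finrank ℂ U₁ + Module.finrank ℂ U₂ := by exact_mod_cast hlt
  omega

end Cfsg.Agent.S0192
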