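import Cfsg.Statements.S0208
import Mathlib
import Cfsg.Agent.Inv.Count
-- import your own Cfsg.Agent.* helpers here

set_option autoImplicit false
open Cfsg

namespace Cfsg.Agent.S0208
open Cfsg.Agent.Inv.Count

/-- If x, y are involutions and xy has odd order, then some element of the subgroup generated by x and y conjugates x to y. -/
theorem result {G : Type*} [Group G] [Finite G] (x y : G) (hx : orderOf x = 2) (hy : orderOf y = 2) (hodd : Odd (orderOf (x * y))) : ∃ d ∈ Subgroup.closure ({x, y} : Set G), d * x * d⁻¹ = y := by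
  obtain ⟨k, hk⟩ := exists_pow_conj_of_odd (mul_self_of_orderOf hx) (mul_self_of_orderOf hy) hodd
  refine ⟨((x * y) ^ k)⁻¹, ?_, ?_⟩
  · refine Subgroup.inv_mem _ (Subgroup.pow_mem _ (Subgroup.mul_mem _ ?_ ?_) _)
    · exact Subgroup.subset_closure (by simp)
    · exact Subgroup.subset_closure (by simp)
  · generalize (x * y) ^ k = a at hk
    rw [← hk]; group

end Cfsg.Agent.S0208
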