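import Cfsg.Statements.S0210
import Mathlib
import Cfsg.Agent.Inv.Dihedral
-- import your own Cfsg.Agent.* helpers here

set_option autoImplicit false
open Cfsg

namespace Cfsg.Agent.S0210
open Cfsg.Agent.Inv.Count Cfsg.Agent.Inv.Dihedral

/-- If x, y are involutions whose product has even order, no element of the subgroup generated by x and y conjugates x to y. -/
theorem result {G : Type*} [Group G] [Finite G] (x y : G) (hx : orderOf x = 2) (hy : orderOf y = 2) (heven : Even (orderOf (x * y))) (d : G) (hd : d ∈ Subgroup.closure ({x, y} : Set G)) : d * x * d⁻¹ ≠ y := by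
  have hx2 := mul_self_of_orderOf hx
  have hy2 := mul_self_of_orderOf hy
  obtain ⟨k, hk⟩ := conj_in_closure_pair hx2 hy2 hd
  rw [hk]
  intro h
  have h1 : (x * y) ^ (2 * k - 1) = 1 := by
    rw [zpow_sub, zpow_one, mul_inv_eq_one]
    nth_rewrite 2 [← h]
    rw [← mul_assoc, hx2, one_mul]
  rw [← orderOf_dvd_iff_zpow_eq_one] at h1
  obtain ⟨m, hm⟩ := heven
  obtain ⟨c, hc⟩ := h1
  rw [hm] at hc
  push_cast at hc
  have : 2 * (k - m * c) = 1 := by linarith
  omega

end Cfsg.Agent.S0210
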