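import Cfsg.Statements.S0211
import Mathlib
import Cfsg.Agent.Inv.Dihedral
-- import your own Cfsg.Agent.* helpers here

set_option autoImplicit false
open Cfsg

namespace Cfsg.Agent.S0211
open Cfsg.Agent.Inv.Count Cfsg.Agent.Inv.Dihedral

/-- Let x, y be involutions with xy of even order n and z = (xy)^(n/2). Then xz is conjugate to x by an element of the subgroup generated by x, y if and only if 4 divides n. -/
theorem result {G : Type*} [Group G] [Finite G] (x y : G) (hx : orderOf x = 2) (hy : orderOf y = 2) (heven : Even (orderOf (x * y))) : (∃ d ∈ Subgroup.closure ({x, y} : Set G), d * x * d⁻¹ = x * (x * y) ^ (orderOf (x * y) / 2)) ↔ 4 ∣ orderOf (x * y) := by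
  have hx2 := mul_self_of_orderOf hx
  have hy2 := mul_self_of_orderOf hy
  obtain ⟨m, hm⟩ := heven
  have hm2 : orderOf (x * y) / 2 = m := by omega
  rw [hm2]
  constructor
  · rintro ⟨d, hd, h⟩
    obtain ⟨k, hk⟩ := conj_in_closure_pair hx2 hy2 hd
    rw [hk] at h
    have h1 : (x * y) ^ (2 * k - m) = 1 := by
      rw [zpow_sub, zpow_natCast, mul_inv_eq_one]
      exact mul_left_cancel h
    rw [← orderOf_dvd_iff_zpow_eq_one] at h1
    obtain ⟨c, hc⟩ := h1
    rw [hm] at hc
    push_cast at hc
    have : 2 * (k - m * c) = m := by linarith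
    omega
  · rintro ⟨k, hk⟩
    have hmk : m = 2 * k := by omega
    refine ⟨((x * y) ^ (k : ℤ))⁻¹, Subgroup.inv_mem _ (zpowers_mul_le_closure x y
      (Subgroup.zpow_mem _ (Subgroup.mem_zpowers _) _)), ?_⟩
    rw [conj_by_zpow hx2 hy2, hmk, ← zpow_natCast]
    push_cast
    rfl

end Cfsg.Agent.S0211
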