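import Cfsg.Statements.S0212
import Mathlib
import Cfsg.Agent.Inv.BrauerFowler
-- import your own Cfsg.Agent.* helpers here

set_option autoImplicit false
open Cfsg

namespace Cfsg.Agent.S0212
open Cfsg.Agent.Inv.Count Cfsg.Agent.Inv.BrauerFowler

/-- The Brauer–Fowler bound: if G is a finite simple group and t an involution of G whose centralizer has order n, then |G| ≤ (2n^2)!. -/
theorem result {G : Type*} [Group G] [Finite G] [IsSimpleGroup G] (t : G) (ht : orderOf t = 2) : Nat.card G ≤ Nat.factorial (2 * (Nat.card (Subgroup.centralizer ({t} : Set G))) ^ 2) := by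
  set c := Nat.card (Subgroup.centralizer ({t} : Set G)) with hc
  have hc2 : 2 ≤ c := by
    rw [← ht]
    exact Nat.le_of_dvd Nat.card_pos
      (Subgroup.orderOf_dvd_natCard _ (Subgroup.mem_centralizer_singleton_iff.2 rfl))
  by_cases hgt : 2 < Nat.card G
  · obtain ⟨H, hH, hmin⟩ := exists_min_index (G := G)
    have h1 := inequality H.index hmin (index_ne_two_of_simple hgt) (not_mem_center_of_simple hgt)
    have h2 := card_le_mul ht
    rw [← hc] at h2
    have h3 := Nat.le_of_dvd (Nat.factorial_pos _) (card_dvd_factorial_index hH)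
    refine h3.trans (Nat.factorial_le ?_)
    set n := Nat.card {t : G // orderOf t = 2}
    have hn : 0 < n := by
      have : Nonempty {t : G // orderOf t = 2} := ⟨⟨t, ht⟩⟩
      exact Nat.card_pos
    have h4 : Nat.card G * (Nat.card G + n) ≤ (n * c) * (n * c + n) :=
      Nat.mul_le_mul h2 (by omega)
    have h5 : n * n * (2 * H.index) ≤ n * n * (c * (c + 1)) := by nlinarith
    have h6 := Nat.le_of_mul_le_mul_left h5 (Nat.mul_pos hn hn)
    nlinarith
  · have h1 := Nat.self_le_factorial (2 * c ^ 2)
    nlinarith

end Cfsg.Agent.S0212
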