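import Cfsg.Statements.S0226
import Mathlib
import Cfsg.Agent.Inv.Count
-- import your own Cfsg.Agent.* helpers here

set_option autoImplicit false
open Cfsg

namespace Cfsg.Agent.S0226
open Cfsg.Agent.Inv.Count

/-- A finite group of even order has an odd number of involutions. -/
theorem result {G : Type*} [Group G] [Finite G] (heven : Even (Nat.card G)) : Odd (Nat.card {t : G // orderOf t = 2}) := by
  classical
  have := Fintype.ofFinite G
  let f : Function.End G := fun x => x⁻¹
  have hf : f ^ 2 ^ 1 = 1 := by
    funext x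
    show (x⁻¹)⁻¹ = x
    exact inv_inv x
  have h1 := Equiv.Perm.card_fixedPoints_modEq hf
  have h2 : Fintype.card f.fixedPoints = Nat.card {t : G // orderOf t = 2} + 1 := by
    rw [← Finite.card_option, ← Nat.card_eq_fintype_card]
    symm
    refine Nat.card_congr (Equiv.ofBijective (fun o => o.elim ⟨1, inv_one⟩
      (fun t => ⟨t.1, inv_eq_of_orderOf t.2⟩)) ⟨?_, ?_⟩)
    · rintro (_ | a) (_ | b) h
      · rfl
      · have h' := congrArg Subtype.val h
        exact absurd h'.symm (ne_one_of_orderOf b.2)
      · have h' := congrArg Subtype.val h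
        exact absurd h' (ne_one_of_orderOf a.2)
      · have h' := congrArg Subtype.val h
        exact congrArg some (Subtype.ext h')
    · rintro ⟨x, hx⟩
      by_cases h : x = 1
      · exact ⟨none, Subtype.ext h.symm⟩
      · have hx' : x⁻¹ = x := hx
        exact ⟨some ⟨x, orderOf_eq_two_iff.2 ⟨by nth_rewrite 1 [← hx']; group, h⟩⟩, rfl⟩
  rw [h2, ← Nat.card_eq_fintype_card] at h1
  obtain ⟨k, hk⟩ := heven
  rw [Nat.odd_iff]
  unfold Nat.ModEq at h1
  omega

end Cfsg.Agent.S0226
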