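import Cfsg.Statements.S0229
import Mathlib
import Cfsg.Agent.S0209
import Cfsg.Agent.S0211
-- import your own Cfsg.Agent.* helpers here

set_option autoImplicit false
open Cfsg

namespace Cfsg.Agent.S0229
open Cfsg.Agent.Inv.Count

/-- Let t be an involution of a Sylow 2-subgroup S of a finite group G, conjugate in G to no other element of S, and let s be an involution of G not conjugate to t. Then the order of st is twice an odd number. -/
theorem result {G : Type*} [Group G] [Finite G] (S : Sylow 2 G) (t : G) (ht : orderOf t = 2) (htS : t ∈ S) (hiso : ∀ g : G, g * t * g⁻¹ ∈ S → g * t * g⁻¹ = t) (s : G) (hs : orderOf s = 2) (hns : ¬ IsConj s t) : orderOf (s * t) % 4 = 2 := by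
  have hs2 := mul_self_of_orderOf hs
  have ht2 := mul_self_of_orderOf ht
  have hst : orderOf (s * t) = orderOf (t * s) := by
    rw [← orderOf_conj t (s * t)]; congr 1; group
  have heven : Even (orderOf (t * s)) := by
    rw [← hst]; exact even_orderOf_mul_of_not_isConj hs2 ht2 hns
  rw [hst]
  by_contra hne
  have h4 : 4 ∣ orderOf (t * s) := by
    obtain ⟨k, hk⟩ := heven
    omega
  obtain ⟨d, -, hd⟩ := (S0211.result t s ht hs heven).2 h4
  obtain ⟨hz, hzt, -⟩ := S0209.result t s ht hs heven
  set z := (t * s) ^ (orderOf (t * s) / 2) with hzdef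
  have hz2 := mul_self_of_orderOf hz
  have hP : IsPGroup 2 (Subgroup.closure ({t, z} : Set G)) := by
    by_cases htz : t = z
    · rw [← htz, mul_self_of_orderOf ht] at hd
      have : t = 1 := by
        have := orderOf_conj d t
        rw [hd, orderOf_one, ht] at this
        omega
      exact absurd this (ne_one_of_orderOf ht)
    have h1 := Inv.Dihedral.card_closure_pair ht hz htz
    have h2 : orderOf (t * z) = 2 := by rw [← hd, orderOf_conj, ht]
    rw [h2] at h1
    exact IsPGroup.of_card (n := 2) h1
  obtain ⟨Q, hQ⟩ := hP.exists_le_sylow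
  obtain ⟨g, hg⟩ := MulAction.exists_smul_eq G Q S
  have hmem : ∀ x ∈ Subgroup.closure ({t, z} : Set G), g * x * g⁻¹ ∈ S := by
    intro x hx
    rw [← hg]
    exact Subgroup.smul_mem_pointwise_smul x (MulAut.conj g) (Q : Subgroup G) (hQ hx)
  have htm : t ∈ Subgroup.closure ({t, z} : Set G) := Subgroup.subset_closure (by simp)
  have hzm : z ∈ Subgroup.closure ({t, z} : Set G) := Subgroup.subset_closure (by simp)
  have h1 := hiso g (hmem t htm)
  have h2 := hmem _ (Subgroup.mul_mem _ htm hzm)
  have h3 : g * (t * z) * g⁻¹ = (g * d) * t * (g * d)⁻¹ := by rw [← hd]; group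
  rw [h3] at h2
  have h5 := hiso _ h2
  rw [← h3] at h5
  have h6 : g * (t * z) * g⁻¹ = g * t * g⁻¹ := by rw [h5, h1]
  have h7 : t * z = t := mul_left_cancel (mul_right_cancel h6)
  exact ne_one_of_orderOf hz (mul_eq_left.1 h7)

end Cfsg.Agent.S0229
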