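import Cfsg.Statements.S0230
import Mathlib
import Cfsg.Agent.Inv.Count
-- import your own Cfsg.Agent.* helpers here

set_option autoImplicit false
open Cfsg

namespace Cfsg.Agent.S0230
open Cfsg.Agent.Inv.Count

/-- Let G be a finite group with two non-conjugate involutions, and let t be an involution whose centralizer has maximal order among centralizers of involutions. Then |G| < |C_G(t)|^3. -/
theorem result {G : Type*} [Group G] [Finite G] (s t : G) (hs : orderOf s = 2) (ht : orderOf t = 2) (hnc : ¬ IsConj s t) (hmax : ∀ u : G, orderOf u = 2 → Nat.card (Subgroup.centralizer ({u} : Set G)) ≤ Nat.card (Subgroup.centralizer ({t} : Set G))) : Nat.card G < Nat.card (Subgroup.centralizer ({t} : Set G)) ^ 3 := by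
  classical
  have := Fintype.ofFinite G
  set c := Nat.card (Subgroup.centralizer ({t} : Set G)) with hc
  let I : Finset G := Finset.univ.filter (fun z => orderOf z = 2 ∧ Commute z t)
  let A : Finset G := Finset.univ.filter (fun u => IsConj s u)
  have hsub : A ⊆ I.biUnion (fun z => Finset.univ.filter
      (fun u => u ∈ Subgroup.centralizer ({z} : Set G))) := by
    intro u hu
    simp only [A, Finset.mem_filter, Finset.mem_univ, true_and] at hu
    have hu2 : orderOf u = 2 := by rw [← orderOf_of_isConj hu, hs]
    have hne : ¬ IsConj u t := fun h => hnc (hu.trans h)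
    obtain ⟨z, -, hz, hzu, hzt⟩ := exists_central_involution (mul_self_of_orderOf hu2)
      (mul_self_of_orderOf ht) (even_orderOf_mul_of_not_isConj (mul_self_of_orderOf hu2)
      (mul_self_of_orderOf ht) hne)
    simp only [I, Finset.mem_biUnion, Finset.mem_filter, Finset.mem_univ, true_and]
    exact ⟨z, ⟨hz, hzt⟩, Subgroup.mem_centralizer_singleton_iff.2 hzu.symm.eq⟩
  have h1 : A.card ≤ I.card * c := by
    refine (Finset.card_le_card hsub).trans (Finset.card_biUnion_le_card_mul _ _ _ ?_)
    intro z hz
    simp only [I, Finset.mem_filter, Finset.mem_univ, true_and] at hz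
    have := hmax z hz.1
    rwa [Nat.card_eq_fintype_card, Fintype.card_subtype] at this
  have h2 : I.card < c := by
    rw [hc, Nat.card_eq_fintype_card, Fintype.card_subtype]
    apply Finset.card_lt_card
    rw [Finset.ssubset_iff_of_subset]
    · refine ⟨1, by simp, ?_⟩
      simp [I]
    · intro z hz
      simp only [I, Finset.mem_filter, Finset.mem_univ, true_and] at hz ⊢
      exact Subgroup.mem_centralizer_singleton_iff.2 hz.2.eq
  have h3 := card_isConj_mul_card_centralizer s
  have h4 : Nat.card {y : G // IsConj s y} = A.card := by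
    rw [Nat.card_eq_fintype_card, Fintype.card_subtype]
  have h5 := hmax s hs
  have hcpos : 0 < c := Nat.card_pos
  rw [← h3, h4]
  calc A.card * Nat.card (Subgroup.centralizer ({s} : Set G)) ≤ (I.card * c) * c :=
        Nat.mul_le_mul h1 h5
    _ < (c * c) * c := Nat.mul_lt_mul_of_pos_right (Nat.mul_lt_mul_of_pos_right h2 hcpos) hcpos
    _ = c ^ 3 := by ring

end Cfsg.Agent.S0230
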