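import Cfsg.Statements.S0231
import Mathlib
import Cfsg.Agent.Inv.StrongEmb

set_option autoImplicit false
open scoped Pointwise
open Cfsg

namespace Cfsg.Agent.S0231

/-- Let T be a Sylow 2-subgroup of the finite group G which is not normal and which intersects every other Sylow 2-subgroup trivially. Then G has a single conjugacy class of involutions. -/
theorem result {G : Type*} [Group G] [Finite G] (T : Sylow 2 G) (hnn : ¬ (T : Subgroup G).Normal) (hTI : ∀ g : G, MulAut.conj g • (T : Subgroup G) ≠ T → MulAut.conj g • (T : Subgroup G) ⊓ T = ⊥) (s t : G) (hs : orderOf s = 2) (ht : orderOf t = 2) : IsConj s t := by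
  have hev : 2 ∣ Nat.card G := hs ▸ orderOf_dvd_natCard s
  obtain ⟨u, huT, hu⟩ := Inv.exists_involution_of_isPGroup T.isPGroup' (T.ne_bot_of_dvd_card hev)
  have hmem : ∀ x ∈ Subgroup.normalizer ((T : Subgroup G) : Set G), orderOf x = 2 →
      x ∈ (T : Subgroup G) := by
    intro x hx hx2
    have := (Inv.isPGroup_zpowers_of_orderOf_two hx2).inf_normalizer_sylow T
    have h1 : x ∈ Subgroup.zpowers x ⊓ (T : Subgroup G) := this ▸ ⟨Subgroup.mem_zpowers x, hx⟩
    exact h1.2
  have hSE : IsStronglyEmbedded (Subgroup.normalizer ((T : Subgroup G) : Set G)) := by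
    rw [Inv.isStronglyEmbedded_iff]
    refine ⟨by rwa [Ne, Subgroup.normalizer_eq_top_iff],
      Inv.even_card_of_involution (Subgroup.le_normalizer huT) hu, fun x hx hx2 g hg => ?_⟩
    rw [Subgroup.mem_normalizer_iff_map_conj_eq]
    by_contra hne
    have h1 : g * x * g⁻¹ ∈ MulAut.conj g • (T : Subgroup G) ⊓ T :=
      ⟨Inv.conj_mem_map_conj g (hmem x hx hx2), hmem _ hg (by rw [Inv.orderOf_conj, hx2])⟩
    rw [hTI g hne, Subgroup.mem_bot] at h1
    exact Inv.ne_one_of_orderOf_two (by rw [Inv.orderOf_conj, hx2]) h1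
  exact Inv.SE.isConj hSE hs ht

end Cfsg.Agent.S0231
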