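import Cfsg.Statements.S0232
import Mathlib
import Cfsg.Agent.Inv.BrauerFowler
-- import your own Cfsg.Agent.* helpers here

set_option autoImplicit false
open Cfsg

namespace Cfsg.Agent.S0232
open Cfsg.Agent.Inv.Count Cfsg.Agent.Inv.BrauerFowler

/-- A finite group G of even order greater than 2 has a proper subgroup H with |G| < |H|^3. -/
theorem result {G : Type*} [Group G] [Finite G] (heven : Even (Nat.card G)) (hgt : 2 < Nat.card G) : ∃ H : Subgroup G, H ≠ ⊤ ∧ Nat.card G < (Nat.card H) ^ 3 := by
  induction hn : Nat.card G using Nat.strong_induction_on generalizing G with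
  | _ n ih =>
  subst hn
  by_cases h2 : ∃ K : Subgroup G, K.index = 2
  · obtain ⟨K, hK⟩ := h2
    refine ⟨K, ?_, ?_⟩
    · rintro rfl
      rw [Subgroup.index_top] at hK
      omega
    · have h1 := K.index_mul_card
      rw [hK] at h1
      rw [← h1] at hgt ⊢
      have h3 : 2 ≤ Nat.card K := by omega
      have h4 : 2 * 2 ≤ Nat.card K * Nat.card K := Nat.mul_le_mul h3 h3
      nlinarith
  push Not at h2
  by_cases hZ : ∃ z : G, orderOf z = 2 ∧ z ∈ Subgroup.center G
  · obtain ⟨z, hz, hzZ⟩ := hZ
    have hN : (Subgroup.zpowers z).Normal := by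
      constructor
      intro n hn g
      have h1 : n ∈ Subgroup.center G := (Subgroup.zpowers_le.2 hzZ) hn
      rw [Subgroup.mem_center_iff.1 h1 g, mul_inv_cancel_right]
      exact hn
    set N := Subgroup.zpowers z with hNdef
    have hNc : Nat.card N = 2 := by rw [hNdef, Nat.card_zpowers, hz]
    have hq : Nat.card (G ⧸ N) * 2 = Nat.card G := by
      rw [← hNc, ← Subgroup.index_eq_card, N.index_mul_card]
    rcases Nat.even_or_odd (Nat.card (G ⧸ N)) with he | ho
    · have hq2 : 2 < Nat.card (G ⧸ N) := by
        have := h2 N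
        rw [Subgroup.index_eq_card] at this
        obtain ⟨k, hk⟩ := he
        omega
      obtain ⟨K, hK, hKc⟩ := ih _ (by omega) he hq2 rfl
      refine ⟨K.comap (QuotientGroup.mk' N), ?_, ?_⟩
      · intro h
        apply hK
        rw [← Subgroup.index_eq_one, ← K.index_comap_of_surjective (QuotientGroup.mk'_surjective N),
          h, Subgroup.index_top]
      · have h3 := (K.comap (QuotientGroup.mk' N)).index_mul_card
        rw [K.index_comap_of_surjective (QuotientGroup.mk'_surjective N), ← hq,
          ← K.index_mul_card, mul_assoc] at h3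
        have h4 := Nat.eq_of_mul_eq_mul_left (Nat.pos_of_ne_zero Subgroup.index_ne_zero_of_finite) h3
        rw [h4, ← hq, mul_pow]
        omega
    · obtain ⟨K, hK⟩ := Subgroup.exists_right_complement'_of_coprime (N := N) (by
        rw [hNc, Subgroup.index_eq_card]
        exact Nat.coprime_two_left.2 ho)
      exact absurd (hK.index_eq_card.trans hNc) (h2 K)
  · push Not at hZ
    obtain ⟨t, ht⟩ := exists_involution heven
    have : Nontrivial G := ⟨⟨t, 1, ne_one_of_orderOf ht⟩⟩
    obtain ⟨H, hH, hmin⟩ := exists_min_index (G := G)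
    refine ⟨H, hH, ?_⟩
    have h1 := inequality H.index hmin h2 hZ
    have h3 := card_le_mul ht
    have h4 : Subgroup.centralizer ({t} : Set G) ≠ ⊤ := by
      intro h
      apply hZ t ht
      rw [Subgroup.mem_center_iff]
      intro g
      exact Subgroup.mem_centralizer_singleton_iff.1 (h ▸ Subgroup.mem_top g)
    have h5 := hmin _ h4
    have h6 := H.index_mul_card
    have h7 := (Subgroup.centralizer ({t} : Set G)).index_mul_card
    have hi : 0 < H.index := Nat.pos_of_ne_zero Subgroup.index_ne_zero_of_finite
    set c := Nat.card (Subgroup.centralizer ({t} : Set G))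
    set h := Nat.card H
    have h8 : c ≤ h := by
      have : H.index * c ≤ H.index * h := by
        rw [h6, ← h7]; exact Nat.mul_le_mul_right _ h5
      exact Nat.le_of_mul_le_mul_left this hi
    set n := Nat.card {t : G // orderOf t = 2}
    have hn : 0 < n := by
      have : Nonempty {t : G // orderOf t = 2} := ⟨⟨t, ht⟩⟩
      exact Nat.card_pos
    have h9 : Nat.card G ≤ n * h := h3.trans (Nat.mul_le_mul_left _ h8)
    have h10 : Nat.card G * (Nat.card G + n) ≤ (n * h) * (n * h + n) :=
      Nat.mul_le_mul h9 (by omega)
    have h11 : n * n * (2 * H.index) < n * n * (h * (h + 1)) := by nlinarith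
    have h12 := Nat.lt_of_mul_lt_mul_left h11
    have hh : 0 < h := Nat.card_pos
    have h13 : H.index < h * h := by nlinarith
    rw [← h6]
    calc H.index * h < h * h * h := Nat.mul_lt_mul_of_pos_right h13 hh
      _ = h ^ 3 := by ring

end Cfsg.Agent.S0232
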