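import Cfsg.Statements.S0234
import Mathlib
import Cfsg.Agent.Inv.BrauerFowler
-- import your own Cfsg.Agent.* helpers here

set_option autoImplicit false
open Cfsg

namespace Cfsg.Agent.S0234
open Cfsg.Agent.Inv.Count Cfsg.Agent.Inv.BrauerFowler

theorem card_inv_A5 : (Finset.univ.filter (fun σ : Equiv.Perm (Fin 5) =>
    σ * σ = 1 ∧ σ ≠ 1 ∧ Equiv.Perm.sign σ = 1)).card = 15 := by
  decide +kernel


/-- In a finite simple group G of even order greater than 2, the number n of involutions satisfies 3n < |G|. -/
theorem result {G : Type*} [Group G] [Finite G] [IsSimpleGroup G] (heven : Even (Nat.card G)) (hgt : 2 < Nat.card G) : 3 * Nat.card {t : G // orderOf t = 2} < Nat.card G := by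
  classical
  have := Fintype.ofFinite G
  by_contra hlt
  push Not at hlt
  obtain ⟨t, ht⟩ := exists_involution heven
  obtain ⟨H, hH, hmin⟩ := exists_min_index (G := G)
  have h2 := index_ne_two_of_simple hgt
  have h1 := inequality H.index hmin h2 (not_mem_center_of_simple hgt)
  set n := Nat.card {t : G // orderOf t = 2} with hndef
  have hn : 0 < n := by
    have : Nonempty {t : G // orderOf t = 2} := ⟨⟨t, ht⟩⟩
    exact Nat.card_pos
  have h4 : Nat.card G * (Nat.card G + n) ≤ (3 * n) * (3 * n + n) :=
    Nat.mul_le_mul hlt (by omega)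
  have h5 : n * n * H.index < n * n * 6 := by nlinarith
  have h6 := Nat.lt_of_mul_lt_mul_left h5
  have hdvd := card_dvd_factorial_index hH
  have hi1 : H.index ≠ 1 := fun h => hH (Subgroup.index_eq_one.1 h)
  have hi0 : H.index ≠ 0 := Subgroup.index_ne_zero_of_finite
  have hi2 := h2 H
  have hidvd := H.index_dvd_card
  -- Sylow subgroups are proper
  have hsyl : ∀ (p : ℕ) [Fact p.Prime] (P : Sylow p G), (P : Subgroup G) ≠ ⊤ := by
    intro p _ P hP
    have hG : IsPGroup p G := by
      have := P.isPGroup'
      rw [hP] at this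
      exact this.of_surjective (⊤ : Subgroup G).subtype (fun g => ⟨⟨g, trivial⟩, rfl⟩)
    have hc := hG.center_nontrivial
    have hZ : Subgroup.center G = ⊤ := by
      rcases (Subgroup.normal_of_characteristic (Subgroup.center G)).eq_bot_or_eq_top with h | h
      · rw [h] at hc
        exact absurd hc (not_nontrivial _)
      · exact h
    exact not_mem_center_of_simple hgt t ht (hZ ▸ Subgroup.mem_top t)
  have hsyl2 : ∀ (p : ℕ) [Fact p.Prime] (k : ℕ), p ^ k ∣ Nat.card G →
      H.index * p ^ k ≤ Nat.card G := by
    intro p _ k hk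
    obtain ⟨P⟩ : Nonempty (Sylow p G) := inferInstance
    have h7 := hmin _ (hsyl p P)
    have h8 := Nat.le_of_dvd Nat.card_pos (P.pow_dvd_card_of_pow_dvd_card hk)
    rw [← (P : Subgroup G).index_mul_card]
    exact Nat.mul_le_mul h7 h8
  have f3 : Fact (Nat.Prime 3) := ⟨by norm_num⟩
  have f5 : Fact (Nat.Prime 5) := ⟨by norm_num⟩
  -- the permutation representation has even image
  have hcore : H.normalCore = ⊥ := by
    rcases H.normalCore_normal.eq_bot_or_eq_top with h | h
    · exact h
    · exact absurd (top_le_iff.1 (h ▸ H.normalCore_le)) hH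
  have hinj : Function.Injective (MulAction.toPermHom G (G ⧸ H)) := by
    rw [← MonoidHom.ker_eq_bot_iff, ← Subgroup.normalCore_eq_ker, hcore]
  have hF : Fintype.card (G ⧸ H) = H.index := by
    rw [← Nat.card_eq_fintype_card, Subgroup.index_eq_card]
  let φ : G →* Equiv.Perm (Fin H.index) :=
    (Fintype.equivFinOfCardEq hF).permCongrHom.toMonoidHom.comp (MulAction.toPermHom G (G ⧸ H))
  have hφ : Function.Injective φ :=
    (Fintype.equivFinOfCardEq hF).permCongrHom.injective.comp hinj
  have hsign : ∀ g, Equiv.Perm.sign (φ g) = 1 := by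
    have hk : (Equiv.Perm.sign.comp φ).ker = ⊤ := by
      rcases (MonoidHom.normal_ker (Equiv.Perm.sign.comp φ)).eq_bot_or_eq_top with h | h
      · have := Nat.card_le_card_of_injective _ ((MonoidHom.ker_eq_bot_iff _).1 h)
        rw [Nat.card_eq_fintype_card (α := ℤˣ), Fintype.card_units_int] at this
        omega
      · exact h
    intro g
    exact (MonoidHom.mem_ker (f := Equiv.Perm.sign.comp φ)).1 (hk ▸ Subgroup.mem_top g)
  have hNt : Nontrivial (Fin H.index) := Fin.nontrivial_iff_two_le.2 (by omega)
  have hdvd2 : 2 * Nat.card G ∣ H.index.factorial := by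
    have h7 : φ.range ≤ alternatingGroup (Fin H.index) := by
      rintro _ ⟨g, rfl⟩
      exact Equiv.Perm.mem_alternatingGroup.2 (hsign g)
    have h8 := Subgroup.card_dvd_of_le h7
    rw [← Nat.card_congr (MonoidHom.ofInjective hφ).toEquiv] at h8
    have h9 := two_mul_nat_card_alternatingGroup (α := Fin H.index)
    rw [Nat.card_perm, Nat.card_eq_fintype_card (α := Fin H.index), Fintype.card_fin] at h9
    rw [← h9]
    exact Nat.mul_dvd_mul_left 2 h8
  obtain ⟨k, hk⟩ := heven
  have hcase : H.index = 3 ∨ H.index = 4 ∨ H.index = 5 := by omega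
  rcases hcase with h | h | h
  · rw [h] at hdvd2
    have := Nat.le_of_dvd (by norm_num [Nat.factorial]) hdvd2
    rw [show Nat.factorial 3 = 6 from rfl] at this
    omega
  · have h7 := hsyl2 2 2 (by rw [h] at hidvd; exact hidvd)
    rw [h] at hdvd2 h7
    have := Nat.le_of_dvd (by norm_num [Nat.factorial]) hdvd2
    rw [show Nat.factorial 4 = 24 from rfl] at this
    omega
  · have h7 := hsyl2 5 1 (by rw [h] at hidvd; exact hidvd)
    have hn15 : n ≤ 15 := by
      clear_value φ
      revert φ
      rw [h]
      intro φ hφ hsign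
      rw [← card_inv_A5, ← Fintype.card_subtype, ← Nat.card_eq_fintype_card]
      refine Nat.card_le_card_of_injective (fun s => ⟨φ s.1, ?_, ?_, hsign _⟩) ?_
      · rw [← map_mul, mul_self_of_orderOf s.2, map_one]
      · intro h1
        exact ne_one_of_orderOf s.2 (hφ (h1.trans (map_one φ).symm))
      · intro a b hab
        have h' := congrArg Subtype.val hab
        exact Subtype.ext (hφ h')
    rw [h] at hdvd2 h7 hidvd
    have h60 : Nat.card G ∣ 60 := by
      have : Nat.factorial 5 = 2 * 60 := by norm_num [Nat.factorial]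
      rw [this] at hdvd2
      exact Nat.dvd_of_mul_dvd_mul_left (by norm_num) hdvd2
    have h30 : Nat.card G = 30 := by
      have h8 : Nat.card G ≤ 45 := by omega
      have h9 : 25 ≤ Nat.card G := by omega
      generalize Nat.card G = g at *
      interval_cases g <;> omega
    obtain ⟨P⟩ : Nonempty (Sylow 2 G) := inferInstance
    have hPc : Nat.card P = 2 := by
      rw [P.card_eq_multiplicity, h30]
      have : (30 : ℕ) = 2 * 15 := by norm_num
      rw [this, Nat.factorization_mul (by norm_num) (by norm_num), Nat.Prime.factorization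
        Nat.prime_two]
      simp [Nat.factorization_eq_zero_of_not_dvd]
    have hcyc : IsCyclic P := isCyclic_of_prime_card hPc
    have := (hcyc.isComplement' (by rw [h30]; norm_num)).symm.index_eq_card
    exact h2 _ (this.trans hPc)

end Cfsg.Agent.S0234
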