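import Cfsg.Statements.S0235
import Mathlib
import Cfsg.Agent.Inv.Count
-- import your own Cfsg.Agent.* helpers here

set_option autoImplicit false
open Cfsg

namespace Cfsg.Agent.S0235
open Cfsg.Agent.Inv.Count

/-- If x² ≠ 1, the ordered pairs (u, v) of involutions with uv = x correspond bijectively to the involutions t with t x t⁻¹ = x⁻¹ (via (u, v) ↦ u), so the two counts agree. -/
theorem result {G : Type*} [Group G] [Finite G] (x : G) (hx : x ^ 2 ≠ 1) : Nat.card {p : G × G // orderOf p.1 = 2 ∧ orderOf p.2 = 2 ∧ p.1 * p.2 = x} = Nat.card {t : G // orderOf t = 2 ∧ t * x * t⁻¹ = x⁻¹} := by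
  refine Nat.card_congr ⟨fun p => ⟨p.1.1, p.2.1, ?_⟩, fun t => ⟨(t.1, t.1 * x), t.2.1, ?_, ?_⟩, ?_, ?_⟩
  · obtain ⟨⟨u, v⟩, hu, hv, rfl⟩ := p
    exact conj_mul_eq_inv (mul_self_of_orderOf hu) (mul_self_of_orderOf hv)
  · refine orderOf_eq_two_iff.2 ⟨mul_self_of_inverts (mul_self_of_orderOf t.2.1) t.2.2, ?_⟩
    intro h
    apply hx
    have h1 : x = t.1⁻¹ := eq_inv_of_mul_eq_one_right h
    rw [h1, inv_eq_of_orderOf t.2.1, pow_two, mul_self_of_orderOf t.2.1]
  · show t.1 * (t.1 * x) = x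
    rw [← mul_assoc, mul_self_of_orderOf t.2.1, one_mul]
  · rintro ⟨⟨u, v⟩, hu, hv, rfl⟩
    ext
    · rfl
    · show u * (u * v) = v
      rw [← mul_assoc, mul_self_of_orderOf hu, one_mul]
  · rintro ⟨t, ht⟩
    rfl

end Cfsg.Agent.S0235
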