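import Cfsg.Statements.S0239
import Mathlib
import Cfsg.Agent.Inv.Count
-- import your own Cfsg.Agent.* helpers here

set_option autoImplicit false
open Cfsg

namespace Cfsg.Agent.S0239
open Cfsg.Agent.Inv.Count

/-- If some nontrivial element x of a finite group G is conjugate to x⁻¹, then |G| is even. -/
theorem result {G : Type*} [Group G] [Finite G] (x : G) (hx : x ≠ 1) (hreal : IsConj x x⁻¹) : Even (Nat.card G) := by
  obtain ⟨c, hc⟩ := isConj_iff.1 hreal
  by_contra hodd
  rw [Nat.not_even_iff_odd] at hodd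
  have hoc : Odd (orderOf c) := Odd.of_dvd_nat hodd (orderOf_dvd_natCard c)
  have hox : Odd (orderOf x) := Odd.of_dvd_nat hodd (orderOf_dvd_natCard x)
  have h2 : Commute (c * c) x := by
    have h3 : c * x⁻¹ * c⁻¹ = x := by rw [← conj_inv, hc, inv_inv]
    have h4 : c * c * x * (c * c)⁻¹ = x := by
      calc c * c * x * (c * c)⁻¹ = c * (c * x * c⁻¹) * c⁻¹ := by group
        _ = x := by rw [hc, h3]
    exact mul_inv_eq_iff_eq_mul.1 h4
  obtain ⟨k, hk⟩ := hoc
  have h5 : c = (c * c) ^ (k + 1) := by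
    rw [← pow_two, ← pow_mul, show 2 * (k + 1) = (2 * k + 1) + 1 by ring, pow_succ, ← hk,
      pow_orderOf_eq_one, one_mul]
  have h6 : Commute c x := by rw [h5]; exact h2.pow_left _
  have h7 : x = x⁻¹ := by rw [← hc, h6.eq]; group
  have h8 : orderOf x = 2 := orderOf_eq_two_iff.2 ⟨by nth_rewrite 1 [h7]; group, hx⟩
  rw [h8] at hox
  exact absurd hox (by decide)

end Cfsg.Agent.S0239
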