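import Cfsg.Statements.S0240
import Mathlib
import Cfsg.Agent.Inv.Count
-- import your own Cfsg.Agent.* helpers here

set_option autoImplicit false
open Cfsg

namespace Cfsg.Agent.S0240
open Cfsg.Agent.Inv.Count

/-- Let G be a finite group with n involutions and H a subgroup with |H|·(n+1) > |G|. Then some nontrivial h ∈ H is strongly real in G: an involution t of G satisfies t h t⁻¹ = h⁻¹. -/
theorem result {G : Type*} [Group G] [Finite G] (H : Subgroup G) (hH : Nat.card G < Nat.card H * (Nat.card {t : G // orderOf t = 2} + 1)) : ∃ h : G, h ∈ H ∧ h ≠ 1 ∧ ∃ t : G, orderOf t = 2 ∧ t * h * t⁻¹ = h⁻¹ := by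
  have h1 : H.index < Nat.card {t : G // orderOf t = 2} + 1 := by
    rw [← H.index_mul_card, mul_comm] at hH
    exact Nat.lt_of_mul_lt_mul_left hH
  let f : Option {t : G // orderOf t = 2} → G := fun o => o.elim 1 Subtype.val
  have hf : Function.Injective f := by
    rintro (_ | a) (_ | b) h
    · rfl
    · exact absurd h.symm (ne_one_of_orderOf b.2)
    · exact absurd h (ne_one_of_orderOf a.2)
    · exact congrArg some (Subtype.ext h)
  have hf2 : ∀ o, f o * f o = 1 := by
    rintro (_ | a)
    · exact one_mul 1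
    · exact mul_self_of_orderOf a.2
  have h2 : ¬ Function.Injective (fun o => (QuotientGroup.mk (f o) : G ⧸ H)) := by
    intro hinj
    have := Nat.card_le_card_of_injective _ hinj
    rw [Finite.card_option] at this
    rw [Subgroup.index] at h1
    omega
  simp only [Function.Injective, not_forall] at h2
  obtain ⟨a, b, hab, hne⟩ := h2
  have h3 : (f a)⁻¹ * f b ∈ H := QuotientGroup.eq.1 hab
  rw [inv_eq_of_mul_eq_one_right (hf2 a)] at h3
  have h4 : f a * f b ≠ 1 := by
    intro h
    apply hne
    apply hf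
    exact mul_left_cancel ((hf2 a).trans h.symm)
  by_cases ha : f a = 1
  · have hb : f b ≠ 1 := fun h => h4 (by rw [ha, h, one_mul])
    rw [ha, one_mul] at h3
    refine ⟨f b, h3, hb, f b, orderOf_eq_two_iff.2 ⟨hf2 b, hb⟩, ?_⟩
    rw [hf2 b, one_mul]
  · exact ⟨_, h3, h4, f a, orderOf_eq_two_iff.2 ⟨hf2 a, ha⟩, conj_mul_eq_inv (hf2 a) (hf2 b)⟩

end Cfsg.Agent.S0240
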