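import Cfsg.Statements.S0241
import Mathlib
import Cfsg.Agent.Inv.Count
-- import your own Cfsg.Agent.* helpers here

set_option autoImplicit false
open Cfsg

namespace Cfsg.Agent.S0241
open Cfsg.Agent.Inv.Count

/-- If x ≠ 1 is conjugate to x⁻¹ in a finite group G and |C_G(x)| is odd, then some involution t satisfies t x t⁻¹ = x⁻¹. -/
theorem result {G : Type*} [Group G] [Finite G] (x : G) (hx : x ≠ 1) (hreal : IsConj x x⁻¹) (hodd : Odd (Nat.card (Subgroup.centralizer ({x} : Set G)))) : ∃ t : G, orderOf t = 2 ∧ t * x * t⁻¹ = x⁻¹ := by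
  obtain ⟨c, hc⟩ := isConj_iff.1 hreal
  have hox : Odd (orderOf x) := Odd.of_dvd_nat hodd
    (Subgroup.orderOf_dvd_natCard _ (Subgroup.mem_centralizer_singleton_iff.2 rfl))
  have h3 : c * x⁻¹ * c⁻¹ = x := by rw [← conj_inv, hc, inv_inv]
  have h2 : Commute (c * c) x := by
    have h4 : c * c * x * (c * c)⁻¹ = x := by
      calc c * c * x * (c * c)⁻¹ = c * (c * x * c⁻¹) * c⁻¹ := by group
        _ = x := by rw [hc, h3]
    exact mul_inv_eq_iff_eq_mul.1 h4
  have hoc : Odd (orderOf (c * c)) := Odd.of_dvd_nat hodd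
    (Subgroup.orderOf_dvd_natCard _ (Subgroup.mem_centralizer_singleton_iff.2 h2.eq))
  obtain ⟨k, hk⟩ := hoc
  have h5 : c ^ (2 * k + 1) * x * (c ^ (2 * k + 1))⁻¹ = x⁻¹ := by
    have h6 : Commute ((c * c) ^ k) x := h2.pow_left k
    have h7 : c ^ (2 * k + 1) = c * (c * c) ^ k := by
      rw [← pow_two, ← pow_mul, pow_succ']
    rw [h7]
    calc c * (c * c) ^ k * x * (c * (c * c) ^ k)⁻¹
        = c * ((c * c) ^ k * x) * ((c * c) ^ k)⁻¹ * c⁻¹ := by group
      _ = x⁻¹ := by rw [h6.eq, ← hc]; group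
  refine ⟨c ^ (2 * k + 1), orderOf_eq_two_iff.2 ⟨?_, ?_⟩, h5⟩
  · rw [← (Commute.refl c).mul_pow, ← hk, pow_orderOf_eq_one]
  · intro h
    rw [h, one_mul, inv_one, mul_one] at h5
    have h8 : orderOf x = 2 := orderOf_eq_two_iff.2 ⟨by nth_rewrite 1 [h5]; group, hx⟩
    rw [h8] at hox
    exact absurd hox (by decide)

end Cfsg.Agent.S0241
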