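import Cfsg.Statements.S0257
import Mathlib
import Cfsg.Agent.Class.SmallIso

set_option autoImplicit false
open Cfsg

namespace Cfsg.Agent.S0257

open Matrix

def u : SpecialLinearGroup (Fin 2) (ZMod 3) := ⟨!![0, 2; 1, 0], by decide⟩
def w : SpecialLinearGroup (Fin 2) (ZMod 3) := ⟨!![1, 1; 1, 2], by decide⟩

def f : QuaternionGroup 2 → SpecialLinearGroup (Fin 2) (ZMod 3)
  | .a i => u ^ i.val
  | .xa i => w * u ^ i.val

theorem f_mul : ∀ x y, f (x * y) = f x * f y := by decide +kernel

def φ : QuaternionGroup 2 →* SpecialLinearGroup (Fin 2) (ZMod 3) := MonoidHom.mk' f f_mul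

theorem f_inj : Function.Injective f := by decide +kernel

theorem f_conj : ∀ x, ∀ g : SpecialLinearGroup (Fin 2) (ZMod 3), ∃ y, f y * g = g * f x := by
  decide +kernel

theorem normal : φ.range.Normal := by
  constructor
  rintro _ ⟨x, rfl⟩ g
  obtain ⟨y, hy⟩ := f_conj x g
  exact ⟨y, by rw [eq_mul_inv_iff_mul_eq]; exact hy⟩

/-- SL_2(3) has a normal subgroup of index 3 isomorphic to the quaternion group of order 8, and its centre has order 2. -/
theorem result {F : Type*} [Field F] [Fintype F] (hF : Fintype.card F = 3) : (∃ Q : Subgroup (Matrix.SpecialLinearGroup (Fin 2) F), Q.Normal ∧ Q.index = 3 ∧ Nonempty (Q ≃* QuaternionGroup 2)) ∧ Nat.card (Subgroup.center (Matrix.SpecialLinearGroup (Fin 2) F)) = 2 := by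
  constructor
  · let e := (Class.slCongr (Fin 2) (Class.ringEquivZMod hF))
    have hn := normal
    have e1 : QuaternionGroup 2 ≃* φ.range := MonoidHom.ofInjective f_inj
    refine ⟨φ.range.comap e.toMonoidHom, inferInstance, ?_, ?_⟩
    · rw [Subgroup.index_comap_of_surjective (f := e.toMonoidHom) _ e.surjective]
      have h1 := φ.range.card_mul_index
      rw [Class.card_SL2, ← Nat.card_congr e1.toEquiv, Nat.card_eq_fintype_card,
        QuaternionGroup.card, ZMod.card] at h1
      omega
    · refine ⟨MulEquiv.trans ?_ e1.symm⟩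
      exact (e.subgroupMap _).trans (MulEquiv.subgroupCongr
        (Subgroup.map_comap_eq_self_of_surjective e.surjective _))
  · rw [Class.card_center_SL, Nat.card_eq_fintype_card, hF]
    rfl

end Cfsg.Agent.S0257
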