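import Cfsg.Statements.S0264
import Mathlib
import Cfsg.Agent.Class.LinearBasic

set_option autoImplicit false
open Cfsg

namespace Cfsg.Agent.S0264

open Matrix
open scoped commutatorElement

theorem toGL_transvection_mem {F : Type*} [Field F] {ι : Type*} [Fintype ι] [DecidableEq ι]
    {a : F} (ha : a ≠ 0) (ha1 : a ≠ 1) {i j : ι} (hij : i ≠ j) (c : F) :
    SpecialLinearGroup.toGL (SpecialLinearGroup.transvection hij c) ∈ commutator (GL ι F) := by
  have hd : (1 + single i i (a - 1) : Matrix ι ι F) * (1 + single i i (a⁻¹ - 1)) = 1 := by
    simp only [mul_add, add_mul, one_mul, mul_one, single_mul_single_same]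
    ext k l
    simp only [Matrix.add_apply, single_apply]
    grind
  have hd' : (1 + single i i (a⁻¹ - 1) : Matrix ι ι F) * (1 + single i i (a - 1)) = 1 := by
    simp only [mul_add, add_mul, one_mul, mul_one, single_mul_single_same]
    ext k l
    simp only [Matrix.add_apply, single_apply]
    grind
  let d : GL ι F := ⟨1 + single i i (a - 1), 1 + single i i (a⁻¹ - 1), hd, hd'⟩
  have key : SpecialLinearGroup.toGL (SpecialLinearGroup.transvection hij c) =
      ⁅d, SpecialLinearGroup.toGL (SpecialLinearGroup.transvection hij (c / (a - 1)))⁆ := by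
    rw [commutatorElement_def, ← map_inv, SpecialLinearGroup.transvection_inv]
    apply Units.ext
    have h1 : ((d⁻¹ : GL ι F) : Matrix ι ι F) = 1 + single i i (a⁻¹ - 1) := rfl
    have h2 : ((d : GL ι F) : Matrix ι ι F) = 1 + single i i (a - 1) := rfl
    simp only [Units.val_mul, h1, h2, SpecialLinearGroup.coe_GL_coe_matrix,
      SpecialLinearGroup.transvection_coe, mul_add, add_mul, one_mul, mul_one,
      single_mul_single_same, single_mul_single_of_ne _ _ _ _ hij.symm, add_zero]
    have ha2 : a - 1 ≠ 0 := sub_ne_zero.2 ha1
    ext k l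
    simp only [Matrix.add_apply, single_apply]
    grind
  rw [key]
  exact Subgroup.commutator_mem_commutator (Subgroup.mem_top _) (Subgroup.mem_top _)

/-- GL_n(F)' = SL_n(F) (as the kernel of det), for every field F and every n, except n = 2 over the field of two elements. -/
theorem result {F : Type*} [Field F] (n : ℕ) (h : n = 2 → ∃ a : F, a ≠ 0 ∧ a ≠ 1) : commutator (Matrix.GeneralLinearGroup (Fin n) F) = (Matrix.GeneralLinearGroup.det : Matrix.GeneralLinearGroup (Fin n) F →* Fˣ).ker := by
  apply le_antisymm
  · exact Abelianization.commutator_subset_ker _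
  · rw [← Class.range_toGL_eq_ker_det]
    rintro _ ⟨g, rfl⟩
    by_cases h3 : 3 ≤ n
    · have h1 := Class.SL_commutator_eq_top (ι := Fin n) (F := F) (by simpa using h3)
      have h2 : g ∈ commutator (SpecialLinearGroup (Fin n) F) := h1 ▸ Subgroup.mem_top g
      have h4 := Subgroup.mem_map_of_mem (SpecialLinearGroup.toGL) h2
      rw [commutator_def, Subgroup.map_commutator] at h4
      exact Subgroup.commutator_mono le_top le_top h4
    · refine Class.SL_transvection_induction
        (fun g => SpecialLinearGroup.toGL g ∈ commutator (GL (Fin n) F)) ?_ ?_ ?_ g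
      · simp
      · intro i j hij c
        have hn : n = 2 := by
          have := i.2; have := j.2
          have : (i : ℕ) ≠ j := fun h => hij (Fin.ext h)
          omega
        obtain ⟨a, ha, ha1⟩ := h hn
        exact toGL_transvection_mem ha ha1 hij c
      · intro A B hA hB
        rw [map_mul]; exact Subgroup.mul_mem _ hA hB

end Cfsg.Agent.S0264
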