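import Cfsg.Statements.S0267
import Mathlib
import Cfsg.Agent.Class.PGL2Action

set_option autoImplicit false
open Cfsg

namespace Cfsg.Agent.S0267

open Matrix

/-- SL_2(q) is 3-transitive on the q+1 points of the projective line if and only if q is even. -/
theorem result {F : Type*} [Field F] [Fintype F] : MulAction.IsMultiplyPretransitive (Matrix.SpecialLinearGroup (Fin 2) F) (Projectivization F (Fin 2 → F)) 3 ↔ ringChar F = 2 := by
  rw [Class.is_three_pretransitive_iff]
  constructor
  · intro h
    by_contra h2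
    obtain ⟨d, hd⟩ := FiniteField.exists_nonsquare h2
    have hd0 : d ≠ 0 := by rintro rfl; exact hd IsSquare.zero
    have hne : ∀ e : F, e ≠ 0 → Class.pointE1 F ≠ Class.pointAff e := by
      intro e he h
      rw [Class.pointE1_eq_pointAff] at h
      exact he (Class.pointAff_injective h).symm
    obtain ⟨g, h0, h1, h3⟩ := h Class.pointE0_ne_pointE1 (Class.pointE0_ne_pointAff 1)
      (hne 1 one_ne_zero) Class.pointE0_ne_pointE1 (Class.pointE0_ne_pointAff d) (hne d hd0)
    rw [← Class.toGL_smul_point] at h0 h1 h3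
    rw [Class.GL2_smul_pointE0_iff] at h0
    rw [Class.GL2_smul_pointE1_iff] at h1
    rw [Class.GL2_smul_pointAff_iff] at h3
    have hdet := g.det_coe
    rw [det_fin_two] at hdet
    simp only [SpecialLinearGroup.coe_GL_coe_matrix] at h0 h1 h3
    rw [h0, h1] at hdet h3
    apply hd
    refine ⟨g 0 0, ?_⟩
    linear_combination (-g 0 0) * h3 - d * hdet
  · intro h2 a b c a' b' c' hab hac hbc hab' hac' hbc'
    obtain ⟨g, h⟩ := Class.exists_GL2_smul_three hab hac hbc hab' hac' hbc'
    have hsurj := ProjectiveSpecialLinearGroup.toPGL_surj_of_roots (n := Fin 2) (R := F) (by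
      intro r
      obtain ⟨s, hs⟩ := FiniteField.isSquare_of_char_two h2 (r : F)
      have hs0 : s ≠ 0 := by rintro rfl; simp at hs
      exact ⟨Units.mk0 s hs0, Units.ext (by simp [hs, sq])⟩)
    obtain ⟨x, hx⟩ := hsurj (ProjGenLinGroup.mk g)
    induction x using QuotientGroup.induction_on with | H x =>
    rw [ProjectiveSpecialLinearGroup.toPGL_mk] at hx
    refine ⟨x, ?_⟩
    simp only [← Class.toGL_smul_point, ← Class.PGL_mk_smul_point (SpecialLinearGroup.toGL x), hx]
    exact h

end Cfsg.Agent.S0267
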