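import Cfsg.Statements.S0273
import Mathlib
import Cfsg.Agent.Class.SL2Sylow

set_option autoImplicit false
open Cfsg

namespace Cfsg.Agent.S0273

open Matrix MatrixGroups

theorem card_centralizer_transvection {F : Type*} [Field F] [Fintype F] (c : F) (hc : c ≠ 0) :
    Nat.card (Subgroup.centralizer ({SpecialLinearGroup.toGL (SpecialLinearGroup.transvection
      (zero_ne_one : (0 : Fin 2) ≠ 1) c)} : Set (GL (Fin 2) F))) =
      Fintype.card F * (Fintype.card F - 1) := by
  have hdet : ∀ x : F × Fˣ, (!![(x.2 : F), x.1; 0, (x.2 : F)] : Matrix (Fin 2) (Fin 2) F).det ≠ 0 := by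
    intro x; simp [det_fin_two]
  have hmem : ∀ x : F × Fˣ, GeneralLinearGroup.mkOfDetNeZero _ (hdet x) ∈
      Subgroup.centralizer ({SpecialLinearGroup.toGL (SpecialLinearGroup.transvection
      (zero_ne_one : (0 : Fin 2) ≠ 1) c)} : Set (GL (Fin 2) F)) := by
    intro x
    rw [Subgroup.mem_centralizer_singleton_iff]
    ext i j
    fin_cases i <;> fin_cases j <;>
      simp [SpecialLinearGroup.transvection_coe, Matrix.mul_apply, Fin.sum_univ_two]
    ring
  rw [← Nat.card_eq_fintype_card, ← Nat.card_units, ← Nat.card_prod]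
  symm
  refine Nat.card_congr (Equiv.ofBijective (fun x => ⟨_, hmem x⟩) ⟨?_, ?_⟩)
  · rintro ⟨a, b⟩ ⟨a', b'⟩ h
    have h1 := congrArg (fun g => (g.1 : Matrix (Fin 2) (Fin 2) F) 0 1) h
    have h2 := congrArg (fun g => (g.1 : Matrix (Fin 2) (Fin 2) F) 0 0) h
    simp at h1 h2
    simp [h1, Units.ext h2]
  · rintro ⟨g, hg⟩
    have hg' := hg
    rw [Subgroup.mem_centralizer_singleton_iff] at hg'
    have h1 := congrArg (fun g : GL (Fin 2) F => (g : Matrix (Fin 2) (Fin 2) F) 0 0) hg'
    have h2 := congrArg (fun g : GL (Fin 2) F => (g : Matrix (Fin 2) (Fin 2) F) 0 1) hg'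
    simp [SpecialLinearGroup.transvection_coe, Matrix.mul_apply, Fin.sum_univ_two, hc] at h1 h2
    have h3 : g 1 1 = g 0 0 := by
      have : c * (g 1 1 - g 0 0) = 0 := by linear_combination -h2
      exact sub_eq_zero.1 ((mul_eq_zero.1 this).resolve_left hc)
    have h4 : g 0 0 ≠ 0 := by
      intro h
      apply g.det_ne_zero
      rw [det_fin_two, h, h1]; simp
    refine ⟨(g 0 1, Units.mk0 _ h4), ?_⟩
    apply Subtype.ext
    ext i j
    fin_cases i <;> fin_cases j <;> simp [h1, h3]

theorem card_centralizer_conj {G : Type*} [Group G] (a g : G) :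
    Nat.card (Subgroup.centralizer ({g * a * g⁻¹} : Set G)) =
      Nat.card (Subgroup.centralizer ({a} : Set G)) := by
  symm
  refine Nat.card_congr ((MulAut.conj g).toEquiv.subtypeEquiv fun x => ?_)
  simp only [Subgroup.mem_centralizer_singleton_iff, MulEquiv.toEquiv_eq_coe, EquivLike.coe_coe,
    MulAut.conj_apply]
  constructor
  · intro h
    calc g * x * g⁻¹ * (g * a * g⁻¹) = g * (x * a) * g⁻¹ := by group
      _ = g * a * g⁻¹ * (g * x * g⁻¹) := by rw [h]; group
  · intro h
    calc x * a = g⁻¹ * (g * x * g⁻¹ * (g * a * g⁻¹)) * g := by group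
      _ = a * x := by rw [h]; group

/-- In GL_2(q) the centraliser of a non-trivial element of a Sylow p-subgroup (p the characteristic) has order q (q-1): the Sylow subgroup times the scalars. -/
theorem result {F : Type*} [Field F] [Fintype F] {q : ℕ} (hF : Fintype.card F = q) (p : ℕ) [Fact p.Prime] [CharP F p] (P : Sylow p (Matrix.GeneralLinearGroup (Fin 2) F)) (a : Matrix.GeneralLinearGroup (Fin 2) F) (ha : a ∈ P) (ha1 : a ≠ 1) : Nat.card (Subgroup.centralizer ({a} : Set (Matrix.GeneralLinearGroup (Fin 2) F))) = q * (q - 1) := by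
  obtain ⟨x, hx⟩ := Class.sylow_GL2_eq_lineStab p P
  obtain ⟨g, rfl⟩ := Class.exists_SL2_smul_pointE0 x
  have ha' : a ∈ (P : Subgroup (GL (Fin 2) F)) := ha
  rw [hx, Class.lineStab_smul_point] at ha'
  obtain ⟨b, hb, rfl⟩ := ha'
  obtain ⟨b, hb, rfl⟩ := hb
  rw [Class.pointE0_submodule] at hb
  obtain ⟨c, rfl⟩ := (Class.mem_lineStab_single_zero_iff _).1 hb
  have hc : c ≠ 0 := by
    rintro rfl
    simp at ha1
  have := card_centralizer_conj (SpecialLinearGroup.toGL (SpecialLinearGroup.transvection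
      (zero_ne_one : (0 : Fin 2) ≠ 1) c)) (SpecialLinearGroup.toGL g)
  rw [card_centralizer_transvection c hc, hF] at this
  rw [← this]
  simp

end Cfsg.Agent.S0273
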