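import Cfsg.Statements.S0275
import Cfsg.Agent.Class.SL2Quat

set_option autoImplicit false
open Cfsg

namespace Cfsg.Agent.S0275

/-- If p is odd and H is a subgroup of SL_2(q), q a power of p, with more than one Sylow p-subgroup, then the Sylow 2-subgroups of H are generalised quaternion. -/
theorem result {F : Type*} [Field F] [Fintype F] (p : ℕ) [Fact p.Prime] [CharP F p] (hp : p ≠ 2) (H : Subgroup (Matrix.SpecialLinearGroup (Fin 2) F)) (hH : 1 < Nat.card (Sylow p H)) (S : Sylow 2 H) : ∃ k : ℕ, 1 ≤ k ∧ Nonempty ((S : Subgroup H) ≃* QuaternionGroup (2 ^ k)) := by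
  obtain ⟨b, hb⟩ := Class.Dickson.exists_slConj_prime_le p hp H hH
  have h2 : (2 : F) ≠ 0 := KSG.M2.two_ne_zero_of_charP p hp
  obtain ⟨g, w, h⟩ := Class.Dickson.exists_quatPair (KSG.M2.two_ne_zero_of_charP (F := ZMod p) p hp)
  let φ := (Class.Dickson.slConj b).comp
    (Matrix.SpecialLinearGroup.map (n := Fin 2) (ZMod.castHom (dvd_refl p) F))
  have hφ : Function.Injective φ :=
    (Class.Dickson.slConj_injective b).comp (Class.Dickson.slMap_injective _)
  have hneg : φ (-1) = -1 := by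
    refine ((KSG.M2.SL_sq_eq_one_iff h2).1 (by rw [← map_pow]; simp)).resolve_left fun e => ?_
    exact Class.Dickson.neg_one_ne_one_SL h.two_ne (hφ (e.trans φ.map_one.symm))
  refine Class.Dickson.sylow_two_quaternion H.subtype H.subtype_injective
    (x := ⟨φ g, hb g⟩) (y := ⟨φ w, hb w⟩) ⟨h2, ?_, ?_⟩ S
  · exact KSG.M2.SL_sq_eq_neg_one_iff.1 (by
      change φ g * φ g = -1
      rw [← map_mul, h.sq_left, hneg])
  · change φ w * φ g * (φ w)⁻¹ = (φ g)⁻¹
    rw [← map_inv, ← map_mul, ← map_mul, h.inverts, map_inv]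

end Cfsg.Agent.S0275
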