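import Cfsg.Statements.S0290
import Mathlib
import Cfsg.Agent.Class.Orth.StdOrder

set_option autoImplicit false
open Cfsg

namespace Cfsg.Agent.S0290

open Cfsg.Agent.Class.Orth QuadraticMap


/-- The minus-type quadratic form on F^(2m), m at least 1, has q^(2m-1) + q^(m-1) - q^m zeros (that is, (q^m + 1)(q^(m-1) - 1) non-zero isotropic vectors). -/
theorem result {F : Type*} [Field F] [Fintype F] {q : ℕ} (hF : Fintype.card F = q) (m : ℕ) (hm : 1 ≤ m) (a b : F) (hab : ∀ z₁ z₂ : F, z₁ ^ 2 + a * z₁ * z₂ + b * z₂ ^ 2 = 0 → z₁ = 0 ∧ z₂ = 0) : Nat.card {v : (Fin (m - 1) ⊕ Fin (m - 1)) ⊕ Fin 2 → F // Cfsg.quadFormMinus (m - 1) F a b v = 0} = q ^ (2 * m - 1) + q ^ (m - 1) - q ^ m := by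
  subst hF
  obtain ⟨k, rfl⟩ : ∃ k, m = k + 1 := ⟨m - 1, by omega⟩
  have h := card_minusQF_zero (F := F) (k + 1 - 1) hab
  rw [coe_minusQF, Nat.card_eq_fintype_card (α := F)] at h
  have hq : 0 < Fintype.card F := Fintype.card_pos
  have hle : Fintype.card F ^ (k + 1) ≤ Fintype.card F ^ (2 * (k + 1) - 1) + Fintype.card F ^ (k + 1 - 1) :=
    le_add_right (Nat.pow_le_pow_right hq (by omega))
  zify [hle]
  rw [h, show 2 * (k + 1) - 1 = 2 * k + 1 by omega, Nat.add_sub_cancel]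

end Cfsg.Agent.S0290
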