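import Mathlib
import Cfsg.Statements.S0304
import Cfsg.Agent.Class.Sp.Basic

set_option autoImplicit false
open Cfsg

namespace Cfsg.Agent.S0304

open Matrix

variable {F : Type*} [Field F] {m : ℕ}

theorem odd_eq (v : Unit ⊕ (Fin m ⊕ Fin m) → F) :
    quadFormOdd m F v = v (.inl ()) ^ 2 + quadFormPlus m F (v ∘ Sum.inr) := rfl

theorem plus_add [CharP F 2] (u v : Fin m ⊕ Fin m → F) :
    quadFormPlus m F (u + v) = quadFormPlus m F u + quadFormPlus m F v + sympForm m F u v := by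
  rw [Class.Sp.form_eq]
  simp only [quadFormPlus, ← Finset.sum_add_distrib, Pi.add_apply, CharTwo.sub_eq_add]
  exact Finset.sum_congr rfl fun i _ => by ring

theorem plus_smul (c : F) (u : Fin m ⊕ Fin m → F) :
    quadFormPlus m F (c • u) = c ^ 2 * quadFormPlus m F u := by
  simp only [quadFormPlus, Finset.mul_sum, Pi.smul_apply, smul_eq_mul]
  exact Finset.sum_congr rfl fun i _ => by ring

theorem odd_add [CharP F 2] (u v : Unit ⊕ (Fin m ⊕ Fin m) → F) :
    quadFormOdd m F (u + v) =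
      quadFormOdd m F u + quadFormOdd m F v + sympForm m F (u ∘ Sum.inr) (v ∘ Sum.inr) := by
  rw [odd_eq, odd_eq, odd_eq, show (u + v) ∘ Sum.inr = u ∘ Sum.inr + v ∘ Sum.inr from rfl, plus_add,
    Pi.add_apply, CharTwo.add_sq]
  ring

/-- The matrix of an isometry. -/
abbrev mat (g : isometryGroup F (quadFormOdd m F)) :
    Matrix (Unit ⊕ (Fin m ⊕ Fin m)) (Unit ⊕ (Fin m ⊕ Fin m)) F := g.1.val

theorem mat_iso (g : isometryGroup F (quadFormOdd m F)) (v : Unit ⊕ (Fin m ⊕ Fin m) → F) :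
    quadFormOdd m F (mat g *ᵥ v) = quadFormOdd m F v := g.2 v v

theorem mat_form [CharP F 2] (g : isometryGroup F (quadFormOdd m F)) (u v : Unit ⊕ (Fin m ⊕ Fin m) → F) :
    sympForm m F ((mat g *ᵥ u) ∘ Sum.inr) ((mat g *ᵥ v) ∘ Sum.inr) =
      sympForm m F (u ∘ Sum.inr) (v ∘ Sum.inr) := by
  have h := mat_iso g (u + v)
  rw [Matrix.mulVec_add, odd_add, odd_add, mat_iso, mat_iso] at h
  exact add_left_cancel h

theorem mat_col [CharP F 2] (g : isometryGroup F (quadFormOdd m F)) :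
    (mat g).toBlocks₂₁ = 0 ∧ (mat g).toBlocks₁₁ = 1 := by
  have h1 : (mat g *ᵥ Pi.single (.inl ()) 1) ∘ Sum.inr = 0 := by
    apply Class.Sp.eq_zero_of_form_left
    intro w
    have := mat_form g (Pi.single (.inl ()) 1) (mat g⁻¹ *ᵥ Sum.elim 0 w)
    rw [Matrix.mulVec_mulVec, show mat g * mat g⁻¹ = 1 from g.1.mul_inv, Matrix.one_mulVec,
      show (Pi.single (.inl ()) 1 : Unit ⊕ (Fin m ⊕ Fin m) → F) ∘ Sum.inr = 0 by ext; simp,
      Class.Sp.form_zero_left] at this
    exact this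
  have h2 := mat_iso g (Pi.single (.inl ()) 1)
  rw [odd_eq, odd_eq, h1,
    show (Pi.single (.inl ()) 1 : Unit ⊕ (Fin m ⊕ Fin m) → F) ∘ Sum.inr = 0 by ext; simp,
    add_left_inj, Matrix.mulVec_single_one] at h2
  rw [Matrix.mulVec_single_one] at h1
  constructor
  · ext i j
    exact congrFun h1 i
  · ext i j
    simp only [Pi.single_eq_same, one_pow, Matrix.col_apply] at h2
    have h3 : (mat g (.inl ()) (.inl ()) - 1) ^ 2 = 0 := by
      rw [CharTwo.sub_eq_add, CharTwo.add_sq, h2, one_pow, CharTwo.add_self_eq_zero]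
    rw [sq_eq_zero_iff, sub_eq_zero] at h3
    exact h3

theorem mat_eq [CharP F 2] (g : isometryGroup F (quadFormOdd m F)) :
    mat g = Matrix.fromBlocks 1 (mat g).toBlocks₁₂ 0 (mat g).toBlocks₂₂ := by
  conv_lhs => rw [← (mat g).fromBlocks_toBlocks, (mat_col g).1, (mat_col g).2]

theorem blocks_mulVec (B : Matrix Unit (Fin m ⊕ Fin m) F) (A : Matrix (Fin m ⊕ Fin m) (Fin m ⊕ Fin m) F)
    (v : Unit ⊕ (Fin m ⊕ Fin m) → F) :
    Matrix.fromBlocks (1 : Matrix Unit Unit F) B 0 A *ᵥ v =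
      Sum.elim (fun _ => v (.inl ()) + B () ⬝ᵥ (v ∘ Sum.inr)) (A *ᵥ (v ∘ Sum.inr)) := by
  rw [Matrix.fromBlocks_mulVec]
  simp
  rfl

/-- The induced map on the quotient by the radical. -/
def toSp [CharP F 2] : isometryGroup F (quadFormOdd m F) →* Matrix.symplecticGroup (Fin m) F where
  toFun g := ⟨(mat g).toBlocks₂₂, Class.Sp.mem_iff_preserves.2 fun u v => by
    have := mat_form g (Sum.elim 0 u) (Sum.elim 0 v)
    rw [mat_eq g, blocks_mulVec, blocks_mulVec] at this
    exact this⟩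
  map_one' := Subtype.ext (by
    change (1 : Matrix (Unit ⊕ (Fin m ⊕ Fin m)) (Unit ⊕ (Fin m ⊕ Fin m)) F).toBlocks₂₂ = 1
    rw [← Matrix.fromBlocks_one, Matrix.toBlocks_fromBlocks₂₂])
  map_mul' g h := Subtype.ext (by
    change (mat g * mat h).toBlocks₂₂ = (mat g).toBlocks₂₂ * (mat h).toBlocks₂₂
    conv_lhs => rw [mat_eq g, mat_eq h, Matrix.fromBlocks_multiply, Matrix.toBlocks_fromBlocks₂₂]
    simp)

theorem toSp_injective [CharP F 2] : Function.Injective (toSp (F := F) (m := m)) := by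
  rw [injective_iff_map_eq_one]
  intro g hg
  have h1 : (mat g).toBlocks₂₂ = 1 := congrArg Subtype.val hg
  have h2 : (mat g).toBlocks₁₂ = 0 := by
    ext i j
    have := mat_iso g (Sum.elim 0 (Pi.single j 1))
    rw [mat_eq g, blocks_mulVec, h1, odd_eq, odd_eq] at this
    simp only [Sum.elim_comp_inr, Matrix.one_mulVec] at this
    simpa using this
  apply Subtype.ext
  apply Units.ext
  change mat g = 1
  rw [mat_eq g, h1, h2, Matrix.fromBlocks_one]

theorem toSp_surjective [Finite F] [CharP F 2] : Function.Surjective (toSp (F := F) (m := m)) := by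
  intro A
  have : Fact (Nat.Prime 2) := ⟨Nat.prime_two⟩
  let D : (Fin m ⊕ Fin m → F) →+ F :=
    { toFun := fun x => quadFormPlus m F (A • x) + quadFormPlus m F x
      map_zero' := by simp [quadFormPlus]
      map_add' := fun x y => by
        rw [smul_add, plus_add, plus_add, Class.Sp.form_smul_smul]
        linear_combination CharTwo.add_self_eq_zero (sympForm m F x y) }
  have hD : ∀ x, D x = quadFormPlus m F (A • x) + quadFormPlus m F x := fun _ => rfl
  choose φ hφ using fun j : Fin m ⊕ Fin m => surjective_frobenius F 2 (D (Pi.single j 1))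
  have key : ∀ x, (φ ⬝ᵥ x) ^ 2 = D x := by
    intro x
    conv_rhs => rw [pi_eq_sum_univ' x, map_sum]
    rw [dotProduct, CharTwo.sum_sq]
    refine Finset.sum_congr rfl fun j _ => ?_
    rw [mul_pow, ← frobenius_def 2 (φ j), hφ, hD, hD, Class.Sp.smul_smul_comm, plus_smul, plus_smul]
    ring
  let M : Matrix (Unit ⊕ (Fin m ⊕ Fin m)) (Unit ⊕ (Fin m ⊕ Fin m)) F :=
    Matrix.fromBlocks 1 (Matrix.of fun _ => φ) 0 A.1
  have hM : M.det ≠ 0 := by
    rw [Matrix.det_fromBlocks_zero₂₁, SymplecticGroup.det_eq_one A.2]; simp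
  refine ⟨⟨Matrix.GeneralLinearGroup.mkOfDetNeZero M hM, fun v _ => ?_⟩, Subtype.ext ?_⟩
  · change quadFormOdd m F (M *ᵥ v) = quadFormOdd m F v
    rw [blocks_mulVec, odd_eq, odd_eq]
    have := key (v ∘ Sum.inr)
    rw [hD, Class.Sp.smul_def] at this
    change (v (.inl ()) + φ ⬝ᵥ (v ∘ Sum.inr)) ^ 2 + quadFormPlus m F (A.1 *ᵥ (v ∘ Sum.inr)) = _
    rw [CharTwo.add_sq, this]
    linear_combination CharTwo.add_self_eq_zero (quadFormPlus m F (A.1 *ᵥ (v ∘ Sum.inr)))
  · exact Matrix.toBlocks_fromBlocks₂₂ _ _ _ _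

/-- In characteristic 2, O_{2m+1}(q) is isomorphic to Sp_{2m}(q). -/
theorem result {F : Type*} [Field F] [Fintype F] [CharP F 2] (m : ℕ) : Nonempty (Cfsg.isometryGroup F (Cfsg.quadFormOdd m F) ≃* Matrix.symplecticGroup (Fin m) F) := by
  exact ⟨MulEquiv.ofBijective toSp ⟨toSp_injective, toSp_surjective⟩⟩

end Cfsg.Agent.S0304
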