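import Cfsg.Statements.S0310
import Cfsg.Agent.Chev.BN

set_option autoImplicit false
open Cfsg

namespace Cfsg.Agent.S0310

/-- For a set `J` of distinguished generators, the subgroup generated by `B` and `J` is exactly the union of
the double cosets `B n B` with `n` in the subgroup generated by `J` (so `B W_J B` is a subgroup). -/
theorem result {G : Type*} [Group G] (P : Cfsg.BNPair G) {J : Set G}
    (hJ : J ⊆ P.S) (g : G) :
    g ∈ P.parabolic J ↔ ∃ n ∈ Subgroup.closure J, g ∈ DoubleCoset.doubleCoset n (P.B : Set G) P.B := by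
  constructor
  · intro hg
    rw [← Chev.BN.image_preimage_val hJ, Chev.BN.parabolic_eq_cellSubgroup] at hg
    obtain ⟨w, hw, hg⟩ := hg
    obtain ⟨l, hl, rfl⟩ := (Chev.mem_closure_iff_word Chev.BN.gen_sq _ w).mp hw
    rw [← Chev.BN.mk_wprod, Chev.BN.cell_mk] at hg
    exact ⟨_, Chev.BN.wprod_mem fun s hs => Subgroup.subset_closure (hl s hs), hg⟩
  · rintro ⟨n, hn, hg⟩
    obtain ⟨b, hb, b', hb', rfl⟩ := DoubleCoset.mem_doubleCoset.mp hg
    exact mul_mem (mul_mem (Chev.BN.B_le_parabolic _ hb)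
      ((le_sup_right : Subgroup.closure J ≤ _) hn)) (Chev.BN.B_le_parabolic _ hb')

end Cfsg.Agent.S0310
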