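import Cfsg.Statements.S0316
import Cfsg.Agent.Chev.BN

set_option autoImplicit false
open Cfsg

namespace Cfsg.Agent.S0316

/-- The map `J ↦ P_J` is a lattice isomorphism from the power set of the set of distinguished generators onto the
subgroups containing `B`. -/
theorem result {G : Type*} [Group G] (P : Cfsg.BNPair G) :
    ∃ e : Set P.S ≃o {M : Subgroup G // P.B ≤ M},
      ∀ J : Set P.S, ((e J : {M : Subgroup G // P.B ≤ M}) : Subgroup G) = P.parabolic (Subtype.val '' J) := by
  have hsub : ∀ J : Set P.S, Subtype.val '' J ⊆ P.S := fun J => Subtype.coe_image_subset _ _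
  have hmem : ∀ (J : Set P.S) (s : P.S), (s : G) ∈ P.parabolic (Subtype.val '' J) ↔ s ∈ J := by
    intro J s
    constructor
    · intro h
      obtain ⟨t, ht, e⟩ := Chev.BN.mem_of_mem_parabolic (hsub J) s.2 h
      rwa [← Subtype.ext e]
    · intro h
      exact Chev.BN.mem_parabolic_of_mem (Set.mem_image_of_mem _ h)
  refine ⟨⟨⟨fun J => ⟨P.parabolic (Subtype.val '' J), Chev.BN.B_le_parabolic _⟩,
    fun M => {s | (s : G) ∈ M.1}, ?_, ?_⟩, ?_⟩, fun J => rfl⟩
  · intro J
    ext s
    exact hmem J s
  · intro M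
    apply Subtype.ext
    conv_rhs => rw [Chev.BN.eq_parabolic M.2]
    simp only
    congr 1
    ext s
    constructor
    · rintro ⟨t, ht, rfl⟩
      exact ⟨t.2, ht⟩
    · rintro ⟨h1, h2⟩
      exact ⟨⟨s, h1⟩, h2, rfl⟩
  · intro J K
    constructor
    · intro h s hs
      exact (hmem K s).mp (h ((hmem J s).mpr hs))
    · intro h
      exact sup_le_sup_left (Subgroup.closure_mono (Set.image_mono h)) _

end Cfsg.Agent.S0316
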