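import Cfsg.Statements.S0318
import Cfsg.Agent.Chev.BN

set_option autoImplicit false
open Cfsg

namespace Cfsg.Agent.S0318

/-- For `n ∈ N`, the subgroup generated by `B` and `n` coincides with the subgroup generated by `B` and the
conjugate `n B n⁻¹`. -/
theorem result {G : Type*} [Group G] (P : Cfsg.BNPair G) {n : G}
    (hn : n ∈ P.N) :
    P.B ⊔ Subgroup.closure {n} = P.B ⊔ P.B.map (MulAut.conj n).toMonoidHom := by
  apply le_antisymm
  · apply sup_le le_sup_left
    rw [Subgroup.closure_le, Set.singleton_subset_iff]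
    apply Chev.BN.mem_of_conj_mem (P := P) le_sup_left
    intro b hb
    exact Subgroup.mem_sup_right ⟨b, hb, rfl⟩
  · apply sup_le le_sup_left
    rintro _ ⟨b, hb, rfl⟩
    have h1 : n ∈ P.B ⊔ Subgroup.closure {n} :=
      Subgroup.mem_sup_right (Subgroup.subset_closure rfl)
    exact mul_mem (mul_mem h1 (Subgroup.mem_sup_left hb)) (inv_mem h1)

end Cfsg.Agent.S0318
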