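import Cfsg.Statements.S0321
import Cfsg.Agent.Chev.BN

set_option autoImplicit false
open Cfsg

namespace Cfsg.Agent.S0321

/-- For `n ∈ N` not in `B`, the union `B ∪ B n B` is (the underlying set of) a subgroup exactly when `n` agrees
modulo `B ⊓ N` with one of the distinguished representatives; thus the distinguished involutions are
determined by `B` and `N`. -/
theorem result {G : Type*} [Group G] (P : Cfsg.BNPair G) {n : G}
    (hn : n ∈ P.N) (hnB : n ∉ P.B) :
    (∃ H : Subgroup G, (H : Set G) = (P.B : Set G) ∪ DoubleCoset.doubleCoset n (P.B : Set G) P.B) ↔ ∃ s ∈ P.S, s⁻¹ * n ∈ P.B := by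
  have e1 := Chev.BN.cell_mk (P := P) ⟨n, hn⟩
  simp only at e1
  rw [← e1]
  constructor
  · rintro ⟨H, hH⟩
    have hB : P.B ≤ H := fun b hb => by
      rw [← SetLike.mem_coe, hH]; exact Or.inl hb
    have hnH : n ∈ H := by
      rw [← SetLike.mem_coe, hH]; exact Or.inr (Chev.BN.self_mem_cell (P := P) ⟨n, hn⟩)
    obtain ⟨l, hl, hg⟩ := Chev.BN.exists_reduced_cell (P := P) n
    cases l with
    | nil => exact absurd (Chev.BN.mem_cell_one.mp hg) hnB
    | cons a t =>
      have ha := Chev.BN.letters_mem_of_mem hB hl hg hnH a (by simp)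
      rw [← SetLike.mem_coe, hH] at ha
      rcases ha with ha | ha
      · exact absurd ha (Chev.BN.not_mem_B a)
      · have := Chev.BN.cell_unique (Chev.BN.simple_mem_cell a) ha
        exact ⟨a, a.2, Chev.BN.mk_eq_iff.mp this⟩
  · rintro ⟨s, hs, h⟩
    have e : Chev.BN.gen P ⟨s, hs⟩ = Chev.BN.mk P ⟨n, hn⟩ := Chev.BN.mk_eq_iff.mpr h
    rw [← e]
    refine ⟨Chev.BN.cellSubgroup {⟨s, hs⟩}, ?_⟩
    ext g
    rw [SetLike.mem_coe, Chev.BN.mem_cellSubgroup]
    constructor
    · rintro ⟨w, hw, hg⟩
      have : w = 1 ∨ w = Chev.BN.gen P ⟨s, hs⟩ := by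
        clear hg
        induction hw using Subgroup.closure_induction with
        | mem x hx =>
          obtain ⟨t, ht, rfl⟩ := hx
          rw [ht]; exact Or.inr rfl
        | one => exact Or.inl rfl
        | mul x y _ _ hx hy =>
          rcases hx with rfl | rfl <;> rcases hy with rfl | rfl <;> simp [Chev.BN.gen_sq]
        | inv x _ hx =>
          rcases hx with rfl | rfl
          · simp
          · exact Or.inr (Chev.BN.involGen.inv_eq _)
      rcases this with rfl | rfl
      · exact Or.inl (Chev.BN.mem_cell_one.mp hg)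
      · exact Or.inr hg
    · rintro (hg | hg)
      · exact ⟨1, one_mem _, Chev.BN.mem_cell_one.mpr hg⟩
      · exact ⟨_, Subgroup.subset_closure ⟨_, rfl, rfl⟩, hg⟩

end Cfsg.Agent.S0321
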