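import Cfsg.Statements.S0323


set_option autoImplicit false
open scoped Pointwise
open Cfsg

namespace Cfsg.Agent.S0323

/-- A doubly transitive action on a set with at least three points yields a (B,N)-pair of rank one:
`B` is the stabiliser of a point `x`, `N` the setwise stabiliser of a pair `{x, y}`. -/
theorem result {G Ω : Type*} [Group G] [MulAction G Ω]
    (h2 : MulAction.IsMultiplyPretransitive G Ω 2) {x y z : Ω} (hxy : x ≠ y) (hyz : y ≠ z) (hxz : x ≠ z) :
    ∃ P : Cfsg.BNPair G, P.B = MulAction.stabilizer G x ∧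
      P.N = MulAction.stabilizer G ({x, y} : Set Ω) ∧ P.rank = 1 := by
  rw [MulAction.is_two_pretransitive_iff] at h2
  obtain ⟨s, hsx, hsy⟩ := h2 hxy hxy.symm
  have hN : ∀ g : G, g ∈ MulAction.stabilizer G ({x, y} : Set Ω) ↔
      (g • x = x ∧ g • y = y) ∨ (g • x = y ∧ g • y = x) := by
    intro g
    rw [MulAction.mem_stabilizer_iff, Set.smul_set_insert, Set.smul_set_singleton,
      Set.pair_eq_pair_iff]
  have hsN : s ∈ MulAction.stabilizer G ({x, y} : Set Ω) := (hN s).mpr (Or.inr ⟨hsx, hsy⟩)
  have hsinv : s⁻¹ • y = x := by rw [← hsx, inv_smul_smul]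
  have hsinv' : s⁻¹ • x = y := by rw [← hsy, inv_smul_smul]
  have hdc : ∀ a g : G, a • x ≠ x → g • x ≠ x → g ∈ DoubleCoset.doubleCoset a
      (MulAction.stabilizer G x : Set G) (MulAction.stabilizer G x) := by
    intro a g ha hg
    obtain ⟨b, hb1, hb2⟩ := h2 ha.symm hg.symm
    refine DoubleCoset.mem_doubleCoset.mpr ⟨b, hb1, (b * a)⁻¹ * g, ?_, by group⟩
    rw [SetLike.mem_coe, MulAction.mem_stabilizer_iff, mul_smul, ← hb2, ← mul_smul b,
      inv_smul_smul]
  have hdc1 : ∀ a g : G, a • x = x → g • x = x → g ∈ DoubleCoset.doubleCoset a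
      (MulAction.stabilizer G x : Set G) (MulAction.stabilizer G x) := by
    intro a g ha hg
    refine DoubleCoset.mem_doubleCoset.mpr ⟨1, one_mem _, a⁻¹ * g, ?_, by group⟩
    exact mul_mem (inv_mem ha) hg
  refine ⟨⟨MulAction.stabilizer G x, MulAction.stabilizer G ({x, y} : Set Ω), {s}, ?_, ?_, ?_, ?_,
    ?_, ?_, ?_, ?_⟩, rfl, rfl, ?_⟩
  · rw [eq_top_iff]
    intro g _
    by_cases hg : g • x = x
    · exact Subgroup.mem_sup_left hg
    · obtain ⟨b, hb, b', hb', rfl⟩ :=
        DoubleCoset.mem_doubleCoset.mp (hdc s g (by rw [hsx]; exact hxy.symm) hg)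
      exact mul_mem (mul_mem (Subgroup.mem_sup_left hb) (Subgroup.mem_sup_right hsN))
        (Subgroup.mem_sup_left hb')
  · intro n hn t ht
    have ht1 : t • x = x := ht.1
    have ht2 : t • y = y := by
      rcases (hN t).mp ht.2 with h | h
      · exact h.2
      · exact absurd (ht1.symm.trans h.1) hxy
    rw [MulAction.mem_stabilizer_iff, mul_smul, mul_smul]
    rcases (hN n).mp hn with h | h
    · have : n⁻¹ • x = x := by rw [inv_smul_eq_iff, h.1]
      rw [this, ht1, h.1]
    · have : n⁻¹ • x = y := by rw [inv_smul_eq_iff, h.2]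
      rw [this, ht2, h.2]
  · rintro _ rfl
    exact hsN
  · rintro _ rfl
    rw [MulAction.mem_stabilizer_iff, mul_smul, hsx, hsy]
  · rintro _ rfl _ rfl _
    rfl
  · apply le_antisymm
    · apply sup_le _ inf_le_right
      rw [Subgroup.closure_le, Set.singleton_subset_iff]
      exact hsN
    · intro n hn
      rcases (hN n).mp hn with h | h
      · exact Subgroup.mem_sup_right ⟨h.1, hn⟩
      · have : n = s * (s⁻¹ * n) := by group
        rw [this]
        refine mul_mem (Subgroup.mem_sup_left (Subgroup.subset_closure rfl))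
          (Subgroup.mem_sup_right (Subgroup.mem_inf.mpr
            ⟨?_, Subgroup.mul_mem _ (Subgroup.inv_mem _ hsN) hn⟩))
        rw [MulAction.mem_stabilizer_iff, mul_smul, h.1, hsinv]
  · intro s' hs' n hn b hb
    obtain rfl : s = s' := hs'.symm
    have hb' : b • x = x := hb
    rcases (hN n).mp hn with h | h
    · left
      apply hdc
      · rw [mul_smul, h.1, hsx]; exact hxy.symm
      · rw [mul_smul, mul_smul, h.1, hb', hsx]; exact hxy.symm
    · by_cases hc : (s * b * n) • x = x
      · left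
        apply hdc1 _ _ _ hc
        rw [mul_smul, h.1, hsy]
      · right
        apply hdc _ _ _ hc
        rw [h.1]; exact hxy.symm
  · rintro _ rfl h
    obtain ⟨g, hg1, hg2⟩ := h2 hxy hxz
    have : g ∈ (MulAction.stabilizer G x : Set G) := hg1
    rw [← h] at this
    obtain ⟨b, hb, rfl⟩ := this
    have hb' : b • x = x := hb
    simp only [mul_smul] at hg2
    rw [hsy, hb', hsx] at hg2
    exact hyz hg2
  · simp [Cfsg.BNPair.rank]

end Cfsg.Agent.S0323
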