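import Cfsg.Statements.S0326
import Mathlib


set_option autoImplicit false
open Cfsg

namespace Cfsg.Agent.S0326

/-- The Suzuki–Tits ovoid over a finite field with `q` elements has `q² + 1` points. -/
theorem result {F : Type*} [Field F] [Fintype F] (m : ℕ) :
    Nat.card (Cfsg.suzukiOvoid F m) = Fintype.card F ^ 2 + 1 := by
  let f : Option (F × F) → Cfsg.suzukiOvoid F m := fun o => o.elim
    ⟨Projectivization.mk F ![1, 0, 0, 0] (by simp), _, _, rfl, Or.inl rfl⟩
    (fun p => ⟨Projectivization.mk F
      ![p.1 * p.2 + p.1 ^ (2 ^ (m + 1) + 2) + p.2 ^ (2 ^ (m + 1)), p.2, p.1, 1] (by simp),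
      _, _, rfl, Or.inr ⟨p.1, p.2, rfl⟩⟩)
  have hf : Function.Bijective f := by
    constructor
    · rintro (_ | ⟨x, y⟩) (_ | ⟨x', y'⟩) h
      · rfl
      · have h1 := congrArg Subtype.val h
        simp only [f, Option.elim, Projectivization.mk_eq_mk_iff'] at h1
        obtain ⟨a, ha⟩ := h1
        have h3 := congrFun ha 3
        have h0 := congrFun ha 0
        simp at h3
        subst h3
        simp at h0
      · have h1 := congrArg Subtype.val h
        simp only [f, Option.elim, Projectivization.mk_eq_mk_iff'] at h1
        obtain ⟨a, ha⟩ := h1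
        have h3 := congrFun ha 3
        simp at h3
      · have h1 := congrArg Subtype.val h
        simp only [f, Option.elim, Projectivization.mk_eq_mk_iff'] at h1
        obtain ⟨a, ha⟩ := h1
        have h3 := congrFun ha 3
        have h2 := congrFun ha 2
        have h1 := congrFun ha 1
        simp at h1 h2 h3
        subst h3
        simp at h1 h2
        rw [h1, h2]
    · rintro ⟨p, v, hv, rfl, h | ⟨x, y, h⟩⟩
      · subst h; exact ⟨none, rfl⟩
      · subst h; exact ⟨some (x, y), rfl⟩
  rw [← Nat.card_eq_of_bijective f hf, Finite.card_option, Nat.card_prod, Nat.card_eq_fintype_card, sq]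

end Cfsg.Agent.S0326
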