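import Cfsg.Statements.S0344
import Mathlib
import Cfsg.Agent.Perm.ZassSharp3

set_option autoImplicit false
open Cfsg

namespace Cfsg.Agent.S0344



/-- A finite simple Zassenhaus group with a two-point stabiliser of even order is isomorphic to `PSL₂(F)` for a finite
field `F` with more than three elements. -/
theorem result {G Ω : Type*} [Group G] [Finite G] [MulAction G Ω] [Finite Ω]
    (hZ : Cfsg.IsZassenhausGroup G Ω) [IsSimpleGroup G]
    {a b : Ω} (hab : a ≠ b) (heven : Even (Nat.card ↥(MulAction.stabilizer G a ⊓ MulAction.stabilizer G b))) :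
    ∃ (F : Type) (_ : Field F) (_ : Fintype F), 3 < Fintype.card F ∧ Nonempty (G ≃* Matrix.ProjectiveSpecialLinearGroup (Fin 2) F) := by
  have h1 := Perm.ZassPSL.two_mul_card_of_simple hZ hab heven
  obtain ⟨F, _, _, h2, h3⟩ := Perm.ZassPSL.psl_of_simple hZ hab h1
  have h4 := Perm.Zass.two_le_card_two hZ hab
  exact ⟨F, inferInstance, inferInstance, by rw [← Nat.card_eq_fintype_card]; omega, h3⟩

end Cfsg.Agent.S0344
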