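import Cfsg.Statements.S0353
import Cfsg.Agent.Spor.SteinerBasic
import Cfsg.Agent.S0352

set_option autoImplicit false
open Cfsg

namespace Cfsg.Agent.S0353

/-- In an S(5, 8, 24), the symmetric difference of two blocks meeting in four points is a block. -/
theorem result {α : Type*} [Fintype α] [DecidableEq α] (hα : Fintype.card α = 24) {B : Set (Finset α)} (hB : Cfsg.IsSteinerSystem 5 8 B) {b c : Finset α} (hb : b ∈ B) (hc : c ∈ B) (h4 : (b ∩ c).card = 4) : symmDiff b c ∈ B := by
  set w := symmDiff b c with hw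
  have hwc : w.card = 8 := by
    have h1 := Finset.card_sdiff_add_card_inter b c
    have h2 := Finset.card_sdiff_add_card_inter c b
    rw [Finset.inter_comm] at h2
    rw [hw, symmDiff_def, Finset.sup_eq_union, Finset.card_union_of_disjoint disjoint_sdiff_sdiff]
    have := hB.1 b hb
    have := hB.1 c hc
    omega
  have heven : ∀ d ∈ B, ∀ e ∈ B, (d ∩ e).card % 2 = 0 := by
    intro d hd e he
    by_cases h : d = e
    · subst h; rw [Finset.inter_self, hB.1 d hd]
    · have := S0352.result hα hB hd he h
      omega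
  have hodd : ∀ d ∈ B, (d ∩ w).card % 2 = 0 := by
    intro d hd
    have h1 := heven d hd b hb
    have h2 := heven d hd c hc
    have e1 : d ∩ w = (d ∩ b) \ c ∪ (d ∩ c) \ b := by
      ext x; simp [hw, Finset.mem_symmDiff]; tauto
    have e2 : (d ∩ b) ∩ c = (d ∩ c) ∩ b := by
      ext x; simp; tauto
    have h3 := Finset.card_sdiff_add_card_inter (d ∩ b) c
    have h4 := Finset.card_sdiff_add_card_inter (d ∩ c) b
    rw [e1, Finset.card_union_of_disjoint]
    · rw [e2] at h3
      omega
    · rw [Finset.disjoint_left]; intro x; simp; tauto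
  have hz : ∀ i, i % 2 = 1 → Spor.nMeet B ∅ w i = 0 := by
    intro i hi
    rw [Spor.nMeet_eq_zero]
    intro d hd _ h
    have := hodd d hd
    omega
  have m5 := Spor.steiner_moment0 hB w 5 (by norm_num)
  simp only [hα, hwc, Finset.sum_range_succ, Finset.range_zero, Finset.sum_empty,
    hz 5 rfl, hz 7 rfl] at m5
  norm_num [Nat.choose] at m5
  have h8 : 0 < Spor.nMeet B ∅ w 8 := by omega
  obtain ⟨d, hd, -, h⟩ := Spor.nMeet_pos.1 h8
  have h1 : d ∩ w = w := Finset.eq_of_subset_of_card_le Finset.inter_subset_right (by rw [h, hwc])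
  have h2 : d ∩ w = d :=
    Finset.eq_of_subset_of_card_le Finset.inter_subset_left (by rw [h, hB.1 d hd])
  rw [← h1, h2]
  exact hd

end Cfsg.Agent.S0353
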