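import Cfsg.Statements.S0354
import Cfsg.Agent.Spor.SteinerBasic

set_option autoImplicit false
open Cfsg

namespace Cfsg.Agent.S0354

/-- In an S(5, 8, 24), each block is disjoint from exactly 30 blocks. -/
theorem result {α : Type*} [Fintype α] [DecidableEq α] (hα : Fintype.card α = 24) {B : Set (Finset α)} (hB : Cfsg.IsSteinerSystem 5 8 B) {b : Finset α} (hb : b ∈ B) : {c : Finset α | c ∈ B ∧ Disjoint b c}.ncard = 30 := by
  classical
  have m0 := Spor.steiner_moment0 hB b 0 (by norm_num)
  have m1 := Spor.steiner_moment0 hB b 1 (by norm_num)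
  have m2 := Spor.steiner_moment0 hB b 2 (by norm_num)
  have m3 := Spor.steiner_moment0 hB b 3 (by norm_num)
  have m4 := Spor.steiner_moment0 hB b 4 (by norm_num)
  have h5 := Spor.nMeet_block_of_ge hB hb (i := 5) (by norm_num) (by norm_num)
  have h6 := Spor.nMeet_block_of_ge hB hb (i := 6) (by norm_num) (by norm_num)
  have h7 := Spor.nMeet_block_of_ge hB hb (i := 7) (by norm_num) (by norm_num)
  have h8 := Spor.nMeet_block_self hB hb
  simp only [hα, hB.1 b hb, Finset.sum_range_succ, Finset.range_zero, Finset.sum_empty, h5, h6, h7,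
    h8] at m0 m1 m2 m3 m4
  norm_num [Nat.choose] at m0 m1 m2 m3 m4
  have h0 : Spor.nMeet B ∅ b 0 = 30 := by omega
  rw [Spor.ncard_sep_eq, ← h0, Spor.nMeet]
  congr 1
  ext c
  simp [Finset.disjoint_iff_inter_eq_empty, Finset.inter_comm]

end Cfsg.Agent.S0354
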