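import Cfsg.Statements.S0368
import Cfsg.Agent.Spor.GolayStd

set_option autoImplicit false
open scoped Pointwise
open Cfsg

namespace Cfsg.Agent.S0368

/-- The permutation group preserving the length-24 code is transitive on dodecads. -/
theorem result (d d' : Finset Cfsg.GolayPt) (hd : d ∈ Cfsg.dodecads) (hd' : d' ∈ Cfsg.dodecads) : ∃ g : Cfsg.M24, g • d = d' := by
  have h12 : d.card = 12 := hd.2
  have h12' : d'.card = 12 := hd'.2
  obtain ⟨p, hp⟩ := Finset.card_pos.1 (by omega : 0 < d.card)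
  obtain ⟨p', hp'⟩ := Finset.card_pos.1 (by omega : 0 < d'.card)
  obtain ⟨q, hq⟩ := Finset.card_pos.1
    (by rw [Finset.card_compl, h12]; decide : 0 < dᶜ.card)
  obtain ⟨q', hq'⟩ := Finset.card_pos.1
    (by rw [Finset.card_compl, h12']; decide : 0 < d'ᶜ.card)
  obtain ⟨g, hg, -, -, h⟩ := Spor.M24_trans_dodecad_flag hd hd' hp (Finset.mem_compl.1 hq) hp'
    (Finset.mem_compl.1 hq')
  exact ⟨⟨g, hg⟩, h⟩

end Cfsg.Agent.S0368
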