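import Cfsg.Statements.S0374
import Cfsg.Agent.Spor.M24Basic

set_option autoImplicit false
open Cfsg

namespace Cfsg.Agent.S0374

open Cfsg.Agent.Spor.M24C in

/-- The group of the length-24 code is generated by x ↦ x+1, x ↦ -1/x and the cube-twist permutation. -/
theorem result : Subgroup.closure {Equiv.optionCongr (Equiv.addRight (1 : ZMod 23)), Cfsg.projInv, Cfsg.cubeTwist} = Cfsg.M24 := by
  have h1 : code (Equiv.optionCongr (Equiv.addRight (1 : ZMod 23))) = 956302485175575353788796878166559809 := by
    decide +kernel
  have h2 : code projInv = 1795248432537898728475572672376535 := by decide +kernel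
  have h3 : code cubeTwist = 974380510768821363662145534143076928 := by decide +kernel
  have key : ∀ σ : Equiv.Perm GolayPt, okM (code σ) = true →
      (mc (code σ) : Equiv.Perm GolayPt) = σ := fun σ h => by rw [coe_mc h, pc_code]
  have k1 := key _ (by rw [h1]; decide +kernel)
  have k2 := key _ (by rw [h2]; decide +kernel)
  have k3 := key _ (by rw [h3]; decide +kernel)
  rw [h1] at k1; rw [h2] at k2; rw [h3] at k3
  have := congrArg (Subgroup.map M24.subtype) gen_std
  rw [gen, MonoidHom.map_closure, ← MonoidHom.range_eq_map, Subgroup.range_subtype] at this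
  rw [← this]
  congr 1
  ext σ
  simp only [Set.mem_insert_iff, Set.mem_singleton_iff, List.mem_cons, List.not_mem_nil, or_false,
    exists_eq_or_imp, exists_eq_left, Set.mem_image, Set.mem_ofPred_eq, Subgroup.coe_subtype]
  constructor
  · rintro (rfl | rfl | rfl)
    · exact ⟨_, Or.inl rfl, k1⟩
    · exact ⟨_, Or.inr (Or.inl rfl), k2⟩
    · exact ⟨_, Or.inr (Or.inr rfl), k3⟩
  · rintro ⟨_, rfl | rfl | rfl, rfl⟩
    · exact Or.inl k1
    · exact Or.inr (Or.inl k2)
    · exact Or.inr (Or.inr k3)

end Cfsg.Agent.S0374
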