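import Cfsg.Statements.S0381
import Cfsg.Agent.Spor.M24Sub

set_option autoImplicit false
open Cfsg

namespace Cfsg.Agent.S0381

open Cfsg.Agent.Spor Cfsg.Agent.Spor.M24C Cfsg.Agent.Comp
open scoped Pointwise

/-- The pointwise stabiliser of an octad in the group of the length-24 code has order 16 and every element of it squares to the identity. -/
theorem result (o : Finset Cfsg.GolayPt) (ho : o ∈ Cfsg.octads) : Nat.card ↥(Cfsg.M24 ⊓ fixingSubgroup (Equiv.Perm Cfsg.GolayPt) (o : Set Cfsg.GolayPt)) = 16 ∧ ∀ g ∈ Cfsg.M24 ⊓ fixingSubgroup (Equiv.Perm Cfsg.GolayPt) (o : Set Cfsg.GolayPt), g * g = 1 := by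
  have key : ∀ g : M24, (g : Equiv.Perm GolayPt) ∈
      M24 ⊓ fixingSubgroup (Equiv.Perm GolayPt) (o : Set GolayPt) ↔ g ∈ fixS o := by
    intro g
    simp only [Subgroup.mem_inf, g.2, true_and, mem_fixingSubgroup_iff, mem_fixS, Finset.mem_coe]
    rfl
  refine ⟨(card_map_subtype (fixS o) inf_le_left key).trans (card_fixS_octad ho), fun g hg => ?_⟩
  exact congrArg Subtype.val (mul_self_of_mem_fixS_octad ho ((key ⟨g, hg.1⟩).1 hg))

end Cfsg.Agent.S0381
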