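import Cfsg.Statements.S0386
import Cfsg.Agent.Spor.M24Sub

set_option autoImplicit false
open Cfsg

namespace Cfsg.Agent.S0386

open Cfsg.Agent.Spor Cfsg.Agent.Spor.M24C Cfsg.Agent.Comp
open scoped Pointwise

/-- For a fixed dodecad, 132 octads meet it in 6 points, 132 in 2 points and 495 in 4 points. -/
theorem result (d : Finset Cfsg.GolayPt) (hd : d ∈ Cfsg.dodecads) : {o : Finset Cfsg.GolayPt | o ∈ Cfsg.octads ∧ (o ∩ d).card = 6}.ncard = 132 ∧ {o : Finset Cfsg.GolayPt | o ∈ Cfsg.octads ∧ (o ∩ d).card = 2}.ncard = 132 ∧ {o : Finset Cfsg.GolayPt | o ∈ Cfsg.octads ∧ (o ∩ d).card = 4}.ncard = 495 := by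
  obtain ⟨g, rfl⟩ := exists_smul_dodecad d0_mem hd
  have key : ∀ k n : ℕ, cntPow 12 (fun a => force (enc a) fun m =>
      and' (Nat.beq (pop 24 m) 8) (Nat.beq (pop 24 (Nat.land m 340831)) k)) = n →
      {o : Finset GolayPt | o ∈ octads ∧ (o ∩ g • setOf' 340831).card = k}.ncard = n := by
    intro k n h
    rw [ncard_eq_of_smul g (P := fun o => o ∈ codeSets ∧ (o.card = 8 ∧ (o ∩ setOf' 340831).card = k))
      (fun o => by rw [smul_mem_octads_iff, card_smul_inter, mem_octads_iff, and_assoc]),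
      ncard_codeSets _ (fun m => and' (Nat.beq (pop 24 m) 8) (Nat.beq (pop 24 (Nat.land m 340831)) k))
      (fun m _ => by rw [and'_eq_true, beq_iff, beq_iff, ← setOf'_land, card_setOf', card_setOf']; rfl),
      h]
  exact ⟨key 6 132 (by decide +kernel), key 2 132 (by decide +kernel), key 4 495 (by decide +kernel)⟩

end Cfsg.Agent.S0386
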