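import Cfsg.Statements.S0393
import Cfsg.Agent.Spor.LeechCount
-- import your own Cfsg.Agent.* helpers here

set_option autoImplicit false
open Cfsg

namespace Cfsg.Agent.S0393

attribute [local irreducible] Spor.Leech.box

/-- The lattice has index 2^36 in ℤ^24 (unimodular at scale 1/8). -/
theorem result : Cfsg.leechLattice.index = 2 ^ 36 := by
  classical
  let f : (GolayPt → ℤ) →+ (GolayPt → ZMod 8) :=
    AddMonoidHom.pi fun i => (Int.castAddHom (ZMod 8)).comp (Pi.evalAddMonoidHom (fun _ => ℤ) i)
  have hf : ∀ x i, f x i = (x i : ZMod 8) := fun x i => rfl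
  have hsurj : Function.Surjective f := by
    intro y
    refine ⟨fun i => ((y i).val : ℤ), ?_⟩
    funext i; simp [hf]
  have hker : f.ker ≤ leechLattice := by
    intro x hx
    have h8 : ∀ i, x i % 8 = 0 := by
      intro i
      have : (x i : ZMod 8) = 0 := by rw [← hf, AddMonoidHom.mem_ker.1 hx]; rfl
      have := (ZMod.intCast_zmod_eq_zero_iff_dvd _ 8).1 this
      omega
    apply Spor.Leech.mem_leech_of_four_dvd
    · intro i; have := h8 i; omega
    · rw [Finset.sum_int_mod]; simp [h8]
  have h1 : (leechLattice.map f).index = leechLattice.index :=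
    AddSubgroup.index_map_eq _ hsurj hker
  have h2 := (leechLattice.map f).card_mul_index
  have h3 : Nat.card (GolayPt → ZMod 8) = 2 ^ 72 := by
    rw [Nat.card_fun, Nat.card_eq_fintype_card (α := GolayPt), Spor.Leech.card_golayPt]
    simp
  have h4 : Nat.card (leechLattice.map f) = 2 ^ 36 := by
    have g := Spor.Leech.leech_gf (fun _ a => if 0 ≤ a ∧ a < 8 then 1 else 0)
    rw [Spor.Leech.sum_gTerm_uniform] at g
    simp only [Spor.Leech.gUni, Spor.Leech.gA_zero, Spor.Leech.gA_one, Spor.Leech.gA_two,
      Spor.Leech.gA_three, Spor.Leech.gB_zero, Spor.Leech.gB_one, Spor.Leech.gB_two,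
      Spor.Leech.gB_three, Finset.prod_boole, Finset.sum_boole, Finset.mem_univ, forall_true_left] at g
    have g2 : (Finset.filter (fun x : GolayPt → ℤ => ∀ i, 0 ≤ x i ∧ x i < 8)
        (Spor.Leech.box.filter (· ∈ leechLattice))).card = 2 ^ 36 := by
      have := g.trans (show _ = 2 * (2 : ℤ) ^ 36 by norm_num)
      omega
    rw [← g2, ← Set.ncard_coe_finset]
    symm
    change _ = (leechLattice.map f : Set (GolayPt → ZMod 8)).ncard
    apply Set.ncard_congr (fun x _ => f x)
    · intro x hx
      simp only [Finset.coe_filter, Finset.mem_filter, Set.mem_setOf_eq] at hx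
      exact ⟨x, hx.1.2, rfl⟩
    · intro x y hx hy h
      simp only [Finset.coe_filter, Finset.mem_filter, Set.mem_setOf_eq] at hx hy
      funext i
      have h1 : (x i : ZMod 8) = y i := by rw [← hf, ← hf, h]
      have := (ZMod.intCast_eq_intCast_iff' _ _ 8).1 h1
      have a := hx.2 i; have b := hy.2 i
      omega
    · rintro _ ⟨x, hx, rfl⟩
      have e : f (fun i => x i % 8) = f x := by
        funext i; rw [hf, hf]; exact (ZMod.intCast_eq_intCast_iff' _ _ 8).2 (by simp)
      refine ⟨fun i => x i % 8, ?_, e⟩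
      simp only [Finset.coe_filter, Finset.mem_filter, Set.mem_setOf_eq]
      refine ⟨⟨Spor.Leech.mem_box.2 fun i => by omega, ?_⟩, fun i => by omega⟩
      have : (fun i => x i % 8) - x ∈ f.ker := by
        rw [AddMonoidHom.mem_ker, map_sub, e, sub_self]
      simpa using leechLattice.add_mem (hker this) hx
  rw [h3, h4, h1] at h2
  omega

end Cfsg.Agent.S0393
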