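import Cfsg.Statements.S0403
import Cfsg.Agent.Spor.Co0Simple
-- import your own Cfsg.Agent.* helpers here

set_option autoImplicit false
open Cfsg

namespace Cfsg.Agent.S0403

/-- Stabiliser of a vector of sum of squares 48 is simple of order 495766656000. -/
theorem result (v : Cfsg.leechLattice) (hv : Cfsg.sqNorm (v : Cfsg.GolayPt → ℤ) = 48) : Cfsg.IsCo3 (MulAction.stabilizer Cfsg.Co0 v) := by
  exact ⟨Spor.Leech.simple_co3 hv, Spor.Leech.card_stab_48 hv⟩

end Cfsg.Agent.S0403
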