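import Cfsg.Statements.S0404
import Cfsg.Agent.Spor.Co0Simple
-- import your own Cfsg.Agent.* helpers here

set_option autoImplicit false
open Cfsg

namespace Cfsg.Agent.S0404

/-- Joint stabiliser of two minimal vectors with coordinate dot product −8 is simple of order 898128000. -/
theorem result (v w : Cfsg.leechLattice) (hv : Cfsg.sqNorm (v : Cfsg.GolayPt → ℤ) = 32) (hw : Cfsg.sqNorm (w : Cfsg.GolayPt → ℤ) = 32) (hvw : Cfsg.dotInt (v : Cfsg.GolayPt → ℤ) (w : Cfsg.GolayPt → ℤ) = -8) : Cfsg.IsMcL ↥(MulAction.stabilizer Cfsg.Co0 v ⊓ MulAction.stabilizer Cfsg.Co0 w) := by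
  refine ⟨?_, Spor.Leech.card_stab_neg8 hv hw hvw⟩
  rw [Spor.Leech.stab_add_eq]
  exact Spor.Leech.simple_mcl
    (by rw [AddSubgroup.coe_add, Spor.Leech.sqNorm_add, hv, hw, hvw]; norm_num) hv
    (by rw [AddSubgroup.coe_add, Spor.Leech.dotInt_add_left, Spor.Leech.dotInt_self,
      Spor.Leech.dotInt_comm, hv, hvw]; norm_num)

end Cfsg.Agent.S0404
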