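import Cfsg.Statements.S0411
import Cfsg.Agent.Spor.WittSmall

set_option autoImplicit false
open Cfsg

namespace Cfsg.Agent.S0411

/-- Uniqueness of the Steiner system S(4, 5, 11) up to isomorphism. -/
theorem result {α β : Type*} [Fintype α] [DecidableEq α] [Fintype β] [DecidableEq β] (hα : Fintype.card α = 11) (hβ : Fintype.card β = 11) {B : Set (Finset α)} {B' : Set (Finset β)} (hB : Cfsg.IsSteinerSystem 4 5 B) (hB' : Cfsg.IsSteinerSystem 4 5 B') : Cfsg.SetSystemIso B B' := by
  exact Spor.setSystemIso_trans (Spor.steiner_4_5_11 α hα B hB)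
    (Spor.setSystemIso_symm (Spor.steiner_4_5_11 β hβ B' hB'))

end Cfsg.Agent.S0411
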