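import Cfsg.Statements.S0417
import Cfsg.Agent.Spor.Sharp

set_option autoImplicit false
open Cfsg

namespace Cfsg.Agent.S0417

/-- For k ≥ 6, sharply k-transitive groups have degree k, k+1 or k+2. -/
theorem result {α : Type*} [Fintype α] [DecidableEq α] (G : Subgroup (Equiv.Perm α)) (k : ℕ) (hk : 6 ≤ k) (hn : k ≤ Fintype.card α) [MulAction.IsMultiplyPretransitive G α k] (hsharp : ∀ x : Fin k ↪ α, MulAction.stabilizer G x = ⊥) : Fintype.card α = k ∨ Fintype.card α = k + 1 ∨ Fintype.card α = k + 2 := by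
  obtain ⟨j, rfl⟩ : ∃ j, k = j + 6 := ⟨k - 6, by omega⟩
  have hn' : j + 6 ≤ Nat.card α := by simpa using hn
  have hf := Spor.fixTrivial_of_stabilizer hsharp
  have h1 := Spor.sharp_card_add (G := G) (Ω := α) (j := j + 2) hn' inferInstance hf
  rw [← Nat.card_eq_fintype_card]
  by_cases h : Nat.card α = j + 13
  · obtain ⟨G', Ω', _, _, _, h2, h3, h4⟩ :=
      Spor.sharp_descend (G := G) (Ω := α) (j := j) (k := 6) (by omega) inferInstance hf
    exact (Spor.not_sharp_six_thirteen (by omega) h3 h4).elim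
  · omega

end Cfsg.Agent.S0417
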