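import Cfsg.Statements.S0423
import Cfsg.Agent.Spor.ModelJ2
-- import your own Cfsg.Agent.* helpers here

set_option autoImplicit false
open Cfsg

namespace Cfsg.Agent.S0423

/-- Existence of a simple group of order 604800. -/
theorem result : ∃ G : Subgroup (Equiv.Perm (Fin 100)), Cfsg.IsJ2 G := by
  have e := Agent.Comp.finGrpEquiv Agent.Spor.ModelJ2.G_supp
  have := Agent.Spor.ModelJ2.isSimple
  exact ⟨_, e.symm.isSimpleGroup, (Nat.card_congr e.toEquiv).symm.trans Agent.Spor.ModelJ2.G_card⟩

end Cfsg.Agent.S0423
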