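import Cfsg.Statements.S0442
import Mathlib

set_option autoImplicit false
open Cfsg

namespace Cfsg.Agent.S0442

theorem inv_pow_of_inv {G : Type*} [Group G] {a b : G} (ha : a * a = 1) (hb : b * b = 1) (m : ℕ) :
    a * (a * b) ^ m = ((a * b) ^ m)⁻¹ * a := by
  have ia : a⁻¹ = a := inv_eq_of_mul_eq_one_right ha
  have ib : b⁻¹ = b := inv_eq_of_mul_eq_one_right hb
  have h : a * (a * b) * a⁻¹ = (a * b)⁻¹ := by
    rw [← mul_assoc, ha, one_mul, mul_inv_rev, ia, ib]
  have := conj_pow (a := a) (b := a * b) (i := m)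
  rw [h, inv_pow] at this
  rw [this, inv_mul_cancel_right]



/-- A standard trick for producing elements of an involution centraliser: for an involution a and an element g, let b be the conjugate g⁻¹ * a * g. If a * b has odd order 2m + 1 then g * (a * b) ^ m commutes with a; if a * b has even order 2m then (a * b) ^ m and (a * (g * a * g⁻¹)) ^ m commute with a. -/
theorem result {G : Type*} [Group G] (a g : G) (ha : orderOf a = 2) : (∀ m : ℕ, orderOf (a * (g⁻¹ * a * g)) = 2 * m + 1 → Commute (g * (a * (g⁻¹ * a * g)) ^ m) a) ∧ (∀ m : ℕ, orderOf (a * (g⁻¹ * a * g)) = 2 * m → Commute ((a * (g⁻¹ * a * g)) ^ m) a ∧ Commute ((a * (g * a * g⁻¹)) ^ m) a) := by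
  have ha2 : a * a = 1 := by
    have := pow_orderOf_eq_one a
    rwa [ha, pow_two] at this
  have ia : a⁻¹ = a := inv_eq_of_mul_eq_one_right ha2
  have hb2 : (g⁻¹ * a * g) * (g⁻¹ * a * g) = 1 := by
    calc _ = g⁻¹ * (a * a) * g := by group
      _ = 1 := by rw [ha2]; group
  have hb2' : (g * a * g⁻¹) * (g * a * g⁻¹) = 1 := by
    calc _ = g * (a * a) * g⁻¹ := by group
      _ = 1 := by rw [ha2]; group
  have even : ∀ (b : G) (m : ℕ), b * b = 1 → (a * b) ^ (2 * m) = 1 → Commute ((a * b) ^ m) a := by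
    intro b m hb h
    have h1 := inv_pow_of_inv ha2 hb m
    have h2 : ((a * b) ^ m)⁻¹ = (a * b) ^ m :=
      inv_eq_of_mul_eq_one_right (by rw [← pow_add, ← two_mul]; exact h)
    rw [h2] at h1
    exact h1.symm
  refine ⟨fun m hm => ?_, fun m hm => ?_⟩
  · have h := pow_orderOf_eq_one (a * (g⁻¹ * a * g))
    rw [hm] at h
    have h1 := inv_pow_of_inv ha2 hb2 m
    set c := a * (g⁻¹ * a * g) with hc
    have h2 : (c ^ m)⁻¹ = c * c ^ m :=
      inv_eq_of_mul_eq_one_right (by rw [← pow_succ', ← pow_add, ← h]; congr 1; ring)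
    have h3 : c ^ m * a = a * (c ^ m)⁻¹ := by
      calc c ^ m * a = c ^ m * (a * c ^ m) * (c ^ m)⁻¹ := by group
        _ = a * (c ^ m)⁻¹ := by rw [h1]; group
    show g * c ^ m * a = a * (g * c ^ m)
    calc g * c ^ m * a = g * (c ^ m * a) := by group
      _ = g * (a * (c * c ^ m)) := by rw [h3, h2]
      _ = g * (a * ((a * (g⁻¹ * a * g)) * c ^ m)) := by rw [← hc]
      _ = g * (a * a) * g⁻¹ * a * g * c ^ m := by simp only [mul_assoc]
      _ = a * (g * c ^ m) := by rw [ha2]; group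
  · have h := pow_orderOf_eq_one (a * (g⁻¹ * a * g))
    rw [hm] at h
    refine ⟨even _ m hb2 h, even _ m hb2' ?_⟩
    have : a * (g * a * g⁻¹) = g * (a * (g⁻¹ * a * g))⁻¹ * g⁻¹ := by
      simp only [mul_inv_rev, ia, inv_inv]; group
    rw [this, conj_pow, inv_pow, h]; group

end Cfsg.Agent.S0442
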