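import Cfsg.Statements.S0443
import Mathlib

set_option autoImplicit false
open Cfsg

namespace Cfsg.Agent.S0443



/-- Two definitions of a 2-central involution agree: an element t of order 2 of a finite group lies in the centre of some Sylow 2-subgroup if and only if its centraliser contains some Sylow 2-subgroup. -/
theorem result {G : Type*} [Group G] [Finite G] (t : G) (ht : orderOf t = 2) : Cfsg.IsTwoCentralInvolution t ↔ ∃ P : Sylow 2 G, (P : Subgroup G) ≤ Subgroup.centralizer ({t} : Set G) := by
  constructor
  · rintro ⟨-, P, -, hP⟩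
    refine ⟨P, fun x hx => ?_⟩
    rw [Subgroup.mem_centralizer_singleton_iff]
    exact hP x hx
  · rintro ⟨P, hP⟩
    have hc : ∀ x ∈ P, x * t = t * x := fun x hx =>
      Subgroup.mem_centralizer_singleton_iff.1 (hP hx)
    refine ⟨ht, P, ?_, hc⟩
    have h1 : IsPGroup 2 (Subgroup.zpowers t) := by
      apply IsPGroup.of_card (n := 1)
      rw [Nat.card_zpowers, ht]; rfl
    have h2 : (P : Subgroup G) ≤ Subgroup.normalizer (Subgroup.zpowers t : Set G) := by
      refine le_trans ?_ (Subgroup.centralizer_le_normalizer _)
      intro x hx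
      rw [Subgroup.mem_centralizer_iff]
      rintro y ⟨k, rfl⟩
      exact ((Commute.zpow_right (hc x hx) k).eq).symm
    have h3 := IsPGroup.to_sup_of_normal_right' P.isPGroup' h1 h2
    have h4 := P.is_maximal' h3 le_sup_left
    rw [← SetLike.mem_coe, ← P.coe_coe, ← h4]
    exact Subgroup.mem_sup_right (Subgroup.mem_zpowers t)

end Cfsg.Agent.S0443
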