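import Cfsg.Statements.S0458
import Cfsg.Agent.Spor.J3Sub
import Cfsg.Agent.Spor.J3Orb

set_option autoImplicit false
open Cfsg

namespace Cfsg.Agent.S0458

/-- Janko's third group exists as a transitive permutation group of degree 6156 with point stabiliser of order 8160: a simple group of order 50232960. -/
theorem result : ∃ H : Subgroup (Equiv.Perm (Fin 6156)), Cfsg.IsJ3 H ∧ MulAction.IsPretransitive H (Fin 6156) ∧ Nat.card (MulAction.stabilizer H (0 : Fin 6156)) = 8160 := by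
  obtain ⟨F, _, _, ω, hF, hω⟩ := Cfsg.Agent.Spor.J3c.exists_F4
  have h4 := Cfsg.Agent.Spor.J3c.F4.mk' hF hω
  obtain ⟨L, hL⟩ := Cfsg.Agent.Spor.J3c.exists_sub h4
  obtain ⟨-, -, h3, h5⟩ := Cfsg.Agent.Spor.J3c.main h4
  have hi := Subgroup.index_mul_card L
  rw [hL, h3] at hi
  obtain ⟨H, e, ht, hs⟩ := Cfsg.Agent.Spor.exists_perm_of_index L 6156 (by norm_num) (by omega)
  refine ⟨H, ⟨e.symm.isSimpleGroup, by rw [← h3]; exact (Nat.card_congr e.toEquiv).symm⟩, ht, ?_⟩
  rw [hs, Subgroup.card_map_of_injective e.injective, hL]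

end Cfsg.Agent.S0458
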