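import Cfsg.Statements.S0459
import Cfsg.Agent.Spor.RuTits
import Cfsg.Agent.Spor.SimpleQuot
-- import your own Cfsg.Agent.* helpers here

set_option autoImplicit false
open Cfsg

namespace Cfsg.Agent.S0459

/-- The Rudvalis group exists as a transitive permutation group of degree 4060: simple of order 145926144000, with point stabiliser of order 35942400 containing a simple subgroup of order 17971200 (the order of the Tits group). -/
theorem result : ∃ H : Subgroup (Equiv.Perm (Fin 4060)), Cfsg.IsRu H ∧ MulAction.IsPretransitive H (Fin 4060) ∧ Nat.card (MulAction.stabilizer H (0 : Fin 4060)) = 35942400 ∧ ∃ T : Subgroup (MulAction.stabilizer H (0 : Fin 4060)), Cfsg.IsTits T := by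
  open Cfsg.Agent.Comp Cfsg.Agent.Spor.ModelRu in
  have := isSimple
  have := T_simple
  have := finite_gen ctx.ok G_ss0
  have e0 : gen ns G_l0.ws = gen ns G_ss0 := G_eq.symm
  have hle : cgrp ns G_C1 ≤ gen ns G_ss0 := e0 ▸ G_st0.le
  have hL : Nat.card ((cgrp ns G_C1).subgroupOf (gen ns G_ss0)) = 35942400 :=
    (Nat.card_congr (Subgroup.subgroupOfEquivOfLe hle).toEquiv).trans G_ver1.card
  have hi := Subgroup.index_mul_card ((cgrp ns G_C1).subgroupOf (gen ns G_ss0))
  rw [hL, G_card] at hi
  have hi2 : ((cgrp ns G_C1).subgroupOf (gen ns G_ss0)).index = 4060 := by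
    generalize ((cgrp ns G_C1).subgroupOf (gen ns G_ss0)).index = k at hi
    omega
  obtain ⟨H, e, ht, hs⟩ := Cfsg.Agent.Spor.exists_perm_of_index
    ((cgrp ns G_C1).subgroupOf (gen ns G_ss0)) 4060 (by norm_num) hi2
  refine ⟨H, ⟨e.symm.isSimpleGroup, by rw [← G_card]; exact (Nat.card_congr e.toEquiv).symm⟩, ht,
    by rw [hs, Subgroup.card_map_of_injective e.injective, hL], ?_⟩
  have h1 : ((gen ns T_ss0).subgroupOf (gen ns G_ss0)).map e.toMonoidHom ≤
      MulAction.stabilizer H (0 : Fin 4060) := by
    rw [hs]; exact Subgroup.map_mono fun x hx => T_le hx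
  have f := (Subgroup.subgroupOfEquivOfLe h1).trans
    ((Subgroup.equivMapOfInjective _ e.toMonoidHom e.injective).symm.trans
      (Subgroup.subgroupOfEquivOfLe (T_le.trans hle)))
  exact ⟨_, f.isSimpleGroup, (Nat.card_congr f.toEquiv).trans T_card⟩

end Cfsg.Agent.S0459
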