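import Cfsg.Statements.S0461
import Cfsg.Agent.S1703

set_option autoImplicit false
open Cfsg

namespace Cfsg.Agent.S0461

open Cfsg.Agent.Comp.BN

theorem aux {G K : Type} [Group G] [Group K] {H : Subgroup K} (e : G ≃* H) (h : IsJ4 G) : IsJ4 H :=
  have := h.1
  ⟨e.symm.isSimpleGroup, (Nat.card_congr e.toEquiv).symm.trans h.2⟩

/-- Janko's fourth group exists as a group of 112 × 112 matrices over the field with two elements: GL(112, 2) has a simple subgroup of order 86775571046077562880. -/
theorem result : ∃ H : Subgroup (GL (Fin 112) (ZMod 2)), Cfsg.IsJ4 H := by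
  obtain ⟨e, -⟩ := Spor.J4C.equivR Spor.J4C.A.boundH
  exact ⟨_, aux e S1703.result⟩

end Cfsg.Agent.S0461
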