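import Cfsg.Statements.S0462
import Cfsg.Agent.Spor.He.S44

set_option autoImplicit false
open Cfsg

namespace Cfsg.Agent.S0462

open Cfsg.Agent.Comp.BN
open Cfsg.Agent.Spor
open Cfsg.Agent.Spor.HeC.M

/-- The Held group exists as a transitive permutation group of degree 2058: simple of order 4030387200, with point stabiliser containing, with index 2, a copy of the 4-dimensional symplectic group over the field with four elements. -/
theorem result : ∃ H : Subgroup (Equiv.Perm (Fin 2058)), Cfsg.IsHe H ∧ MulAction.IsPretransitive H (Fin 2058) ∧ ∃ (F : Type) (_ : Field F) (_ : Fintype F), Fintype.card F = 4 ∧ ∃ N : Subgroup (MulAction.stabilizer H (0 : Fin 2058)), N.index = 2 ∧ Nonempty (N ≃* Matrix.symplecticGroup (Fin 2) F) := by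
  have := simple
  obtain ⟨H, e, h1, ⟨f⟩⟩ := exists_perm_rep (fixS ρ [0]) (n := 2056) (model.index_stab orb0)
  obtain ⟨N, h, ⟨g⟩⟩ := HeC.s44
  let k := (MulEquiv.subgroupCongr hstab).trans f
  refine ⟨H, ⟨e.symm.isSimpleGroup, (Nat.card_congr e.toEquiv).symm.trans card⟩, h1,
    Class.GF4, inferInstance, inferInstance, Class.card_GF4, N.map k.toMonoidHom, ?_,
    ⟨(k.subgroupMap N).symm.trans g⟩⟩
  exact (Subgroup.index_map_equiv N k).trans h

end Cfsg.Agent.S0462
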