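import Cfsg.Statements.S0464
import Cfsg.Agent.Spor.Th.Final
-- import your own Cfsg.Agent.* helpers here

set_option autoImplicit false
open Cfsg

namespace Cfsg.Agent.S0464

open Comp.BN in
theorem real {K : Type} [Group K] {y : ℕ → K} (hy : Sat Spor.ThC.P y) (hf : ∀ W, ev y W = 1 → ev Spor.ThC.x W = 1) :
    ∃ H : Subgroup K, Cfsg.IsTh H ∧ ∃ A : Subgroup H, A.index = 143127000 ∧ ∃ L : Subgroup H, L ≤ A ∧ Cfsg.Is3D4 L := by
  obtain ⟨e, -⟩ := Comp.DCE.equiv_of_faithful Spor.ThC.link.1 hy hf
  have := Spor.ThC.simple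
  exact ⟨gen y, ⟨e.symm.isSimpleGroup, (Nat.card_congr e.toEquiv).symm.trans Spor.ThC.final.2.1⟩, Spor.ThC.exists_sub e⟩

/-- The Thompson group exists as a group of 248 × 248 matrices over the field with three elements: a simple subgroup of GL(248, 3) of order 90745943887872000, possessing a subgroup of index 143127000 which contains a simple subgroup of the order of a triality-twisted D4 group. -/
theorem result : ∃ H : Subgroup (GL (Fin 248) (ZMod 3)), Cfsg.IsTh H ∧ ∃ K : Subgroup H, K.index = 143127000 ∧ ∃ L : Subgroup H, L ≤ K ∧ Cfsg.Is3D4 L :=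
  real Spor.ThC.Mat.satR Spor.ThC.final.2.2.2.2

end Cfsg.Agent.S0464
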