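import Cfsg.Statements.S0465
import Cfsg.Agent.Mon.Baby
import Cfsg.Agent.Mon.Design
import Cfsg.Agent.Mon.Mod2

set_option autoImplicit false
open Cfsg

namespace Cfsg.Agent.S0465

theorem aux {H F : Type} [Group H] [Field F] {n m : ℕ} (e : n = m) {f : H →* GL (Fin n) F}
    (hf : Function.Injective f) (hB : IsB H) : ∃ K : Subgroup (GL (Fin m) F), IsB K :=
  have := hB.1
  e ▸ ⟨_, (MonoidHom.ofInjective hf).symm.isSimpleGroup,
    (Nat.card_congr (MonoidHom.ofInjective hf).toEquiv).symm.trans hB.2⟩

/-- The Baby Monster as matrices in characteristic 2: for some finite field F of characteristic 2, GL(4370, F) has a simple subgroup of order 4154781481226426191177580544000000. -/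
theorem result : ∃ (F : Type) (_ : Field F) (_ : Fintype F), CharP F 2 ∧ ∃ H : Subgroup (GL (Fin 4370) F), Cfsg.IsB H := by
  open Mon in
  have hr := Spor.Leech.sqNorm_leechU
  have ha : psi Spor.leechU ∈ cA psi := IsConj.refl _
  have hp : Sak.Pair mul F32 (psi Spor.leechU).1 (axv Spor.leechU (sg 1)) :=
    (show miy Spor.leechU 1 = psi Spor.leechU from mul_one _) ▸ pair_axv hr 1
  let V := Axial.eigen mul (axv Spor.leechU (sg 1)) (1 / 4)
  have hV : ∀ g : Subgroup.centralizer {psi Spor.leechU}, ∀ x ∈ V, g.1.1 x ∈ V := fun g x hx => by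
    have := pair_smul g hp
    rw [Subgroup.mem_centralizer_singleton_iff.1 g.2, mul_inv_cancel_right] at this
    refine Module.End.mem_eigenspace_iff.2 ?_
    rw [← hp.uniq _ this.maj, ← map_mul', Module.End.mem_eigenspace_iff.1 hx, map_smul]
  let ρ : Subgroup.centralizer {psi Spor.leechU} →* Module.End ℝ V :=
    ⟨⟨fun g => (g.1.1 : B →ₗ[ℝ] B).restrict (hV g), rfl⟩, fun _ _ => rfl⟩
  have hB := if1.isB ha
  have := hB.1
  obtain ⟨F, _, _, hF, f, hf⟩ := exists_mod_two (If1.not_comm hB) (V := V) (QuotientGroup.lift _ ρ fun g hg => by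
    refine LinearMap.ext fun x => Subtype.ext ?_
    show g.1.1 x = x
    rcases (if1.mem_center ha).1 hg with e | e <;> rw [e]
    · rfl
    · exact hp.maj.2.2.2.1 x (Submodule.mem_iSup_of_mem _ (Submodule.mem_iSup_of_mem (by simp) x.2)))
    (by
      by_contra! h
      have h1 : V ≤ .span ℝ (Set.range ![one, axv Spor.leechU 1, axv Spor.leechU (-1)]) := fun x hx => by
        simp only [Matrix.range_cons, Matrix.range_empty, Set.union_empty, Set.singleton_union]
        exact fix_Ca hr fun p e => congrArg Subtype.val (LinearMap.congr_fun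
          (h (QuotientGroup.mk ⟨act p, Subgroup.mem_centralizer_singleton_iff.2 e⟩)) ⟨x, hx⟩)
      exact absurd ((finrank_quarter hr 1).ge.trans ((Submodule.finrank_mono h1).trans (finrank_range_le_card _)))
        (by simp)) (n := 2185) (finrank_quarter hr 1)
  exact ⟨F, inferInstance, inferInstance, hF, aux (by norm_num) hf hB⟩

end Cfsg.Agent.S0465
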