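import Cfsg.Statements.S0466
import Cfsg.Agent.Mon.Baby
import Cfsg.Agent.Mon.Design

set_option autoImplicit false
open Cfsg

namespace Cfsg.Agent.S0466

/-- The Baby Monster as a 4-transposition group: there is a simple group of its order with a conjugacy class of 13571955000 involutions such that the product of any two of them has order at most 4, the centraliser of each having order 4 · 76532479683774853939200. -/
theorem result : ∃ (G : Type) (_ : Group G) (_ : Finite G), Cfsg.IsB G ∧ ∃ D : Set G, (∃ d ∈ D, D = conjugatesOf d) ∧ Nat.card D = 13571955000 ∧ (∀ d ∈ D, orderOf d = 2) ∧ (∀ d ∈ D, ∀ e ∈ D, orderOf (d * e) ≤ 4) ∧ ∀ d ∈ D, Nat.card (Subgroup.centralizer ({d} : Set G)) = 306129918735099415756800 := by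
  have ha : Mon.psi Spor.leechU ∈ Mon.cA Mon.psi := IsConj.refl _
  obtain ⟨b, hb⟩ := Mon.if1.exists_D ha
  have hd := (Mon.if1.mk_mem_BD ha (x := ⟨b, Subgroup.mem_centralizer_singleton_iff.2
    (Mon.CD.commD Mon.if1.toIf0 ha hb).eq.symm⟩)).2 hb
  exact ⟨_, inferInstance, inferInstance, Mon.if1.isB ha, _, ⟨_, hd, Mon.if1.BD_eq ha hd⟩, Mon.if1.card_BD ha,
    fun _ => Mon.if1.ord_BD ha, fun _ h _ => Mon.if1.ord_mul_BD ha h, fun _ => Mon.if1.card_cent_BD ha⟩

end Cfsg.Agent.S0466
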