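import Cfsg.Statements.S0469
import Cfsg.Agent.Mon.Rep
import Cfsg.Agent.Spor.Co0Simple

set_option autoImplicit false
open Cfsg

namespace Cfsg.Agent.S0469

/-- In some simple group of the Monster's order there is an involution whose centraliser C has a normal extraspecial subgroup Q of order 2 ^ 25 such that C / Q is simple of the order of the largest Conway group. -/
theorem result : ∃ (G : Type) (_ : Group G) (_ : Finite G), Cfsg.IsM G ∧ ∃ z : G, orderOf z = 2 ∧ ∃ (Q : Subgroup (Subgroup.centralizer ({z} : Set G))) (_ : Q.Normal), Nat.card Q = 2 ^ 25 ∧ Cfsg.IsExtraspecial 2 Q ∧ Cfsg.IsCo1 ((Subgroup.centralizer ({z} : Set G)) ⧸ Q) := by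
  obtain ⟨hn, ⟨h1, -, h3, h4, -⟩, e, -⟩ := Mon.isOfMonsterType
  have : IsSimpleGroup Spor.Co1 := Spor.Leech.simple_co1
  exact ⟨Mon.MG, inferInstance, inferInstance, Mon.isM_MG, _, h1, _, hn, h4, h3, e.isSimpleGroup,
    (Nat.card_congr e.toEquiv).trans Spor.Leech.card_Co1⟩

end Cfsg.Agent.S0469
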