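import Cfsg.Statements.S0476
import Cfsg.Agent.Spor.J4.Cent
import Cfsg.Agent.Spor.MathieuDefs

set_option autoImplicit false
open Cfsg

namespace Cfsg.Agent.S0476

open Cfsg.Agent.Spor.J4C in
/-- In some simple group of the order of Janko's fourth group there is an involution whose centraliser C has a normal extraspecial subgroup Q of order 2 ^ 13, a normal subgroup N of order 3 · 2 ^ 13 containing Q, and a subgroup M of index 2 containing N as a normal subgroup with M / N simple of order 443520. -/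
theorem result : ∃ (G : Type) (_ : Group G) (_ : Finite G), Cfsg.IsJ4 G ∧ ∃ z : G, orderOf z = 2 ∧ ∃ (Q N M : Subgroup (Subgroup.centralizer ({z} : Set G))), Q.Normal ∧ N.Normal ∧ Q ≤ N ∧ N ≤ M ∧ Nat.card Q = 2 ^ 13 ∧ Cfsg.IsExtraspecial 2 Q ∧ Nat.card N = 3 * 2 ^ 13 ∧ M.index = 2 ∧ ∃ (_ : (N.subgroupOf M).Normal), Cfsg.IsM22 (M ⧸ N.subgroupOf M) := by
  obtain ⟨f, h⟩ := Cen.exists_fm
  obtain ⟨h0, Q, N, M, a, b, _, hQ, h1, h2, h3, h4, -, -, -, -, ⟨E⟩⟩ := Cen.struct h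
  have := Cfsg.Agent.Spor.isM22_M22.1
  exact ⟨Cfsg.Spor.J4, inferInstance, Cen.finJ, ⟨simple A.boundH, (final A.boundH).2.1⟩, Cen.z, h0, Q, N, M, a, b, h1, h2,
    hQ.card, hQ.isExtraspecial, h4.trans (by rw [hQ.card]), h3, inferInstance, E.isSimpleGroup,
    (Nat.card_congr E.toEquiv).trans Cfsg.Agent.Spor.isM22_M22.2⟩

end Cfsg.Agent.S0476
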