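import Cfsg.Statements.S0477
import Cfsg.Agent.Spor.Ly.Fix
-- import your own Cfsg.Agent.* helpers here

set_option autoImplicit false
open Cfsg

namespace Cfsg.Agent.S0477

open Comp.BN Spor.LyC

/-- In some simple group of the Lyons group's order there is an element of order 3 whose centraliser has centre of order 3 with quotient by the centre simple of order 898128000 (a triple cover of a group of McLaughlin's order). -/
theorem result : ∃ (G : Type) (_ : Group G) (_ : Finite G), Cfsg.IsLy G ∧ ∃ x : G, orderOf x = 3 ∧ Nat.card (Subgroup.center (Subgroup.centralizer ({x} : Set G))) = 3 ∧ Cfsg.IsMcL ((Subgroup.centralizer ({x} : Set G)) ⧸ Subgroup.center (Subgroup.centralizer ({x} : Set G))) := by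
  obtain ⟨f, hf⟩ := exists_fm
  have h := McL.cent hf
  exact ⟨Cfsg.Spor.Ly, inferInstance, (final boundH).1, ⟨simple boundH, (final boundH).2.1⟩, ev x McL.X, h.1,
    h.2.2 Fix.boundX⟩

end Cfsg.Agent.S0477
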