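import Cfsg.Statements.S0478
import Cfsg.Agent.Spor.J3Orb

set_option autoImplicit false
open Cfsg

namespace Cfsg.Agent.S0478

/-- A triple cover of Janko's third group inside a unitary group: for a field F with four elements, the special unitary group of dimension 9 (with respect to the form with q = 2) has a subgroup whose centre has order 3 and whose quotient by its centre is simple of order 50232960. -/
theorem result : ∃ (F : Type) (_ : Field F) (_ : Fintype F), Fintype.card F = 4 ∧ ∃ H : Subgroup (Cfsg.SU 9 F 2), Nat.card (Subgroup.center H) = 3 ∧ Cfsg.IsJ3 (H ⧸ Subgroup.center H) := by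
  obtain ⟨F, _, _, ω, hF, hω⟩ := Cfsg.Agent.Spor.J3c.exists_F4
  have h4 := Cfsg.Agent.Spor.J3c.F4.mk' hF hω
  obtain ⟨H, ⟨e⟩⟩ := Cfsg.Agent.Spor.J3c.exists_SU h4
  obtain ⟨h1, -, h3, h5⟩ := Cfsg.Agent.Spor.J3c.main h4
  have hc : (Subgroup.center _).map (e : Cfsg.Spor.threeJ3 F ω →* H) = Subgroup.center H := by
    ext x
    constructor
    · rintro ⟨y, hy, rfl⟩
      exact Subgroup.mem_center_iff.2 fun g => by
        obtain ⟨g, rfl⟩ := e.surjective g
        show e g * e y = e y * e g
        rw [← map_mul, ← map_mul, Subgroup.mem_center_iff.1 hy]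
    · intro hx
      obtain ⟨y, rfl⟩ := e.surjective x
      exact ⟨y, Subgroup.mem_center_iff.2 fun g => e.injective (by
        rw [map_mul, map_mul, Subgroup.mem_center_iff.1 hx]), rfl⟩
  let q := QuotientGroup.congr _ _ e hc
  refine ⟨F, inferInstance, inferInstance, hF, H, ?_, q.symm.isSimpleGroup, ?_⟩
  · rw [← h1]; exact (Nat.card_congr (Subgroup.centerCongr e).toEquiv).symm
  · rw [← h3]; exact (Nat.card_congr q.toEquiv).symm

end Cfsg.Agent.S0478
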