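import Cfsg.Statements.S0479
import Cfsg.Agent.Spor.ON45
-- import your own Cfsg.Agent.* helpers here

set_option autoImplicit false
open Cfsg

namespace Cfsg.Agent.S0479

/-- A triple cover of the O'Nan group as 45 × 45 matrices over the field with seven elements: SL(45, 7) has a subgroup whose centre has order 3 and whose quotient by its centre is simple of order 460815505920. -/
theorem result : ∃ H : Subgroup (Matrix.SpecialLinearGroup (Fin 45) (ZMod 7)), Nat.card (Subgroup.center H) = 3 ∧ Cfsg.IsON (H ⧸ Subgroup.center H) := by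
  have := Spor.ONC.M.simple
  have : Fact (Nat.Prime 7) := ⟨by norm_num⟩
  obtain ⟨H, h, ⟨g⟩⟩ := Comp.BN.exists_sl_cover Spor.ON45.cover.1 Spor.ON45.cover.2.2.1
  exact ⟨H, h.trans Spor.ON45.cover.2.1, g.isSimpleGroup,
    (Nat.card_congr g.toEquiv).trans Spor.ONC.M.card⟩

end Cfsg.Agent.S0479
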