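import Cfsg.Statements.S0481
import Mathlib

set_option autoImplicit false
open Cfsg

namespace Cfsg.Agent.S0481



/-- Large extraspecial subgroups: let z be an involution of a finite group G whose centraliser C contains a normal 2-subgroup Q with centre of order 2 and all squares central, such that every element of G centralising Q lies in Q. Then C contains a Sylow 2-subgroup of G, and any involution of G whose centraliser contains a Sylow 2-subgroup of G is conjugate to z. -/
theorem result {G : Type*} [Group G] [Finite G] (z : G) (hz : orderOf z = 2) (Q : Subgroup G) (hQC : Q ≤ Subgroup.centralizer ({z} : Set G)) (hQn : ∀ g ∈ Subgroup.centralizer ({z} : Set G), ∀ q ∈ Q, g * q * g⁻¹ ∈ Q) (hQ2 : IsPGroup 2 Q) (hZ : Nat.card (Subgroup.center Q) = 2) (hsq : ∀ x : Q, x ^ 2 ∈ Subgroup.center Q) (hlarge : Subgroup.centralizer (Q : Set G) ≤ Q) : (∃ P : Sylow 2 G, (P : Subgroup G) ≤ Subgroup.centralizer ({z} : Set G)) ∧ ∀ u : G, orderOf u = 2 → (∃ P : Sylow 2 G, (P : Subgroup G) ≤ Subgroup.centralizer ({u}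 : Set G)) → IsConj z u := by
  have : Fact (Nat.Prime 2) := ⟨Nat.prime_two⟩
  have hz1 : z ≠ 1 := by rintro rfl; simp at hz
  have hzc : z ∈ Subgroup.centralizer (Q : Set G) := by
    rw [Subgroup.mem_centralizer_iff]
    intro q hq
    exact Subgroup.mem_centralizer_singleton_iff.1 (hQC hq)
  have key : ∀ w : G, w ∈ Subgroup.centralizer (Q : Set G) → w ≠ 1 → w = z := by
    intro w hw hw1
    have mem : ∀ (w : G) (hw : w ∈ Subgroup.centralizer (Q : Set G)),
        (⟨w, hlarge hw⟩ : Q) ∈ Subgroup.center Q := by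
      intro w hw
      rw [Subgroup.mem_center_iff]
      intro q
      exact Subtype.ext (Subgroup.mem_centralizer_iff.1 hw q q.2)
    obtain ⟨y, -, hy⟩ := (Nat.card_eq_two_iff' (1 : Subgroup.center Q)).1 hZ
    have h1 := hy ⟨_, mem w hw⟩ (fun h => hw1 (congrArg (fun x : Subgroup.center Q => ((x : Q) : G)) h))
    have h2 := hy ⟨_, mem z hzc⟩ (fun h => hz1 (congrArg (fun x : Subgroup.center Q => ((x : Q) : G)) h))
    exact congrArg (fun x : Subgroup.center Q => ((x : Q) : G)) (h1.trans h2.symm)
  obtain ⟨P, hP⟩ := hQ2.exists_le_sylow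
  have hPz : (P : Subgroup G) ≤ Subgroup.centralizer ({z} : Set G) := by
    have hne : (P : Subgroup G) ≠ ⊥ := fun h => hz1 (by
      have := hP (hlarge hzc); rwa [h, Subgroup.mem_bot] at this)
    have : Nontrivial P := (Subgroup.nontrivial_iff_ne_bot _).2 hne
    have := P.isPGroup'.center_nontrivial
    obtain ⟨w, hw⟩ := exists_ne (1 : Subgroup.center P)
    have hwc : ∀ x ∈ (P : Subgroup G), x * ((w : P) : G) = ((w : P) : G) * x := fun x hx =>
      congrArg Subtype.val (Subgroup.mem_center_iff.1 w.2 ⟨x, hx⟩)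
    have : ((w : P) : G) = z := key _ (Subgroup.mem_centralizer_iff.2 fun q hq => hwc q (hP hq))
      (fun h => hw (Subtype.ext (Subtype.ext h)))
    intro x hx
    rw [Subgroup.mem_centralizer_singleton_iff, ← this]
    exact hwc x hx
  refine ⟨⟨P, hPz⟩, fun u hu ⟨P', hP'⟩ => ?_⟩
  obtain ⟨g, rfl⟩ := MulAction.exists_smul_eq G P P'
  have hu1 : u ≠ 1 := by rintro rfl; simp at hu
  have : g⁻¹ * u * g = z := by
    apply key
    · rw [Subgroup.mem_centralizer_iff]
      intro q hq
      have h1 : g * q * g⁻¹ ∈ ((g • P : Sylow 2 G) : Subgroup G) := by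
        rw [Sylow.coe_subgroup_smul]
        exact Subgroup.smul_mem_pointwise_smul q (MulAut.conj g) _ (hP hq)
      have h2 := Subgroup.mem_centralizer_singleton_iff.1 (hP' h1)
      calc q * (g⁻¹ * u * g) = g⁻¹ * (g * q * g⁻¹ * u) * g := by group
        _ = g⁻¹ * u * g * q := by rw [h2]; group
    · intro h
      apply hu1
      calc u = g * (g⁻¹ * u * g) * g⁻¹ := by group
        _ = 1 := by rw [h]; group
  rw [← this]
  exact isConj_iff.2 ⟨g, by group⟩

end Cfsg.Agent.S0481
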