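import Cfsg.Statements.S0493
import Mathlib
import Cfsg.Agent.Small.SieveBase
import Cfsg.Agent.S0205

set_option autoImplicit false
open Cfsg

namespace Cfsg.Agent.S0493



/-- A finite simple group of order at most 100 that is not cyclic has order 60. -/
theorem result {G : Type*} [Group G] [Finite G] [IsSimpleGroup G]
    (hG : ¬ IsCyclic G) (h : Nat.card G ≤ 100) : Nat.card G = 60 := by
  open Cfsg.Agent.Small Cfsg.Agent.Small.Sieve in
  have hG' : ¬ IsMulCommutative G := fun h => hG (by
    let : CommGroup G := { (inferInstance : Group G) with mul_comm := h.is_comm.comm }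
    exact IsSimpleGroup.isCyclic)
  have h1 := twelve_sixteen_fiftysix hG' (even_iff_two_dvd.1 (by
    by_contra h
    exact not_isSolvable hG' (S0205.result (Nat.not_even_iff_odd.1 h))))
  have h4 : ∀ n a q b : ℕ, twoKill 10 n 2 a q b = true → Nat.card G ≠ n := by
    rintro _ a q b h rfl; exact twoKill_sound hG' h
  have h2 := fun n a b => h4 n a 3 b
  have h3 : ∀ n p : ℕ, sqKill 10 n p 1 = true → Nat.card G ≠ n := by
    rintro _ p h rfl; exact sqKill_sound hG' h
  have := h2 12 2 1 (by decide +kernel)
  have := h2 16 4 0 (by decide +kernel)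
  have := h2 24 3 1 (by decide +kernel)
  have := h2 32 5 0 (by decide +kernel)
  have := h2 36 2 2 (by decide +kernel)
  have := h2 48 4 1 (by decide +kernel)
  have := h2 64 6 0 (by decide +kernel)
  have := h2 72 3 2 (by decide +kernel)
  have := h2 96 5 1 (by decide +kernel)
  have := h3 84 7 (by decide +kernel)
  have := h4 56 3 7 1 (by decide +kernel)
  have := h4 80 4 5 1 (by decide +kernel)
  have := Nat.card_pos (α := G)
  omega

end Cfsg.Agent.S0493
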