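import Cfsg.Statements.S0505
import Mathlib
import Cfsg.Agent.Misc.CharTwo
import Cfsg.Agent.Grp.Fitting

set_option autoImplicit false
open Cfsg

namespace Cfsg.Agent.S0505

set_option linter.unusedVariables false
set_option linter.style.haveILetI false

/-- Let G be a finite group of even order in which the centralizer of every involution is solvable and has trivial
core (no nontrivial normal subgroup of odd order). Then G is of characteristic 2 type. -/
theorem result {G : Type*} [Group G] [Finite G]
    (h2 : Even (Nat.card G))
    (hs : ∀ t : G, orderOf t = 2 → Group.IsSolvable (Subgroup.centralizer ({t} : Set G)))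
    (hc : ∀ t : G, orderOf t = 2 → Cfsg.oddCore (Subgroup.centralizer ({t} : Set G)) = ⊥) :
    Cfsg.IsCharacteristicTwoType G := by
  refine Misc.isCharacteristicTwoType_of_centralizers h2 fun z hz => ?_
  haveI := hs z hz
  exact Grp.centralizer_pCore_le (hc z hz)

end Cfsg.Agent.S0505
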