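import Cfsg.Statements.S0518
import Mathlib
import Cfsg.Agent.PLocal.JCompFin

set_option autoImplicit false
open Cfsg

namespace Cfsg.Agent.S0518

open Cfsg.Agent.PLocal Cfsg.Agent.PLocal.JC

/-- Let G be a finite group of characteristic 2 type with trivial 2-core in which every 2-local subgroup is solvable
and, for every Sylow 2-subgroup S, the centralizer of the set of central involutions of S lies in the normalizer of S.
Then either G has a strongly embedded subgroup, or the subgroup generated by the elements of odd order has two distinct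
maximal 2-local subgroups, each isomorphic to the symmetric group of degree 4, whose intersection has order 8. -/
theorem result {G : Type*} [Group G] [Finite G]
    (hL : Cfsg.IsCharacteristicTwoType G) (hO : Cfsg.pCore 2 G = ⊥)
    (hN : ∀ N : Subgroup G, Cfsg.IsTwoLocal N → Group.IsSolvable N)
    (hZ : ∀ S : Sylow 2 G,
      Subgroup.centralizer {z : G | z ∈ (S : Subgroup G) ∧ z ^ 2 = 1 ∧ ∀ s ∈ (S : Subgroup G), s * z = z * s} ≤
        Subgroup.normalizer ((S : Subgroup G) : Set G))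
    (H : Subgroup G) (hH : H = Subgroup.closure {g : G | Odd (orderOf g)}) :
    (∃ K : Subgroup G, Cfsg.IsStronglyEmbedded K) ∨
      ∃ M₁ M₂ : Subgroup H, M₁ ≠ M₂ ∧ Cfsg.IsMaximalTwoLocal M₁ ∧ Cfsg.IsMaximalTwoLocal M₂ ∧
        Nonempty (M₁ ≃* Equiv.Perm (Fin 4)) ∧ Nonempty (M₂ ≃* Equiv.Perm (Fin 4)) ∧ Nat.card ↥(M₁ ⊓ M₂) = 8 := by
  have hz : ZN G := ⟨hL, hN, fun S => le_trans (Subgroup.centralizer_le fun z hz =>
    CP.mem_omegaZ.2 ⟨hz.1, hz.2.2, hz.2.1⟩) (hZ S)⟩
  obtain ⟨S, hS⟩ := Amb.exists_isSyl 2 (⊤ : Subgroup G)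
  have h : Sit S (Subgroup.normalizer (thompsonSubgroupOf 2 S : Set G)) :=
    ⟨hz, hS, isTwoLocal_normalizer (J_two hS.pgrp) (J_ne_bot hS.pgrp (hz.syl_ne_bot hS)), le_rfl⟩
  by_cases hne : (straddlingTwoSubgroups (Subgroup.normalizer (thompsonSubgroupOf 2 S : Set G))).Nonempty
  · obtain ⟨T, hT⟩ := exists_max hne
    obtain ⟨K₁, L₁, K₂, L₂, p⟩ := h.exists_pair hO hT
    have hH' : H = (pResidual 2 ↥(⊤ : Subgroup G)).map (⊤ : Subgroup G).subtype := by
      rw [hH, Amb.pRes_eq]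
      simp only [Subgroup.mem_top, true_and, coprime_two_iff]
    refine Or.inr ⟨_, _, fun e => p.nle fun g hg => p.eq₁.ge ?_, (p.max_res hH').1, (p.symm.max_res hH').1,
      (p.max_res hH').2, (p.symm.max_res hH').2, ?_⟩
    · have : (⟨g, hH' ▸ p.symm.K_le_res hg⟩ : H) ∈ (K₁ ⊔ T).subgroupOf H :=
        e ▸ (Subgroup.mem_sup_left hg : g ∈ K₂ ⊔ T)
      exact this
    · rw [show (K₁ ⊔ T).subgroupOf H ⊓ (K₂ ⊔ T).subgroupOf H =
        ((K₁ ⊔ T) ⊓ (K₂ ⊔ T)).subgroupOf H from rfl, p.inf_eq, Grp.card_subgroupOf, hH', p.T_inf_res, p.card_D]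
  · exact Or.inl ⟨_, isStronglyEmbedded_of_empty hO h.loc hne⟩

end Cfsg.Agent.S0518
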