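import Cfsg.Statements.S0521
import Cfsg.Agent.Misc.Four
import Cfsg.Agent.PLocal.PStable
import Cfsg.Agent.Grp.Fitting

set_option autoImplicit false
open Cfsg

namespace Cfsg.Agent.S0521

open Cfsg.Agent.Misc Cfsg.Agent.Grp Cfsg.Agent.PLocal Subgroup
open scoped commutatorElement

theorem comm_bot_of_cyclic {Y : Type*} [Group Y] [Finite Y] {p : ℕ} [hp : Fact p.Prime]
    {S D : Subgroup Y} (hS : IsPGroup p S) [IsCyclic D] (hD : ∀ d ∈ D, d ^ p = 1)
    (hn : S ≤ normalizer (D : Set Y)) : ⁅D, S⁆ = ⊥ := by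
  by_cases h0 : D = ⊥
  · rw [h0, commutator_bot_left]
  have hDp : IsPGroup p D := fun x => ⟨1, Subtype.ext (by simpa using hD x x.2)⟩
  obtain ⟨z, hz, hz1, hzc⟩ := exists_mem_centralizer_of_isPGroup hS hDp hn h0
  obtain ⟨d, hd⟩ := IsCyclic.exists_generator (α := D)
  have h1 : Nat.card D ∣ p := by
    rw [← orderOf_eq_card_of_forall_mem_zpowers hd]
    exact orderOf_dvd_of_pow_eq_one (Subtype.ext (by simpa using hD d d.2))
  have h2 : Nat.card (zpowers z) = p := by
    rw [Nat.card_zpowers]; exact orderOf_eq_prime (hD z hz) hz1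
  have h3 : zpowers z = D :=
    eq_of_le_of_card_ge (zpowers_le.2 hz) (h2 ▸ Nat.le_of_dvd hp.out.pos h1)
  rw [← h3, commutator_eq_bot_iff_le_centralizer, zpowers_le, mem_centralizer_iff]
  exact fun g hg => hzc g hg

theorem core {X : Type*} [Group X] [Finite X] [Group.IsSolvable X]
    (hX : Odd (Nat.card X)) (p : ℕ) [Fact p.Prime] (hp : p ≠ 2) (hO : pPrimeCore p X = ⊥)
    (S : Subgroup X) (hSp : IsPGroup p S) (hPS : pCore p X ≤ S) (hS : IsCyclic ↥⁅S, S⁆) :
    S ≤ pCore p X := by
  set P := pCore p X with hP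
  have hPp : IsPGroup p P := pCore_isPGroup p X
  have hC : centralizer (P : Set X) ≤ P := centralizer_pCore_le hO
  set N : Subgroup X := (frattini P).map P.subtype with hN
  have : N.Normal := inferInstance
  have hel := elemAb_map_mk_frattini hPp N le_rfl
  have hsk : sectionKernel P N ≤ P := by
    refine le_pCore inferInstance fun g => ?_
    obtain ⟨j, hj⟩ := exists_pow_mem_centralizer_of_frattini hPp (x := (g : X))
      (by rw [normalizer_eq_top]; trivial) (mem_sectionKernel_iff.1 g.2)
    obtain ⟨k, hk⟩ := hPp ⟨_, hC hj⟩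
    refine ⟨j + k, Subtype.ext ?_⟩
    have := congrArg Subtype.val hk
    simpa [pow_add, pow_mul] using this
  have hD : ⁅⁅P, S⁆, S⁆ ≤ N := by
    have : IsCyclic ↥⁅P, S⁆ := isCyclic_of_le (commutator_mono hPS le_rfl)
    have : IsCyclic ↥((⁅P, S⁆).map (QuotientGroup.mk' N)) :=
      isCyclic_of_surjective _ ((QuotientGroup.mk' N).subgroupMap_surjective ⁅P, S⁆)
    have h1 := comm_bot_of_cyclic (p := p) (S := S.map (QuotientGroup.mk' N))
      (D := (⁅P, S⁆).map (QuotientGroup.mk' N)) (hSp.map _)
      (fun d hd => hel.2 d (map_mono (commutator_le_left P S) hd))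
      (by
        rw [map_commutator]
        exact normalizer_commutator_ge_right _ _)
    rw [← map_commutator, Subgroup.map_eq_bot_iff, QuotientGroup.ker_mk'] at h1
    exact h1
  intro a ha
  have h2 := (transvFree_of_odd_card hp hX).mem_pCore_of_section P N hel P hsk a
    ((commutator_mono (commutator_mono le_rfl (zpowers_le.2 ha)) (zpowers_le.2 ha)).trans hD)
  have h3 : pCore p (X ⧸ P) = ⊥ := pCore_quotient_pCore p X
  rw [h3, mem_bot, QuotientGroup.eq_one_iff] at h2
  exact h2

/-- Let X be a finite solvable group of odd order, p a prime and S a Sylow p-subgroup of X whose commutator subgroup is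
cyclic. Then the product of the largest normal subgroup of X of order prime to p with S is a normal subgroup of X. -/
theorem result {X : Type*} [Group X] [Finite X] [Group.IsSolvable X]
    (hX : Odd (Nat.card X)) (p : ℕ) [Fact p.Prime] (S : Sylow p X) (hS : IsCyclic (commutator (S : Subgroup X))) :
    (Cfsg.pPrimeCore p X ⊔ (S : Subgroup X)).Normal := by
  by_cases hp : p = 2
  · subst hp
    have : (S : Subgroup X) = ⊥ := by
      obtain ⟨k, hk⟩ := IsPGroup.iff_card.1 S.isPGroup'
      have h1 := hX.of_dvd_nat (card_subgroup_dvd_card (S : Subgroup X))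
      rw [hk] at h1
      rw [← card_eq_one, hk]
      rcases k with _ | k
      · rfl
      · exact absurd h1 (by rw [Nat.not_odd_iff_even, pow_succ]; exact Even.mul_left even_two _)
    rw [this, sup_bot_eq]; infer_instance
  set O := pPrimeCore p X with hO
  let π := QuotientGroup.mk' O
  have hπ : Function.Surjective π := QuotientGroup.mk'_surjective O
  let T : Sylow p (X ⧸ O) := S.mapSurjective hπ
  have hT : (T : Subgroup (X ⧸ O)) = (S : Subgroup X).map π := rfl
  have hc : IsCyclic ↥⁅(S : Subgroup X), (S : Subgroup X)⁆ := by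
    rw [← map_subtype_commutator]
    exact isCyclic_of_surjective _ ((S : Subgroup X).subtype.subgroupMap_surjective _)
  have hc' : IsCyclic ↥⁅(T : Subgroup (X ⧸ O)), (T : Subgroup (X ⧸ O))⁆ := by
    rw [hT, ← map_commutator]
    exact isCyclic_of_surjective _ (π.subgroupMap_surjective _)
  have h1 := core (hX.of_dvd_nat (card_quotient_dvd_card O)) p hp
    (pPrimeCore_quotient_pPrimeCore p X) T T.isPGroup' (pCore_le_sylow T) hc'
  have h2 : (T : Subgroup (X ⧸ O)) = pCore p (X ⧸ O) := le_antisymm h1 (pCore_le_sylow T)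
  have h3 : O ⊔ (S : Subgroup X) = (pCore p (X ⧸ O)).comap π := by
    rw [← h2, hT, comap_map_eq, QuotientGroup.ker_mk', sup_comm]
  rw [h3]; infer_instance

end Cfsg.Agent.S0521
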