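import Cfsg.Statements.S0529
import Cfsg.Agent.Solv.Supersolvable2

set_option autoImplicit false
open Cfsg

namespace Cfsg.Agent.S0529

universe u

theorem aux (G : Type u) [Group G] [Finite G] (hG : Cfsg.IsSupersolvable G) : ∃ (n : ℕ) (H : Fin (n + 1) → Subgroup G), H 0 = ⊥ ∧ H (Fin.last n) = ⊤ ∧ (∀ i, (H i).Normal) ∧ (∀ i : Fin n, H i.castSucc ≤ H i.succ ∧ ((H i.castSucc).relIndex (H i.succ)).Prime) ∧ ∀ i j : Fin n, i ≤ j → (H j.castSucc).relIndex (H j.succ) ≤ (H i.castSucc).relIndex (H i.succ) := by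
  revert hG
  refine Solv.finite_group_induction (P := fun G _ _ => Cfsg.IsSupersolvable G → ∃ (n : ℕ) (H : Fin (n + 1) → Subgroup G), H 0 = ⊥ ∧ H (Fin.last n) = ⊤ ∧ (∀ i, (H i).Normal) ∧ (∀ i : Fin n, H i.castSucc ≤ H i.succ ∧ ((H i.castSucc).relIndex (H i.succ)).Prime) ∧ ∀ i j : Fin n, i ≤ j → (H j.castSucc).relIndex (H j.succ) ≤ (H i.castSucc).relIndex (H i.succ)) G ?_
  intro G _ _ ih hG
  by_cases h1 : Nat.card G = 1
  · haveI : Subsingleton G := (Nat.card_eq_one_iff_unique.1 h1).1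
    exact ⟨0, fun _ => ⊥, rfl, Subsingleton.elim _ _, fun _ => inferInstance, fun i => i.elim0,
      fun i => i.elim0⟩
  obtain ⟨p, hp, hd, hmax⟩ := Solv.exists_max_prime_dvd (Nat.card_pos (α := G)).ne' h1
  obtain ⟨N, hN, hc⟩ := Solv.exists_normal_card_eq_max_prime G hG p hp hd hmax
  have hne : N ≠ ⊥ := by
    rintro rfl
    rw [Subgroup.card_bot] at hc; exact hp.one_lt.ne hc
  obtain ⟨n, H, h0, hl, hn, hs, hm⟩ := ih (G ⧸ N) (Solv.card_quotient_lt_of_ne_bot N hne)
    (Solv.isSupersolvable_quotient hG N)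
  set f := QuotientGroup.mk' N
  have hf : Function.Surjective f := QuotientGroup.mk'_surjective N
  have hrel : ∀ A B : Subgroup (G ⧸ N), (A.comap f).relIndex (B.comap f) = A.relIndex B := by
    intro A B
    rw [Subgroup.relIndex_comap, Subgroup.map_comap_eq_self_of_surjective hf]
  set K : Fin (n + 1 + 1) → Subgroup G := Fin.cons ⊥ (fun i => (H i).comap f) with hK
  have hK0 : K 0 = ⊥ := rfl
  have hKs : ∀ i, K (Fin.succ i) = (H i).comap f := fun i => rfl
  have hcs : ∀ j : Fin n, (Fin.succ j).castSucc = (Fin.castSucc j).succ := fun j => rfl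
  have hK1 : K (Fin.succ 0) = N := by
    rw [hKs, h0, MonoidHom.comap_bot, QuotientGroup.ker_mk']
  have hfirst : (K (Fin.castSucc 0)).relIndex (K (Fin.succ 0)) = p := by
    rw [hK1, Fin.castSucc_zero, hK0, Subgroup.relIndex_bot_left, hc]
  have hnext : ∀ j : Fin n, (K (Fin.castSucc j.succ)).relIndex (K (Fin.succ j.succ)) =
      (H j.castSucc).relIndex (H j.succ) := by
    intro j
    rw [hcs, hKs, hKs, hrel]
  refine ⟨n + 1, K, rfl, ?_, ?_, ?_, ?_⟩
  · rw [← Fin.succ_last, hKs, hl, Subgroup.comap_top]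
  · intro i
    refine Fin.cases ?_ (fun j => ?_) i
    · rw [hK0]; infer_instance
    · rw [hKs]; exact (hn j).comap f
  · intro i
    refine Fin.cases ?_ (fun j => ?_) i
    · refine ⟨?_, by rw [hfirst]; exact hp⟩
      rw [Fin.castSucc_zero, hK0]; exact bot_le
    · refine ⟨?_, by rw [hnext]; exact (hs j).2⟩
      rw [hcs, hKs, hKs]
      exact Subgroup.comap_mono (hs j).1
  · intro i j
    refine Fin.cases ?_ (fun i => ?_) i <;> refine Fin.cases ?_ (fun j => ?_) j
    · exact fun _ => le_rfl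
    · intro _
      rw [hfirst, hnext]
      refine hmax _ (hs j).2 ?_
      refine (Subgroup.relIndex_dvd_card _ _).trans ((Subgroup.card_subgroup_dvd_card _).trans ?_)
      exact ⟨_, (Grp.card_quotient_mul_card N).symm⟩
    · intro h
      exact absurd h (by simp)
    · intro h
      rw [hnext, hnext]
      exact hm i j (Fin.succ_le_succ_iff.1 h)

/-- A finite supersolvable group has a chain of normal subgroups, from the trivial subgroup to the whole group, in which every step has prime index and the primes occurring are non-increasing as one goes up the chain. -/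
theorem result {G : Type*} [Group G] [Finite G] (hG : Cfsg.IsSupersolvable G) : ∃ (n : ℕ) (H : Fin (n + 1) → Subgroup G), H 0 = ⊥ ∧ H (Fin.last n) = ⊤ ∧ (∀ i, (H i).Normal) ∧ (∀ i : Fin n, H i.castSucc ≤ H i.succ ∧ ((H i.castSucc).relIndex (H i.succ)).Prime) ∧ ∀ i j : Fin n, i ≤ j → (H j.castSucc).relIndex (H j.succ) ≤ (H i.castSucc).relIndex (H i.succ) := by
  exact aux G hG

end Cfsg.Agent.S0529
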