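import Cfsg.Statements.S0530
import Cfsg.Agent.Solv.Supersolvable2

set_option autoImplicit false
open Cfsg

namespace Cfsg.Agent.S0530

/-- A finite group whose order is twice a prime power is supersolvable. -/
theorem result {G : Type*} [Group G] [Finite G] (p n : ℕ) (hp : p.Prime) (hG : Nat.card G = 2 * p ^ n) : Cfsg.IsSupersolvable G := by
  haveI := Fact.mk hp
  obtain ⟨P, hP⟩ := Sylow.exists_subgroup_card_pow_prime (G := G) p (n := n)
    (by rw [hG]; exact Dvd.intro_left _ rfl)
  refine Solv.isSupersolvable_of_nilpotent_index_dvd_two G P (IsPGroup.of_card hP).isNilpotent ?_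
  have := P.card_mul_index
  rw [hP, hG, mul_comm 2] at this
  rw [Nat.eq_of_mul_eq_mul_left (pow_pos hp.pos n) this]

end Cfsg.Agent.S0530
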