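import Cfsg.Statements.S0532
import Cfsg.Agent.Solv.Supersolvable2

set_option autoImplicit false
open Cfsg

namespace Cfsg.Agent.S0532

universe u

theorem sub {G : Type*} [Group G] (h : ∀ H : Subgroup G, Cfsg.HasSubgroupOfEveryOrder H)
    (M : Subgroup G) : ∀ H : Subgroup M, Cfsg.HasSubgroupOfEveryOrder H := by
  intro H d hd
  have e := H.equivMapOfInjective M.subtype M.subtype_injective
  obtain ⟨K, hK⟩ := h (H.map M.subtype) d (by rwa [Subgroup.card_subtype])
  exact ⟨K.map e.symm.toMonoidHom, by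
    rw [Subgroup.card_map_of_injective e.symm.injective, hK]⟩

theorem top {G : Type*} [Group G] (h : ∀ H : Subgroup G, Cfsg.HasSubgroupOfEveryOrder H) :
    Cfsg.HasSubgroupOfEveryOrder G := by
  intro d hd
  obtain ⟨K, hK⟩ := h ⊤ d (by rwa [Subgroup.card_top])
  exact ⟨K.map (⊤ : Subgroup G).subtype, by rw [Subgroup.card_subtype, hK]⟩

theorem exists_index {G : Type*} [Group G] [Finite G] (h : Cfsg.HasSubgroupOfEveryOrder G)
    {d : ℕ} (hd : d ∣ Nat.card G) : ∃ K : Subgroup G, K.index = d := by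
  obtain ⟨e, he⟩ := hd
  obtain ⟨K, hK⟩ := h e ⟨d, by rw [he, mul_comm]⟩
  refine ⟨K, ?_⟩
  have := K.card_mul_index
  rw [hK, he, mul_comm d] at this
  have he0 : 0 < e := by rw [← hK]; exact Nat.card_pos
  exact Nat.eq_of_mul_eq_mul_left he0 this

theorem aux (G : Type u) [Group G] [Finite G] (h : ∀ H : Subgroup G, Cfsg.HasSubgroupOfEveryOrder H) (p : ℕ) [hp : Fact p.Prime] (hmax : ∀ q : ℕ, q.Prime → q ∣ Nat.card G → q ≤ p) (P : Sylow p G) : (P : Subgroup G).Normal := by
  revert h hmax P
  refine Solv.finite_group_induction (P := fun G _ _ => (∀ H : Subgroup G, Cfsg.HasSubgroupOfEveryOrder H) → (∀ q : ℕ, q.Prime → q ∣ Nat.card G → q ≤ p) → ∀ (P : Sylow p G), (P : Subgroup G).Normal) G ?_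
  intro G _ _ ih h hmax P
  by_cases hP : (P : Subgroup G) = ⊤
  · rw [hP]; infer_instance
  have hi1 : (P : Subgroup G).index ≠ 1 := fun h => hP (Subgroup.index_eq_one.1 h)
  obtain ⟨r, hr, hrd⟩ := Nat.exists_prime_and_dvd hi1
  have hrG : r ∣ Nat.card G := hrd.trans (P : Subgroup G).index_dvd_card
  have hrp : r ≠ p := by
    rintro rfl
    exact P.not_dvd_index hrd
  have h1 : Nat.card G ≠ 1 := by
    intro h1; rw [h1] at hrG; exact hr.one_lt.ne' (Nat.dvd_one.1 hrG)
  have hq := Nat.minFac_prime h1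
  have hqr : (Nat.card G).minFac ≤ r := Nat.minFac_le_of_dvd hr.two_le hrG
  have hqp : (Nat.card G).minFac ≠ p := by
    have := hmax r hr hrG
    omega
  obtain ⟨M, hM⟩ := exists_index (top h) (Nat.minFac_dvd (Nat.card G))
  haveI hMn : M.Normal := Subgroup.normal_of_index_eq_minFac_card hM
  have hMt : M ≠ ⊤ := by
    rintro rfl
    rw [Subgroup.index_top] at hM; exact hq.one_lt.ne hM
  have hPM : (P : Subgroup G) ≤ M := by
    apply Grp.le_normal_of_coprime_card_index
    rw [hM, P.card_eq_multiplicity]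
    exact Nat.Coprime.pow_left _ ((Nat.coprime_primes hp.out hq).2 hqp.symm)
  have h2 := ih M (Solv.card_lt_of_ne_top M hMt) (sub h M)
    (fun q hq hqd => hmax q hq (hqd.trans (Subgroup.card_subgroup_dvd_card M))) (P.subtype hPM)
  haveI := (P.subtype hPM).characteristic_of_normal h2
  have h3 : (((P.subtype hPM : Sylow p M) : Subgroup M).map M.subtype).Normal := inferInstance
  rwa [Sylow.coe_subtype, Subgroup.subgroupOf_map_subtype, inf_eq_left.2 hPM] at h3

/-- If each subgroup of a finite group satisfies the converse of Lagrange's theorem, then a Sylow subgroup for the largest prime dividing the group order is normal. -/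
theorem result {G : Type*} [Group G] [Finite G] (h : ∀ H : Subgroup G, Cfsg.HasSubgroupOfEveryOrder H) (p : ℕ) [Fact p.Prime] (hdvd : p ∣ Nat.card G) (hmax : ∀ q : ℕ, q.Prime → q ∣ Nat.card G → q ≤ p) (P : Sylow p G) : (P : Subgroup G).Normal := by
  exact aux G h p hmax P

end Cfsg.Agent.S0532
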