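import Cfsg.Statements.S0533
import Cfsg.Agent.Solv.Supersolvable2
import Cfsg.Agent.S0532

set_option autoImplicit false
open Cfsg

namespace Cfsg.Agent.S0533

universe u

theorem aux (G : Type u) [Group G] [Finite G] (h : ∀ H : Subgroup G, Cfsg.HasSubgroupOfEveryOrder H) : Cfsg.IsSupersolvable G := by
  revert h
  refine Solv.finite_group_induction (P := fun G _ _ => (∀ H : Subgroup G, Cfsg.HasSubgroupOfEveryOrder H) → Cfsg.IsSupersolvable G) G ?_
  intro G _ _ ih h
  by_cases h1 : Nat.card G = 1
  · haveI : Subsingleton G := (Nat.card_eq_one_iff_unique.1 h1).1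
    exact Solv.isSupersolvable_of_subsingleton
  obtain ⟨p, hp, hd, hmax⟩ := Solv.exists_max_prime_dvd (Nat.card_pos (α := G)).ne' h1
  haveI := Fact.mk hp
  obtain ⟨P⟩ : Nonempty (Sylow p G) := inferInstance
  haveI hPn := S0532.aux G h p hmax P
  obtain ⟨H, hH⟩ := S0532.exists_index (S0532.top h) hd
  have hHt : H ≠ ⊤ := by
    rintro rfl
    rw [Subgroup.index_top] at hH; exact hp.one_lt.ne hH
  refine Solv.isSupersolvable_of_nilpotent_sup_of_index G P H P.isPGroup'.isNilpotent
    (ih H (Solv.card_lt_of_ne_top H hHt) (S0532.sub h H)) ?_ (Or.inr (by rwa [hH]))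
  rw [← Subgroup.index_eq_one]
  have h2 : ((P : Subgroup G) ⊔ H).index ∣ p :=
    (Subgroup.index_dvd_of_le le_sup_right).trans hH.dvd
  have h3 : ((P : Subgroup G) ⊔ H).index ∣ (P : Subgroup G).index :=
    Subgroup.index_dvd_of_le le_sup_left
  rcases (Nat.dvd_prime hp).1 h2 with h | h
  · exact h
  · rw [h] at h3; exact absurd h3 P.not_dvd_index

/-- If every subgroup of a finite group has subgroups of all orders dividing its order, then the group is supersolvable. -/
theorem result {G : Type*} [Group G] [Finite G] (h : ∀ H : Subgroup G, Cfsg.HasSubgroupOfEveryOrder H) : Cfsg.IsSupersolvable G := by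
  exact aux G h

end Cfsg.Agent.S0533
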