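import Cfsg.Statements.S0534
import Cfsg.Agent.Solv.Supersolvable2
import Cfsg.Agent.Solv.Hall

set_option autoImplicit false
open Cfsg

namespace Cfsg.Agent.S0534

/-- Let G be a finite solvable group and A a finite abelian group such that every prime dividing the order of A divides the order of G and, for each prime p dividing the order of G, the exponent of p in the order of A is one less than its exponent in the order of G. Then G × A has a subgroup of every order dividing its order. -/
theorem result {G A : Type*} [Group G] [CommGroup A] [Finite G] [Finite A] [Group.IsSolvable G] (hA : ∀ p : ℕ, p.Prime → p ∣ Nat.card A → p ∣ Nat.card G) (hexp : ∀ p : ℕ, p.Prime → p ∣ Nat.card G → (Nat.card A).factorization p + 1 = (Nat.card G).factorization p) : Cfsg.HasSubgroupOfEveryOrder (G × A) := by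
  intro d hd
  rw [Nat.card_prod] at hd
  have hG0 : Nat.card G ≠ 0 := Nat.card_pos.ne'
  have hA0 : Nat.card A ≠ 0 := Nat.card_pos.ne'
  have hd0 : d ≠ 0 := by
    rintro rfl
    exact (mul_ne_zero hG0 hA0) (zero_dvd_iff.1 hd)
  classical
  -- the part of `|G|` at primes where `d` has at least the full power
  set f := (Nat.card G).factorization with hf
  set m := (f.filter fun p => f p ≤ d.factorization p).prod (· ^ ·) with hm
  set n := (f.filter fun p => ¬ f p ≤ d.factorization p).prod (· ^ ·) with hn
  have hprime : ∀ (P : ℕ → Prop) [DecidablePred P], ∀ p ∈ (f.filter P).support, p.Prime := by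
    intro P _ p hp
    rw [Finsupp.support_filter, Finset.mem_filter] at hp
    exact Nat.prime_of_mem_primeFactors hp.1
  have hmf : m.factorization = f.filter fun p => f p ≤ d.factorization p :=
    Nat.prod_pow_factorization_eq_self (hprime _)
  have hnf : n.factorization = f.filter fun p => ¬ f p ≤ d.factorization p :=
    Nat.prod_pow_factorization_eq_self (hprime _)
  have hm0 : m ≠ 0 := by
    rw [hm]; exact Finsupp.prod_ne_zero_iff.2 fun p hp => pow_ne_zero _ (hprime _ p hp).ne_zero
  have hn0 : n ≠ 0 := by
    rw [hn]; exact Finsupp.prod_ne_zero_iff.2 fun p hp => pow_ne_zero _ (hprime _ p hp).ne_zero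
  have hmn : Nat.card G = m * n := by
    apply Nat.eq_of_factorization_eq hG0 (mul_ne_zero hm0 hn0)
    intro p
    rw [Nat.factorization_mul hm0 hn0, hmf, hnf, Finsupp.filter_add_filter_not]
  have hcop : m.Coprime n := by
    rw [Nat.coprime_iff_gcd_eq_one]
    apply Nat.eq_of_factorization_eq (Nat.gcd_ne_zero_left hm0) one_ne_zero
    intro p
    rw [Nat.factorization_gcd hm0 hn0, hmf, hnf]
    simp only [Finsupp.inf_apply, Finsupp.filter_apply, Nat.factorization_one, Finsupp.zero_apply]
    split_ifs <;> simp
  have hmd : m ∣ d := by
    rw [← Nat.factorization_le_iff_dvd hm0 hd0, hmf]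
    intro p
    simp only [Finsupp.filter_apply]
    split_ifs with h
    · exact h
    · exact Nat.zero_le _
  obtain ⟨e, he⟩ := hmd
  have he0 : e ≠ 0 := by rintro rfl; exact hd0 (by simpa using he)
  have heA : e ∣ Nat.card A := by
    rw [← Nat.factorization_le_iff_dvd he0 hA0]
    intro p
    have h1 : d.factorization p = m.factorization p + e.factorization p := by
      rw [he, Nat.factorization_mul hm0 he0]; rfl
    have h2 : d.factorization p ≤ f p + (Nat.card A).factorization p := by
      have := (Nat.factorization_le_iff_dvd hd0 (mul_ne_zero hG0 hA0)).2 hd p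
      rwa [Nat.factorization_mul hG0 hA0] at this
    rw [hmf] at h1
    simp only [Finsupp.filter_apply] at h1
    split_ifs at h1 with h
    · omega
    · have hfp : f p ≠ 0 := by omega
      have hp : p ∈ (Nat.card G).primeFactors := by
        rw [← Nat.support_factorization]; exact Finsupp.mem_support_iff.2 hfp
      have := hexp p (Nat.prime_of_mem_primeFactors hp) (Nat.dvd_of_mem_primeFactors hp)
      omega
  obtain ⟨H, hH⟩ := Solv.exists_hall G inferInstance m n hmn hcop
  obtain ⟨B, hB⟩ := Solv.hasSubgroupOfEveryOrder_of_isSupersolvable A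
    (Solv.isSupersolvable_of_isNilpotent A inferInstance) e heA
  refine ⟨H.prod B, ?_⟩
  rw [Nat.card_congr (H.prodEquiv B).toEquiv, Nat.card_prod, hH, hB, he]

end Cfsg.Agent.S0534
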