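import Cfsg.Statements.S0535
import Cfsg.Agent.Solv.SylowSystem
import Cfsg.Agent.Solv.SystemNormalizer

set_option autoImplicit false
open Cfsg

namespace Cfsg.Agent.S0535

/-- Suppose that for every nontrivial subgroup H of a finite group and every prime p dividing the order of H there is a proper subgroup of H whose index in H is a power of p. Then the group is solvable. -/
theorem result {G : Type*} [Group G] [Finite G] (h : ∀ H : Subgroup G, H ≠ ⊥ → ∀ p : ℕ, p.Prime → p ∣ Nat.card H → ∃ K : Subgroup H, K ≠ ⊤ ∧ ∃ k : ℕ, K.index = p ^ k) : Group.IsSolvable G := by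
  refine Solv.isSolvable_of_hall_complements G fun p hp => ?_
  obtain ⟨H, ⟨k, hk⟩, hmin⟩ := (wellFounded_lt (α := Subgroup G)).has_min
    {H | ∃ k, H.index = p ^ k} ⟨⊤, 0, by simp⟩
  refine ⟨H, Solv.index_eq_pow_factorization hp (fun hd => ?_) fun q hq hqd => ?_⟩
  · have hH : H ≠ ⊥ := by
      rintro rfl
      rw [Subgroup.card_bot] at hd
      exact hp.one_lt.ne' (Nat.dvd_one.1 hd)
    obtain ⟨K, hK, j, hj⟩ := h H hH p hp hd
    refine hmin (K.map H.subtype) ⟨j + k, ?_⟩ ?_
    · rw [Subgroup.index_map_subtype, hj, hk, pow_add]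
    · refine lt_of_le_of_ne (Subgroup.map_subtype_le K) fun e => hK ?_
      apply Subgroup.map_injective H.subtype_injective
      rw [e, ← MonoidHom.range_eq_map, Subgroup.range_subtype]
  · rw [hk] at hqd
    exact (Nat.prime_dvd_prime_iff_eq hq hp).1 (hq.dvd_of_dvd_pow hqd)

end Cfsg.Agent.S0535
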