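import Cfsg.Statements.S0537
import Cfsg.Agent.Solv.MinNonNilpotent

set_option autoImplicit false
open Cfsg

namespace Cfsg.Agent.S0537

/-- A finite non-abelian group in which every proper subgroup is abelian is either of prime-power order, or is generated by a cyclic Sylow p-subgroup and a normal Sylow q-subgroup that is elementary abelian, for distinct primes p and q. -/
theorem result {G : Type*} [Group G] [Finite G] (hna : ¬ IsMulCommutative G) (h : ∀ H : Subgroup G, H ≠ ⊤ → IsMulCommutative H) : (∃ p : ℕ, p.Prime ∧ IsPGroup p G) ∨ ∃ p q : ℕ, p.Prime ∧ q.Prime ∧ p ≠ q ∧ ∃ (P : Sylow p G) (Q : Sylow q G), IsCyclic P ∧ (Q : Subgroup G).Normal ∧ Cfsg.IsElementaryAbelian q (Q : Subgroup G) ∧ (P : Subgroup G) ⊔ Q = ⊤ := by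
  rcases Solv.minNonAbelian_structure hna h with h1 | h1
  · exact Or.inl h1
  obtain ⟨p, q, hp, hq, hpq, P, Q, x, hPx, hQn, hab, he, htop⟩ := h1
  refine Or.inr ⟨p, q, hp, hq, hpq, P, Q, ?_, hQn, ⟨hab, he⟩, htop⟩
  change IsCyclic (P : Subgroup G)
  rw [hPx]; infer_instance

end Cfsg.Agent.S0537
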