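import Cfsg.Statements.S0540
import Mathlib
import Cfsg.Agent.Grp.Subnormal

set_option autoImplicit false
open Pointwise
open Cfsg

namespace Cfsg.Agent.S0540

/-- A uniqueness lemma of zipper type. Let A be a subgroup of a finite group G and U a nonempty family of subgroups. For V in U write S(V) for the set of conjugates of A that lie in V and are subnormal in V. Assume: A belongs to S(V) for every V in U; a member of some S(W) that lies in V belongs to S(V); and for all V, W in U the normalizer of the join of S(V) ∩ S(W) lies in some member of U. Then U has a greatest element. -/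
theorem result {G : Type*} [Group G] [Finite G] (A : Subgroup G) (U : Set (Subgroup G)) (hU : U.Nonempty) (S : Subgroup G → Set (Subgroup G)) (hS : ∀ V B : Subgroup G, B ∈ S V ↔ (∃ g : G, B = MulAut.conj g • A) ∧ B ≤ V ∧ (B.subgroupOf V).IsSubnormal) (h1 : ∀ V ∈ U, A ∈ S V) (h2 : ∀ V ∈ U, ∀ W ∈ U, ∀ B ∈ S W, B ≤ V → B ∈ S V) (h3 : ∀ V ∈ U, ∀ W ∈ U, ∃ X ∈ U, Subgroup.normalizer ((sSup (S V ∩ S W) : Subgroup G) : Set G) ≤ X) : ∃ M ∈ U, ∀ V ∈ U, V ≤ M := by
  classical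
  have hS' : ∀ V B : Subgroup G, B ∈ S V ↔ (∃ g : G, B = MulAut.conj g • A) ∧ Grp.SnIn B V := by
    intro V B; rw [hS, Grp.snIn_iff]
  have hconj : ∀ V : Subgroup G, ∀ B ∈ S V, ∀ g ∈ V, MulAut.conj g • B ∈ S V := by
    intro V B hB g hg
    obtain ⟨⟨x, rfl⟩, hB⟩ := (hS' V _).1 hB
    exact (hS' V _).2 ⟨⟨g * x, Grp.conj_smul_conj_smul _ _ _⟩,
      hB.conj_smul (Subgroup.le_normalizer hg)⟩
  -- maximal elements of `U`
  have hmax : ∀ V ∈ U, ∃ M, V ≤ M ∧ Maximal (· ∈ U) M := fun V hV =>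
    (Set.toFinite U).exists_le_maximal hV
  have huniq : ∀ U₁ U₂, Maximal (· ∈ U) U₁ → Maximal (· ∈ U) U₂ → U₁ = U₂ := by
    by_contra hcon
    push Not at hcon
    obtain ⟨U₁', U₂', h₁', h₂', hne'⟩ := hcon
    let T : Set (Set (Subgroup G)) :=
      {X | ∃ U₁ U₂, Maximal (· ∈ U) U₁ ∧ Maximal (· ∈ U) U₂ ∧ U₁ ≠ U₂ ∧ X = S U₁ ∩ S U₂}
    obtain ⟨X, -, hX⟩ := (Set.toFinite T).exists_le_maximal (a := S U₁' ∩ S U₂')
      ⟨U₁', U₂', h₁', h₂', hne', rfl⟩
    obtain ⟨⟨U₁, U₂, h₁, h₂, hne, rfl⟩, hXmax⟩ := hX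
    obtain ⟨X', hX', hle⟩ := h3 U₁ h₁.1 U₂ h₂.1
    obtain ⟨U₃, hle3, h₃⟩ := hmax X' hX'
    replace hle := hle.trans hle3
    have key : ∀ V, Maximal (· ∈ U) V → S U₁ ∩ S U₂ ⊆ S V → V = U₃ := by
      intro V hV hsub
      rcases hsub.eq_or_ssubset with heq | hss
      · have : V ≤ U₃ := by
          refine le_trans ?_ hle
          rw [heq]
          exact Grp.le_normalizer_sSup fun g hg B hB => hconj V B hB g hg
        exact le_antisymm this (hV.2 h₃.1 this)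
      · obtain ⟨Y, hY, hY0, hYn⟩ := Grp.exists_notMem_le_normalizer_sSup (V := V)
          (fun B hB => ((hS' V B).1 hB).2) (hconj V) hss
        by_contra hne3
        have hsub3 : S U₁ ∩ S U₂ ⊆ S V ∩ S U₃ := fun B hB =>
          ⟨hsub hB, h2 U₃ h₃.1 U₁ h₁.1 B hB.1
            ((le_sSup hB).trans (Subgroup.le_normalizer.trans hle))⟩
        have := hXmax ⟨V, U₃, hV, h₃, hne3, rfl⟩ hsub3
        exact hY0 (this ⟨hY, h2 U₃ h₃.1 V hV.1 Y hY (hYn.trans hle)⟩)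
    exact hne ((key U₁ h₁ Set.inter_subset_left).trans (key U₂ h₂ Set.inter_subset_right).symm)
  obtain ⟨V₀, hV₀⟩ := hU
  obtain ⟨M, -, hM⟩ := hmax V₀ hV₀
  refine ⟨M, hM.1, fun V hV => ?_⟩
  obtain ⟨M', hle, hM'⟩ := hmax V hV
  exact huniq M' M hM' hM ▸ hle

end Cfsg.Agent.S0540
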