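import Cfsg.Statements.S0541
import Mathlib
import Cfsg.Agent.Grp.Subnormal

set_option autoImplicit false
open Pointwise
open Cfsg

namespace Cfsg.Agent.S0541

/-- Let Z and Y be subgroups of a finite group G and p a prime. Suppose that for every g in G the subgroup generated by the conjugates of g Z g⁻¹ under Y is a p-group. Then there is a Sylow p-subgroup P of G such that Y normalizes the subgroup generated by all conjugates of Z contained in P. -/
theorem result {G : Type*} [Group G] [Finite G] (p : ℕ) [Fact p.Prime] (Z Y : Subgroup G) (h : ∀ g : G, IsPGroup p ↥(⨆ y ∈ Y, MulAut.conj (y * g) • Z)) : ∃ P : Sylow p G, Y ≤ Subgroup.normalizer ((⨆ g ∈ {g : G | MulAut.conj g • Z ≤ (P : Subgroup G)}, MulAut.conj g • Z : Subgroup G) : Set G) := by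
  classical
  -- `W T`: the conjugates of `Z` inside `T`
  let W : Subgroup G → Set (Subgroup G) := fun T => {U | (∃ g : G, U = MulAut.conj g • Z) ∧ U ≤ T}
  let M : Set (Subgroup G) :=
    {T | IsPGroup p T ∧ Y ≤ Subgroup.normalizer (T : Set G) ∧ T ≤ sSup (W T)}
  have hbot : (⊥ : Subgroup G) ∈ M := ⟨IsPGroup.of_bot, Subgroup.le_normalizer_of_normal, bot_le⟩
  obtain ⟨T, -, hT⟩ := (Set.toFinite M).exists_le_maximal hbot
  obtain ⟨⟨hTp, hYT, hTW⟩, hTmax⟩ := hT
  have hTW' : sSup (W T) = T := le_antisymm (sSup_le fun U hU => hU.2) hTW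
  obtain ⟨P, hTP⟩ := hTp.exists_le_sylow
  refine ⟨P, ?_⟩
  have hsub : W T ⊆ W P := fun U hU => ⟨hU.1, hU.2.trans hTP⟩
  have hP : (⨆ g ∈ {g : G | MulAut.conj g • Z ≤ (P : Subgroup G)}, MulAut.conj g • Z : Subgroup G)
      = sSup (W P) := by
    apply le_antisymm
    · exact iSup₂_le fun g hg => le_sSup ⟨⟨g, rfl⟩, hg⟩
    · apply sSup_le
      rintro U ⟨⟨g, rfl⟩, hg⟩
      exact le_iSup₂_of_le (f := fun g (_ : g ∈ {g : G | MulAut.conj g • Z ≤ (P : Subgroup G)}) =>
        MulAut.conj g • Z) g hg le_rfl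
  rw [hP]
  rcases hsub.eq_or_ssubset with heq | hss
  · rw [← heq, hTW']; exact hYT
  · exfalso
    obtain ⟨X, ⟨⟨g, rfl⟩, hXP⟩, hX0, hXn⟩ := Grp.exists_notMem_le_normalizer_sSup
      (V := (P : Subgroup G)) (fun U hU => Grp.SnIn.of_isPGroup P.isPGroup' hU.2)
      (by
        rintro U ⟨⟨x, rfl⟩, hU⟩ g hg
        exact ⟨⟨g * x, Grp.conj_smul_conj_smul _ _ _⟩,
          Grp.conj_smul_le_of_mem_normalizer hU (Subgroup.le_normalizer hg)⟩) hss
    rw [hTW'] at hXn
    set R : Subgroup G := ⨆ y ∈ Y, MulAut.conj (y * g) • Z with hR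
    have hRle : ∀ y ∈ Y, MulAut.conj (y * g) • Z ≤ R := fun y hy =>
      le_iSup₂_of_le (f := fun y (_ : y ∈ Y) => MulAut.conj (y * g) • Z) y hy le_rfl
    have hRn : R ≤ Subgroup.normalizer (T : Set G) := by
      refine iSup₂_le fun y hy => ?_
      rw [← Grp.conj_smul_conj_smul]
      exact Grp.conj_smul_le_of_mem_normalizer hXn (Subgroup.le_normalizer (hYT hy))
    have hYR : Y ≤ Subgroup.normalizer (R : Set G) := by
      have : R = sSup {U | ∃ y ∈ Y, U = MulAut.conj (y * g) • Z} := by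
        apply le_antisymm
        · exact iSup₂_le fun y hy => le_sSup ⟨y, hy, rfl⟩
        · apply sSup_le
          rintro U ⟨y, hy, rfl⟩
          exact hRle y hy
      rw [this]
      apply Grp.le_normalizer_sSup
      rintro x hx U ⟨y, hy, rfl⟩
      exact ⟨x * y, Y.mul_mem hx hy, by rw [Grp.conj_smul_conj_smul, mul_assoc]⟩
    have hmem : R ⊔ T ∈ M := by
      refine ⟨IsPGroup.to_sup_of_normal_right' (h g) hTp hRn, ?_, sup_le ?_ ?_⟩
      · exact (le_inf hYR hYT).trans (Subgroup.normalizer_inf_normalizer_le_normalizer_sup R T)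
      · exact iSup₂_le fun y hy => le_sSup ⟨⟨_, rfl⟩, (hRle y hy).trans le_sup_left⟩
      · exact hTW.trans (sSup_le_sSup fun U hU => ⟨hU.1, hU.2.trans le_sup_right⟩)
    have := hTmax hmem le_sup_right
    apply hX0
    refine ⟨⟨g, rfl⟩, le_trans ?_ (le_sup_left.trans this)⟩
    simpa using hRle 1 Y.one_mem

end Cfsg.Agent.S0541
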