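import Cfsg.Statements.S0550
import Mathlib
import Cfsg.Agent.Solv.CoreFree

set_option autoImplicit false
open Cfsg

namespace Cfsg.Agent.S0550

/-- Let U be a maximal subgroup with trivial normal core in a finite group G, and A ≠ B two minimal normal subgroups. Then A is the centralizer of B and B that of A, U complements each of them, A and B are non-abelian, and A, B and (A ⊔ B) ∩ U are pairwise isomorphic. -/
theorem result {G : Type*} [Group G] [Finite G] (U : Subgroup G) (hU : IsCoatom U) (hcore : U.normalCore = ⊥) (A B : Subgroup G) [A.Normal] [B.Normal] (hA : A ≠ ⊥) (hB : B ≠ ⊥) (hAmin : ∀ K : Subgroup G, K.Normal → K ≤ A → K = ⊥ ∨ K = A) (hBmin : ∀ K : Subgroup G, K.Normal → K ≤ B → K = ⊥ ∨ K = B) (hAB : A ≠ B) : Subgroup.centralizer (B : Set G) = A ∧ Subgroup.centralizer (A : Set G) = B ∧ Subgroup.IsComplement' A U ∧ Subgroup.IsComplement' B U ∧ ¬ IsMulCommutative A ∧ Nonempty (A ≃* B) ∧ Nonempty (A ≃* ↥((A ⊔ B) ⊓ U)) := by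
  have hinf : A ⊓ B = ⊥ := by
    rcases hAmin (A ⊓ B) inferInstance inf_le_left with h | h
    · exact h
    · rcases hBmin A inferInstance (h ▸ inf_le_right) with h' | h'
      · exact absurd h' hA
      · exact absurd h' hAB
  have hinf' : B ⊓ A = ⊥ := by rwa [inf_comm]
  have hCB : Subgroup.centralizer (B : Set G) = A :=
    ((Solv.centralizer_minNormal_of_coreFree hU hcore B hB A inferInstance
      (Grp.le_centralizer_of_normal_of_inf_eq_bot A B hinf)).resolve_left hA).symm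
  have hCA : Subgroup.centralizer (A : Set G) = B :=
    ((Solv.centralizer_minNormal_of_coreFree hU hcore A hA B inferInstance
      (Grp.le_centralizer_of_normal_of_inf_eq_bot B A hinf')).resolve_left hB).symm
  have hAU : A ⊓ U = ⊥ := hCB ▸ Solv.centralizer_inf_eq_bot_of_coreFree hU hcore B hB
  have hBU : B ⊓ U = ⊥ := hCA ▸ Solv.centralizer_inf_eq_bot_of_coreFree hU hcore A hA
  have hAt := Solv.sup_eq_top_of_coreFree hU hcore A hA
  have hBt := Solv.sup_eq_top_of_coreFree hU hcore B hB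
  have h1 : (A ⊔ B) ⊓ (A ⊔ U) = A ⊔ ((A ⊔ B) ⊓ U) :=
    Solv.inf_sup_eq_of_le_normalizer le_sup_left Subgroup.le_normalizer_of_normal
  have h2 : (A ⊔ B) ⊓ (B ⊔ U) = B ⊔ ((A ⊔ B) ⊓ U) :=
    Solv.inf_sup_eq_of_le_normalizer le_sup_right Subgroup.le_normalizer_of_normal
  rw [hAt, inf_top_eq] at h1
  rw [hBt, inf_top_eq] at h2
  obtain ⟨e⟩ : Nonempty (A ≃* ↥((A ⊔ B) ⊓ U)) := by
    refine Solv.nonempty_mulEquiv_of_sup_eq (N := B) hinf ?_ (h2.trans (sup_comm _ _))
    rw [eq_bot_iff, ← hBU]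
    exact le_inf inf_le_right (inf_le_left.trans inf_le_right)
  obtain ⟨f⟩ : Nonempty (B ≃* ↥((A ⊔ B) ⊓ U)) := by
    refine Solv.nonempty_mulEquiv_of_sup_eq (N := A) hinf' ?_ ((sup_comm _ _).trans (h1.trans (sup_comm _ _)))
    rw [eq_bot_iff, ← hAU]
    exact le_inf inf_le_right (inf_le_left.trans inf_le_right)
  refine ⟨hCB, hCA, Grp.isComplement'_of_sup_eq_top hAU hAt,
    Grp.isComplement'_of_sup_eq_top hBU hBt, fun hc => hA ?_, ⟨e.trans f.symm⟩, ⟨e⟩⟩
  rw [eq_bot_iff, ← hinf]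
  exact le_inf le_rfl (hCA ▸ Subgroup.le_centralizer A)

end Cfsg.Agent.S0550
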