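import Cfsg.Statements.S0551
import Mathlib
import Cfsg.Agent.Solv.CoreFree
import Cfsg.Agent.Grp.Fitting
import Cfsg.Agent.PLocal.SylowIn

set_option autoImplicit false
open Pointwise
open Cfsg

namespace Cfsg.Agent.S0551

/-- In a finite solvable group all core-free maximal subgroups are conjugate. -/
theorem result {G : Type*} [Group G] [Finite G] [Group.IsSolvable G] (U V : Subgroup G) (hU : IsCoatom U) (hV : IsCoatom V) (hUc : U.normalCore = ⊥) (hVc : V.normalCore = ⊥) : ∃ g : G, MulAut.conj g • U = V := by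
  have : Nontrivial G := by
    by_contra h
    rw [not_nontrivial_iff_subsingleton] at h
    exact hU.1 (Subsingleton.elim _ _)
  obtain ⟨p, M, hp, hMn, hM, hMc, -, hMp, hMmin⟩ := Grp.exists_minNormal_elementaryAbelian G
  have hMU := Solv.isComplement'_of_coreFree hU hUc M hM
  have hMV := Solv.isComplement'_of_coreFree hV hVc M hM
  have hcard : Nat.card U = Nat.card V :=
    Nat.eq_of_mul_eq_mul_left Nat.card_pos (hMU.card_mul_card.trans hMV.card_mul_card.symm)
  by_cases hUb : U = ⊥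
  · rw [hUb, Subgroup.card_bot] at hcard
    exact ⟨1, by rw [hUb, Subgroup.card_eq_one.1 hcard.symm, Subgroup.smul_bot]⟩
  have : Nontrivial U := (Subgroup.nontrivial_iff_ne_bot U).2 hUb
  obtain ⟨q, hq, hQ0⟩ := Grp.exists_pCore_ne_bot U
  have := Fact.mk hp
  have := Fact.mk hq
  set Q : Subgroup G := (pCore q U).map U.subtype with hQ
  have hQU : Q ≤ U := Subgroup.map_subtype_le _
  have hQb : Q ≠ ⊥ := fun h => hQ0 ((Subgroup.map_eq_bot_iff_of_injective _ U.subtype_injective).1 h)
  have hQq : IsPGroup q Q := Grp.map_pCore_isPGroup q U.subtype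
  have hQn : U ≤ Subgroup.normalizer (Q : Set G) :=
    Subgroup.le_normalizer.trans (Grp.normalizer_le_normalizer_map_of_characteristic U _)
  have hK : (Q ⊔ M).Normal :=
    Solv.normal_of_sup_eq_top_of_le_normalizer hMU.sup_eq_top
      (le_sup_right.trans Subgroup.le_normalizer)
      (hQn.trans Subgroup.normalizer_le_normalizer_sup_normal)
  have hQM : Q ⊓ M = ⊥ := eq_bot_iff.2 (hMU.disjoint.eq_bot ▸ le_inf inf_le_right (inf_le_left.trans hQU))
  have hpq : p ≠ q := by
    rintro rfl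
    have h1 : IsPGroup p (Q ⊔ M : Subgroup G) := hQq.to_sup_of_normal_right hMp
    have h2 := Solv.le_centralizer_minNormal_of_isNilpotent M _ hMmin h1.isNilpotent
    rw [Solv.centralizer_eq_of_coreFree hU hUc M hM] at h2
    exact hQb (eq_bot_iff.2 (hQM ▸ le_inf le_rfl (le_sup_left.trans h2)))
  have hcK : Nat.card (Q ⊔ M : Subgroup G) = Nat.card Q * Nat.card M := Grp.card_sup_of_disjoint Q M hQM
  have hsQ : PLocal.IsSylowIn q Q (Q ⊔ M) := by
    refine PLocal.isSylowIn_of_not_dvd_relIndex le_sup_left hQq ?_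
    have h1 := Grp.card_mul_relIndex (le_sup_left : Q ≤ Q ⊔ M)
    rw [hcK] at h1
    rw [Nat.eq_of_mul_eq_mul_left Nat.card_pos h1]
    exact (Nat.Prime.coprime_iff_not_dvd hq).1 (Grp.coprime_card_of_isPGroup_of_ne hpq hMp).symm
  set R : Subgroup G := (Q ⊔ M) ⊓ V with hR
  have hRM : R ⊓ M = ⊥ := eq_bot_iff.2
    (hMV.disjoint.eq_bot ▸ le_inf inf_le_right (inf_le_left.trans inf_le_right))
  have hRs : R ⊔ M = Q ⊔ M := by
    have := Solv.inf_sup_eq_of_le_normalizer (M := V) (le_sup_right : M ≤ Q ⊔ M)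
      Subgroup.le_normalizer_of_normal
    rw [hMV.sup_eq_top, inf_top_eq] at this
    rw [sup_comm R, ← this]
  have hcR : Nat.card R = Nat.card Q := by
    have h1 := Grp.card_sup_of_disjoint R M hRM
    rw [hRs, hcK] at h1
    exact (Nat.eq_of_mul_eq_mul_right Nat.card_pos h1).symm
  have hRq : IsPGroup q R := by
    obtain ⟨k, hk⟩ := IsPGroup.iff_card.1 hQq
    exact IsPGroup.of_card (hcR.trans hk)
  have hsR : PLocal.IsSylowIn q R (Q ⊔ M) := hsQ.of_card_le hRq inf_le_left hcR.ge
  obtain ⟨g, -, hg⟩ := hsQ.exists_conj_eq hsR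
  have hRb : R ≠ ⊥ := fun h => hQb (Subgroup.card_eq_one.1 (by rw [← hcR, h, Subgroup.card_bot]))
  refine ⟨g, ?_⟩
  rw [← Solv.normalizer_eq_of_coreFree hU hUc hQb hQU hQn,
    ← Solv.normalizer_eq_of_coreFree hV hVc hRb inf_le_right
      ((le_inf Subgroup.le_normalizer_of_normal Subgroup.le_normalizer).trans
        Subgroup.inf_normalizer_le_normalizer_inf), ← hg, PLocal.normalizer_map_conj]
  rfl

end Cfsg.Agent.S0551
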