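import Cfsg.Statements.S0552
import Mathlib
import Cfsg.Agent.Grp.Fitting

set_option autoImplicit false
open Cfsg

namespace Cfsg.Agent.S0552

/-- Let σ be an automorphism of a finite solvable group G fixing every element of the Fitting subgroup. If σ is not the identity then the order of σ and the order of G have a common prime factor. -/
theorem result {G : Type*} [Group G] [Finite G] [Group.IsSolvable G] (σ : G ≃* G) (hσ : ∀ x ∈ Cfsg.fittingSubgroup G, σ x = x) (hne : σ ≠ MulEquiv.refl G) : ¬ (orderOf σ).Coprime (Nat.card G) := by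
  intro hcop
  apply hne
  ext g
  set c := g⁻¹ * σ g with hc
  have hcF : c ∈ fittingSubgroup G := by
    apply Grp.centralizer_fitting_le G
    intro f hf
    have h1 := hσ _ ((Grp.fitting_normal G).conj_mem f hf g)
    rw [map_mul, map_mul, map_inv, hσ f hf] at h1
    rw [hc]
    calc f * (g⁻¹ * σ g) = g⁻¹ * (g * f * g⁻¹) * σ g := by group
      _ = g⁻¹ * (σ g * f * (σ g)⁻¹) * σ g := by rw [h1]
      _ = g⁻¹ * σ g * f := by group
  have hpow : ∀ n : ℕ, (σ ^ n) g = g * c ^ n := by
    intro n
    induction n with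
    | zero => simp
    | succ n ih =>
      rw [pow_succ', MulAut.mul_apply, ih, map_mul, hσ _ (Subgroup.pow_mem _ hcF n), pow_succ',
        ← mul_assoc, hc, mul_inv_cancel_left]
  have h1 : c ^ orderOf σ = 1 := by
    have := hpow (orderOf σ)
    rw [pow_orderOf_eq_one, MulAut.one_apply] at this
    exact (mul_eq_left.1 this.symm)
  have h2 : orderOf c = 1 :=
    Nat.eq_one_of_dvd_coprimes hcop (orderOf_dvd_of_pow_eq_one h1) (orderOf_dvd_natCard c)
  have h3 : c = 1 := orderOf_eq_one_iff.1 h2
  rw [hc, inv_mul_eq_one] at h3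
  exact h3.symm

end Cfsg.Agent.S0552
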