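import Cfsg.Statements.S0553
import Mathlib
import Cfsg.Agent.Grp.Fitting
import Cfsg.Agent.Grp.Frattini
import Cfsg.Agent.Grp.Card

set_option autoImplicit false
open Cfsg

namespace Cfsg.Agent.S0553

/-- Let G be a nontrivial finite solvable group in which every maximal subgroup has order coprime to its index. Then for some prime p dividing the order of G the Sylow p-subgroups of G are normal. -/
theorem result {G : Type*} [Group G] [Finite G] [Group.IsSolvable G] [Nontrivial G] (h : ∀ M : Subgroup G, IsCoatom M → (Nat.card M).Coprime M.index) : ∃ p : ℕ, p.Prime ∧ p ∣ Nat.card G ∧ ∀ P : Sylow p G, (P : Subgroup G).Normal := by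
  have hF : ¬ fittingSubgroup G ≤ frattini G := by
    intro hle
    have : Nontrivial (G ⧸ frattini G) :=
      QuotientGroup.nontrivial_iff.2 Grp.frattini_ne_top
    apply Grp.fitting_ne_bot (G ⧸ frattini G)
    rw [← Grp.map_fitting_eq_of_ker_le_frattini (QuotientGroup.mk' (frattini G))
      (QuotientGroup.mk'_surjective _) (QuotientGroup.ker_mk' _).le, Subgroup.map_eq_bot_iff,
      QuotientGroup.ker_mk']
    exact hle
  rw [Grp.fitting_eq_iSup_pCore, iSup_le_iff, not_forall] at hF
  obtain ⟨⟨p, hp⟩, hF⟩ := hF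
  rw [Grp.le_frattini_iff] at hF
  push Not at hF
  obtain ⟨M, hM, hOM⟩ := hF
  have := Fact.mk hp
  have htop : M ⊔ pCore p G = ⊤ := hM.2 _ (left_lt_sup.2 hOM)
  have h1 : M.index ∣ Nat.card (pCore p G) := by
    have h2 := Grp.card_sup_dvd M (pCore p G)
    rw [htop, Subgroup.card_top, ← M.card_mul_index] at h2
    exact Nat.dvd_of_mul_dvd_mul_left Nat.card_pos h2
  obtain ⟨n, hn⟩ := Grp.card_pCore p G
  have hpM : p ∣ M.index := by
    rw [hn] at h1
    obtain ⟨k, -, hk⟩ := (Nat.dvd_prime_pow hp).1 h1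
    rcases k with _ | k
    · exact absurd (Subgroup.index_eq_one.1 (by simpa using hk)) hM.1
    · rw [hk]; exact dvd_pow_self p k.succ_ne_zero
  have hnd : ¬ p ∣ (pCore p G).index := by
    intro hd
    rw [← Subgroup.relIndex_top_right, ← htop, Subgroup.relIndex_sup_right] at hd
    exact hp.one_lt.ne' (Nat.eq_one_of_dvd_coprimes (h M hM)
      (hd.trans (Subgroup.relIndex_dvd_card _ _)) hpM)
  refine ⟨p, hp, hpM.trans M.index_dvd_card, fun P => ?_⟩
  have : (P : Subgroup G) = pCore p G :=
    ((Grp.pCore_isPGroup p G).toSylow hnd).is_maximal' P.isPGroup' (Grp.pCore_le_sylow P)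
  rw [this]
  infer_instance

end Cfsg.Agent.S0553
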