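import Cfsg.Statements.S0554
import Mathlib
import Cfsg.Agent.Grp.Card

set_option autoImplicit false
open Cfsg

namespace Cfsg.Agent.S0554

theorem absorb {G : Type*} [Group G] (N : Subgroup G) [hN : N.Normal] :
    ∀ (t : ℕ) (S : Fin t → Subgroup G), (∃ i, N ≤ S i) → ∀ s : Fin t → G, (∀ i, s i ∈ S i) →
      ∀ n ∈ N, ∃ s' : Fin t → G, (∀ i, s' i ∈ S i) ∧
        (List.ofFn s').prod = (List.ofFn s).prod * n := by
  intro t
  induction t with
  | zero => rintro S ⟨i, -⟩; exact i.elim0
  | succ t ih =>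
    rintro S ⟨i, hi⟩ s hs n hn
    rcases Fin.eq_zero_or_eq_succ i with rfl | ⟨j, rfl⟩
    · set r := (List.ofFn fun i : Fin t => s i.succ).prod with hr
      refine ⟨Fin.cons (s 0 * (r * n * r⁻¹)) fun i => s i.succ, fun i => ?_, ?_⟩
      · refine Fin.cases ?_ (fun j => ?_) i
        · exact (S 0).mul_mem (hs 0) (hi (hN.conj_mem n hn r))
        · exact hs _
      · simp only [List.ofFn_succ, List.prod_cons, Fin.cons_zero, Fin.cons_succ, ← hr]
        group
    · obtain ⟨s', h1, h2⟩ := ih (fun i => S i.succ) ⟨j, hi⟩ (fun i => s i.succ) (fun i => hs _) n hn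
      refine ⟨Fin.cons (s 0) s', fun i => ?_, ?_⟩
      · refine Fin.cases ?_ (fun j => ?_) i
        · exact hs 0
        · exact h1 j
      · simp only [List.ofFn_succ, List.prod_cons, Fin.cons_zero, Fin.cons_succ, h2, mul_assoc]

theorem aux.{u} (t : ℕ) (p : Fin t → ℕ) (hp : ∀ i, (p i).Prime) (G : Type u) [Group G] [Finite G] :
    Group.IsSolvable G → (∀ q : ℕ, q.Prime → q ∣ Nat.card G → ∃ i, p i = q) →
    ∀ (S : (i : Fin t) → Sylow (p i) G) (g : G),
      ∃ s : (i : Fin t) → G, (∀ i, s i ∈ (S i : Subgroup G)) ∧ g = (List.ofFn s).prod := by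
  refine Grp.card_induction (P := fun G _ _ => Group.IsSolvable G →
    (∀ q : ℕ, q.Prime → q ∣ Nat.card G → ∃ i, p i = q) →
    ∀ (S : (i : Fin t) → Sylow (p i) G) (g : G),
      ∃ s : (i : Fin t) → G, (∀ i, s i ∈ (S i : Subgroup G)) ∧ g = (List.ofFn s).prod) ?_ G
  · intro G _ _ ih hsol hall S g
    rcases subsingleton_or_nontrivial G with hG | hG
    · exact ⟨fun _ => 1, fun i => Subgroup.one_mem _, Subsingleton.elim _ _⟩
    obtain ⟨q, N, hq, hNn, hN, -, -, hNq, -⟩ := Grp.exists_minNormal_elementaryAbelian G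
    have := Fact.mk hq
    have hqG : q ∣ Nat.card G := by
      refine dvd_trans ?_ N.card_subgroup_dvd_card
      exact hNq.card_eq_or_dvd.resolve_left fun h => hN (Subgroup.card_eq_one.1 h)
    obtain ⟨i, rfl⟩ := hall q hq hqG
    have hf : ∀ i, Fact (p i).Prime := fun i => ⟨hp i⟩
    obtain ⟨s, hs, hg⟩ := ih (G ⧸ N) (Grp.card_quotient_lt N hN) inferInstance
      (fun r hr hd => hall r hr (hd.trans N.card_quotient_dvd_card))
      (fun j => (S j).mapSurjective (QuotientGroup.mk'_surjective N)) (g : G ⧸ N)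
    choose s' hs' hss' using hs
    have h1 : ((List.ofFn s').prod : G ⧸ N) = (g : G ⧸ N) := by
      rw [hg, ← QuotientGroup.mk'_apply, map_list_prod, List.map_ofFn]
      congr 2
      exact funext hss'
    obtain ⟨s'', h2, h3⟩ := absorb N t (fun j => (S j : Subgroup G))
      ⟨i, hNq.le_sylow_of_normal (S i)⟩ s' hs' _ (QuotientGroup.eq.1 h1)
    exact ⟨s'', h2, by rw [h3, mul_inv_cancel_left]⟩

/-- Let G be a finite solvable group and let S assign to each of t distinct primes, including every prime divisor of the order of G, a Sylow subgroup of G. Then every element of G is a product s_0 s_1 ⋯ s_(t-1) with s_i in S i, the factors taken in the given order. -/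
theorem result {G : Type*} [Group G] [Finite G] [Group.IsSolvable G] (t : ℕ) (p : Fin t → ℕ) (hp : ∀ i, (p i).Prime) (hinj : Function.Injective p) (hall : ∀ q : ℕ, q.Prime → q ∣ Nat.card G → ∃ i, p i = q) (S : (i : Fin t) → Sylow (p i) G) : ∀ g : G, ∃ s : (i : Fin t) → G, (∀ i, s i ∈ (S i : Subgroup G)) ∧ g = (List.ofFn s).prod := by
  exact aux t p hp G inferInstance hall S

end Cfsg.Agent.S0554
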