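import Cfsg.Statements.S0555
import Mathlib
import Cfsg.Agent.Solv.Misc1

set_option autoImplicit false
open Cfsg

namespace Cfsg.Agent.S0555

/-- Let i ≥ 1. If in the derived series of a group the quotient of the i-th term by the (i+1)-st and the quotient of the (i+1)-st by the (i+2)-nd are both cyclic, then the (i+1)-st and (i+2)-nd terms coincide. -/
theorem result {G : Type*} [Group G] (i : ℕ) (hi : 1 ≤ i) (h₁ : IsCyclic (↥(derivedSeries G i) ⧸ (derivedSeries G (i + 1)).subgroupOf (derivedSeries G i))) (h₂ : IsCyclic (↥(derivedSeries G (i + 1)) ⧸ (derivedSeries G (i + 2)).subgroupOf (derivedSeries G (i + 1)))) : derivedSeries G (i + 1) = derivedSeries G (i + 2) := by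
  have hn := derivedSeries_normal G (i + 2)
  have hn1 := derivedSeries_normal G (i + 1)
  set B := derivedSeries G (i + 2) with hB
  set A := derivedSeries G (i + 1) with hA
  set C := derivedSeries G i with hC
  refine le_antisymm ?_ (derivedSeries_antitone G (Nat.le_succ _))
  let π := QuotientGroup.mk' B
  have hπ : Function.Surjective π := QuotientGroup.mk'_surjective B
  have hAn : (A.map π).Normal := hn1.map π hπ
  have hAc : IsCyclic (A.map π) := by
    let f : A ⧸ B.subgroupOf A →* A.map π :=
      QuotientGroup.lift _ (π.subgroupMap A) fun x hx =>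
        Subtype.ext ((QuotientGroup.eq_one_iff _).2 hx)
    refine isCyclic_of_surjective f fun y => ?_
    obtain ⟨x, rfl⟩ := π.subgroupMap_surjective A y
    exact ⟨x, rfl⟩
  have hCc : C.map π ≤ Subgroup.centralizer (A.map π : Set (G ⧸ B)) := by
    refine le_trans ?_ (Solv.commutator_le_centralizer_of_isCyclic _)
    refine (Subgroup.map_mono (derivedSeries_antitone G hi)).trans ?_
    exact map_derivedSeries_le_derivedSeries π 1
  -- `C / B` is abelian
  have key : ∀ x ∈ C, ∀ y ∈ C, π x * π y = π y * π x := by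
    obtain ⟨c, hc⟩ := IsCyclic.exists_generator (α := C ⧸ A.subgroupOf C)
    obtain ⟨c, rfl⟩ := QuotientGroup.mk_surjective c
    have dec : ∀ x ∈ C, ∃ m : ℤ, ∃ a ∈ A, x = (c : G) ^ m * a := by
      intro x hx
      obtain ⟨m, hm⟩ := hc ((⟨x, hx⟩ : C) : C ⧸ A.subgroupOf C)
      have hm' : ((c ^ m : C) : C ⧸ A.subgroupOf C) = ((⟨x, hx⟩ : C) : C ⧸ A.subgroupOf C) := by
        rw [QuotientGroup.mk_zpow]; exact hm
      have := QuotientGroup.eq.1 hm'
      rw [Subgroup.mem_subgroupOf] at this
      refine ⟨m, _, this, ?_⟩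
      simp
    intro x hx y hy
    obtain ⟨m, a, ha, rfl⟩ := dec x hx
    obtain ⟨n, b, hb, rfl⟩ := dec y hy
    have hAC : A ≤ C := derivedSeries_antitone G (Nat.le_succ _)
    have comm : ∀ a ∈ A, ∀ z ∈ C, Commute (π a) (π z) := fun a ha z hz =>
      hCc ⟨z, hz, rfl⟩ _ ⟨a, ha, rfl⟩
    have h1 : Commute (π ((c : G) ^ m * a)) (π ((c : G) ^ n * b)) := by
      rw [map_mul π _ a]
      refine Commute.mul_left ?_ (comm a ha _ hy)
      rw [map_mul]
      refine Commute.mul_right ?_ (comm b hb _ (C.zpow_mem c.2 m)).symm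
      rw [map_zpow, map_zpow]
      exact (Commute.refl _).zpow_zpow m n
    exact h1
  change ⁅C, C⁆ ≤ B
  rw [Subgroup.commutator_le]
  intro x hx y hy
  rw [← QuotientGroup.eq_one_iff, ← QuotientGroup.mk'_apply, map_commutatorElement,
    commutatorElement_eq_one_iff_mul_comm]
  exact key x hx y hy

end Cfsg.Agent.S0555
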