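import Cfsg.Statements.S0557
import Mathlib
import Cfsg.Agent.Transfer.Control
import Cfsg.Agent.Grp.Card

set_option autoImplicit false
open Cfsg

namespace Cfsg.Agent.S0557

/-- Let H be a subgroup of a finite group G with order coprime to its index. If iterating the focal-subgroup construction starting from H reaches the trivial subgroup after finitely many steps, then H has a normal complement in G. -/
theorem result {G : Type*} [Group G] [Finite G] (H : Subgroup G) (hHall : (Nat.card H).Coprime H.index) (n : ℕ) (hfoc : (fun K : Subgroup G => Subgroup.focalSubgroup K)^[n] H = ⊥) : ∃ N : Subgroup G, N.Normal ∧ Subgroup.IsComplement' N H := by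
  have hH : IsPGroup (Nat.card H) H := fun x => ⟨1, by rw [pow_one]; exact pow_card_eq_one'⟩
  have h1 := Transfer.inf_pResidual_le_closure hH hHall.symm
  have hmono : ∀ {K L : Subgroup G}, K ≤ L → K.focalSubgroup ≤ L.focalSubgroup := by
    intro K L h
    apply Subgroup.closure_mono
    rintro g ⟨hg, x, hx, u, rfl⟩
    exact ⟨h hg, x, h hx, u, rfl⟩
  have h2 : H ⊓ pResidual (Nat.card H) G ≤ (H ⊓ pResidual (Nat.card H) G).focalSubgroup := by
    refine h1.trans (Subgroup.closure_mono ?_)
    rintro g ⟨hg, x, hx, u, -, rfl⟩
    exact ⟨hg, x, hx, u, rfl⟩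
  have h3 : ∀ k, H ⊓ pResidual (Nat.card H) G ≤
      (fun K : Subgroup G => Subgroup.focalSubgroup K)^[k] H := by
    intro k
    induction k with
    | zero => exact inf_le_left
    | succ k ih =>
      rw [Function.iterate_succ_apply']
      exact h2.trans (hmono ih)
  refine ⟨pResidual (Nat.card H) G, inferInstance, Grp.isComplement'_of_sup_eq_top ?_
    (Transfer.pResidual_sup_eq_top_of_coprime_index hHall.symm)⟩
  rw [inf_comm, eq_bot_iff, ← hfoc]
  exact h3 n

end Cfsg.Agent.S0557
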