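import Cfsg.Statements.S0558
import Mathlib
import Cfsg.Agent.Solv.WielandtCompl

set_option autoImplicit false
open Cfsg

namespace Cfsg.Agent.S0558

open Cfsg.Agent.PLocal.Amb Cfsg.Agent.Solv.NA in
theorem aux {G : Type*} [Group G] [Finite G] (H : Subgroup G) (hnot : ∀ p : ℕ, p.Prime → ∀ P : Sylow p G, (P : Subgroup G) ≠ H) (hnorm : ∀ p : ℕ, p.Prime → p ∣ Nat.card H → ∀ P : Sylow p H, Subgroup.normalizer (((P : Subgroup H).map H.subtype : Subgroup G) : Set G) = H) : ∃ N : Subgroup G, N.Normal ∧ Subgroup.IsComplement' N H := by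
  have hH : Group.IsNilpotent H := by
    rw [Grp.isNilpotent_iff_forall_sylow_normal]
    intro p hp P
    by_cases hd : p ∣ Nat.card H
    · rw [← Subgroup.normalizer_eq_top_iff, normalizer_eq_subgroupOf, hnorm p hp.out hd P,
        Subgroup.subgroupOf_self]
    · have h1 : (P : Subgroup H) = ⊥ := by
        by_contra h0
        exact hd ((dvd_card_of_ne_bot P.isPGroup' h0).trans (Subgroup.card_subgroup_dvd_card _))
      rw [h1]; infer_instance
  have h : ∀ p : ℕ, p.Prime → p ∣ Nat.card H → 𝐍[pCoreOf p H] ≤ H := by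
    intro p hp hd
    have := Fact.mk hp
    obtain ⟨P, hP⟩ := (isSyl_pCoreOf (p := p) hH).exists_sylow_map
    rw [← hP]
    exact (hnorm p hp hd P).le
  have hnp : ∀ p : ℕ, p.Prime → ¬ IsPGroup p H := by
    intro p hp hP
    have := Fact.mk hp
    by_cases h0 : H = ⊥
    · obtain ⟨q, hq, hq'⟩ := Nat.exists_infinite_primes (Nat.card G + 1)
      have := Fact.mk hq'
      obtain ⟨Q⟩ := (inferInstance : Nonempty (Sylow q G))
      refine hnot q hq' Q ?_
      rw [h0]
      by_contra h1
      have h2 := (dvd_card_of_ne_bot Q.isPGroup' h1).trans (Subgroup.card_subgroup_dvd_card _)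
      have := Nat.le_of_dvd Nat.card_pos h2
      omega
    · have hd := dvd_card_of_ne_bot hP h0
      obtain ⟨S, hS⟩ := (isSyl_top_of_normalizer_le hH (h p hp hd)).exists_sylow_top
      exact hnot p hp S (hS.trans (pCoreOf_eq_self hP))
  obtain ⟨N, hN, h1, h2⟩ := exists_normal_compl_of_normalizer_le hH hnp h
  exact ⟨N, hN, Grp.isComplement'_of_sup_eq_top (Subgroup.inf_eq_bot_of_coprime h1) h2⟩

/-- Let H be a subgroup of a finite group G that is not a Sylow subgroup of G for any prime, and suppose that for every prime p dividing the order of H and every Sylow p-subgroup P of H the normalizer of P in G is exactly H. Then some normal subgroup of G is a complement to H. -/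
theorem result {G : Type*} [Group G] [Finite G] (H : Subgroup G) (hnot : ∀ p : ℕ, p.Prime → ∀ P : Sylow p G, (P : Subgroup G) ≠ H) (hnorm : ∀ p : ℕ, p.Prime → p ∣ Nat.card H → ∀ P : Sylow p H, Subgroup.normalizer (((P : Subgroup H).map H.subtype : Subgroup G) : Set G) = H) : ∃ N : Subgroup G, N.Normal ∧ Subgroup.IsComplement' N H := by
  exact aux H hnot hnorm

end Cfsg.Agent.S0558
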