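import Cfsg.Statements.S0560
import Mathlib
import Cfsg.Agent.Solv.Factorized

set_option autoImplicit false
open Pointwise
open Cfsg

namespace Cfsg.Agent.S0560

/-- Let the finite group G be the product HK of two subgroups and p a prime. Then there are Sylow p-subgroups P of H and Q of K and a Sylow p-subgroup R of G whose underlying set is the product set of P and Q. -/
theorem result {G : Type*} [Group G] [Finite G] (H K : Subgroup G) (hHK : ∀ g : G, ∃ h ∈ H, ∃ k ∈ K, g = h * k) (p : ℕ) [Fact p.Prime] : ∃ (P : Sylow p H) (Q : Sylow p K) (R : Sylow p G), ((R : Subgroup G) : Set G) = (((P : Subgroup H).map H.subtype : Subgroup G) : Set G) * (((Q : Subgroup K).map K.subtype : Subgroup G) : Set G) := by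
  obtain ⟨P, Q, R, hP, hQ, h⟩ := (Solv.isProd_top hHK).exists_sylow p
  refine ⟨hP.toSylow, hQ.toSylow, R, ?_⟩
  rw [hP.map_toSylow, hQ.map_toSylow]
  exact Solv.isProd_iff_coe.1 h

end Cfsg.Agent.S0560
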