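import Cfsg.Statements.S0563
import Mathlib
import Cfsg.Agent.Solv.KegelWielandt

set_option autoImplicit false
open Pointwise
open Cfsg

namespace Cfsg.Agent.S0563

open Cfsg.Agent.PLocal.Amb in
theorem hall {G : Type*} [Group G] [Finite G] {A B : Subgroup G} (h : Solv.IsProd ⊤ A B)
    (hcop : (Nat.card A).Coprime (Nat.card B)) {p : ℕ} [hp : Fact p.Prime] {P : Subgroup G}
    (hP : IsSyl p P A) : (Nat.card P).Coprime (P.relIndex ⊤) := by
  rw [← Subgroup.relIndex_mul_relIndex P A ⊤ hP.le le_top]
  refine Nat.Coprime.mul_right ?_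
    ((hcop.coprime_dvd_left (Subgroup.card_dvd_of_le hP.le)).coprime_dvd_right h.relIndex_dvd)
  rw [hP.card_eq_pow]
  exact ((Nat.Prime.coprime_iff_not_dvd hp.out).2 hP.not_dvd_relIndex).pow_left _

/-- If a finite group G is the product AB of two nilpotent subgroups of coprime orders, then G is solvable, and for every Sylow p-subgroup P of A and Sylow q-subgroup Q of B the product set PQ is a subgroup. -/
theorem result {G : Type*} [Group G] [Finite G] (A B : Subgroup G) (hA : Group.IsNilpotent A) (hB : Group.IsNilpotent B) (hcop : (Nat.card A).Coprime (Nat.card B)) (hAB : ∀ g : G, ∃ a ∈ A, ∃ b ∈ B, g = a * b) : Group.IsSolvable G ∧ ∀ (p q : ℕ) [Fact p.Prime] [Fact q.Prime] (P : Sylow p A) (Q : Sylow q B), ∃ S : Subgroup G, (S : Set G) = (((P : Subgroup A).map A.subtype : Subgroup G) : Set G) * (((Q : Subgroup B).map B.subtype : Subgroup G) : Set G) := by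
  have h := Solv.isProd_top hAB
  have hs := Solv.NA.isSolvable_of_isProd G A B h hA hB
  refine ⟨hs, fun p q _ _ P Q => ⟨_, Solv.isProd_iff_coe.1 (h.isProd_sup_of_hall le_top ?_ le_top ?_
    (hall h hcop (PLocal.Amb.isSyl_map_subtype P))
    (hall h.symm hcop.symm (PLocal.Amb.isSyl_map_subtype Q)))⟩⟩
  · exact PLocal.Amb.le_normalizer_map_subtype _
  · exact PLocal.Amb.le_normalizer_map_subtype _

end Cfsg.Agent.S0563
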