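import Cfsg.Statements.S0565
import Mathlib
import Cfsg.Agent.Solv.KegelWielandt
import Cfsg.Agent.S0551

set_option autoImplicit false
open Cfsg

namespace Cfsg.Agent.S0565

universe u

open Subgroup in
open scoped Pointwise in
theorem aux (G : Type u) [Group G] [Finite G] : ∀ A B : Subgroup G, Solv.IsProd ⊤ A B →
    Group.IsNilpotent A → Group.IsNilpotent B → (A ≠ ⊤ ∨ B ≠ ⊤) →
    ∃ N : Subgroup G, N.Normal ∧ N ≠ ⊤ ∧ (A ≤ N ∨ B ≤ N) := by
  refine Grp.card_induction (P := fun G _ _ => ∀ A B : Subgroup G, Solv.IsProd ⊤ A B →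
    Group.IsNilpotent A → Group.IsNilpotent B → (A ≠ ⊤ ∨ B ≠ ⊤) →
    ∃ N : Subgroup G, N.Normal ∧ N ≠ ⊤ ∧ (A ≤ N ∨ B ≤ N)) ?_ G
  intro G _ _ ih A B h hA hB hne
  have hs := Solv.NA.isSolvable_of_isProd G A B h hA hB
  have hnil : ∀ A : Subgroup G, Group.IsNilpotent (⊤ : Subgroup G) → A ≠ ⊤ →
      ∃ N : Subgroup G, N.Normal ∧ N ≠ ⊤ ∧ A ≤ N := by
    intro A h1 h2
    have : Group.IsNilpotent G := Group.nilpotent_of_surjective (⊤ : Subgroup G).subtype
      fun x => ⟨⟨x, mem_top x⟩, rfl⟩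
    obtain ⟨M, hM, hAM⟩ := (eq_top_or_exists_le_coatom A).resolve_left h2
    exact ⟨M, NormalizerCondition.normal_of_coatom M Group.normalizerCondition_of_isNilpotent hM,
      hM.1, hAM⟩
  by_cases hA1 : A = ⊤
  · subst hA1
    obtain ⟨N, h1, h2, h3⟩ := hnil B hA (hne.resolve_left (by simp))
    exact ⟨N, h1, h2, Or.inr h3⟩
  by_cases hB1 : B = ⊤
  · subst hB1
    obtain ⟨N, h1, h2, h3⟩ := hnil A hB hA1
    exact ⟨N, h1, h2, Or.inl h3⟩
  by_contra hc
  have key : ∀ (N : Subgroup G) [N.Normal], N ≠ ⊥ → A.map (QuotientGroup.mk' N) = ⊤ ∧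
      B.map (QuotientGroup.mk' N) = ⊤ := by
    intro N _ hN
    by_contra h1
    rw [not_and_or] at h1
    obtain ⟨M, h2, h3, h4⟩ := ih _ (Grp.card_quotient_lt N hN) _ _
      (Solv.NA.isProd_map_top h _ (QuotientGroup.mk'_surjective N))
      (Grp.isNilpotent_map _ _) (Grp.isNilpotent_map _ _) h1
    refine hc ⟨M.comap (QuotientGroup.mk' N), inferInstance, fun h5 => h3 ?_, ?_⟩
    · rw [← map_comap_eq_self_of_surjective (QuotientGroup.mk'_surjective N) M, h5,
        map_top_of_surjective _ (QuotientGroup.mk'_surjective N)]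
    · exact h4.imp map_le_iff_le_comap.1 map_le_iff_le_comap.1
  have key2 : ∀ C M : Subgroup G, IsCoatom M → C ≤ M →
      (∀ (N : Subgroup G) [N.Normal], N ≠ ⊥ → C.map (QuotientGroup.mk' N) = ⊤) →
      M.normalCore = ⊥ := by
    intro C M hM hCM h1
    by_contra h0
    have h2 := congrArg (comap (QuotientGroup.mk' M.normalCore)) (h1 _ h0)
    rw [comap_map_eq, QuotientGroup.ker_mk', comap_top] at h2
    exact hM.1 (eq_top_iff.2 (h2 ▸ sup_le hCM (normalCore_le M)))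
  obtain ⟨M, hM, hAM⟩ := (eq_top_or_exists_le_coatom A).resolve_left hA1
  obtain ⟨M', hM', hBM⟩ := (eq_top_or_exists_le_coatom B).resolve_left hB1
  obtain ⟨g, hg⟩ := S0551.result M' M hM' hM (key2 B M' hM' hBM fun N _ hN => (key N hN).2)
    (key2 A M hM hAM fun N _ hN => (key N hN).1)
  have h1 : Solv.IsProd ⊤ M M' := Solv.isProd_top fun x => by
    obtain ⟨a, ha, b, hb, rfl⟩ := h.2.2 x (mem_top x)
    exact ⟨a, hAM ha, b, hBM hb, rfl⟩
  have h2 := h1.conj_right (mem_top g)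
  rw [hg] at h2
  exact hM.1 h2.eq_of_self.symm

/-- Let the finite group G be the product AB of nilpotent subgroups A and B, not both equal to G. Then there is a proper normal subgroup of G containing A or containing B. -/
theorem result {G : Type*} [Group G] [Finite G] (A B : Subgroup G) (hA : Group.IsNilpotent A) (hB : Group.IsNilpotent B) (hAB : ∀ g : G, ∃ a ∈ A, ∃ b ∈ B, g = a * b) (hproper : A ≠ ⊤ ∨ B ≠ ⊤) : ∃ N : Subgroup G, N.Normal ∧ N ≠ ⊤ ∧ (A ≤ N ∨ B ≤ N) := by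
  exact aux G A B (Solv.isProd_top hAB) hA hB hproper

end Cfsg.Agent.S0565
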