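import Cfsg.Statements.S0567
import Mathlib
import Cfsg.Agent.Grp.Subnormal

set_option autoImplicit false
open Cfsg

namespace Cfsg.Agent.S0567

/-- A subgroup H of a group G is subnormal exactly when, for some m, the subgroup obtained from G by taking the commutator with H m times in succession is contained in H. -/
theorem result {G : Type*} [Group G] (H : Subgroup G) : H.IsSubnormal ↔ ∃ m : ℕ, (fun K : Subgroup G => ⁅K, H⁆)^[m] ⊤ ≤ H := by
  constructor
  · intro h
    have key : ∀ K : Subgroup G, K.IsSubnormal → H ≤ K →
        ∃ m : ℕ, (fun K : Subgroup G => ⁅K, H⁆)^[m] ⊤ ≤ K := by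
      intro K hK
      induction hK with
      | top => exact fun _ => ⟨0, le_top⟩
      | step K K' h1 _ h3 ih =>
        intro hHK
        obtain ⟨m, hm⟩ := ih (hHK.trans h1)
        refine ⟨m + 1, ?_⟩
        rw [Function.iterate_succ_apply']
        refine (Subgroup.commutator_mono hm hHK).trans ?_
        exact Subgroup.le_normalizer_iff_commutator_le_right.1
          ((Subgroup.normal_subgroupOf_iff_le_normalizer h1).1 h3)
    exact key H h le_rfl
  · rintro ⟨m, hm⟩
    have key : ∀ m : ℕ, Grp.SnIn (H ⊔ (fun K : Subgroup G => ⁅K, H⁆)^[m] ⊤) ⊤ := by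
      intro m
      induction m with
      | zero => simpa using Grp.SnIn.refl (⊤ : Subgroup G)
      | succ m ih =>
        rw [Function.iterate_succ_apply']
        set L := (fun K : Subgroup G => ⁅K, H⁆)^[m] ⊤
        refine Grp.SnIn.step (sup_le le_sup_left ?_) (sup_le ?_ ?_) ih
        · exact (Subgroup.commutator_le_sup L H).trans (sup_comm L H).le
        · exact le_sup_left.trans Subgroup.le_normalizer
        · rw [Subgroup.sup_eq_closure, Subgroup.le_normalizer_closure_iff]
          rintro l hl x (hx | hx)
          · rw [← Subgroup.sup_eq_closure]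
            have : l * x * l⁻¹ = (l * x * l⁻¹ * x⁻¹) * x := by group
            rw [this]
            exact Subgroup.mul_mem _
              (Subgroup.mem_sup_right (Subgroup.commutator_mem_commutator hl hx))
              (Subgroup.mem_sup_left hx)
          · rw [← Subgroup.sup_eq_closure]
            exact Subgroup.mem_sup_right
              ((Subgroup.normalizer_commutator_ge_left L H hl x).1 hx)
    have := key m
    rw [sup_eq_left.2 hm] at this
    exact Grp.snIn_top_iff.1 this

end Cfsg.Agent.S0567
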