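import Cfsg.Statements.S0573
import Mathlib
import Cfsg.Agent.Solv.NilpAmb
import Cfsg.Agent.Solv.Factorized
import Cfsg.Agent.S0572

set_option autoImplicit false
open Cfsg

namespace Cfsg.Agent.S0573

open Subgroup Cfsg.Agent.PLocal.Amb

theorem normal_of_le_center {G : Type*} [Group G] {N : Subgroup G} (h : N ≤ center G) :
    N.Normal := ⟨fun n hn g => by rw [mem_center_iff.1 (h hn) g]; simpa using hn⟩

theorem eq_one_of_centralizer {G : Type*} [Group G] {A B : Subgroup G} [IsMulCommutative A]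
    [IsMulCommutative B] (h : Solv.IsProd ⊤ A B) (hA : ∀ N : Subgroup G, N.Normal → N ≤ A → N = ⊥)
    (hB : ∀ N : Subgroup G, N.Normal → N ≤ B → N = ⊥) {a : G} (ha : a ∈ A)
    (hc : a ∈ 𝐂[commutator G]) : a = 1 := by
  have h1 : 𝐂[A] ≤ A := by
    intro c hc
    obtain ⟨a, ha, b, hb, rfl⟩ := h.2.2 c (mem_top c)
    have h2 : b ∈ 𝐂[A] := (mul_mem_cancel_left (le_centralizer A ha)).1 hc
    have h3 : b ∈ B ⊓ center G := by
      refine ⟨hb, mem_center_iff.2 fun g => ?_⟩
      obtain ⟨a', ha', b', hb', rfl⟩ := h.2.2 g (mem_top g)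
      rw [mul_assoc, setLike_mul_comm (s := B) hb' hb, ← mul_assoc, h2 a' ha', mul_assoc]
    rw [hB _ (normal_of_le_center inf_le_right) inf_le_left, mem_bot] at h3
    rw [h3, mul_one]; exact ha
  have : (A ⊔ commutator G).Normal := Normal.of_commutator_le G le_sup_right
  have h2 : a ∈ 𝐂[A ⊔ commutator G] := by
    rw [centralizer_sup]; exact ⟨le_centralizer A ha, hc⟩
  rwa [hA 𝐂[A ⊔ commutator G] inferInstance ((centralizer_anti le_sup_left).trans h1),
    mem_bot] at h2

theorem inf_le_sup {G : Type*} [Group G] (A B L : Subgroup G) [L.Normal] :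
    A ⊓ (L ⊔ B) ≤ (B ⊓ (L ⊔ A)) ⊔ L := by
  rintro a ⟨ha, h1⟩
  obtain ⟨l, hl, b, hb, rfl⟩ := (mem_sup_of_le_normalizer_left le_normalizer_of_normal).1 h1
  refine mul_mem (mem_sup_right hl) (mem_sup_left ⟨hb, ?_⟩)
  exact (mul_mem_cancel_left (mem_sup_left hl)).1 (mem_sup_right ha)

theorem left_eq_one {G : Type*} [Group G] [Finite G] {A B : Subgroup G} [IsMulCommutative A]
    [IsMulCommutative B] [IsMulCommutative (commutator G)] (h : Solv.IsProd ⊤ A B)
    (hA : ∀ N : Subgroup G, N.Normal → N ≤ A → N = ⊥)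
    (hB : ∀ N : Subgroup G, N.Normal → N ≤ B → N = ⊥) {p : ℕ} [Fact p.Prime] {P : Subgroup G}
    [P.Normal] (hP : IsPGroup p P) (hAP : A ⊓ (pCoreOf p (commutator G) ⊔ B) ≤ P)
    (hBP : B ⊓ (pCoreOf p (commutator G) ⊔ A) ≤ P) {a b : G} (ha : a ∈ A) (hb : b ∈ B)
    (hz : a * b ∈ pCoreOf p (commutator G)) (hc : a * b ∈ 𝐂[P]) : a = 1 := by
  have hK := Grp.isNilpotent_of_isMulCommutative (commutator G)
  refine eq_one_of_centralizer h hA hB ha ?_
  rw [← Solv.NA.pRes_sup_pCoreOf (p := p) hK, centralizer_sup]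
  have haP : a ∈ P := hAP ⟨ha, (mul_mem_cancel_right (mem_sup_right hb)).1 (mem_sup_left hz)⟩
  refine ⟨Grp.le_centralizer_of_normal_of_inf_eq_bot P _
    (Grp.inf_eq_bot_of_isPGroup_of_coprime hP (Solv.NA.coprime_card_pRes hK)) haP, ?_⟩
  intro l hl
  obtain ⟨a', ha', b', hb', rfl⟩ := h.2.2 l (mem_top l)
  have h1 : b' ∈ P := hBP ⟨hb', (mul_mem_cancel_left (mem_sup_right ha')).1 (mem_sup_left hl)⟩
  have h2 : b' * a = a * b' := by
    have h3 := hc b' h1
    rw [mul_assoc, setLike_mul_comm (s := B) hb hb', ← mul_assoc, ← mul_assoc] at h3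
    exact mul_right_cancel h3
  rw [mul_assoc, h2, ← mul_assoc, setLike_mul_comm (s := A) ha' ha, mul_assoc]

/-- If a nontrivial finite group G is the product AB of abelian subgroups A and B, then some nontrivial normal subgroup of G is contained in A or in B. -/
theorem result {G : Type*} [Group G] [Finite G] [Nontrivial G] (A B : Subgroup G) [IsMulCommutative A] [IsMulCommutative B] (hAB : ∀ g : G, ∃ a ∈ A, ∃ b ∈ B, g = a * b) : ∃ N : Subgroup G, N.Normal ∧ N ≠ ⊥ ∧ (N ≤ A ∨ N ≤ B) := by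
  by_contra hc
  push Not at hc
  have hA : ∀ N : Subgroup G, N.Normal → N ≤ A → N = ⊥ := fun N h1 h2 => by
    by_contra h0; exact (hc N h1 h0).1 h2
  have hB : ∀ N : Subgroup G, N.Normal → N ≤ B → N = ⊥ := fun N h1 h2 => by
    by_contra h0; exact (hc N h1 h0).2 h2
  have h := Solv.isProd_top hAB
  have hcomm : IsMulCommutative (commutator G) :=
    le_centralizer_iff_isMulCommutative.1
      (commutator_eq_bot_iff_le_centralizer.1 (S0572.result A B hAB))
  have hK := Grp.isNilpotent_of_isMulCommutative (commutator G)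
  have hK0 : commutator G ≠ ⊥ := by
    intro h0
    have h1 := h.eq_sup
    rw [hA A (Normal.of_commutator_le G (h0 ▸ bot_le)) le_rfl,
      hB B (Normal.of_commutator_le G (h0 ▸ bot_le)) le_rfl, sup_bot_eq] at h1
    exact top_ne_bot h1
  obtain ⟨p, hp, hd⟩ := Nat.exists_prime_and_dvd (fun h1 => hK0 (eq_bot_of_card_eq _ h1))
  have := Fact.mk hp
  set L := pCoreOf p (commutator G) with hL
  have hLn : L.Normal := Grp.normal_map_subtype_of_characteristic _ _
  have hLp : IsPGroup p L := isPGroup_pCoreOf _ _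
  have hAB0 : A ⊓ B = ⊥ := hA _ (normal_of_le_center fun x hx => mem_center_iff.2 fun g => by
    obtain ⟨a', ha', b', hb', rfl⟩ := hAB g
    rw [mul_assoc, setLike_mul_comm (s := B) hb' hx.2, ← mul_assoc,
      setLike_mul_comm (s := A) ha' hx.1, mul_assoc]) inf_le_left
  have hPe : (A ⊓ (L ⊔ B)) ⊔ L = (B ⊓ (L ⊔ A)) ⊔ L :=
    le_antisymm (sup_le (inf_le_sup A B L) le_sup_right) (sup_le (inf_le_sup B A L) le_sup_right)
  have hPn : ((A ⊓ (L ⊔ B)) ⊔ L).Normal := by
    rw [← normalizer_eq_top_iff, eq_top_iff, h.eq_sup]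
    refine sup_le (le_normalizer_sup (((le_centralizer A).trans (centralizer_anti inf_le_left)).trans
      (centralizer_le_normalizer' _)) le_normalizer_of_normal) ?_
    rw [hPe]
    exact le_normalizer_sup (((le_centralizer B).trans (centralizer_anti inf_le_left)).trans
      (centralizer_le_normalizer' _)) le_normalizer_of_normal
  have hAL : IsPGroup p (A ⊓ (L ⊔ B) : Subgroup G) := by
    have h1 := (h.symm.inf_right (H := L ⊔ B) le_sup_right le_top).card_mul
    have h2 : B ⊓ ((L ⊔ B) ⊓ A) = ⊥ :=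
      eq_bot_iff.2 (hAB0 ▸ le_inf (inf_le_right.trans inf_le_right) inf_le_left)
    rw [h2, card_bot, one_mul, ← Grp.card_mul_relIndex (le_sup_right : B ≤ L ⊔ B), inf_comm] at h1
    have h3 := (Solv.isProd_sup_of_le_normalizer' (A := L) (B := B)
      le_normalizer_of_normal).symm.relIndex_dvd
    rw [← Nat.eq_of_mul_eq_mul_left Nat.card_pos h1] at h3
    obtain ⟨k, hk⟩ := hLp.exists_card_eq
    obtain ⟨j, -, hj⟩ := (Nat.dvd_prime_pow hp).1 (hk ▸ h3)
    exact IsPGroup.of_card hj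
  have hP := isPGroup_sup hAL hLp le_normalizer_of_normal
  have h1 := inf_centralizer_ne_bot hP hLp le_normalizer_of_normal (Solv.NA.pCoreOf_ne_bot hK hd)
  apply h1
  rw [eq_bot_iff]
  intro z hz
  obtain ⟨a, ha, b, hb, rfl⟩ := hAB z
  have h2 : a = 1 := left_eq_one h hA hB hP le_sup_left (hPe ▸ le_sup_left) ha hb hz.1 hz.2
  have h3 : b⁻¹ = 1 := left_eq_one h.symm hB hA hP (hPe ▸ le_sup_left) le_sup_left (inv_mem hb)
    (inv_mem ha) (by rw [← mul_inv_rev]; exact L.inv_mem hz.1)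
    (by rw [← mul_inv_rev]; exact (𝐂[_]).inv_mem hz.2)
  rw [h2, inv_eq_one.1 h3, mul_one]
  exact one_mem _

end Cfsg.Agent.S0573
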