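import Cfsg.Statements.S0571
import Cfsg.Agent.Solv.Supersolvable
import Cfsg.Agent.S0573

set_option autoImplicit false
open Cfsg

namespace Cfsg.Agent.S0571

universe u

theorem aux (G : Type u) [Group G] [Finite G] (A B : Subgroup G) (hA : IsCyclic A) (hB : IsCyclic B) (hAB : ∀ g : G, ∃ a ∈ A, ∃ b ∈ B, g = a * b) : Cfsg.IsSupersolvable G := by
  revert A B
  refine Solv.finite_group_induction (P := fun G _ _ => ∀ (A B : Subgroup G), IsCyclic A → IsCyclic B → (∀ g : G, ∃ a ∈ A, ∃ b ∈ B, g = a * b) → Cfsg.IsSupersolvable G) G ?_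
  intro G _ _ ih A B hA hB hAB
  rcases subsingleton_or_nontrivial G with h0 | h0
  · exact Solv.isSupersolvable_of_subsingleton
  haveI : IsMulCommutative A := IsCyclic.isMulCommutative
  haveI : IsMulCommutative B := IsCyclic.isMulCommutative
  obtain ⟨N, hN, hN0, hle⟩ := S0573.result A B hAB
  haveI : IsCyclic N := by
    rcases hle with h | h
    · exact isCyclic_of_injective (Subgroup.inclusion h) (Subgroup.inclusion_injective h)
    · exact isCyclic_of_injective (Subgroup.inclusion h) (Subgroup.inclusion_injective h)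
  refine Solv.isSupersolvable_of_cyclic_normal N ?_
  set f := QuotientGroup.mk' N
  refine ih _ (Solv.card_quotient_lt_of_ne_bot N hN0) (A.map f) (B.map f)
    (isCyclic_of_surjective _ (f.subgroupMap_surjective A))
    (isCyclic_of_surjective _ (f.subgroupMap_surjective B)) fun g => ?_
  obtain ⟨g, rfl⟩ := QuotientGroup.mk'_surjective N g
  obtain ⟨a, ha, b, hb, rfl⟩ := hAB g
  exact ⟨f a, ⟨a, ha, rfl⟩, f b, ⟨b, hb, rfl⟩, map_mul f a b⟩

/-- If a finite group G is the product AB of two cyclic subgroups (every element is a product ab), then G is supersolvable. -/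
theorem result {G : Type*} [Group G] [Finite G] (A B : Subgroup G) [IsCyclic A] [IsCyclic B] (hAB : ∀ g : G, ∃ a ∈ A, ∃ b ∈ B, g = a * b) : Cfsg.IsSupersolvable G := by
  exact aux G A B inferInstance inferInstance hAB

end Cfsg.Agent.S0571
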