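import Cfsg.Statements.S0574
import Mathlib
import Cfsg.Agent.Solv.KegelWielandt
import Cfsg.Agent.S0572

set_option autoImplicit false
open Cfsg

namespace Cfsg.Agent.S0574

universe u

open Subgroup Cfsg.Agent.PLocal.Amb

theorem claim (G : Type u) [Group G] [Finite G] : ∀ A B : Subgroup G, IsMulCommutative A →
    Group.IsNilpotent B → Solv.IsProd ⊤ A B → A ⊔ ⁅B, B⁆ = ⊤ → A = ⊤ := by
  refine Grp.card_induction (P := fun G _ _ => ∀ A B : Subgroup G, IsMulCommutative A →
    Group.IsNilpotent B → Solv.IsProd ⊤ A B → A ⊔ ⁅B, B⁆ = ⊤ → A = ⊤) ?_ G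
  intro G _ _ ih A B hA hB h hs
  by_contra hne
  have hnt : Nontrivial G := by
    by_contra h0
    rw [not_nontrivial_iff_subsingleton] at h0
    exact hne (Subsingleton.elim _ _)
  have hsolv := Solv.NA.isSolvable_of_isProd G A B h (Grp.isNilpotent_of_isMulCommutative A) hB
  have key : ∀ (N : Subgroup G) [N.Normal], N ≠ ⊥ → N ⊔ A = ⊤ := by
    intro N _ hN
    have h1 := ih _ (Grp.card_quotient_lt N hN) _ _ inferInstance (Grp.isNilpotent_map _ _)
      (Solv.NA.isProd_map_top h _ (QuotientGroup.mk'_surjective N))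
      (by rw [← map_commutator, ← Subgroup.map_sup, hs,
        map_top_of_surjective _ (QuotientGroup.mk'_surjective N)])
    have h2 := congrArg (comap (QuotientGroup.mk' N)) h1
    rwa [comap_map_eq, QuotientGroup.ker_mk', comap_top, sup_comm] at h2
  have hcore : ∀ M : Subgroup G, M.Normal → M ≤ A → M = ⊥ := fun M _ hM => by
    by_contra h0
    exact hne (by rw [← key M h0, sup_eq_right.2 hM])
  obtain ⟨q, N, hq, hN, hN0, hNc, -, hNq, hmin⟩ := Grp.exists_minNormal_elementaryAbelian G
  have := Fact.mk hq
  have hNA := key N hN0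
  have h1 : 𝐂[N] ⊓ A = ⊥ := hcore _ (Solv.normal_of_sup_eq_top_of_le_normalizer hNA
    (Solv.le_normalizer_of_le_centralizer inf_le_left)
    (Solv.le_normalizer_of_le_centralizer (inf_le_right.trans (le_centralizer A)))) inf_le_right
  have hp : Solv.IsProd ⊤ N A := hNA ▸ Solv.isProd_sup_of_le_normalizer' le_normalizer_of_normal
  have h2 : 𝐂[N] ≤ N := by
    intro c hc
    obtain ⟨n, hn, a, ha, rfl⟩ := hp.2.2 c (mem_top c)
    have h3 : a ∈ 𝐂[N] ⊓ A := ⟨(mul_mem_cancel_left (le_centralizer N hn)).1 hc, ha⟩
    rw [h1, mem_bot] at h3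
    rw [h3, mul_one]; exact hn
  have h3 : ¬ q ∣ Nat.card A := by
    intro hd
    have h4 := inf_centralizer_ne_bot (isPGroup_pCoreOf q A) hNq le_normalizer_of_normal hN0
    have h5 := (hmin _ (Solv.normal_of_sup_eq_top_of_le_normalizer hNA
      (Solv.le_normalizer_of_le_centralizer (inf_le_left.trans (le_centralizer N)))
      (le_normalizer_inf le_normalizer_of_normal
        (le_normalizer_centralizer (le_normalizer_pCoreOf q A)))) inf_le_left).resolve_left h4
    refine Solv.NA.pCoreOf_ne_bot (Grp.isNilpotent_of_isMulCommutative A) hd (eq_bot_iff.2 ?_)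
    rw [← h1]
    exact le_inf (le_centralizer_iff.1 (h5.symm.le.trans inf_le_right)) (pCoreOf_le q A)
  have h4 : ∀ P : Subgroup G, IsPGroup q P → (Nat.card P).Coprime (Nat.card A) := by
    intro P hP
    obtain ⟨k, hk⟩ := hP.exists_card_eq
    rw [hk]
    exact ((Nat.Prime.coprime_iff_not_dvd hq).2 h3).pow_left k
  have h5 : N ≤ B := Grp.le_of_coprime_card_index ((h4 N hNq).coprime_dvd_right
    (by have := h.symm.relIndex_dvd; rwa [relIndex_top_right] at this))
  have h6 : IsPGroup q B :=
    isPGroup_of_pRes_le hNq ((Solv.NA.pRes_le_centralizer hB hNq h5).trans h2)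
  have h7 : B ≤ N := Grp.le_normal_of_coprime_card_index ((h4 B h6).coprime_dvd_right
    (by have := hp.relIndex_dvd; rwa [relIndex_top_right] at this))
  have h8 : ⁅B, B⁆ = ⊥ := commutator_eq_bot_iff_le_centralizer.2
    (h7.trans ((le_centralizer N).trans (centralizer_anti h7)))
  rw [h8, sup_bot_eq] at hs
  exact hne hs

theorem length_lt {a b : ℕ} (hb : b ≠ 0) (h : a ∣ b) (hne : a ≠ b) :
    a.primeFactorsList.length < b.primeFactorsList.length := by
  obtain ⟨c, rfl⟩ := h
  have ha : a ≠ 0 := left_ne_zero_of_mul hb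
  have hc : c ≠ 0 := right_ne_zero_of_mul hb
  rw [(Nat.perm_primeFactorsList_mul ha hc).length_eq, List.length_append]
  have h1 : c ≠ 1 := by rintro rfl; exact hne (mul_one a).symm
  have h2 : c.primeFactorsList ≠ [] := (Nat.primeFactorsList_ne_nil c).2 (by omega)
  have := List.length_pos_iff.2 h2
  omega

theorem derived_le {G : Type*} [Group G] {H : Subgroup G} (h : derivedSeries G 2 ≤ H) (m : ℕ) :
    derivedSeries G (m + 2) ≤ (derivedSeries H m).map H.subtype := by
  induction m with
  | zero => rwa [derivedSeries_zero, ← MonoidHom.range_eq_map, range_subtype]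
  | succ m ih =>
    rw [show m + 1 + 2 = (m + 2) + 1 by ring, derivedSeries_succ, derivedSeries_succ H,
      map_commutator]
    exact commutator_mono ih ih

theorem map_comm {G : Type*} [Group G] {B H : Subgroup G} (h : B ≤ H) :
    (⁅B.subgroupOf H, B.subgroupOf H⁆).map H.subtype = ⁅B, B⁆ := by
  rw [map_commutator, map_subgroupOf_of_le h]

theorem main (n : ℕ) : ∀ (G : Type u) [Group G] [Finite G] (A B : Subgroup G),
    IsMulCommutative A → Group.IsNilpotent B → Solv.IsProd ⊤ A B →
    (Nat.card (⁅B, B⁆ : Subgroup G)).primeFactorsList.length ≤ n →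
    derivedSeries G (2 * (1 + n)) = ⊥ := by
  have base : ∀ (G : Type u) [Group G] (A B : Subgroup G), IsMulCommutative A →
      Solv.IsProd ⊤ A B → ⁅B, B⁆ = ⊥ → derivedSeries G 2 = ⊥ := by
    intro G _ A B hA h h0
    have := le_centralizer_iff_isMulCommutative.1 (commutator_eq_bot_iff_le_centralizer.1 h0)
    exact S0572.result A B fun g => h.2.2 g (mem_top g)
  induction n with
  | zero =>
    intro G _ _ A B hA hB h hl
    refine base G A B hA h (eq_bot_of_card_eq _ ?_)
    rw [Nat.le_zero, List.length_eq_zero_iff, Nat.primeFactorsList_eq_nil] at hl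
    exact hl.resolve_left Nat.card_pos.ne'
  | succ n ih =>
    intro G _ _ A B hA hB h hl
    by_cases h0 : ⁅B, B⁆ = ⊥
    · exact eq_bot_iff.2 (base G A B hA h h0 ▸ derivedSeries_antitone G (by omega))
    have h1 := h.inf_right (H := A ⊔ ⁅B, B⁆) le_sup_left le_top
    set H := A ⊔ ⁅B, B⁆ with hH
    have hB1 : Group.IsNilpotent ((H ⊓ B).subgroupOf H) := by
      have : Group.IsNilpotent (H ⊓ B : Subgroup G) := Grp.isNilpotent_of_le inf_le_right
      exact Grp.isNilpotent_comap_of_injective _ H.subtype H.subtype_injective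
    have h2 : ⁅H ⊓ B, H ⊓ B⁆ ≠ ⁅B, B⁆ := by
      intro h3
      have h4 := claim H _ _ inferInstance hB1 (Solv.isProd_top h1.subgroupOf) (by
        apply map_injective H.subtype_injective
        rw [Subgroup.map_sup, map_comm inf_le_left, h3, map_subgroupOf_of_le le_sup_left,
          ← MonoidHom.range_eq_map, range_subtype])
      have h5 : H ⊓ B ≤ A := inf_le_left.trans (subgroupOf_eq_top.1 h4)
      exact h0 (h3 ▸ commutator_eq_bot_iff_le_centralizer.2
        (h5.trans ((le_centralizer A).trans (centralizer_anti h5))))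
    have h3 : ⁅H ⊓ B, H ⊓ B⁆ ≤ ⁅B, B⁆ := commutator_mono inf_le_right inf_le_right
    have h4 := length_lt Nat.card_pos.ne' (card_dvd_of_le h3)
      (Grp.card_lt_of_lt (lt_of_le_of_ne h3 h2)).ne
    have h5 := ih H _ _ inferInstance hB1 (Solv.isProd_top h1.subgroupOf) (by
      rw [← card_subtype, map_comm inf_le_left]; omega)
    have h6 : normalClosure ((⁅B, B⁆ : Subgroup G) : Set G) ≤ H := by
      refine (closure_le _).2 fun x hx => ?_
      obtain ⟨b, hb, hc⟩ := Group.mem_conjugatesOfSet_iff.1 hx
      obtain ⟨g, rfl⟩ := isConj_iff.1 hc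
      obtain ⟨a, ha, c, hc', rfl⟩ := h.2.2 g (mem_top g)
      have h9 : c * b * c⁻¹ ∈ H := mem_sup_right (conj_mem_of_mem_normalizer
        (le_normalizer_commutator le_normalizer le_normalizer hc') hb)
      have : a * c * b * (a * c)⁻¹ = a * (c * b * c⁻¹) * a⁻¹ := by group
      rw [this]
      exact mul_mem (mul_mem (mem_sup_left ha) h9) (inv_mem (mem_sup_left ha))
    have h7 : derivedSeries G 2 ≤ H := by
      refine le_trans ?_ h6
      set M := normalClosure ((⁅B, B⁆ : Subgroup G) : Set G)
      have h8 := base (G ⧸ M) _ _ inferInstance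
        (Solv.NA.isProd_map_top h _ (QuotientGroup.mk'_surjective M))
        (by rw [← map_commutator, Subgroup.map_eq_bot_iff, QuotientGroup.ker_mk']
            exact le_normalClosure)
      rwa [← map_derivedSeries_eq (QuotientGroup.mk'_surjective M), Subgroup.map_eq_bot_iff,
        QuotientGroup.ker_mk'] at h8
    have h8 := derived_le h7 (2 * (1 + n))
    rw [h5, Subgroup.map_bot] at h8
    exact eq_bot_iff.2 h8

/-- Let the finite group G be the product AB of an abelian subgroup A and a subgroup B of nilpotency class at most two, and let Ω be the number of prime factors, with multiplicity, of the order of the commutator subgroup of B. Then the term of index 2(1 + Ω) of the derived series of G is trivial. -/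
theorem result {G : Type*} [Group G] [Finite G] (A B : Subgroup G) [IsMulCommutative A] (hB : commutator ↥B ≤ Subgroup.center ↥B) (hAB : ∀ g : G, ∃ a ∈ A, ∃ b ∈ B, g = a * b) : derivedSeries G (2 * (1 + (Nat.card ↥(commutator ↥B)).primeFactorsList.length)) = ⊥ := by
  refine main _ G A B inferInstance ?_ (Solv.isProd_top hAB) (le_of_eq ?_)
  · refine ⟨2, eq_top_iff.2 fun x _ => ?_⟩
    rw [Subgroup.mem_upperCentralSeries_succ_iff]
    intro y
    rw [Subgroup.upperCentralSeries_one]
    exact hB (commutator_mem_commutator (mem_top x) (mem_top y))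
  · rw [← card_subtype B, _root_.commutator_def, map_commutator, ← MonoidHom.range_eq_map,
      range_subtype]

end Cfsg.Agent.S0574
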