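import Cfsg.Statements.S0577
import Cfsg.Agent.Solv.MinNonNilpotent

set_option autoImplicit false
open Cfsg

namespace Cfsg.Agent.S0577

/-- Let G be a finite minimal non-nilpotent group and Q a normal Sylow q-subgroup of G, and let D be the commutator subgroup of Q regarded in G (a normal subgroup). Then G modulo D is non-abelian and all its proper subgroups are abelian. -/
theorem result {G : Type*} [Group G] [Finite G] (hG : Cfsg.IsMinimalNonNilpotent G) (q : ℕ) [Fact q.Prime] (hq : q ∣ Nat.card G) (Q : Sylow q G) (hQ : (Q : Subgroup G).Normal) (D : Subgroup G) [D.Normal] (hD : D = (commutator ↥(Q : Subgroup G)).map (Q : Subgroup G).subtype) : ¬ IsMulCommutative (G ⧸ D) ∧ ∀ K : Subgroup (G ⧸ D), K ≠ ⊤ → IsMulCommutative K := by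
  obtain ⟨p, r, hp, hr, hpr, P, R, x, hPx, hRn, htop, hPn, hx⟩ := Solv.minNonNilpotent_structure hG
  haveI := Fact.mk hp
  haveI := Fact.mk hr
  have hq' : q.Prime := Fact.out
  have hqr : q = r := by
    have h1 := Grp.card_sup_dvd (P : Subgroup G) (R : Subgroup G)
    rw [htop, Subgroup.card_top, P.card_eq_multiplicity, R.card_eq_multiplicity] at h1
    rcases (Nat.Prime.dvd_mul hq').1 (hq.trans h1) with h | h
    · obtain rfl := (Nat.prime_dvd_prime_iff_eq hq' hp).1 (hq'.dvd_of_dvd_pow h)
      obtain ⟨g, rfl⟩ := MulAction.exists_smul_eq G Q P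
      rw [Sylow.smul_eq_of_normal] at hPn
      exact absurd hQ hPn
    · exact (Nat.prime_dvd_prime_iff_eq hq' hr).1 (hq'.dvd_of_dvd_pow h)
  subst hqr
  obtain ⟨g, rfl⟩ := MulAction.exists_smul_eq G Q R
  rw [Sylow.smul_eq_of_normal] at htop hx
  have hD' : D = ⁅(Q : Subgroup G), (Q : Subgroup G)⁆ := by
    rw [hD, Subgroup.map_subtype_commutator]
  have hQ0 : (Q : Subgroup G) ≠ ⊥ := Q.ne_bot_of_dvd_card hq
  have hDQ : D < Q := by
    rw [hD']
    exact Solv.commutator_lt_of_isSolvable (Solv.isSolvable_of_isPGroup Q.isPGroup') hQ0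
  have hcop : (Nat.card (P : Subgroup G)).Coprime (Nat.card (Q : Subgroup G)) := by
    rw [P.card_eq_multiplicity, Q.card_eq_multiplicity]
    exact Nat.Coprime.pow _ _ ((Nat.coprime_primes hp hq').2 hpr)
  set f := QuotientGroup.mk' D
  have hf : Function.Surjective f := QuotientGroup.mk'_surjective D
  constructor
  · intro hab
    have hPD : (P : Subgroup G) ⊔ D ≠ ⊤ := by
      intro h
      have h1 := Grp.card_sup_dvd (P : Subgroup G) D
      rw [h, Subgroup.card_top] at h1
      have h2 : Nat.card (Q : Subgroup G) ∣ Nat.card D :=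
        hcop.symm.dvd_of_dvd_mul_left ((Subgroup.card_subgroup_dvd_card _).trans h1)
      exact absurd (Nat.le_of_dvd Nat.card_pos h2) (not_le.2 (Grp.card_lt_of_lt hDQ))
    haveI : ((P : Subgroup G) ⊔ D).Normal := by
      have : (P : Subgroup G) ⊔ D = ((P : Subgroup G).map f).comap f := by
        rw [Subgroup.comap_map_eq, QuotientGroup.ker_mk']
      rw [this]
      infer_instance
    exact hPn (Solv.sylow_normal_of_le_nilpotent_normal P (hG.2 _ hPD) le_sup_left)
  · intro K hK
    have hK' : K.comap f ≠ ⊤ := by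
      intro h
      apply hK
      rw [← Subgroup.map_comap_eq_self_of_surjective hf K, h, Subgroup.map_top_of_surjective f hf]
    have hKn : Group.IsNilpotent K := by
      rw [← Subgroup.map_comap_eq_self_of_surjective hf K]
      haveI := hG.2 _ hK'
      exact Grp.isNilpotent_map _ _
    -- all Sylow subgroups of `G / D` are abelian
    have key : ∀ s : ℕ, s.Prime → ∀ S : Subgroup (G ⧸ D), IsPGroup s S → IsMulCommutative S := by
      intro s hs S hS
      haveI := Fact.mk hs
      obtain ⟨T, hT⟩ := hS.exists_le_sylow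
      refine Grp.PChain.isMulCommutative_of_le ?_ hT
      obtain ⟨T, rfl⟩ := Sylow.mapSurjective_surjective hf s T
      rw [Sylow.coe_mapSurjective]
      by_cases hsp : s = p
      · subst hsp
        obtain ⟨g, rfl⟩ := MulAction.exists_smul_eq G P T
        rw [Sylow.coe_subgroup_smul, Grp.conj_smul_eq_map, hPx, MonoidHom.map_zpowers,
          MonoidHom.map_zpowers]
        infer_instance
      by_cases hsq : s = q
      · subst hsq
        obtain ⟨g, rfl⟩ := MulAction.exists_smul_eq G Q T
        rw [Sylow.smul_eq_of_normal, ← Subgroup.commutator_self_eq_bot_iff,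
          ← Subgroup.map_commutator, Subgroup.map_eq_bot_iff, QuotientGroup.ker_mk', hD']
      · have h1 := Grp.card_sup_dvd (P : Subgroup G) (Q : Subgroup G)
        rw [htop, Subgroup.card_top, P.card_eq_multiplicity, Q.card_eq_multiplicity] at h1
        have h2 : ¬ s ∣ Nat.card G := by
          intro hd
          rcases (Nat.Prime.dvd_mul hs).1 (hd.trans h1) with h | h
          · exact hsp ((Nat.prime_dvd_prime_iff_eq hs hp).1 (hs.dvd_of_dvd_pow h))
          · exact hsq ((Nat.prime_dvd_prime_iff_eq hs hq').1 (hs.dvd_of_dvd_pow h))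
        have : (T : Subgroup G) = ⊥ := by
          rw [← Subgroup.card_eq_one, T.card_eq_multiplicity,
            Nat.factorization_eq_zero_of_not_dvd h2, pow_zero]
        rw [this, Subgroup.map_bot]
        infer_instance
    refine Solv.isMulCommutative_of_isNilpotent_of_sylow hKn fun s hs S => ?_
    have h1 := key s hs _ (S.isPGroup'.map K.subtype)
    refine Grp.PChain.isMulCommutative_of_commute fun a ha b hb => ?_
    exact Subtype.ext (Grp.PChain.commute_of_mem h1 ⟨a, ha, rfl⟩ ⟨b, hb, rfl⟩)

end Cfsg.Agent.S0577
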