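import Cfsg.Statements.S0578
import Cfsg.Agent.Solv.MinNonNilpotent
import Cfsg.Agent.Solv.Supersolvable

set_option autoImplicit false
open Cfsg

namespace Cfsg.Agent.S0578

universe u

theorem aux (G : Type u) [Group G] [Finite G] (h : ∀ A : Subgroup G, IsMulCommutative A → Subgroup.normalizer (A : Set G) = Subgroup.centralizer (A : Set G)) : IsMulCommutative G := by
  revert h
  refine Solv.finite_group_induction (P := fun G _ _ => (∀ A : Subgroup G, IsMulCommutative A → Subgroup.normalizer (A : Set G) = Subgroup.centralizer (A : Set G)) → IsMulCommutative G) G ?_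
  intro G _ _ ih h
  have hsub : ∀ H : Subgroup G, H ≠ ⊤ → IsMulCommutative H := by
    intro H hH
    refine ih H (Solv.card_lt_of_ne_top H hH) fun A hA => ?_
    refine le_antisymm (fun x hx => ?_) (Subgroup.centralizer_le_normalizer _)
    have h1 := Subgroup.le_normalizer_map H.subtype ⟨x, hx, rfl⟩
    rw [h _ inferInstance] at h1
    intro a ha
    exact Subtype.ext (h1 _ ⟨a, ha, rfl⟩)
  rcases subsingleton_or_nontrivial G with h0 | h0
  · exact ⟨⟨fun a b => Subsingleton.elim _ _⟩⟩
  haveI := Solv.isSolvable_of_forall_ne_top_isNilpotent G fun H hH => by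
    haveI := hsub H hH
    exact Grp.isNilpotent_of_isMulCommutative H
  obtain ⟨M, hMn, hp⟩ := Solv.exists_normal_index_prime G
  have hMt : M ≠ ⊤ := by
    rintro rfl
    rw [Subgroup.index_top] at hp; exact Nat.not_prime_one hp
  have h1 := h M (hsub M hMt)
  rw [Subgroup.normalizer_eq_top] at h1
  have h2 : M ≤ Subgroup.center G := by
    rw [← Subgroup.centralizer_univ, ← Subgroup.coe_top, Subgroup.le_centralizer_iff]
    exact h1.le
  haveI := Fact.mk hp
  haveI : IsCyclic (G ⧸ M) := isCyclic_of_prime_card (p := M.index) rfl
  exact ⟨⟨commutative_of_cyclic_center_quotient (QuotientGroup.mk' M)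
    (by rwa [QuotientGroup.ker_mk'])⟩⟩

/-- If in a finite group the normalizer of each abelian subgroup coincides with its centralizer, then the group is abelian. -/
theorem result {G : Type*} [Group G] [Finite G] (h : ∀ A : Subgroup G, IsMulCommutative A → Subgroup.normalizer (A : Set G) = Subgroup.centralizer (A : Set G)) : IsMulCommutative G := by
  exact aux G h

end Cfsg.Agent.S0578
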