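import Cfsg.Statements.S0582
import Cfsg.Agent.Solv.Supersolvable2
import Cfsg.Agent.Grp.Frattini

set_option autoImplicit false
open Pointwise
open Cfsg

namespace Cfsg.Agent.S0582

open scoped Pointwise

universe u

theorem aux (G : Type u) [Group G] [Finite G] (H K : Subgroup G) (hH : Cfsg.IsSupersolvable H) (hK : Cfsg.IsSupersolvable K) (hcard : Nat.card H = Nat.card K) (hHall : (Nat.card H).Coprime H.index) : ∃ x : G, MulAut.conj x • H = K := by
  revert H K
  refine Solv.finite_group_induction (P := fun G _ _ => ∀ (H K : Subgroup G), Cfsg.IsSupersolvable H → Cfsg.IsSupersolvable K → Nat.card H = Nat.card K → (Nat.card H).Coprime H.index → ∃ x : G, MulAut.conj x • H = K) G ?_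
  intro G _ _ ih H K hH hK hcard hHall
  by_cases h1 : Nat.card H = 1
  · refine ⟨1, ?_⟩
    rw [map_one, one_smul, Subgroup.card_eq_one.1 h1, Subgroup.card_eq_one.1 (hcard.symm.trans h1)]
  obtain ⟨p, hp, hd, hmax⟩ := Solv.exists_max_prime_dvd (Nat.card_pos (α := H)).ne' h1
  haveI := Fact.mk hp
  -- normal Sylow subgroups of `H` and `K`, which are Sylow in `G`
  have key : ∀ L : Subgroup G, Cfsg.IsSupersolvable L → Nat.card L = Nat.card H →
      ∃ P : Sylow p G, (P : Subgroup G) ≤ L ∧ L ≤ Subgroup.normalizer ((P : Subgroup G) : Set G) := by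
    intro L hL hc
    obtain ⟨S⟩ : Nonempty (Sylow p L) := inferInstance
    have hS := Solv.sylow_normal_of_isSupersolvable L hL p (by rwa [hc]) S
    have hi : L.index = H.index := by
      have e1 := L.card_mul_index
      rw [hc, ← H.card_mul_index] at e1
      exact Nat.eq_of_mul_eq_mul_left Nat.card_pos e1
    have hpi : ¬ p ∣ ((S : Subgroup L).map L.subtype).index := by
      rw [Subgroup.index_map_subtype, hi]
      intro h
      rcases (Nat.Prime.dvd_mul hp).1 h with h | h
      · exact S.not_dvd_index h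
      · exact hp.one_lt.ne' (Nat.eq_one_of_dvd_coprimes hHall hd h)
    refine ⟨(S.isPGroup'.map L.subtype).toSylow hpi, Subgroup.map_subtype_le _, ?_⟩
    rw [IsPGroup.toSylow_coe, Subgroup.le_normalizer_iff]
    rintro h hh _ ⟨k, hk, rfl⟩
    exact ⟨_, hS.conj_mem k hk ⟨h, hh⟩, rfl⟩
  obtain ⟨P, hPH, hHP⟩ := key H hH rfl
  obtain ⟨Q, hQK, hKQ⟩ := key K hK hcard.symm
  obtain ⟨g, rfl⟩ := MulAction.exists_smul_eq G P Q
  -- replace `K` by a conjugate
  suffices hs : ∃ x : G, MulAut.conj x • H = MulAut.conj g⁻¹ • K by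
    obtain ⟨x, hx⟩ := hs
    exact ⟨g * x, by rw [map_mul, mul_smul, hx, smul_smul, ← map_mul, mul_inv_cancel, map_one,
      one_smul]⟩
  set K' := MulAut.conj g⁻¹ • K with hK'
  have hK'c : Nat.card K' = Nat.card H := by rw [hK', Grp.card_conj_smul, hcard]
  have hK's : Cfsg.IsSupersolvable K' := Solv.isSupersolvable_map hK _
  have hPK' : (P : Subgroup G) ≤ K' := by
    intro x hx
    rw [hK', Grp.mem_conj_smul_iff]
    apply hQK
    rw [Sylow.coe_subgroup_smul, Grp.mem_conj_smul_iff]
    simpa [mul_assoc] using hx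
  have hK'P : K' ≤ Subgroup.normalizer ((P : Subgroup G) : Set G) := by
    intro x hx
    rw [hK', Grp.mem_conj_smul_iff] at hx
    have := hKQ hx
    rw [← Grp.conj_smul_eq_iff_mem_normalizer] at this ⊢
    rw [Sylow.coe_subgroup_smul, smul_smul, ← map_mul] at this
    have h2 := congrArg (fun X : Subgroup G => MulAut.conj g⁻¹ • X) this
    simp only [smul_smul, ← map_mul] at h2
    simpa [mul_assoc] using h2
  set N := Subgroup.normalizer ((P : Subgroup G) : Set G) with hN
  have hPN : (P : Subgroup G) ≤ N := Subgroup.le_normalizer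
  haveI : ((P : Subgroup G).subgroupOf N).Normal := Subgroup.normal_in_normalizer
  set P' := (P : Subgroup G).subgroupOf N with hP'
  have hP0 : (P : Subgroup G) ≠ ⊥ :=
    P.ne_bot_of_dvd_card (hd.trans (Subgroup.card_subgroup_dvd_card H))
  have hP'0 : P' ≠ ⊥ := by
    rw [hP', Ne, Subgroup.subgroupOf_eq_bot, disjoint_iff, inf_eq_left.2 hPN]; exact hP0
  have hlt : Nat.card (N ⧸ P') < Nat.card G :=
    (Solv.card_quotient_lt_of_ne_bot P' hP'0).trans_le (Subgroup.card_le_card_group N)
  set f := QuotientGroup.mk' P'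
  have hc1 := Grp.card_map_mk'_mul_of_le P' (H := H.subgroupOf N) (Subgroup.comap_mono hPH)
  have hc2 := Grp.card_map_mk'_mul_of_le P' (H := K'.subgroupOf N) (Subgroup.comap_mono hPK')
  rw [Grp.card_subgroupOf_of_le hHP] at hc1
  rw [Grp.card_subgroupOf_of_le hK'P, hK'c, ← hc1] at hc2
  obtain ⟨x, hx⟩ := ih (N ⧸ P') hlt ((H.subgroupOf N).map f) ((K'.subgroupOf N).map f)
    (Solv.isSupersolvable_map (Solv.isSupersolvable_of_mulEquiv hH
      (Subgroup.subgroupOfEquivOfLe hHP).symm) f)
    (Solv.isSupersolvable_map (Solv.isSupersolvable_of_mulEquiv hK's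
      (Subgroup.subgroupOfEquivOfLe hK'P).symm) f)
    (Nat.eq_of_mul_eq_mul_right Nat.card_pos hc2).symm
    (by
      refine Nat.Coprime.coprime_dvd_left ⟨_, hc1.symm⟩ (Nat.Coprime.coprime_dvd_right ?_ hHall)
      refine (Subgroup.index_map_dvd _ (QuotientGroup.mk'_surjective _)).trans ?_
      exact Subgroup.relIndex_dvd_index_of_le hHP)
  obtain ⟨y, rfl⟩ := QuotientGroup.mk'_surjective P' x
  refine ⟨y, ?_⟩
  rw [← Grp.map_conj_smul] at hx
  have hk : f.ker = P' := QuotientGroup.ker_mk' P'
  have h3 : MulAut.conj y • H.subgroupOf N = K'.subgroupOf N := by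
    refine Subgroup.map_injective_of_ker_le f ?_ ?_ hx
    · rw [hk, ← Grp.conj_smul_normal y P']
      exact Subgroup.pointwise_smul_le_pointwise_smul_iff.2 (Subgroup.comap_mono hPH)
    · rw [hk]; exact Subgroup.comap_mono hPK'
  have h4 := congrArg (Subgroup.map N.subtype) h3
  rwa [Grp.map_conj_smul, Subgroup.subgroupOf_map_subtype, Subgroup.subgroupOf_map_subtype,
    inf_eq_left.2 hHP, inf_eq_left.2 hK'P] at h4

/-- Let H and K be supersolvable subgroups of a finite group G of the same order, that order being coprime to their index. Then H and K are conjugate in G. -/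
theorem result {G : Type*} [Group G] [Finite G] (H K : Subgroup G) (hH : Cfsg.IsSupersolvable H) (hK : Cfsg.IsSupersolvable K) (hcard : Nat.card H = Nat.card K) (hHall : (Nat.card H).Coprime H.index) : ∃ x : G, MulAut.conj x • H = K := by
  exact aux G H K hH hK hcard hHall

end Cfsg.Agent.S0582
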