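import Cfsg.Statements.S0586
import Mathlib
import Cfsg.Agent.Solv.FrattiniNormal

set_option autoImplicit false
open Cfsg

namespace Cfsg.Agent.S0586

/-- If the Frattini subgroup of a finite group G is trivial, then the Fitting subgroup of G equals the join of all abelian minimal normal subgroups of G. -/
theorem result {G : Type*} [Group G] [Finite G] (hΦ : frattini G = ⊥) : Cfsg.fittingSubgroup G = sSup {N : Subgroup G | N.Normal ∧ N ≠ ⊥ ∧ IsMulCommutative N ∧ ∀ K : Subgroup G, K.Normal → K ≤ N → K = ⊥ ∨ K = N} := by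
  set S : Subgroup G := sSup {N : Subgroup G | N.Normal ∧ N ≠ ⊥ ∧ IsMulCommutative N ∧
    ∀ K : Subgroup G, K.Normal → K ≤ N → K = ⊥ ∨ K = N} with hS
  have hSn : S.Normal := Subgroup.sSup_normal _ fun N hN => hN.1
  have hSF : S ≤ fittingSubgroup G := by
    apply sSup_le
    rintro N ⟨h1, -, h2, -⟩
    exact le_sSup ⟨h1, ⟨⟨1, Subgroup.upperCentralSeries_one_eq_top_iff.2 h2⟩⟩⟩
  have hFn : (fittingSubgroup G).Normal := Subgroup.sSup_normal _ fun N hN => hN.1
  have hSC : S ≤ Subgroup.centralizer (fittingSubgroup G : Set G) := by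
    apply sSup_le
    rintro N ⟨h1, -, -, h2⟩
    exact Subgroup.le_centralizer_iff.1 (Solv.fitting_le_centralizer_minNormal N h2)
  have hSc : IsMulCommutative S :=
    Subgroup.le_centralizer_iff_isMulCommutative.1
      (hSC.trans (Subgroup.centralizer_le (SetLike.coe_subset_coe.2 hSF)))
  obtain ⟨H, hH⟩ := Solv.exists_isComplement'_of_inf_frattini_eq_bot S (by rw [hΦ, inf_bot_eq])
  have hn : (fittingSubgroup G ⊓ H).Normal := by
    rw [← Subgroup.normalizer_eq_top_iff, eq_top_iff, ← hH.sup_eq_top]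
    refine sup_le ?_ ((le_inf Subgroup.le_normalizer_of_normal Subgroup.le_normalizer).trans
      Subgroup.inf_normalizer_le_normalizer_inf)
    rw [Subgroup.le_normalizer_iff]
    intro a ha x hx
    have : a * x * a⁻¹ = x := by rw [← hSC ha x hx.1]; group
    rwa [this]
  have hbot : fittingSubgroup G ⊓ H = ⊥ := by
    by_contra hne
    obtain ⟨M, hM1, hM2, hM3, hM4⟩ := Grp.exists_minNormal_le _ hne
    have hMc : IsMulCommutative M :=
      Subgroup.le_centralizer_iff_isMulCommutative.1
        ((hM3.trans inf_le_left).trans (Solv.fitting_le_centralizer_minNormal M hM4))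
    have hMS : M ≤ S := le_sSup ⟨hM1, hM2, hMc, hM4⟩
    exact hM2 (eq_bot_iff.2 (hH.disjoint.le_bot.trans' (le_inf hMS (hM3.trans inf_le_right))))
  have := Solv.inf_sup_eq_of_le_normalizer (M := H) hSF Subgroup.le_normalizer_of_normal
  rwa [hH.sup_eq_top, inf_top_eq, hbot, sup_bot_eq] at this

end Cfsg.Agent.S0586
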