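import Cfsg.Statements.S0587
import Mathlib
import Cfsg.Agent.Solv.CoreFree
import Cfsg.Agent.Block.FixCount
import Cfsg.Agent.Grp.Fitting
import Cfsg.Agent.Solv.Coprime

set_option autoImplicit false
open Cfsg

namespace Cfsg.Agent.S0587

/-- Let G be a finite group whose largest normal p-subgroup L is nontrivial, and M a maximal subgroup of G with trivial normal core. Then L is elementary abelian, M is a complement to L, L is a minimal normal subgroup of G, the centralizer of L is L, and for every prime q such that the largest normal q-subgroup of M is nontrivial, the order of L is congruent to 1 modulo q and q ≠ p. -/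
theorem result {G : Type*} [Group G] [Finite G] (p : ℕ) [Fact p.Prime] (hL : Cfsg.pCore p G ≠ ⊥) (M : Subgroup G) (hM : IsCoatom M) (hcore : M.normalCore = ⊥) : Cfsg.IsElementaryAbelian p (Cfsg.pCore p G) ∧ Subgroup.IsComplement' (Cfsg.pCore p G) M ∧ (∀ K : Subgroup G, K.Normal → K ≤ Cfsg.pCore p G → K = ⊥ ∨ K = Cfsg.pCore p G) ∧ Subgroup.centralizer ((Cfsg.pCore p G : Subgroup G) : Set G) = Cfsg.pCore p G ∧ ∀ (q : ℕ) [Fact q.Prime], Cfsg.pCore q ↥M ≠ ⊥ → Nat.card (Cfsg.pCore p G) % q = 1 % q ∧ q ≠ p := by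
  set L := pCore p G with hLdef
  have hLp : IsPGroup p L := Grp.pCore_isPGroup p G
  have hLn : Group.IsNilpotent L := hLp.isNilpotent
  obtain ⟨r, N, hr, hNn, hN, hNL, hNc, hNr, -, hNmin⟩ :=
    Grp.exists_minNormal_elementaryAbelian_le L hL
  have hCN : Subgroup.centralizer (N : Set G) = N := Solv.centralizer_eq_of_coreFree hM hcore N hN
  have hLN : L = N := le_antisymm
    (hCN ▸ Solv.le_centralizer_minNormal_of_isNilpotent N L hNmin hLn) hNL
  have hrp : r = p := by
    obtain ⟨⟨x, hx⟩, hx1⟩ := Subgroup.ne_bot_iff_exists_ne_one.1 hN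
    have h1 : orderOf x = r := by
      have := Fact.mk hr
      exact orderOf_eq_prime (hNr x hx) fun h => hx1 (Subtype.ext h)
    obtain ⟨k, hk⟩ := hLp ⟨x, hNL hx⟩
    have h2 : orderOf x ∣ p ^ k := orderOf_dvd_of_pow_eq_one (congrArg Subtype.val hk)
    rw [h1] at h2
    exact (Nat.prime_dvd_prime_iff_eq hr Fact.out).1 (hr.dvd_of_dvd_pow h2)
  subst hrp
  rw [hLN]
  have hinf := Solv.inf_eq_bot_of_coreFree hM hcore N hN
  refine ⟨⟨hNc, hNr⟩, Solv.isComplement'_of_coreFree hM hcore N hN, hNmin, hCN, fun q _ hq => ?_⟩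
  set Q : Subgroup G := (pCore q M).map M.subtype with hQ
  have hQM : Q ≤ M := Subgroup.map_subtype_le _
  have hQn : M ≤ Subgroup.normalizer (Q : Set G) :=
    Subgroup.le_normalizer.trans (Grp.normalizer_le_normalizer_map_of_characteristic M _)
  have hfix : N ⊓ Subgroup.centralizer (Q : Set G) = ⊥ := by
    rcases Solv.eq_bot_or_eq_of_isCoatom_of_inf_eq_bot (K := N ⊓ Subgroup.centralizer (Q : Set G))
      hM hinf inf_le_left ((le_inf Subgroup.le_normalizer_of_normal
        (Solv.le_normalizer_centralizer hQn)).trans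
        Subgroup.inf_normalizer_le_normalizer_inf) with h | h
    · exact h
    · exfalso
      apply hq
      have : Q ≤ N := hCN ▸ Subgroup.le_centralizer_iff.1 (h ▸ inf_le_right)
      have hQb : Q = ⊥ := eq_bot_iff.2 (hinf ▸ le_inf this hQM)
      exact (Subgroup.map_eq_bot_iff_of_injective _ M.subtype_injective).1 hQb
  have hmod := Block.card_modEq_card_centralizer (Grp.map_pCore_isPGroup q M.subtype) (· ∈ N)
    (fun u _ x hx => hNn.conj_mem x hx u)
  have h1 : Nat.card {x // x ∈ N ∧ x ∈ Subgroup.centralizer (Q : Set G)} = 1 := by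
    change Nat.card (N ⊓ Subgroup.centralizer (Q : Set G) : Subgroup G) = 1
    rw [hfix, Subgroup.card_bot]
  rw [h1] at hmod
  refine ⟨hmod, ?_⟩
  rintro rfl
  have : Nontrivial N := (Subgroup.nontrivial_iff_ne_bot N).2 hN
  obtain ⟨d, hd, hcard⟩ := (Grp.isPGroup_of_pow_eq_one hNr).nontrivial_iff_card.1 this
  have h2 : q ∣ Nat.card N := hcard ▸ dvd_pow_self q hd.ne'
  exact hr.one_lt.ne' (Nat.dvd_one.1 ((hmod.dvd_iff dvd_rfl).1 h2))

end Cfsg.Agent.S0587
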