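import Cfsg.Statements.S0589
import Mathlib
import Cfsg.Agent.Solv.Frobenius
import Cfsg.Agent.Solv.Misc1

set_option autoImplicit false
open Pointwise
open Cfsg

namespace Cfsg.Agent.S0589

/-- Let H be a Frobenius complement in a finite group G and L a subgroup of G whose order divides the order of H. Then L is contained in some conjugate of H. -/
theorem result {G : Type*} [Group G] [Finite G] (H : Subgroup G) (hH : Cfsg.IsFrobeniusComplement H) (L : Subgroup G) (hL : Nat.card L ∣ Nat.card H) : ∃ x : G, L ≤ MulAut.conj x • H := by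
  -- every element of `L` lies in a conjugate of `H`
  have step1 : ∀ x ∈ L, x ≠ 1 → ∃ g : G, x ∈ MulAut.conj g • H := by
    intro x hx hx1
    obtain ⟨p, hp, hpx⟩ := Nat.exists_prime_and_dvd (mt orderOf_eq_one_iff.1 hx1)
    have := Fact.mk hp
    have hy : orderOf (x ^ (orderOf x / p)) = p :=
      orderOf_pow_orderOf_div (orderOf_pos x).ne' hpx
    have hz : IsPGroup p (Subgroup.zpowers (x ^ (orderOf x / p))) :=
      IsPGroup.of_card (n := 1) (by rw [Nat.card_zpowers, hy, pow_one])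
    have hpH : ¬ p ∣ H.index := fun h => hp.one_lt.ne' (Nat.eq_one_of_dvd_coprimes
      (Solv.Frob.coprime_card_index hH) (hpx.trans ((L.orderOf_dvd_natCard hx).trans hL)) h)
    obtain ⟨g, hg⟩ := Solv.exists_le_conj_of_isPGroup_of_not_dvd_index hz hpH
    refine ⟨g, Solv.Frob.centralizer_le (Solv.Frob.conj_smul hH g)
      (hg (Subgroup.mem_zpowers _)) (fun h => hp.one_lt.ne' ?_) ?_⟩
    · rw [← hy, h, orderOf_one]
    · rw [Subgroup.mem_centralizer_singleton_iff]
      exact (Commute.self_pow x _).eq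
  by_contra hcon
  push Not at hcon
  have hfrob : ∀ g : G, ∀ x ∈ L, x ≠ 1 → x ∈ MulAut.conj g • H →
      IsFrobeniusComplement ((MulAut.conj g • H).subgroupOf L) := fun g x hx hx1 hxg =>
    Solv.Frob.subgroupOf (Solv.Frob.conj_smul hH g)
      (fun h => hx1 (by
        have : x ∈ MulAut.conj g • H ⊓ L := ⟨hxg, hx⟩
        rwa [h] at this)) (hcon g)
  have hLb : L ≠ ⊥ := fun h => hcon 1 (h ▸ bot_le)
  obtain ⟨⟨x, hx⟩, hx1⟩ := Subgroup.ne_bot_iff_exists_ne_one.1 hLb
  have hx1' : x ≠ 1 := fun h => hx1 (Subtype.ext h)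
  obtain ⟨g, hg⟩ := step1 x hx hx1'
  have hU := hfrob g x hx hx1' hg
  have hcard := Solv.Frob.card_frobeniusKernel hU
  have hlt : 1 < Nat.card (frobeniusKernel ((MulAut.conj g • H).subgroupOf L)) := by
    rw [hcard]; exact Subgroup.one_lt_index_of_ne_top hU.2.1
  have := Finite.one_lt_card_iff_nontrivial.1 hlt
  obtain ⟨⟨y, hy⟩, hy1⟩ := exists_ne (⟨1, Solv.Frob.one_mem_frobeniusKernel _⟩ :
    frobeniusKernel ((MulAut.conj g • H).subgroupOf L))
  have hy1' : (y : G) ≠ 1 := fun h => hy1 (Subtype.ext (Subtype.ext h))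
  obtain ⟨g', hg'⟩ := step1 y y.2 hy1'
  have hU' := hfrob g' y y.2 hy1' hg'
  obtain ⟨l, z, hz1, hz, hz'⟩ := Solv.Frob.exists_conj_inf_ne_bot hU hU'
  have hz1' : (z : G) ≠ 1 := fun h => hz1 (Subtype.ext h)
  have hz'' : (z : G) ∈ MulAut.conj ((l : G) * g') • H := by
    rw [Grp.mem_conj_smul_iff, Subgroup.mem_subgroupOf, Grp.mem_conj_smul_iff] at hz'
    rw [Grp.mem_conj_smul_iff]
    simpa [mul_assoc] using hz'
  have heq := Solv.Frob.conj_eq_of_mem hH hz1' hz hz''
  apply hy1'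
  have := Solv.Frob.mem_frobeniusKernel_iff'.1 hy l (by
    rw [Subgroup.mem_subgroupOf, heq, Grp.mem_conj_smul_iff]
    rw [Grp.mem_conj_smul_iff] at hg'
    simpa [mul_assoc] using hg')
  rw [this]; rfl

end Cfsg.Agent.S0589
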