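import Mathlib
import Cfsg.Statements.S0592
import Cfsg.Agent.PLocal.QuadCore

set_option autoImplicit false
open Cfsg

namespace Cfsg.Agent.S0592

open Polynomial

/-- Two quadratically acting generators of a linear group that is not a p-group, with the p'-part of the order of their product dividing q - 1, give a homomorphism onto a subgroup of SL(2, q) that is not a p-group. -/
theorem result {K : Type*} [Field K] [Fintype K] {p : ℕ} [Fact p.Prime] [CharP K p] {W : Type*} [AddCommGroup W] [Module K W] [FiniteDimensional K W] [Finite W] [Nontrivial W] (H : Subgroup (W ≃ₗ[K] W)) (a b : W ≃ₗ[K] W) (hH : H = Subgroup.closure {a, b}) (ha : ∀ w : W, a (a w - w) = a w - w) (hb : ∀ w : W, b (b w - w) = b w - w) (hnp : ¬ IsPGroup p H) (hk : ∃ e k : ℕ, orderOf (a * b) = p ^ e * k ∧ k ∣ Fintype.card K - 1) : ∃ φ : H →* Matrix.SpecialLinearGroup (Fin 2) K, ¬ IsPGroup p φ.range := by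
  classical
  let ρ : H →* Module.End K W := (LinearEquiv.automorphismGroup.toLinearMapMonoidHom).comp H.subtype
  have hρ : ∀ (h : H) (w : W), ρ h w = (h : W ≃ₗ[K] W) w := fun _ _ => rfl
  have haH : a ∈ H := by rw [hH]; exact Subgroup.subset_closure (by simp)
  have hbH : b ∈ H := by rw [hH]; exact Subgroup.subset_closure (by simp)
  have hgen : Subgroup.closure ({⟨a, haH⟩, ⟨b, hbH⟩} : Set H) = ⊤ := by
    apply Subgroup.map_injective H.subtype_injective
    rw [MonoidHom.map_closure, ← MonoidHom.range_eq_map, Subgroup.range_subtype, Set.image_pair]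
    exact hH.symm
  have ha2 : (ρ ⟨a, haH⟩ - 1) ^ 2 = 0 := by
    ext w
    have := ha w
    simp only [pow_two, Module.End.mul_apply, LinearMap.sub_apply, hρ, Module.End.one_apply, this]
    simp
  have hb2 : (ρ ⟨b, hbH⟩ - 1) ^ 2 = 0 := by
    ext w
    have := hb w
    simp only [pow_two, Module.End.mul_apply, LinearMap.sub_apply, hρ, Module.End.one_apply, this]
    simp
  obtain ⟨e, k, hek, hkq⟩ := hk
  have : CharP (Module.End K W) p := charP_of_injective_algebraMap (algebraMap K _).injective p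
  have hq1 : Fintype.card K - 1 ≠ 0 := by
    have := Fintype.one_lt_card (α := K); omega
  have hsplit : ((X ^ (Fintype.card K - 1) - 1 : K[X]) ^ p ^ e).Splits := by
    refine Splits.pow ?_ _
    have h1 : (X ^ Fintype.card K - X : K[X]).Splits := by
      rw [splits_iff_card_roots, FiniteField.roots_X_pow_card_sub_X,
        FiniteField.X_pow_card_sub_X_natDegree_eq K Fintype.one_lt_card]
      rfl
    refine h1.of_dvd (FiniteField.X_pow_card_sub_X_ne_zero K Fintype.one_lt_card) ⟨X, ?_⟩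
    rw [sub_mul, ← pow_succ, one_mul, Nat.sub_add_cancel Fintype.card_pos]
  have hne : ((X ^ (Fintype.card K - 1) - 1 : K[X]) ^ p ^ e) ≠ 0 :=
    pow_ne_zero _ (by simpa using X_pow_sub_C_ne_zero (Nat.pos_of_ne_zero hq1) (1 : K))
  have hz : aeval (ρ (⟨a, haH⟩ * ⟨b, hbH⟩)) ((X ^ (Fintype.card K - 1) - 1 : K[X]) ^ p ^ e) = 0 := by
    simp only [map_pow, map_sub, aeval_X, map_one]
    rw [sub_pow_char_pow_of_commute _ _ (Commute.one_right _), one_pow, ← pow_mul, ← map_pow, sub_eq_zero]
    have : ((⟨a, haH⟩ * ⟨b, hbH⟩ : H)) ^ ((Fintype.card K - 1) * p ^ e) = 1 := by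
      apply Subtype.ext
      simp only [Subgroup.coe_pow, Subgroup.coe_mul, Subgroup.coe_one]
      rw [← orderOf_dvd_iff_pow_eq_one, hek, mul_comm]
      exact Nat.mul_dvd_mul_right hkq _
    rw [this, map_one]
  rcases PLocal.isNilpotent_or_exists_eigenvalue _ _ hne hsplit hz with h | ⟨μ, hμ, hev⟩
  · exfalso
    apply hnp
    intro g
    obtain ⟨n, hn⟩ := PLocal.exists_pow_eq_one_of_isNilpotent p
      (PLocal.isNilpotent_sub_one_of_two_quadratic ρ _ _ hgen ha2 hb2 h g)
    refine ⟨n, Subtype.ext (LinearEquiv.ext fun w => ?_)⟩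
    rw [← map_pow] at hn
    rw [← hρ, hn]; rfl
  · obtain ⟨l, φ, -, hl, hφa, hφb, -⟩ := PLocal.exists_hom_sl2_of_eigenvalue ρ _ _ hgen ha2 hb2 μ hμ hev
    refine ⟨φ, fun hP => ?_⟩
    obtain ⟨n, hn⟩ := hP ⟨φ (⟨a, haH⟩ * ⟨b, hbH⟩), _, rfl⟩
    refine PLocal.not_pow_eq_one_of_transvections p hl hφa hφb n ?_
    rw [← map_mul]
    exact congrArg Subtype.val hn

end Cfsg.Agent.S0592
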