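import Mathlib
import Cfsg.Statements.S0593
import Cfsg.Agent.PLocal.Quadratic

set_option autoImplicit false
open Cfsg

namespace Cfsg.Agent.S0593

open PLocal

/-- For odd p, a faithful group on an elementary abelian p-group generated by two quadratically acting elements is a p-group or has non-abelian Sylow 2-subgroups. -/
theorem result {G : Type*} [Group G] [Finite G] {p : ℕ} [Fact p.Prime] (hp : p ≠ 2) (V H : Subgroup G) (hV : Cfsg.IsElementaryAbelian p V) (hHV : H ≤ Subgroup.normalizer (V : Set G)) (hf : H ⊓ Subgroup.centralizer (V : Set G) = ⊥) (a b : G) (hab : H = Subgroup.closure {a, b}) (ha : ⁅⁅V, Subgroup.zpowers a⁆, Subgroup.zpowers a⁆ = ⊥) (hb : ⁅⁅V, Subgroup.zpowers b⁆, Subgroup.zpowers b⁆ = ⊥) (hnp : ¬ IsPGroup p H) (T : Sylow 2 H) : ¬ IsMulCommutative T := by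
  subst hab
  rcases hasTransvectionHom_of_two_quadratic (EA.rep hV _ hHV) _ _ (closure_pair_subtype a b)
    (EA.rep_sub_one_sq hHV _ ha) (EA.rep_sub_one_sq hHV _ hb) with h | h
  · exfalso
    apply hnp
    intro x
    obtain ⟨k, hk⟩ := h x
    exact ⟨k, EA.rep_injective (hV := hV) hHV hf (by rw [map_pow, hk, map_one])⟩
  · exact h.sylow_two_not_comm hp T

end Cfsg.Agent.S0593
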