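import Mathlib
import Cfsg.Statements.S0596
import Cfsg.Agent.PLocal.PStableSL2

set_option autoImplicit false
open Cfsg

namespace Cfsg.Agent.S0596

/-- For odd p, a p-separable group with a faithful action on an elementary abelian p-group that is not p-stable has p = 3 and involves SL(2,3). -/
theorem result {G : Type*} [Group G] [Finite G] {p : ℕ} [Fact p.Prime] (hp : p ≠ 2) (V H : Subgroup G) (hV : Cfsg.IsElementaryAbelian p V) (hHV : H ≤ Subgroup.normalizer (V : Set G)) (hf : H ⊓ Subgroup.centralizer (V : Set G) = ⊥) (hsep : Cfsg.IsPSolvable p H) (a : G) (haH : a ∈ H) (hq : ⁅⁅V, Subgroup.zpowers a⁆, Subgroup.zpowers a⁆ = ⊥) (hna : a ∉ (Cfsg.pCore p H).map H.subtype) : p = 3 ∧ ∃ (K L : Subgroup G) (hL : (L.subgroupOf K).Normal), K ≤ H ∧ Nonempty ((K ⧸ L.subgroupOf K) ≃* Matrix.SpecialLinearGroup (Fin 2) (ZMod 3)) := by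
  have h : ¬ PLocal.TransvFree p H := by
    intro h
    apply hna
    have h1 := h.mem_pCore (PLocal.EA.rep hV H hHV) ⊥
      ((MonoidHom.ker_eq_bot_iff _).2 (PLocal.EA.rep_injective hHV hf)).le ⟨a, haH⟩
      (PLocal.EA.rep_sub_one_sq hHV _ hq)
    have h2 : (⟨a, haH⟩ : H) ∈ (pCore p (H ⧸ (⊥ : Subgroup H))).comap (QuotientGroup.mk' ⊥) := h1
    rw [Grp.comap_pCore_quotient _ IsPGroup.of_bot] at h2
    exact ⟨_, h2, rfl⟩
  have h3 := PLocal.eq_three_of_isPSolvable_of_not_transvFree hp hsep h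
  subst h3
  exact ⟨rfl, PLocal.exists_section_sl2_of_not_transvFree hp H h⟩

end Cfsg.Agent.S0596
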