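import Mathlib
import Cfsg.Statements.S0594
import Cfsg.Agent.S0596

set_option autoImplicit false
open Cfsg

namespace Cfsg.Agent.S0594

/-- For odd p, two quadratic generators of a faithful group that is not a p-group, one of which acts nontrivially on a normal subgroup of order prime to p, force p = 3 and a section isomorphic to SL(2,3). -/
theorem result {G : Type*} [Group G] [Finite G] {p : ℕ} [Fact p.Prime] (hp : p ≠ 2) (V H : Subgroup G) (hV : Cfsg.IsElementaryAbelian p V) (hHV : H ≤ Subgroup.normalizer (V : Set G)) (hf : H ⊓ Subgroup.centralizer (V : Set G) = ⊥) (a b : G) (hab : H = Subgroup.closure {a, b}) (ha : ⁅⁅V, Subgroup.zpowers a⁆, Subgroup.zpowers a⁆ = ⊥) (hb : ⁅⁅V, Subgroup.zpowers b⁆, Subgroup.zpowers b⁆ = ⊥) (hnp : ¬ IsPGroup p H) (Q : Subgroup G) (hQH : Q ≤ H) (hQn : H ≤ Subgroup.normalizer (Q : Set G)) (hQ : (Nat.card Q).Coprime p) (hQa : ⁅Q, Subgroup.zpowers a⁆ ≠ ⊥) : p = 3 ∧ ∃ (K L : Subgroup G) (hL : (L.subgroupOf K).Normal),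 K ≤ H ∧ Nonempty ((K ⧸ L.subgroupOf K) ≃* Matrix.SpecialLinearGroup (Fin 2) (ZMod 3)) := by
  have haH : a ∈ H := by rw [hab]; exact Subgroup.subset_closure (by simp)
  have hle : Subgroup.zpowers a ⊔ Q ≤ H := sup_le (Subgroup.zpowers_le.2 haH) hQH
  have hap : a ^ p = 1 := by
    have h1 := PLocal.pow_eq_one_of_sub_one_sq (PLocal.EA.rep_sub_one_sq (hV := hV) hHV ⟨a, haH⟩ ha)
    rw [← map_pow] at h1
    exact congrArg Subtype.val (PLocal.EA.rep_injective (hV := hV) hHV hf (h1.trans (map_one _).symm))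
  have hQn' : (Q.subgroupOf (Subgroup.zpowers a ⊔ Q)).Normal :=
    (Subgroup.normal_subgroupOf_iff_le_normalizer le_sup_right).2 (hle.trans hQn)
  have hsep : IsPSolvable p ↥(Subgroup.zpowers a ⊔ Q) := by
    have h1 : IsPSolvable p ((Subgroup.zpowers a).subgroupOf (Subgroup.zpowers a ⊔ Q)) :=
      PLocal.IsPSolvable.subgroupOf
        (PLocal.isPSolvable_of_isPGroup (PLocal.isEA_isPGroup (PLocal.isEA_zpowers hap))) _
    have h2 : IsPSolvable p (Q.subgroupOf (Subgroup.zpowers a ⊔ Q)) :=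
      PLocal.IsPSolvable.subgroupOf (PLocal.isPSolvable_of_coprime hQ) _
    have h3 := PLocal.IsPSolvable.sup_of_normal h1 h2
    rw [← Subgroup.subgroupOf_sup le_sup_left le_sup_right, Subgroup.subgroupOf_self] at h3
    exact PLocal.isPSolvable_top_iff.1 h3
  obtain ⟨h3, K, L, hL, hK, he⟩ := S0596.result hp V (Subgroup.zpowers a ⊔ Q) hV (hle.trans hHV)
    (eq_bot_iff.2 (hf ▸ inf_le_inf_right _ hle)) hsep a
    (Subgroup.mem_sup_left (Subgroup.mem_zpowers a)) ha (by
      rintro ⟨a', ha', haa⟩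
      apply hQa
      rw [Subgroup.commutator_comm, Subgroup.commutator_eq_bot_iff_le_centralizer, Subgroup.zpowers_le]
      intro x hx
      have h4 : (⟨x, Subgroup.mem_sup_right hx⟩ : ↥(Subgroup.zpowers a ⊔ Q)) ∈ pPrimeCore p _ :=
        Grp.le_pPrimeCore hQn' (by rwa [PLocal.card_subgroupOf_of_le le_sup_right]) hx
      have h5 : x * a'.1 = a'.1 * x :=
        congrArg Subtype.val (Grp.pCore_le_centralizer_pPrimeCore p _ ha' _ h4)
      rwa [show a'.1 = a from haa] at h5)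
  exact ⟨h3, K, L, hL, hK.trans hle, he⟩

end Cfsg.Agent.S0594
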