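import Mathlib
import Cfsg.Statements.S0595
import Cfsg.Agent.PLocal.Quadratic

set_option autoImplicit false
open Cfsg

namespace Cfsg.Agent.S0595

open PLocal

/-- For odd p, a faithful action on an elementary abelian p-group that is not p-stable forces non-abelian Sylow 2-subgroups. -/
theorem result {G : Type*} [Group G] [Finite G] {p : ℕ} [Fact p.Prime] (hp : p ≠ 2) (V H : Subgroup G) (hV : Cfsg.IsElementaryAbelian p V) (hHV : H ≤ Subgroup.normalizer (V : Set G)) (hf : H ⊓ Subgroup.centralizer (V : Set G) = ⊥) (a : G) (haH : a ∈ H) (hq : ⁅⁅V, Subgroup.zpowers a⁆, Subgroup.zpowers a⁆ = ⊥) (hna : a ∉ (Cfsg.pCore p H).map H.subtype) (T : Sylow 2 H) : ¬ IsMulCommutative T := by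
  intro hT
  apply hna
  have h := mem_pCore_of_quadratic_of_sylow_two_comm hp T hT (EA.rep hV H hHV) ⊥
    ((MonoidHom.ker_eq_bot_iff _).2 (EA.rep_injective hHV hf)).le ⟨a, haH⟩ (EA.rep_sub_one_sq hHV _ hq)
  have h2 : (⟨a, haH⟩ : H) ∈ (pCore p (H ⧸ (⊥ : Subgroup H))).comap (QuotientGroup.mk' ⊥) := h
  rw [Grp.comap_pCore_quotient _ IsPGroup.of_bot] at h2
  exact ⟨_, h2, rfl⟩

end Cfsg.Agent.S0595
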