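import Cfsg.Statements.S0619
import Mathlib
import Cfsg.Agent.PLocal.FFModel

set_option autoImplicit false
open Cfsg

namespace Cfsg.Agent.S0619

/-- For a p-separable group and a normal elementary abelian p-subgroup V with no nontrivial normal p-subgroup modulo its centralizer C, the Thompson subgroup J(G) moves Ω₁(Z(J(C))) only inside V. -/
theorem result {G : Type*} [Group G] [Finite G] {p : ℕ} [Fact p.Prime] (hsep : Cfsg.IsPSolvable p G) (V : Subgroup G) [V.Normal] (hV : Cfsg.IsElementaryAbelian p V) (hO : Cfsg.pCore p (G ⧸ Subgroup.centralizer (V : Set G)) = ⊥) : ⁅Cfsg.omegaOne p (Cfsg.centerThompsonOf p (Subgroup.centralizer (V : Set G))), Cfsg.thompsonSubgroup p G⁆ ≤ V := by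
  rw [Subgroup.commutator_comm, thompsonSubgroup]
  refine PLocal.CommMod.commutator_sSup_le (fun _ _ => Subgroup.le_normalizer_of_normal)
    fun A hA => ?_
  rw [← PLocal.maxEA_top] at hA
  have h1 := PLocal.mem_maxEA_of_le (PLocal.exists_mem_maxEA_centralizer hsep hV hO hA)
    (sup_le inf_le_right (PLocal.isEA_le_centralizer hV)) le_top
  have h2 := (PLocal.omegaOne_mono (inf_le_inf_right _ (PLocal.thompsonSubgroupOf_le (p := p) _))).trans
    (PLocal.omegaOne_centralizer_thompson_le h1)
  refine (Subgroup.commutator_mono le_rfl h2).trans (PLocal.CommMod.commutator_sup_le'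
    Subgroup.le_normalizer_of_normal Subgroup.le_normalizer ?_ (Subgroup.commutator_le_right _ _))
  rw [Subgroup.commutator_eq_bot_iff_le_centralizer.2
    ((PLocal.isEA_le_centralizer hA.2.1).trans (Subgroup.centralizer_le inf_le_left))]
  exact bot_le

end Cfsg.Agent.S0619
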