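import Mathlib
import Cfsg.Statements.S0642
import Cfsg.Agent.Grp.Regular

set_option autoImplicit false
open Cfsg

namespace Cfsg.Agent.S0642

/-- Among finite 2-groups the regular ones are exactly the abelian ones. -/
theorem result {G : Type*} [Group G] [Finite G] (hG : IsPGroup 2 G) : Cfsg.IsRegularPGroup 2 G ↔ ∀ a b : G, a * b = b * a := by
  open scoped commutatorElement in
  constructor
  · intro h a b
    obtain ⟨c, hc, e⟩ := Grp.Reg.reg1_of_isRegular h a b
    have hn : Subgroup.closure ({a, b} : Set G) ≤ Subgroup.normalizer (powerClosure 2 1 (Grp.Reg.der a b) : Set G) :=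
      (Grp.Reg.le_normalizer_commutator_self _).trans (Grp.Reg.normalizer_le_normalizer_powerClosure 1 _)
    have h1 : Grp.Reg.der a b ≤ powerClosure 2 1 (Grp.Reg.der a b) := by
      refine Grp.Reg.der_le_of_mem (hn (Grp.Reg.left_mem a b)) (hn (Grp.Reg.right_mem a b)) ?_
      have e2 : ⁅a, b⁆ = (a * b * b) * c⁻¹ * (a * b * b)⁻¹ := by
        have e3 : c = (a ^ 2 * b ^ 2)⁻¹ * (a * b) ^ 2 := by rw [e]; group
        rw [e3, commutatorElement_def]
        simp only [pow_two]
        group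
      rw [e2]
      exact (Subgroup.mem_normalizer_iff.1 (hn (Subgroup.mul_mem _ (Subgroup.mul_mem _ (Grp.Reg.left_mem a b)
        (Grp.Reg.right_mem a b)) (Grp.Reg.right_mem a b))) _).1 (Subgroup.inv_mem _ hc)
    have h2 : powerClosure 2 1 (Grp.Reg.der a b) ≤ (frattini (Grp.Reg.der a b)).map (Subgroup.subtype _) := by
      rw [Grp.Reg.powerClosure_le_iff]
      intro x hx
      exact ⟨(⟨x, hx⟩ : Grp.Reg.der a b) ^ 2, Grp.PFrattini.pow_mem_frattini (hG.to_subgroup _) _, by simp⟩
    have h3 : (⊥ : Subgroup (Grp.Reg.der a b)) = ⊤ := by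
      apply frattini_nongenerating
      rw [bot_sup_eq, eq_top_iff]
      rintro ⟨x, hx⟩ -
      obtain ⟨y, hy, rfl⟩ := h2 (h1 hx)
      exact hy
    refine Grp.Reg.der_eq_bot_iff.1 (eq_bot_iff.2 fun x hx => ?_)
    have : (⟨x, hx⟩ : Grp.Reg.der a b) ∈ (⊥ : Subgroup (Grp.Reg.der a b)) := by rw [h3]; trivial
    exact congrArg Subtype.val (Subgroup.mem_bot.1 this)
  · intro h
    exact ⟨hG, fun a b n => ⟨1, Subgroup.one_mem _, by rw [mul_one, Commute.mul_pow (h a b)]⟩⟩

end Cfsg.Agent.S0642
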