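import Mathlib
import Cfsg.Statements.S0656
import Cfsg.Agent.PLocal.PStableSL2

set_option autoImplicit false
open Cfsg

namespace Cfsg.Agent.S0656

/-- For odd p, a faithful group on an elementary abelian p-group with no nontrivial normal p-subgroup in which some nontrivial p-element acts quadratically has a section isomorphic to SL(2, p). -/
theorem result {G : Type*} [Group G] [Finite G] {p : ℕ} [Fact p.Prime] (hp : p ≠ 2) (V H : Subgroup G) (hV : Cfsg.IsElementaryAbelian p V) (hHV : H ≤ Subgroup.normalizer (V : Set G)) (hf : H ⊓ Subgroup.centralizer (V : Set G) = ⊥) (hO : Cfsg.pCore p ↥H = ⊥) (x : G) (hxH : x ∈ H) (hx1 : x ≠ 1) (hxp : ∃ k : ℕ, orderOf x = p ^ k) (hq : ⁅⁅V, Subgroup.zpowers x⁆, Subgroup.zpowers x⁆ = ⊥) : ∃ (K L : Subgroup G) (hL : (L.subgroupOf K).Normal), K ≤ H ∧ Nonempty ((K ⧸ L.subgroupOf K) ≃* Matrix.SpecialLinearGroup (Fin 2) (ZMod p)) := by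
  refine PLocal.exists_section_sl2_of_not_transvFree hp H fun h => hx1 ?_
  have h1 := h.mem_pCore (PLocal.EA.rep hV H hHV) ⊥
    ((MonoidHom.ker_eq_bot_iff _).2 (PLocal.EA.rep_injective hHV hf)).le ⟨x, hxH⟩
    (PLocal.EA.rep_sub_one_sq hHV _ hq)
  have h2 : (⟨x, hxH⟩ : H) ∈ (pCore p (H ⧸ (⊥ : Subgroup H))).comap (QuotientGroup.mk' ⊥) := h1
  rw [Grp.comap_pCore_quotient _ IsPGroup.of_bot, hO, Subgroup.mem_bot] at h2
  exact congrArg Subtype.val h2

end Cfsg.Agent.S0656
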