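import Cfsg.Statements.S0662
import Cfsg.Agent.Grp.MaxClass
import Cfsg.Agent.FGS.IndexP

set_option autoImplicit false
open Cfsg

namespace Cfsg.Agent.S0662

/-- In a p-group of maximal class of order at least p³ the normal subgroups of index at least p² are exactly the terms of the lower central series, and there are exactly p + 1 normal subgroups of index p. -/
theorem result {G : Type*} [Group G] [Finite G] {p : ℕ} [Fact p.Prime] (n : ℕ) (hG : Nat.card G = p ^ n) (hcl : Group.nilpotencyClass G = n - 1) (hn : 3 ≤ n) : (∀ (N : Subgroup G) [N.Normal] (r : ℕ), 2 ≤ r → N.index = p ^ r → N = (⊤ : Subgroup G).lowerCentralSeries (r - 1)) ∧ Nat.card {N : Subgroup G // N.Normal ∧ N.index = p} = p + 1 := by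
  have hp : p.Prime := Fact.out
  have hP : IsPGroup p G := IsPGroup.of_card hG
  constructor
  · intro N _ r hr hN
    have h1 : Group.nilpotencyClass (G ⧸ N) ≤ r - 1 := S0063.result p r hN hr
    have := (hP.to_quotient N).isNilpotent
    have h2 : (⊤ : Subgroup G).lowerCentralSeries (r - 1) ≤ N := by
      rw [← Subgroup.lowerCentralSeries_eq_bot_iff_nilpotencyClass_le,
        ← Subgroup.map_top_of_surjective _ (QuotientGroup.mk'_surjective N),
        ← Subgroup.map_lowerCentralSeries, Subgroup.map_eq_bot_iff, QuotientGroup.ker_mk'] at h1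
      exact h1
    refine (Subgroup.eq_of_le_of_card_ge h2 ?_).symm
    rw [Grp.MaxClass.card_lcs hG hn hcl (by omega)]
    have h3 := Subgroup.card_mul_index N
    rw [hN, hG] at h3
    have h4 : r ≤ n := (Nat.pow_dvd_pow_iff_le_right hp.one_lt).mp (Dvd.intro_left _ h3)
    rw [show n = (n - 1 - (r - 1)) + r by omega, pow_add] at h3
    exact (Nat.eq_of_mul_eq_mul_right (pow_pos hp.pos _) h3).le
  · have h4 : Nat.card (G ⧸ commutator G) = p ^ 2 := Grp.MaxClass.index_commutator hG hn hcl
    have hnc : ¬ IsCyclic (G ⧸ commutator G) := fun h =>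
      Grp.MaxClass.not_isCyclic_of_class (by omega)
        (Grp.MaxClass.isCyclic_of_isCyclic_abelianization hP h)
    rw [← FGS.card_subgroups_prime_of_card_sq
      (FGS.pow_eq_one_of_card_sq_of_not_isCyclic h4 hnc) h4]
    have hπ := QuotientGroup.mk'_surjective (commutator G)
    have key : ∀ K : Subgroup (G ⧸ commutator G), Nat.card K = p ↔ K.index = p := by
      intro K
      have := Subgroup.card_mul_index K
      rw [h4, pow_two] at this
      constructor
      · intro h; rw [h] at this; exact Nat.eq_of_mul_eq_mul_left hp.pos this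
      · intro h; rw [h] at this; exact Nat.eq_of_mul_eq_mul_right hp.pos this
    have hle : ∀ N : Subgroup G, N.index = p → (QuotientGroup.mk' (commutator G)).ker ≤ N := by
      intro N hN
      rw [QuotientGroup.ker_mk']
      exact (Grp.PFrattini.commutator_le_frattini hP).trans
        (frattini_le_coatom (FGS.isCoatom_of_prime_index (hN ▸ hp)))
    refine Nat.card_congr ⟨fun N => ⟨N.1.map (QuotientGroup.mk' _), ?_⟩,
      fun K => ⟨K.1.comap (QuotientGroup.mk' _), ?_⟩, fun N => ?_, fun K => ?_⟩
    · rw [key, Subgroup.index_map_eq _ hπ (hle _ N.2.2), N.2.2]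
    · have : (K.1.comap (QuotientGroup.mk' (commutator G))).index = p := by
        rw [Subgroup.index_comap_of_surjective _ hπ, ← key, K.2]
      exact ⟨FGS.normal_of_index_eq_prime hP this, this⟩
    · exact Subtype.ext (Subgroup.comap_map_eq_self (hle _ N.2.2))
    · exact Subtype.ext (Subgroup.map_comap_eq_self_of_surjective hπ _)

end Cfsg.Agent.S0662
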