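import Cfsg.Statements.S0666
import Mathlib
import Cfsg.Agent.Solv.FrobeniusAction
import Cfsg.Agent.S0035

set_option autoImplicit false
open Cfsg

namespace Cfsg.Agent.S0666

/-- A Frobenius group acting on a nontrivial abelian group of order prime to that of its kernel, with the kernel acting without nontrivial fixed points, has a complement with a nontrivial fixed point. -/
theorem result {G : Type*} [Group G] [Finite G] (V F : Subgroup G) (hVab : IsMulCommutative V) (hV1 : V ≠ ⊥) (hFV : F ≤ Subgroup.normalizer (V : Set G)) (H : Subgroup ↥F) (hH : Cfsg.IsFrobeniusComplement H) (hcop : (Nat.card V).Coprime (Nat.card (Cfsg.frobeniusKernel H))) (hCK : V ⊓ Subgroup.centralizer (Subtype.val '' Cfsg.frobeniusKernel H : Set G) = ⊥) : V ⊓ Subgroup.centralizer ((H.map F.subtype : Subgroup G) : Set G) ≠ ⊥ := by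
  obtain ⟨K, hK, hKn, hc⟩ := S0035.result H hH
  refine Solv.Frob.inf_centralizer_ne_bot V (K.map F.subtype) (H.map F.subtype) hV1
    ((Subgroup.map_subtype_le _).trans hFV) ((Subgroup.map_subtype_le _).trans hFV) ?_ ?_ ?_ ?_
  · refine le_trans (Subgroup.map_mono ?_) (Subgroup.le_normalizer_map F.subtype)
    rw [Subgroup.normalizer_eq_top]; exact le_top
  · have := Solv.Frob.fpf_of_isFrobeniusComplement hH hc.disjoint
    rw [Solv.Frob.fpf_iff] at this ⊢
    rintro _ ⟨a, ha, rfl⟩ _ ⟨k, hk, rfl⟩ e
    exact (this a ha k hk (Subtype.ext e)).imp (congrArg Subtype.val) (congrArg Subtype.val)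
  · rw [Subgroup.card_map_of_injective F.subtype_injective]
    rwa [← hK] at hcop
  · rw [← hK] at hCK
    exact hCK

end Cfsg.Agent.S0666
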