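import Mathlib
import Cfsg.Statements.S0668

set_option autoImplicit false

open Cfsg

namespace Cfsg.Agent.S0668

theorem permRep_single {G : Type*} [Group G] {K : Type*} [Field K] {Ω : Type*} [DecidableEq Ω]
    [MulAction G Ω] (g : G) (a : Ω) :
    Cfsg.permRep K G Ω g (Pi.single a 1) = Pi.single (g • a) 1 := by
  funext x
  change (Pi.single a (1 : K) : Ω → K) (g⁻¹ • x) = _
  simp only [Pi.single_apply, inv_smul_eq_iff]

/-- The equivariant linear maps between the permutation modules of two finite `G`-sets form a space whose dimension is the number of `G`-orbits on the product of the two sets. -/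
theorem result {G : Type*} [Group G] {K : Type*} [Field K] {Ω₁ Ω₂ : Type*} [Fintype Ω₁] [Fintype Ω₂] [MulAction G Ω₁] [MulAction G Ω₂] : Module.finrank K ((Cfsg.permRep K G Ω₁).linHom (Cfsg.permRep K G Ω₂)).invariants = Nat.card (MulAction.orbitRel.Quotient G (Ω₁ × Ω₂)) := by
  classical
  set Q := MulAction.orbitRel.Quotient G (Ω₁ × Ω₂)
  have key : ∀ φ : (Ω₁ → K) →ₗ[K] (Ω₂ → K),
      φ ∈ ((Cfsg.permRep K G Ω₁).linHom (Cfsg.permRep K G Ω₂)).invariants ↔
        ∀ (g : G) (a : Ω₁) (b : Ω₂), φ (Pi.single (g • a) 1) (g • b) = φ (Pi.single a 1) b := by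
    intro φ
    rw [Representation.mem_invariants]
    constructor
    · intro h g a b
      have := congrFun (LinearMap.congr_fun (h g) (Pi.single (g • a) 1)) (g • b)
      rw [← this, Representation.linHom_apply]
      simp only [LinearMap.comp_apply, permRep_single, inv_smul_smul]
      change φ (Pi.single a 1) (g⁻¹ • g • b) = _
      rw [inv_smul_smul]
    · intro h g
      apply (Pi.basisFun K Ω₁).ext
      intro a
      funext b
      rw [Representation.linHom_apply]
      simp only [Pi.basisFun_apply, LinearMap.comp_apply, permRep_single]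
      change φ (Pi.single (g⁻¹ • a) 1) (g⁻¹ • b) = _
      exact h g⁻¹ a b
  let L : (Q → K) →ₗ[K] ((Cfsg.permRep K G Ω₁).linHom (Cfsg.permRep K G Ω₂)).invariants :=
    { toFun := fun F => ⟨Matrix.toLin' (Matrix.of fun b a => F (Quotient.mk'' (a, b))), by
        rw [key]
        intro g a b
        simp only [Matrix.toLin'_apply, Matrix.mulVec_single_one, Matrix.col_apply, Matrix.of_apply]
        congr 1
        apply Quotient.sound'
        exact ⟨g, rfl⟩⟩
      map_add' := by
        intro F₁ F₂
        apply Subtype.ext
        simp only [Submodule.coe_add, ← map_add]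
        rfl
      map_smul' := by
        intro c F
        apply Subtype.ext
        simp only [Submodule.coe_smul, ← map_smul]
        rfl }
  have hL : Function.Bijective L := by
    constructor
    · intro F₁ F₂ h
      funext q
      induction q using Quotient.inductionOn' with
      | h x =>
        obtain ⟨a, b⟩ := x
        have h1 := congrArg Subtype.val h
        have h2 := Matrix.toLin'.injective h1
        exact congrFun (congrFun h2 b) a
    · rintro ⟨φ, hφ⟩
      rw [key] at hφ
      refine ⟨fun q => Quotient.liftOn' q (fun x => φ (Pi.single x.1 1) x.2) ?_, ?_⟩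
      · rintro ⟨a, b⟩ ⟨c, d⟩ ⟨g, hg⟩
        simp only [Prod.smul_mk, Prod.mk.injEq] at hg
        rw [← hg.1, ← hg.2]
        exact hφ g c d
      · apply Subtype.ext
        apply (Pi.basisFun K Ω₁).ext
        intro a
        funext b
        simp [L]
  rw [← (LinearEquiv.ofBijective L hL).finrank_eq, Module.finrank_fintype_fun_eq_card,
    Nat.card_eq_fintype_card]

end Cfsg.Agent.S0668
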