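import Mathlib
import Cfsg.Statements.S0669

set_option autoImplicit false

open Cfsg

namespace Cfsg.Agent.S0669

/-- The rank of a transitive action: orbits on ordered pairs correspond to orbits of a point stabiliser. -/
theorem result {G : Type*} [Group G] {Ω : Type*} [Finite Ω] [MulAction G Ω] [MulAction.IsPretransitive G Ω] (a : Ω) : Nat.card (MulAction.orbitRel.Quotient G (Ω × Ω)) = Nat.card (MulAction.orbitRel.Quotient (MulAction.stabilizer G a) Ω) := by
  symm
  let f : MulAction.orbitRel.Quotient (MulAction.stabilizer G a) Ω →
      MulAction.orbitRel.Quotient G (Ω × Ω) :=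
    Quotient.map' (fun b => (a, b)) (by
      rintro b c ⟨g, hg⟩
      refine ⟨(g : G), ?_⟩
      simp only [Prod.smul_mk, Prod.mk.injEq]
      exact ⟨g.2, hg⟩)
  apply Nat.card_eq_of_bijective f
  constructor
  · intro x y
    induction x using Quotient.inductionOn' with
    | h b =>
    induction y using Quotient.inductionOn' with
    | h c =>
      intro h
      obtain ⟨g, hg⟩ := Quotient.exact' h
      simp only [Prod.smul_mk, Prod.mk.injEq] at hg
      exact Quotient.sound' ⟨⟨g, hg.1⟩, hg.2⟩
  · intro q
    induction q using Quotient.inductionOn' with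
    | h x =>
      obtain ⟨b, c⟩ := x
      obtain ⟨g, hg⟩ := MulAction.exists_smul_eq G b a
      refine ⟨Quotient.mk'' (g • c), ?_⟩
      apply Quotient.sound'
      refine ⟨g, ?_⟩
      simp [hg]

end Cfsg.Agent.S0669
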