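import Mathlib
import Cfsg.Statements.S0677
import Cfsg.Agent.Perm.PrimeDegree
import Cfsg.Agent.S0676

set_option autoImplicit false

open Cfsg

namespace Cfsg.Agent.S0677

open MulAction

/-- Parity of an invariant set of an involutive map. -/
theorem card_modEq_of_involutive {X : Type*} [Finite X] (σ : X → X) (hσ : ∀ x, σ (σ x) = x)
    (S : Set X) (hS : ∀ x ∈ S, σ x ∈ S) :
    Nat.card S ≡ Nat.card {x // x ∈ S ∧ σ x = x} [MOD 2] := by
  classical
  have := Fintype.ofFinite S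
  let f : Function.End S := fun x => ⟨σ x, hS x x.2⟩
  have hf : f ^ 2 ^ 1 = 1 := by
    funext x
    exact Subtype.ext (hσ x)
  have h := Equiv.Perm.card_fixedPoints_modEq hf
  rw [← Nat.card_eq_fintype_card, ← Nat.card_eq_fintype_card] at h
  convert h using 1
  refine Nat.card_congr ⟨fun x => ⟨⟨x, x.2.1⟩, Subtype.ext x.2.2⟩,
    fun x => ⟨x.1, x.1.2, congrArg Subtype.val x.2⟩, fun _ => rfl, fun _ => rfl⟩

theorem exists_fixed_of_affine {G : Type*} [Group G] [Finite G] {Ω : Type*} [MulAction G Ω]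
    {p : ℕ} [hp : Fact p.Prime] {e : ZMod p ≃ Ω}
    (h : ∀ g : G, ∃ a b : ZMod p, ∀ i, g • e i = e (a * i + b)) (hG : ¬ p ∣ Nat.card G) :
    ∃ x : Ω, ∀ g : G, g • x = x := by
  have := Fintype.ofFinite G
  have h0 : ((Fintype.card G : ℕ) : ZMod p) ≠ 0 := by
    rwa [Ne, ZMod.natCast_eq_zero_iff, ← Nat.card_eq_fintype_card]
  refine ⟨e ((Fintype.card G : ZMod p)⁻¹ * ∑ k : G, e.symm (k • e 0)), fun g => ?_⟩
  obtain ⟨a, b, hab⟩ := h g
  rw [hab]
  congr 1
  have h1 : ∑ k : G, e.symm (k • e 0) = ∑ k : G, (a * e.symm (k • e 0) + b) := by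
    rw [← Equiv.sum_comp (Equiv.mulLeft g)]
    refine Finset.sum_congr rfl fun k _ => ?_
    rw [Equiv.coe_mulLeft, mul_smul, Equiv.symm_apply_eq, ← hab, Equiv.apply_symm_apply]
  conv_rhs => rw [h1]
  rw [Finset.sum_add_distrib, ← Finset.mul_sum, Finset.sum_const, Finset.card_univ, nsmul_eq_mul]
  field_simp

/-- In a transitive permutation group of prime degree `p` whose Sylow `p`-normaliser has even order, the point stabilisers are the only subgroups of index `p`. -/
theorem result {α : Type*} [Fintype α] [DecidableEq α] {p : ℕ} [Fact p.Prime] (hα : Fintype.card α = p) (G : Subgroup (Equiv.Perm α)) [MulAction.IsPretransitive G α] (P : Sylow p G) (heven : Even (Nat.card (Subgroup.normalizer ((P : Subgroup G) : Set G)))) (H : Subgroup G) (hH : H.index = p) : ∃ a : α, H = MulAction.stabilizer G a := by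
  classical
  have hp : p.Prime := Fact.out
  have hΩ : Nat.card α = p := by rw [Nat.card_eq_fintype_card, hα]
  have hpH : ¬ p ∣ Nat.card H := by
    intro h
    apply Perm.not_sq_dvd_card_of_prime_degree (G := G) hΩ
    rw [← H.card_mul_index, hH, pow_two]
    exact Nat.mul_dvd_mul_right h p
  suffices h : ∃ a : α, ∀ g ∈ H, g • a = a by
    obtain ⟨a, ha⟩ := h
    refine ⟨a, Subgroup.eq_of_le_of_card_ge ha ?_⟩
    have h1 := H.card_mul_index
    have h2 := (stabilizer G a).card_mul_index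
    rw [index_stabilizer_of_transitive, hΩ, ← h1, hH] at h2
    exact (Nat.eq_of_mul_eq_mul_right hp.pos h2).le
  obtain ⟨c, e, hP, ho, hc⟩ := Perm.exists_coord_of_prime_degree hΩ P
  by_cases haff : ∀ g : G, ∃ a b : ZMod p, ∀ i, g • e i = e (a * i + b)
  · obtain ⟨x, hx⟩ := exists_fixed_of_affine (G := H) (e := e) (fun g => haff g) hpH
    exact ⟨x, fun g hg => hx ⟨g, hg⟩⟩
  have h5 := S0675.five_le_of_not_affine haff
  have h2 : ∀ {a b c d : α}, a ≠ b → c ≠ d → ∃ g : G, g • a = c ∧ g • b = d :=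
    is_two_pretransitive_iff.1 (S0675.two_trans_of_not_affine hc haff)
  obtain ⟨t', ht'⟩ := exists_prime_orderOf_dvd_card' 2 heven.two_dvd
  have ht2 : orderOf (t' : G) = 2 := by rw [Subgroup.orderOf_coe, ht']
  obtain ⟨b, ht⟩ := Perm.reflection_of_orderOf_eq_two (by omega) hc ht2 (by rw [← hP]; exact t'.2)
  generalize (t' : G) = t at ht2 ht
  have htt : t * t = 1 := by rw [← pow_two, ← ht2, pow_orderOf_eq_one]
  have h20 : (2 : ZMod p) ≠ 0 := by
    intro h0
    have : ((2 : ℕ) : ZMod p) = 0 := by exact_mod_cast h0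
    rw [ZMod.natCast_eq_zero_iff] at this
    have := Nat.le_of_dvd (by norm_num) this
    omega
  have hQ : Nat.card (G ⧸ H) = p := hH
  -- a fixed point of `t` on the cosets
  obtain ⟨q₀, hq₀⟩ : ∃ q : G ⧸ H, t • q = q := by
    have h1 := card_modEq_of_involutive (fun q : G ⧸ H => t • q)
      (fun q => by rw [← mul_smul, htt, one_smul]) Set.univ (fun _ _ => trivial)
    rw [Nat.card_univ, hQ] at h1
    by_contra hcon
    push Not at hcon
    have : IsEmpty {x : G ⧸ H // x ∈ Set.univ ∧ t • x = x} := ⟨fun x => hcon x x.2.2⟩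
    rw [Nat.card_of_isEmpty, Nat.modEq_zero_iff_dvd] at h1
    have := (Nat.prime_dvd_prime_iff_eq Nat.prime_two hp).1 h1
    omega
  have huniq : ∀ q : G ⧸ H, t • q = q → q = q₀ := by
    intro q hq
    have htr := Perm.sylow_isPretransitive (Ω := G ⧸ H) (f := 1) (by rw [hQ, pow_one]) P
    obtain ⟨⟨u, hu⟩, rfl⟩ := htr.exists_smul_eq q₀ q
    change u • q₀ = q₀
    change t • u • q₀ = u • q₀ at hq
    rw [hP, ← mem_powers_iff_mem_zpowers] at hu
    obtain ⟨n, rfl⟩ := hu
    simp only at hq ⊢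
    have h3 : c ^ n * t * c ^ n = t := by
      apply FaithfulSMul.eq_of_smul_eq_smul (α := α)
      intro x
      obtain ⟨i, rfl⟩ := e.surjective x
      rw [mul_smul, mul_smul, Perm.pow_smul_coord hc, ht, Perm.pow_smul_coord hc, ht]
      congr 1; ring
    have h4 : c ^ (2 * n) ∈ stabilizer G q₀ := by
      rw [mem_stabilizer_iff, two_mul, pow_add, mul_smul, ← hq, ← mul_smul, ← mul_smul, h3, hq₀]
    have h6 : Nat.card (stabilizer G q₀) = Nat.card H := by
      have h1 := H.card_mul_index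
      have h2 := (stabilizer G q₀).card_mul_index
      rw [index_stabilizer_of_transitive, hQ, ← h1, hH] at h2
      exact Nat.eq_of_mul_eq_mul_right hp.pos h2
    have h7 := Subgroup.orderOf_dvd_natCard _ h4
    rw [h6] at h7
    have h8 : orderOf (c ^ (2 * n)) ∣ p := ho ▸ orderOf_pow_dvd _
    rcases (Nat.dvd_prime hp).1 h8 with h9 | h9
    · rw [orderOf_eq_one_iff, ← orderOf_dvd_iff_pow_eq_one, ho] at h9
      have h10 : p ∣ n := ((Nat.coprime_primes hp Nat.prime_two).2 (by omega)).dvd_of_dvd_mul_left h9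
      rw [← ho, orderOf_dvd_iff_pow_eq_one] at h10
      rw [h10, one_smul]
    · exact absurd (h9 ▸ h7) hpH
  -- incidence between points and cosets
  let I : α → G ⧸ H → Prop := fun x q => ∃ g : G, (g : G ⧸ H) = q ∧ g • e 0 = x
  have hI : ∀ (k : G) x q, I x q → I (k • x) (k • q) := by
    rintro k x q ⟨g, rfl, rfl⟩
    exact ⟨k * g, rfl, mul_smul _ _ _⟩
  have hI' : ∀ (k : G) x q, I (k • x) (k • q) ↔ I x q := fun k x q =>
    ⟨fun h => by simpa using hI k⁻¹ _ _ h, hI k x q⟩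
  have hpar : ∀ x, Nat.card {q | I x q ∧ I (t • x) q} ≡ if I x q₀ then 1 else 0 [MOD 2] := by
    intro x
    have h1 := card_modEq_of_involutive (fun q : G ⧸ H => t • q)
      (fun q => by rw [← mul_smul, htt, one_smul]) {q | I x q ∧ I (t • x) q} (by
        rintro q ⟨hq1, hq2⟩
        refine ⟨?_, hI t _ _ hq1⟩
        have := hI t _ _ hq2
        rwa [← mul_smul, htt, one_smul] at this)
    refine h1.trans ?_
    split_ifs with hx
    · rw [Nat.card_eq_one_iff_unique.2]
      refine ⟨⟨fun a b => Subtype.ext ((huniq _ a.2.2).trans (huniq _ b.2.2).symm)⟩,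
        ⟨⟨q₀, ⟨hx, ?_⟩, hq₀⟩⟩⟩
      have := hI t _ _ hx
      rwa [hq₀] at this
    · have : IsEmpty {q // q ∈ {q | I x q ∧ I (t • x) q} ∧ t • q = q} :=
        ⟨fun q => hx (huniq _ q.2.2 ▸ q.2.1.1)⟩
      rw [Nat.card_of_isEmpty]
  have hconst : ∀ x y, t • x ≠ x → t • y ≠ y → I x q₀ → I y q₀ := by
    intro x y hx hy hxq
    obtain ⟨g, hg1, hg2⟩ := h2 hx hy
    have h3 : Nat.card {q | I x q ∧ I (t • x) q} = Nat.card {q | I y q ∧ I (t • y) q} := by
      refine Nat.card_congr ((MulAction.toPerm g).subtypeEquiv fun q => ?_)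
      simp only [Set.mem_setOf_eq, toPerm_apply, ← hg2]
      rw [hI']
      rw [hg2, ← hg1, hI']
    have h4 := hpar x
    have h6 := hpar y
    rw [h3, if_pos hxq] at h4
    by_contra hcon
    rw [if_neg hcon] at h6
    exact absurd (h4.symm.trans h6) (by decide)
  have hz : ∀ x, t • x = x ↔ x = e (b / 2) := by
    intro x
    obtain ⟨i, rfl⟩ := e.surjective x
    rw [ht, e.injective.eq_iff, e.injective.eq_iff, eq_div_iff h20]
    constructor <;> intro h <;> linear_combination -h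
  obtain ⟨g₀, rfl⟩ := QuotientGroup.mk_surjective q₀
  refine ⟨g₀⁻¹ • e (b / 2), fun g hg => ?_⟩
  set z := e (b / 2) with hzdef
  have hk : ∀ g ∈ H, ∀ x, I x g₀ → I ((g₀ * g * g₀⁻¹) • x) g₀ := by
    intro g hg x hx
    have := hI (g₀ * g * g₀⁻¹) _ _ hx
    convert this using 1
    change ((g₀ : G) : G ⧸ H) = ((g₀ * g * g₀⁻¹ * g₀ : G) : G ⧸ H)
    rw [QuotientGroup.eq]
    simpa [mul_assoc] using hg
  by_contra hcon
  have h3 : (g₀ * g * g₀⁻¹) • z ≠ z := by
    intro h
    apply hcon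
    rw [eq_inv_smul_iff, ← mul_smul, ← mul_smul, h]
  have h4 : (g₀ * g⁻¹ * g₀⁻¹) • (g₀ * g * g₀⁻¹) • z = z := by
    rw [← mul_smul]; simp [mul_assoc]
  -- all points are incident with the coset
  have hall : ∀ x, I x g₀ := by
    have hex : I ((g₀ * g * g₀⁻¹) • z) g₀ := by
      by_cases h6 : g₀ • e 0 = z
      · exact hk g hg z ⟨g₀, rfl, h6⟩
      · exact hconst _ _ (mt (hz _).1 h6) (mt (hz _).1 h3) ⟨g₀, rfl, rfl⟩
    intro x
    by_cases hx : x = z
    · rw [hx, ← h4]
      exact hk _ (H.inv_mem hg) _ hex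
    · exact hconst _ _ (mt (hz _).1 h3) (mt (hz _).1 hx) hex
  apply hpH
  have : IsPretransitive H α := by
    rw [isPretransitive_iff_base (e 0)]
    intro x
    obtain ⟨k, hk1, hk2⟩ := hall (g₀ • x)
    refine ⟨⟨g₀⁻¹ * k, QuotientGroup.eq.1 hk1.symm⟩, ?_⟩
    change (g₀⁻¹ * k) • e 0 = x
    rw [mul_smul, hk2, inv_smul_smul]
  have : Nonempty α := ⟨e 0⟩
  exact hΩ ▸ Perm.card_dvd_of_isPretransitive H α

end Cfsg.Agent.S0677
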