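import Mathlib
import Cfsg.Statements.S0681
import Cfsg.Agent.Perm.Sharp2
import Cfsg.Agent.Perm.NearField

set_option autoImplicit false

open Cfsg

namespace Cfsg.Agent.S0681

open Perm

/-- The affine maps `x ↦ x * a + b`, `a ≠ 0`, of a near-field form a sharply doubly transitive permutation group. -/
theorem result {F : Type*} [Cfsg.NearField F] : ∃ H : Subgroup (Equiv.Perm F), (∀ σ : Equiv.Perm F, σ ∈ H ↔ ∃ a b : F, a ≠ 0 ∧ ∀ x : F, σ x = x * a + b) ∧ MulAction.IsMultiplyPretransitive H F 2 ∧ ∀ x : Fin 2 ↪ F, MulAction.stabilizer H x = ⊥ := by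
  let H : Subgroup (Equiv.Perm F) :=
    { carrier := {σ | ∃ a b : F, a ≠ 0 ∧ ∀ x : F, σ x = x * a + b}
      one_mem' := ⟨1, 0, Cfsg.NearField.zero_ne_one.symm, fun x => by simp⟩
      mul_mem' := by
        rintro σ τ ⟨a, b, ha, hσ⟩ ⟨c, d, hc, hτ⟩
        refine ⟨c * a, d * a + b, NF.mul_ne_zero hc ha, fun x => ?_⟩
        rw [Equiv.Perm.mul_apply, hτ, hσ, NF.add_mul, mul_assoc, add_assoc]
      inv_mem' := by
        rintro σ ⟨a, b, ha, hσ⟩
        obtain ⟨c, hc, h1, h2⟩ := NF.exists_inv ha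
        refine ⟨c, -(b * c), hc, fun x => ?_⟩
        rw [Equiv.Perm.inv_eq_iff_eq, hσ, NF.add_mul, NF.neg_mul, mul_assoc, mul_assoc, h2,
          mul_one, mul_one, neg_add_cancel_right] }
  refine ⟨H, fun _ => Iff.rfl, ?_, ?_⟩
  · rw [MulAction.is_two_pretransitive_iff]
    intro a b c d hab hcd
    obtain ⟨m, hm, hm2⟩ := NF.exists_mul_eq (sub_ne_zero.2 hab) (sub_ne_zero.2 hcd)
    obtain ⟨m', hm', h1, h2⟩ := NF.exists_inv hm
    let σ : Equiv.Perm F :=
      { toFun := fun x => x * m + (-(b * m) + d)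
        invFun := fun y => (y - (-(b * m) + d)) * m'
        left_inv := fun x => by simp only [add_sub_cancel_right]; rw [mul_assoc, h1, mul_one]
        right_inv := fun y => by simp only []; rw [mul_assoc, h2, mul_one, sub_add_cancel] }
    refine ⟨⟨σ, m, _, hm, fun _ => rfl⟩, ?_, ?_⟩
    · change a * m + (-(b * m) + d) = c
      rw [← add_assoc, ← sub_eq_add_neg, ← NF.sub_mul, hm2, sub_add_cancel]
    · change b * m + (-(b * m) + d) = d
      rw [add_neg_cancel_left]
  · refine sharp_two_iff.2 ?_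
    rintro ⟨σ, m, k, hm, hσ⟩ a b hab ha hb
    change σ a = a at ha
    change σ b = b at hb
    rw [hσ] at ha hb
    have h1 : (a - b) * m = (a - b) * 1 := by
      rw [NF.sub_mul, mul_one]
      conv_rhs => rw [← ha, ← hb]
      rw [add_sub_add_right_eq_sub]
    have h2 := NF.mul_left_cancel (sub_ne_zero.2 hab) h1
    rw [h2, mul_one, add_eq_left] at ha
    apply Subtype.ext
    ext x
    simp [hσ, h2, ha]

end Cfsg.Agent.S0681
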