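import Mathlib
import Cfsg.Statements.S0682
import Cfsg.Agent.Perm.NearField

set_option autoImplicit false

open Cfsg

namespace Cfsg.Agent.S0682

open Perm

/-- A finite near-field has prime-power order; its additive group is commutative of prime exponent. -/
theorem result {F : Type*} [Cfsg.NearField F] [Finite F] : ∃ p j : ℕ, p.Prime ∧ 1 ≤ j ∧ Nat.card F = p ^ j ∧ (∀ x y : F, x + y = y + x) ∧ ∀ x : F, p • x = 0 := by
  have hnt : Nontrivial F := ⟨⟨0, 1, Cfsg.NearField.zero_ne_one⟩⟩
  have h2 : 1 < Nat.card F := Finite.one_lt_card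
  obtain ⟨p, hp, hpn⟩ := Nat.exists_prime_and_dvd h2.ne'
  have : Fact p.Prime := ⟨hp⟩
  obtain ⟨x, hx⟩ := exists_prime_addOrderOf_dvd_card' p hpn
  have hx0 : x ≠ 0 := by
    rintro rfl
    rw [addOrderOf_zero] at hx
    exact hp.one_lt.ne hx
  have hexp : ∀ y : F, p • y = 0 := by
    intro y
    by_cases hy : y = 0
    · simp [hy]
    obtain ⟨c, -, rfl⟩ := NF.exists_mul_eq hx0 hy
    have := (NF.mulRight c).map_nsmul p x
    rw [← hx, addOrderOf_nsmul_eq_zero, map_zero, hx] at this
    exact this.symm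
  have hP : IsPGroup p (Multiplicative F) := fun g => ⟨1, by
    rw [pow_one]; exact hexp g.toAdd⟩
  obtain ⟨j, hj⟩ := IsPGroup.iff_card.1 hP
  have hj' : Nat.card F = p ^ j := hj
  refine ⟨p, j, hp, ?_, hj', ?_, hexp⟩
  · by_contra h
    obtain rfl : j = 0 := by omega
    rw [pow_zero] at hj'
    omega
  · have := hP.center_nontrivial
    obtain ⟨z, hz⟩ := exists_ne (1 : Subgroup.center (Multiplicative F))
    have hz0 : (z : Multiplicative F).toAdd ≠ 0 := fun h => hz (Subtype.ext h)
    have hzc : ∀ y : F, y + (z : Multiplicative F).toAdd = (z : Multiplicative F).toAdd + y :=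
      fun y => Subgroup.mem_center_iff.1 z.2 (Multiplicative.ofAdd y)
    intro x y
    by_cases hy : y = 0
    · simp [hy]
    obtain ⟨c, hc, rfl⟩ := NF.exists_mul_eq hz0 hy
    obtain ⟨d, -, -, hd⟩ := NF.exists_inv hc
    have := congrArg (· * c) (hzc (x * d))
    simpa only [NF.add_mul, mul_assoc, hd, mul_one] using this

end Cfsg.Agent.S0682
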