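import Mathlib
import Cfsg.Statements.S0683
import Cfsg.Agent.Perm.Sharp2

set_option autoImplicit false

open Cfsg

namespace Cfsg.Agent.S0683

open Perm

/-- A finite sharply doubly transitive permutation group is the affine group of a near-field: the permuted set carries a near-field structure for which the group consists exactly of the maps `x ↦ x * a + b` with `a ≠ 0`. -/
theorem result {α : Type*} [Fintype α] [DecidableEq α] (H : Subgroup (Equiv.Perm α)) [MulAction.IsMultiplyPretransitive H α 2] (hsharp : ∀ x : Fin 2 ↪ α, MulAction.stabilizer H x = ⊥) (h2 : 2 ≤ Fintype.card α) : ∃ _ : Cfsg.NearField α, ∀ σ : Equiv.Perm α, σ ∈ H ↔ ∃ a b : α, a ≠ 0 ∧ ∀ x : α, σ x = x * a + b := by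
  have hs := Perm.sharp_two_iff.1 hsharp
  obtain ⟨K, hKn, hK, hKc, -, htr, -, -⟩ :=
    Perm.exists_sharp_two_kernel (G := H) (Ω := α) inferInstance hs
      (by rwa [Nat.card_eq_fintype_card])
  have h2' : ∀ {a b c d : α}, a ≠ b → c ≠ d → ∃ g : H, g • a = c ∧ g • b = d :=
    MulAction.is_two_pretransitive_iff.1 inferInstance
  obtain ⟨z, o, hzo⟩ := Fintype.exists_pair_of_one_lt_card h2
  choose k hkK hkz using htr z
  have kuniq : ∀ u ∈ K, k (u • z) = u := by
    intro u hu
    rcases (hK _).1 (K.mul_mem (K.inv_mem hu) (hkK (u • z))) with h | h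
    · exact (inv_mul_eq_one.1 h).symm
    · exact absurd (by rw [mul_smul, hkz, inv_smul_smul]) (h z)
  have hex : ∀ a : α, ∃ g : H, g • z = z ∧ (a ≠ z → g • o = a) := by
    intro a
    by_cases ha : a = z
    · exact ⟨1, one_smul _ _, fun h => absurd ha h⟩
    · obtain ⟨g, h1, h2⟩ := h2' hzo (Ne.symm ha)
      exact ⟨g, h1, fun _ => h2⟩
  choose h hz ho using hex
  have hne : ∀ (u : H) (a : α), u • z = z → a ≠ z → u • a ≠ z := by
    intro u a hu ha h
    exact ha (smul_left_cancel u (h.trans hu.symm))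
  have huniq : ∀ u : H, u • z = z → h (u • o) = u := by
    intro u hu
    have := hs (u⁻¹ * h (u • o)) z o hzo (by rw [mul_smul, hz, inv_smul_eq_iff, hu])
      (by rw [mul_smul, ho _ (hne u o hu hzo.symm), inv_smul_smul])
    exact (inv_mul_eq_one.1 this).symm
  have kk : ∀ a b, k (k a • b) = k a * k b := by
    intro a b
    rw [← kuniq _ (K.mul_mem (hkK a) (hkK b)), mul_smul, hkz]
  have k0 : k z = 1 := by simpa using kuniq 1 K.one_mem
  have h1 : h o = 1 := by simpa using huniq 1 (one_smul _ _)
  have kcomm : ∀ a b, k a • b = k b • a := by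
    intro a b
    rw [← hkz b, ← mul_smul, hKc _ (hkK a) _ (hkK b), mul_smul, hkz, hkz]
  let _ : Add α := ⟨fun a b => k a • b⟩
  let _ : Neg α := ⟨fun a => (k a)⁻¹ • z⟩
  let _ : Zero α := ⟨z⟩
  let iA : AddGroup α := AddGroup.ofLeftAxioms
    (fun a b c => by
      change k (k a • b) • c = k a • k b • c
      rw [kk, mul_smul])
    (fun a => by
      change k z • a = a
      rw [k0, one_smul])
    (fun a => by
      change k ((k a)⁻¹ • z) • a = z
      rw [kuniq _ (K.inv_mem (hkK a)), inv_smul_eq_iff, hkz])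
  let m : α → α → α := fun x a => if a = z then z else h a • x
  have m0 : ∀ x, m x z = z := fun x => if_pos rfl
  have m1 : ∀ x a, a ≠ z → m x a = h a • x := fun x a ha => if_neg ha
  let iM : Monoid α :=
    { mul := m
      one := o
      mul_assoc := by
        intro x a b
        change m (m x a) b = m x (m a b)
        by_cases hb : b = z
        · rw [hb, m0, m0, m0]
        by_cases ha : a = z
        · rw [ha, m0, m1 _ _ hb, hz, m0]
        rw [m1 _ _ hb, m1 _ _ hb, m1 _ _ ha, m1 _ _ (hne _ _ (hz b) ha), ← mul_smul,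
          ← huniq (h b * h a) (by rw [mul_smul, hz, hz]), mul_smul, ho _ ha]
      one_mul := by
        intro a
        change m o a = a
        by_cases ha : a = z
        · rw [ha, m0]
        · rw [m1 _ _ ha, ho _ ha]
      mul_one := by
        intro a
        change m a o = a
        rw [m1 _ _ hzo.symm, h1, one_smul] }
  refine ⟨{ toAddGroup := iA, toMonoid := iM, right_distrib := ?_, mul_zero := m0,
            zero_ne_one := hzo, exists_inv := ?_ }, fun σ => ?_⟩
  · intro a b c
    change m (k a • b) c = k (m a c) • m b c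
    by_cases hc : c = z
    · rw [hc, m0, m0, m0, hkz]
    have : k (h c • a) = h c * k a * (h c)⁻¹ := by
      rw [← kuniq _ (hKn.conj_mem _ (hkK a) (h c)), mul_smul, mul_smul,
        inv_smul_eq_iff.2 (hz c).symm, hkz]
    rw [m1 _ _ hc, m1 _ _ hc, m1 _ _ hc, this, mul_smul, mul_smul, inv_smul_smul]
  · intro a ha
    have h3 : (h a)⁻¹ • z = z := inv_smul_eq_iff.2 (hz a).symm
    refine ⟨(h a)⁻¹ • o, ?_, ?_⟩
    · change m a _ = o
      rw [m1 _ _ (hne _ _ h3 hzo.symm), huniq _ h3, inv_smul_eq_iff, ho _ ha]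
    · change m _ a = o
      rw [m1 _ _ ha, smul_inv_smul]
  · change σ ∈ H ↔ ∃ a b : α, a ≠ z ∧ ∀ x : α, σ x = k (m x a) • b
    constructor
    · intro hσ
      have h3 : ((k (σ z))⁻¹ * ⟨σ, hσ⟩) • z = z := by
        rw [mul_smul, inv_smul_eq_iff, hkz]; rfl
      have h4 := hne _ _ h3 hzo.symm
      refine ⟨_, σ z, h4, fun x => ?_⟩
      rw [m1 _ _ h4, huniq _ h3, kcomm, mul_smul, smul_inv_smul]
      rfl
    · rintro ⟨a, b, ha, hσ⟩
      have : σ = (k b * h a : H) := by
        ext x
        rw [hσ, m1 _ _ ha, kcomm]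
        rfl
      rw [this]
      exact (k b * h a).2

end Cfsg.Agent.S0683
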