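import Cfsg.Statements.S0684
import Cfsg.Agent.Perm.FpfGroup
import Cfsg.Agent.Perm.Huppert2

set_option autoImplicit false
open Cfsg

namespace Cfsg.Agent.S0684

section
variable {p : ℕ} [Fact p.Prime] {V : Type*} [AddCommGroup V] [Module (ZMod p) V] [Finite V]
  (H : Subgroup (V ≃ₗ[ZMod p] V))

theorem finite_sub : Finite H := by
  haveI : Finite (V ≃ₗ[ZMod p] V) := Finite.of_injective _ DFunLike.coe_injective
  infer_instance

theorem card_eq (hreg : ∀ v w : V, v ≠ 0 → w ≠ 0 → ∃! h : H, (h : V ≃ₗ[ZMod p] V) v = w)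
    [Nontrivial V] : Nat.card H = Nat.card V - 1 := by
  obtain ⟨v, hv⟩ := exists_ne (0 : V)
  have h1 : Nat.card {w : V // w ≠ 0} = Nat.card V - 1 := by
    classical
    haveI := Fintype.ofFinite V
    rw [Nat.card_eq_fintype_card, Fintype.card_subtype_compl, Nat.card_eq_fintype_card]
    simp
  rw [← h1]
  refine Nat.card_congr (Equiv.ofBijective
    (fun h : H => (⟨(h : V ≃ₗ[ZMod p] V) v, by simpa using hv⟩ : {w : V // w ≠ 0})) ⟨?_, ?_⟩)
  · intro a b hab
    exact (hreg v _ hv (by simpa using hv)).unique (congrArg Subtype.val hab) rfl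
  · rintro ⟨w, hw⟩
    obtain ⟨h, hh, -⟩ := hreg v w hv hw
    exact ⟨h, Subtype.ext hh⟩

theorem abCyc (hreg : ∀ v w : V, v ≠ 0 → w ≠ 0 → ∃! h : H, (h : V ≃ₗ[ZMod p] V) v = w)
    [Nontrivial V] : Perm.Fpf.AbCyc H := by
  haveI := finite_sub H
  rcases subsingleton_or_nontrivial H with h | h
  · intro K _; infer_instance
  let φ : H →* MulAut (Multiplicative V) :=
    { toFun := fun h => AddEquiv.toMultiplicative (h : V ≃ₗ[ZMod p] V).toAddEquiv
      map_one' := rfl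
      map_mul' := fun _ _ => rfl }
  refine Perm.Fpf.AbCyc.of_occurs (FGS.FrobCompl.occurs_of_isFpf φ fun a v hv => ?_)
  by_cases h0 : v = 1
  · exact Or.inr h0
  · exact Or.inl ((hreg v.toAdd v.toAdd h0 h0).unique hv rfl)

end

/-- Point stabiliser of a sharply doubly transitive group not of semilinear type: a maximal normal abelian subgroup `A` of a linear group `H` that is regular on non-zero vectors and has no irreducible cyclic normal subgroup is cyclic and reducible, and the order of `A` divides `p ^ k - 1` for `k` the dimension of a minimal `A`-invariant subspace. -/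
theorem result {p : ℕ} [Fact p.Prime] {V : Type*} [AddCommGroup V] [Module (ZMod p) V] [Finite V] (H : Subgroup (V ≃ₗ[ZMod p] V)) (hreg : ∀ v w : V, v ≠ 0 → w ≠ 0 → ∃! h : H, (h : V ≃ₗ[ZMod p] V) v = w) (hI : ∀ A : Subgroup H, A.Normal → IsCyclic A → ∃ W : Submodule (ZMod p) V, W ≠ ⊥ ∧ W ≠ ⊤ ∧ ∀ a ∈ A, ∀ v ∈ W, ((a : H) : V ≃ₗ[ZMod p] V) v ∈ W) (A : Subgroup H) (hAn : A.Normal) (hAc : IsMulCommutative A) (hAmax : ∀ B : Subgroup H, B.Normal → IsMulCommutative B → A ≤ B → B = A) : IsCyclic A ∧ ∃ W : Submodule (ZMod p) V, W ≠ ⊥ ∧ W ≠ ⊤ ∧ (∀ a ∈ A, ∀ v ∈ W, ((a : H) : V ≃ₗ[ZMod p] V) v ∈ W) ∧ (∀ W' : Submodule (ZMod p) V, W' ≤ W → (∀ a ∈ A, ∀ v ∈ W', ((a : H) : V ≃ₗ[ZMod p] V) v ∈ W') → W' = ⊥ ∨ W' = W) ∧ Nat.card A ∣ p ^ Module.finrank (ZMod p) W - 1 := by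
  haveI := finite_sub H
  haveI : Nontrivial V := by
    obtain ⟨W, h1, -, -⟩ := hI ⊥ inferInstance inferInstance
    obtain ⟨v, -, hv⟩ := (Submodule.ne_bot_iff W).1 h1
    exact nontrivial_of_ne v 0 hv
  have hcyc := abCyc H hreg A hAc
  refine ⟨hcyc, ?_⟩
  obtain ⟨W₀, h1, h2, h3⟩ := hI A hAn hcyc
  haveI : Finite (Submodule (ZMod p) V) := Finite.of_injective _ SetLike.coe_injective
  obtain ⟨W, ⟨hW0, hW1, hW2⟩, hmin⟩ := exists_minimal_of_wellFoundedLT
    (fun W : Submodule (ZMod p) V => W ≠ ⊥ ∧ W ≤ W₀ ∧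
      ∀ a ∈ A, ∀ v ∈ W, ((a : H) : V ≃ₗ[ZMod p] V) v ∈ W) ⟨W₀, h1, le_rfl, h3⟩
  refine ⟨W, hW0, fun h => h2 (top_le_iff.1 (h ▸ hW1)), hW2, fun W' h4 h5 => ?_, ?_⟩
  · by_cases h6 : W' = ⊥
    · exact Or.inl h6
    · exact Or.inr (le_antisymm h4 (hmin ⟨h6, h4.trans hW1, h5⟩ h4))
  · let ρ : H →* Module.End (ZMod p) V :=
      { toFun := fun g => ((g : V ≃ₗ[ZMod p] V) : V →ₗ[ZMod p] V), map_one' := rfl
        map_mul' := fun a b => rfl }
    have hρ : Function.Injective ρ := fun a b h =>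
      Subtype.ext (LinearEquiv.toLinearMap_injective h)
    have ht : Perm.SemiLin.Trans ρ := fun v w hv hw => (hreg v w hv hw).exists
    rw [← Perm.SemiLin.card_submodule]
    refine ht.card_dvd_of_abelian hρ (fun a ha b hb => congrArg Subtype.val
      (hAc.is_comm.comm (⟨a, ha⟩ : A) ⟨b, hb⟩)) (fun h => ?_) W hW2
    have h4 := h.trans A.card_subgroup_dvd_card
    rw [card_eq H hreg] at h4
    have h5 : p ∣ Nat.card V := by
      rw [Module.natCard_eq_pow_finrank (K := ZMod p), Nat.card_zmod]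
      exact dvd_pow_self p Module.finrank_pos.ne'
    have h6 := (Nat.dvd_sub_iff_right (Nat.card_pos (α := V)) h5).1 h4
    exact (Fact.out : p.Prime).one_lt.ne' (Nat.dvd_one.1 h6)

end Cfsg.Agent.S0684
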