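import Cfsg.Statements.S0685
import Cfsg.Agent.S0684

set_option autoImplicit false
open Cfsg

namespace Cfsg.Agent.S0685

/-- In a linear group over the prime field that is regular on non-zero vectors and has no irreducible cyclic normal subgroup, a maximal normal abelian subgroup is properly contained in its centraliser, which is non-abelian. -/
theorem result {p : ℕ} [Fact p.Prime] {V : Type*} [AddCommGroup V] [Module (ZMod p) V] [Finite V] (H : Subgroup (V ≃ₗ[ZMod p] V)) (hreg : ∀ v w : V, v ≠ 0 → w ≠ 0 → ∃! h : H, (h : V ≃ₗ[ZMod p] V) v = w) (hI : ∀ A : Subgroup H, A.Normal → IsCyclic A → ∃ W : Submodule (ZMod p) V, W ≠ ⊥ ∧ W ≠ ⊤ ∧ ∀ a ∈ A, ∀ v ∈ W, ((a : H) : V ≃ₗ[ZMod p] V) v ∈ W) (A : Subgroup H) (hAn : A.Normal) (hAc : IsMulCommutative A) (hAmax : ∀ B : Subgroup H, B.Normal → IsMulCommutative B → A ≤ B → B = A) : A < Subgroup.centralizer (A : Set H) ∧ ¬ IsMulCommutative (Subgroup.centralizer (A : Set H)) := by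
  haveI := S0684.finite_sub H
  obtain ⟨hcyc, W, hW0, hW1, hW2, hW3, hW4⟩ := S0684.result H hreg hI A hAn hAc hAmax
  obtain ⟨w, hw, hw0⟩ := (Submodule.ne_bot_iff W).1 hW0
  haveI : Nontrivial V := nontrivial_of_ne w 0 hw0
  have hle : A ≤ Subgroup.centralizer (A : Set H) := Subgroup.le_centralizer A
  have hne : Subgroup.centralizer (A : Set H) ≠ A := by
    intro hC
    have h1 := Perm.SemiLin.card_dvd_centralizer_mul A
    rw [hC, IsCyclic.card_mulAut, S0684.card_eq H hreg] at h1
    obtain ⟨v, hv⟩ : ∃ v, v ∉ W := by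
      by_contra h
      push Not at h
      exact hW1 (eq_top_iff.2 fun v _ => h v)
    obtain ⟨h, hh, -⟩ := hreg v w (fun h => hv (h ▸ W.zero_mem)) hw0
    let W' := W.comap ((h : V ≃ₗ[ZMod p] V) : V →ₗ[ZMod p] V)
    have hinv : ∀ a ∈ A, ∀ u ∈ W', ((a : H) : V ≃ₗ[ZMod p] V) u ∈ W' := by
      intro a ha u hu
      have := hW2 _ (hAn.conj_mem a ha h) _ hu
      simpa [W'] using this
    have hr : Module.finrank (ZMod p) W' = Module.finrank (ZMod p) W := by
      rw [show W' = W.map ((h : V ≃ₗ[ZMod p] V).symm : V →ₗ[ZMod p] V) from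
        Submodule.comap_equiv_eq_map_symm _ _, LinearEquiv.finrank_map_eq]
    have hd : Disjoint W W' := by
      rw [disjoint_iff]
      refine (hW3 (W ⊓ W') inf_le_left fun a ha u hu => ⟨hW2 a ha u hu.1, hinv a ha u hu.2⟩).resolve_right
        fun h2 => hv ?_
      have h3 : W = W' := Submodule.eq_of_le_of_finrank_eq (inf_eq_left.1 h2) hr.symm
      rw [h3]
      change (h : V ≃ₗ[ZMod p] V) v ∈ W
      rw [hh]; exact hw
    have h2 := Submodule.finrank_add_finrank_le_of_disjoint hd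
    rw [hr] at h2
    have hp := (Fact.out : p.Prime).one_lt
    have h3 : p ^ Module.finrank (ZMod p) W * p ^ Module.finrank (ZMod p) W ≤ Nat.card V := by
      rw [Module.natCard_eq_pow_finrank (K := ZMod p), Nat.card_zmod, ← pow_add]
      exact Nat.pow_le_pow_right hp.le h2
    haveI : Nontrivial W := Submodule.nontrivial_iff_ne_bot.2 hW0
    have h4 : 1 < p ^ Module.finrank (ZMod p) W := Nat.one_lt_pow Module.finrank_pos.ne' hp
    have h5 := Nat.le_of_dvd (by omega) hW4
    have h6 := Nat.le_of_dvd (Nat.mul_pos Nat.card_pos (Nat.totient_pos.2 Nat.card_pos)) h1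
    have h7 := Nat.totient_le (Nat.card A)
    obtain ⟨m, hm⟩ : ∃ m, p ^ Module.finrank (ZMod p) W = m + 2 := ⟨_, (Nat.sub_add_cancel h4).symm⟩
    rw [hm] at h3 h5
    have h8 : Nat.card A * (Nat.card A).totient ≤ (m + 1) * (m + 1) :=
      Nat.mul_le_mul h5 (h7.trans h5)
    have h9 : (m + 2) * (m + 2) = (m + 1) * (m + 1) + 2 * m + 3 := by ring
    omega
  exact ⟨lt_of_le_of_ne hle hne.symm, fun h => hne (hAmax _ inferInstance h hle)⟩

end Cfsg.Agent.S0685
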