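import Cfsg.Statements.S0686
import Cfsg.Agent.Perm.RegLin2

set_option autoImplicit false
open Cfsg

namespace Cfsg.Agent.S0686

open Perm.SemiLin in

/-- In a linear group over the prime field that is regular on non-zero vectors and has no irreducible cyclic normal subgroup, let `A` be a maximal normal abelian subgroup and `N` a normal subgroup centralising `A` that is minimal among non-abelian normal subgroups centralising `A`. Then `N` is quaternion of order 8 or isomorphic to `SL(2,5)`. -/
theorem result {p : ℕ} [Fact p.Prime] {V : Type*} [AddCommGroup V] [Module (ZMod p) V] [Finite V] (H : Subgroup (V ≃ₗ[ZMod p] V)) (hreg : ∀ v w : V, v ≠ 0 → w ≠ 0 → ∃! h : H, (h : V ≃ₗ[ZMod p] V) v = w) (hI : ∀ A : Subgroup H, A.Normal → IsCyclic A → ∃ W : Submodule (ZMod p) V, W ≠ ⊥ ∧ W ≠ ⊤ ∧ ∀ a ∈ A, ∀ v ∈ W, ((a : H) : V ≃ₗ[ZMod p] V) v ∈ W) (A : Subgroup H) (hAn : A.Normal) (hAc : IsMulCommutative A) (hAmax : ∀ B : Subgroup H, B.Normal → IsMulCommutative B → A ≤ B → B = A) (N : Subgroup H) (hNn : N.Normal) (hNle : N ≤ Subgroup.centralizer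 (A : Set H)) (hNna : ¬ IsMulCommutative N) (hNmin : ∀ M : Subgroup H, M.Normal → M ≤ N → ¬ IsMulCommutative M → M = N) : Nonempty (N ≃* QuaternionGroup 2) ∨ Nonempty (N ≃* Matrix.SpecialLinearGroup (Fin 2) (ZMod 5)) := by
  have := finite_of_subgroup H
  obtain ⟨⟨n, hn0, hn⟩, hI'⟩ := not_irrOn_ofSubgroup hI
  have hf := fpf_ofSubgroup hreg
  have ht := trans_ofSubgroup hreg
  obtain rfl := hf.dim_two ht hn0 hn hI'
  have := nontrivial_of_card hn0 hn
  by_cases hs : Group.IsSolvable N
  · exact Or.inl (hf.quaternion ht hn hI' N hs hNna hNmin)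
  have : Nontrivial N := by
    by_contra h0
    rw [not_nontrivial_iff_subsingleton] at h0
    exact hs inferInstance
  refine Or.inr (Perm.Fpf.equiv_SL25_of_occurs (hf.subgroup N).occurs ?_)
  have h1 : ⁅N, N⁆ = N := hNmin _ inferInstance (Subgroup.commutator_le_left N N) fun hc => by
    have h2 : Group.IsSolvable (commutator N) := by
      have h3 := (Subgroup.equivMapOfInjective (commutator N) N.subtype N.subtype_injective)
      rw [Subgroup.map_subtype_commutator] at h3
      have : Group.IsSolvable ↥⁅N, N⁆ := isSolvable_of_comm hc.is_comm.comm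
      exact solvable_of_solvable_injective (f := h3.toMonoidHom) h3.injective
    have : Group.IsSolvable (Abelianization N) := inferInstance
    exact hs (solvable_of_ker_le_range (commutator N).subtype Abelianization.of (by simp))
  exact Group.isPerfect_def.1 (Subgroup.isPerfect_iff.2 h1)

end Cfsg.Agent.S0686
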