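import Cfsg.Statements.S0687
import Cfsg.Agent.Perm.RegLin2

set_option autoImplicit false
open Cfsg

namespace Cfsg.Agent.S0687

open Perm.SemiLin in

/-- In a linear group over the prime field that is regular on non-zero vectors and has no irreducible cyclic normal subgroup, a normal subgroup `N` minimal among the non-abelian normal subgroups centralising a maximal normal abelian subgroup `A` is irreducible on `V`, and its centraliser is `A`. -/
theorem result {p : ℕ} [Fact p.Prime] {V : Type*} [AddCommGroup V] [Module (ZMod p) V] [Finite V] (H : Subgroup (V ≃ₗ[ZMod p] V)) (hreg : ∀ v w : V, v ≠ 0 → w ≠ 0 → ∃! h : H, (h : V ≃ₗ[ZMod p] V) v = w) (hI : ∀ A : Subgroup H, A.Normal → IsCyclic A → ∃ W : Submodule (ZMod p) V, W ≠ ⊥ ∧ W ≠ ⊤ ∧ ∀ a ∈ A, ∀ v ∈ W, ((a : H) : V ≃ₗ[ZMod p] V) v ∈ W) (A : Subgroup H) (hAn : A.Normal) (hAc : IsMulCommutative A) (hAmax : ∀ B : Subgroup H, B.Normal → IsMulCommutative B → A ≤ B → B = A) (N : Subgroup H) (hNn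 : N.Normal) (hNle : N ≤ Subgroup.centralizer (A : Set H)) (hNna : ¬ IsMulCommutative N) (hNmin : ∀ M : Subgroup H, M.Normal → M ≤ N → ¬ IsMulCommutative M → M = N) : (∀ W : Submodule (ZMod p) V, (∀ n ∈ N, ∀ v ∈ W, ((n : H) : V ≃ₗ[ZMod p] V) v ∈ W) → W = ⊥ ∨ W = ⊤) ∧ Subgroup.centralizer (N : Set H) = A := by
  have := finite_of_subgroup H
  obtain ⟨⟨n, hn0, hn⟩, hI'⟩ := not_irrOn_ofSubgroup hI
  have hf := fpf_ofSubgroup hreg
  have ht := trans_ofSubgroup hreg
  obtain rfl := hf.dim_two ht hn0 hn hI'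
  have := nontrivial_of_card hn0 hn
  have hρ := hf.injective
  have hc : ∀ B : Subgroup H, B ≤ scal (ofSubgroup H) → IsMulCommutative B := fun B hB =>
    ⟨⟨fun a b => Subtype.ext (scal_comm hρ (hB b.2) a)⟩⟩
  have hN : (scal (ofSubgroup H)).Normal :=
    ⟨fun z hz g => by rw [scal_comm hρ hz g, mul_inv_cancel_right]; exact hz⟩
  have hA := hAmax _ hN (hc _ le_rfl) (ht.le_scal hρ hn hI' A hAc)
  refine ⟨ht.irrOn_of_nonscalar hn fun h => hNna (hc _ h), le_antisymm ?_ ?_⟩
  · rw [← hA]; exact centralizer_le_scal hρ hn hNna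
  · exact Subgroup.le_centralizer_iff.1 hNle

end Cfsg.Agent.S0687
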