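import Mathlib
import Cfsg.Statements.S0691
import Cfsg.Agent.Perm.GL2Cert

set_option autoImplicit false

open Cfsg

namespace Cfsg.Agent.S0691

open Perm.GL2Cert

def gs : List T := [(2, 0, 0, 3), (0, 4, 1, 0), (1, 2, 1, 3)]

def w : List T := [0, 0, 0, 1, 0, 0, 0, 2, 0, 0, 0, 1, 0, 0, 0, 2, 0, 0, 0, 1, 0, 0, 0].map fun i => gs.getD i (1, 0, 0, 1)

/-- An exceptional sharply doubly transitive group of degree 5^2: the listed matrices generate a subgroup of GL(2,5) of order 24 acting regularly on the non-zero vectors. -/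
theorem result (A : Matrix.GeneralLinearGroup (Fin 2) (ZMod 5)) (B : Matrix.GeneralLinearGroup (Fin 2) (ZMod 5)) (C : Matrix.GeneralLinearGroup (Fin 2) (ZMod 5)) (hA : (A : Matrix (Fin 2) (Fin 2) (ZMod 5)) = !![2, 0; 0, -2]) (hB : (B : Matrix (Fin 2) (Fin 2) (ZMod 5)) = !![0, -1; 1, 0]) (hC : (C : Matrix (Fin 2) (Fin 2) (ZMod 5)) = !![1, 2; 1, -2]) : Nat.card (Subgroup.closure ({A, B, C} : Set (Matrix.GeneralLinearGroup (Fin 2) (ZMod 5)))) = 24 ∧ ∀ v w : Fin 2 → ZMod 5, v ≠ 0 → w ≠ 0 → ∃! h : Subgroup.closure ({A, B, C} : Set (Matrix.GeneralLinearGroup (Fin 2) (ZMod 5))), Matrix.mulVec ((h : Matrix.GeneralLinearGroup (Fin 2) (ZMod 5)) : Matrix (Fin 2) (Fin 2) (ZMod 5)) v = w := by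
  have : Fact (Nat.Prime 5) := ⟨by norm_num⟩
  have hA' : (A : Matrix (Fin 2) (Fin 2) (ZMod 5)) = toMat 5 (2, 0, 0, 3) := by
    rw [hA]; decide
  have hB' : (B : Matrix (Fin 2) (Fin 2) (ZMod 5)) = toMat 5 (0, 4, 1, 0) := by
    rw [hB]; decide
  have hC' : (C : Matrix (Fin 2) (Fin 2) (ZMod 5)) = toMat 5 (1, 2, 1, 3) := by
    rw [hC]; decide
  refine regular_of_walk (p := 5) _ gs w ?_ ?_ (by decide +kernel) (by decide +kernel)
    (by decide +kernel) (by decide +kernel) (by decide +kernel)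
  · intro s hs
    simp only [Set.mem_insert_iff, Set.mem_singleton_iff] at hs
    rcases hs with rfl | rfl | rfl
    · exact ⟨_, by simp [gs], hA'⟩
    · exact ⟨_, by simp [gs], hB'⟩
    · exact ⟨_, by simp [gs], hC'⟩
  · intro g hg
    simp only [gs, List.mem_cons, List.not_mem_nil, or_false] at hg
    rcases hg with rfl | rfl | rfl
    · exact ⟨A, by simp, hA'⟩
    · exact ⟨B, by simp, hB'⟩
    · exact ⟨C, by simp, hC'⟩

end Cfsg.Agent.S0691
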