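import Mathlib
import Cfsg.Statements.S0693
import Cfsg.Agent.Perm.GL2Cert

set_option autoImplicit false

open Cfsg

namespace Cfsg.Agent.S0693

open Perm.GL2Cert

def gs : List T := [(0, 58, 1, 0), (9, 15, 49, 49)]

def w : List T := [0, 0, 0, 1, 0, 0, 0, 1, 0, 0, 0, 1, 0, 0, 0, 1, 0, 0, 0, 0, 1, 0, 0, 0, 1, 0, 0, 0, 1, 0, 0, 0, 1, 0, 0, 0, 0, 1, 0, 0, 0, 1, 0, 0, 0, 1, 0, 0, 0, 0, 1, 0, 0, 0, 1, 0, 0, 0, 1, 0, 0, 0, 0, 1, 0, 0, 0, 1, 0, 0, 0, 1, 0, 0, 0, 0, 1, 0, 0, 0, 1, 0, 0, 0, 0, 1, 0, 0, 0, 1, 0, 0, 0, 1, 0, 0, 0, 0, 1, 0, 0, 0, 1, 0, 0, 0, 0, 1, 0, 0, 0, 1, 0, 0, 0, 0, 1, 0, 0, 0, 1, 0, 0, 0, 0, 1, 0, 0, 0].map fun i => gs.getD i (1, 0, 0, 1)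

def L : List T := walk 59 w (1, 0, 0, 1)

def cs : List ℕ := [1, 3, 4, 5, 7, 9, 12, 15, 16, 17, 19, 20, 21, 22, 25, 26, 27, 28, 29, 35, 36, 41, 45, 46, 48, 49, 51, 53, 57]

theorem card_le_length {p : ℕ} (H : Subgroup (GL (Fin 2) (ZMod p))) (L : List T)
    (hL : ∀ h ∈ H, ∃ y ∈ L, (h : Matrix (Fin 2) (Fin 2) (ZMod p)) = toMat p y) :
    Nat.card H ≤ L.dedup.length := by
  choose f hf1 hf2 using hL
  rw [← List.card_toFinset, ← Fintype.card_coe, ← Nat.card_eq_fintype_card]
  apply Nat.card_le_card_of_injective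
    (fun h : H => (⟨f h h.2, List.mem_toFinset.2 (hf1 _ _)⟩ : L.toFinset))
  intro x y hxy
  apply Subtype.ext
  apply Units.ext
  rw [hf2 x x.2, hf2 y y.2]
  exact congrArg (fun z : L.toFinset => toMat p z) hxy

theorem hcl : (gs.all fun g => L.all fun x => L.contains (mulT 59 g x)) = true := by
  decide +kernel

theorem hlen : L.dedup.length = 120 := by decide +kernel

theorem hsmall : L.all (small 59) = true := by decide +kernel

theorem hfpf : (L.all fun x => cs.all fun c => fpf 59 (mulT 59 x (c, 0, 0, c))) = true := by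
  decide +kernel

theorem hcs : ∀ c ∈ cs, (4 * c) % 59 ∈ cs := by decide +kernel

theorem hdiag : (!![4, 0; 0, 4] : Matrix (Fin 2) (Fin 2) (ZMod 59)) =
    Matrix.diagonal (fun _ => 4) := by decide

theorem hpow : Matrix.diagonal ((fun _ : Fin 2 => (4 : ZMod 59)) ^ 29) = 1 := by decide +kernel

/-- An exceptional sharply doubly transitive group of degree 59^2: the listed matrices generate a subgroup of GL(2,59) of order 3480 acting regularly on the non-zero vectors. -/
theorem result (A : Matrix.GeneralLinearGroup (Fin 2) (ZMod 59)) (B : Matrix.GeneralLinearGroup (Fin 2) (ZMod 59)) (C : Matrix.GeneralLinearGroup (Fin 2) (ZMod 59)) (hA : (A : Matrix (Fin 2) (Fin 2) (ZMod 59)) = !![0, -1; 1, 0]) (hB : (B : Matrix (Fin 2) (Fin 2) (ZMod 59)) = !![9, 15; -10, -10]) (hC : (C : Matrix (Fin 2) (Fin 2) (ZMod 59)) = !![4, 0; 0, 4]) : Nat.card (Subgroup.closure ({A, B, C} : Set (Matrix.GeneralLinearGroup (Fin 2) (ZMod 59)))) = 3480 ∧ ∀ v w : Fin 2 → ZMod 59, v ≠ 0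 → w ≠ 0 → ∃! h : Subgroup.closure ({A, B, C} : Set (Matrix.GeneralLinearGroup (Fin 2) (ZMod 59))), Matrix.mulVec ((h : Matrix.GeneralLinearGroup (Fin 2) (ZMod 59)) : Matrix (Fin 2) (Fin 2) (ZMod 59)) v = w := by
  have : Fact (Nat.Prime 59) := ⟨by norm_num⟩
  have hA' : (A : Matrix (Fin 2) (Fin 2) (ZMod 59)) = toMat 59 (0, 58, 1, 0) := by
    rw [hA]; decide
  have hB' : (B : Matrix (Fin 2) (Fin 2) (ZMod 59)) = toMat 59 (9, 15, 49, 49) := by
    rw [hB]; decide
  have h1L : (1, 0, 0, 1) ∈ L := by decide +kernel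
  have hcl' := hcl
  simp only [List.all_eq_true, List.contains_iff_mem] at hcl'
  refine regular_of_det (p := 59) _ ?_ ?_
  · have key := mem_of_closed ({A, B, C} : Set (GL (Fin 2) (ZMod 59)))
      {h | ∃ x ∈ L, ∃ c ∈ cs, (h : Matrix (Fin 2) (Fin 2) (ZMod 59)) =
        toMat 59 x * toMat 59 (c, 0, 0, c)}
      ⟨_, h1L, 1, by decide, by rw [toMat_one, mul_one]; rfl⟩ (by
        rintro s hs h ⟨x, hx, c, hc, hh⟩
        simp only [Set.mem_insert_iff, Set.mem_singleton_iff] at hs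
        rcases hs with rfl | rfl | rfl
        · exact ⟨_, hcl' (0, 58, 1, 0) (by simp [gs]) x hx, c, hc,
            by rw [Units.val_mul, hA', hh, toMat_mulT, mul_assoc]⟩
        · exact ⟨_, hcl' (9, 15, 49, 49) (by simp [gs]) x hx, c, hc,
            by rw [Units.val_mul, hB', hh, toMat_mulT, mul_assoc]⟩
        · refine ⟨x, hx, _, hcs c hc, ?_⟩
          rw [Units.val_mul, hC, hh]
          ext i j
          fin_cases i <;> fin_cases j <;> simp [toMat, Matrix.mul_apply] <;> ring)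
    intro h hh h1
    obtain ⟨x, hx, c, hc, hx2⟩ := key h hh
    rw [← toMat_mulT] at hx2
    rw [hx2]
    apply det_ne_zero_of_fpf (List.all_eq_true.1 (List.all_eq_true.1 hfpf x hx) c hc)
    rw [← hx2]
    exact fun h2 => h1 (Units.ext h2)
  · have h1 : Nat.card (Subgroup.closure ({A, B} : Set (GL (Fin 2) (ZMod 59)))) = 120 := by
      rw [← hlen]
      apply le_antisymm
      · apply card_le_length
        refine closure_mem_list _ gs L ?_ h1L hcl
        intro s hs
        simp only [Set.mem_insert_iff, Set.mem_singleton_iff] at hs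
        rcases hs with rfl | rfl
        · exact ⟨_, by simp [gs], hA'⟩
        · exact ⟨_, by simp [gs], hB'⟩
      · refine length_le_card _ _ (walk_mem _ w ?_ _ ⟨1, one_mem _, (toMat_one 59).symm⟩) hsmall
        intro g hg
        have : ∀ g ∈ w, g ∈ gs := by decide +kernel
        have hg' := this g hg
        simp only [gs, List.mem_cons, List.not_mem_nil, or_false] at hg'
        rcases hg' with rfl | rfl
        · exact ⟨A, Subgroup.subset_closure (by simp), hA'⟩
        · exact ⟨B, Subgroup.subset_closure (by simp), hB'⟩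
    have h2 : 120 ∣ Nat.card (Subgroup.closure ({A, B, C} : Set (GL (Fin 2) (ZMod 59)))) := by
      rw [← h1]
      refine Subgroup.card_dvd_of_le (Subgroup.closure_mono ?_)
      exact Set.insert_subset_insert (Set.singleton_subset_iff.2 (Set.mem_insert _ _))
    have : Fact (Nat.Prime 29) := ⟨by norm_num⟩
    have h3 : orderOf C = 29 := by
      apply orderOf_eq_prime
      · apply Units.ext
        have : (C : Matrix (Fin 2) (Fin 2) (ZMod 59)) = Matrix.diagonal (fun _ => 4) := by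
          rw [hC]; exact hdiag
        rw [Units.val_pow_eq_pow_val, this, Matrix.diagonal_pow]
        exact hpow
      · intro h
        rw [h] at hC
        revert hC
        decide
    have h4 : 29 ∣ Nat.card (Subgroup.closure ({A, B, C} : Set (GL (Fin 2) (ZMod 59)))) := by
      rw [← h3]
      exact Subgroup.orderOf_dvd_natCard _ (Subgroup.subset_closure (by simp))
    exact Nat.le_of_dvd Nat.card_pos ((by norm_num : Nat.Coprime 120 29).mul_dvd_of_dvd_of_dvd h2 h4)

end Cfsg.Agent.S0693
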