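import Mathlib
import Cfsg.Statements.S0694

set_option autoImplicit false

open Cfsg

namespace Cfsg.Agent.S0694

open Finset

theorem modEq_iff {q : ℕ} (hq : 2 ≤ q) (n i : ℕ) :
    q ^ i ≡ 1 [MOD n * (q - 1)] ↔ (n : ℤ) ∣ ∑ k ∈ range i, (q : ℤ) ^ k := by
  rw [Nat.ModEq.comm, Nat.modEq_iff_dvd]
  push_cast [Nat.cast_sub (show 1 ≤ q by omega)]
  rw [← geom_sum_mul, mul_dvd_mul_iff_right]
  have : (2 : ℤ) ≤ q := by exact_mod_cast hq
  omega

theorem emult_eq {x : ℤ} (hx : 2 ≤ x) {r : ℕ} (hr : r.Prime) (hrx : (r : ℤ) ∣ x - 1)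
    (h4 : r = 2 → 4 ∣ x - 1) (i : ℕ) :
    emultiplicity (r : ℤ) (∑ k ∈ range i, x ^ k) = emultiplicity (r : ℤ) (i : ℤ) := by
  have hr' : Prime (r : ℤ) := Nat.prime_iff_prime_int.1 hr
  have hnx : ¬ (r : ℤ) ∣ x := by
    intro h
    have := dvd_sub h hrx
    rw [sub_sub_cancel] at this
    exact hr'.not_dvd_one this
  have h1 : emultiplicity (r : ℤ) (x ^ i - 1 ^ i) =
      emultiplicity (r : ℤ) (x - 1) + emultiplicity (r : ℤ) (i : ℤ) := by
    rcases hr.eq_two_or_odd' with rfl | ho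
    · exact Int.two_pow_sub_pow' i (h4 rfl) hnx
    · rw [Int.emultiplicity_pow_sub_pow hr ho hrx hnx, Int.natCast_emultiplicity]
  rw [one_pow, ← geom_sum_mul, emultiplicity_mul hr', add_comm] at h1
  have hfin : emultiplicity (r : ℤ) (x - 1) ≠ ⊤ := by
    rw [← finiteMultiplicity_iff_emultiplicity_ne_top, Int.finiteMultiplicity_iff]
    exact ⟨by simpa using hr.ne_one, by omega⟩
  exact WithTop.add_left_cancel hfin h1

theorem dvd_iff {x : ℤ} (hx : 2 ≤ x) {n : ℕ} (h1 : ∀ r : ℕ, r.Prime → r ∣ n → (r : ℤ) ∣ x - 1)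
    (h4 : 4 ∣ n → 4 ∣ x - 1) (i : ℕ) : (n : ℤ) ∣ ∑ k ∈ range i, x ^ k ↔ n ∣ i := by
  rw [Int.natCast_dvd, Nat.dvd_iff_prime_pow_dvd_dvd, Nat.dvd_iff_prime_pow_dvd_dvd]
  refine forall_congr' fun r => forall_congr' fun k => forall_congr' fun hr =>
    forall_congr' fun hk => ?_
  rw [← Int.natCast_dvd, ← Int.natCast_dvd_natCast]
  push_cast
  rcases Nat.eq_zero_or_pos k with rfl | hk0
  · simp
  have hrx := h1 r hr ((dvd_pow_self r hk0.ne').trans hk)
  by_cases hc : r = 2 → 4 ∣ x - 1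
  · rw [pow_dvd_iff_le_emultiplicity, pow_dvd_iff_le_emultiplicity, emult_eq hx hr hrx hc]
  · rw [Classical.not_imp] at hc
    obtain ⟨rfl, hc⟩ := hc
    obtain rfl : k = 1 := by
      by_contra h
      exact hc (h4 ((pow_dvd_pow 2 (show 2 ≤ k by omega)).trans hk))
    have := dvd_geom_sum₂_iff_of_dvd_sub (n := i) hrx
    simpa using this

/-- The Dickson pair condition: for a prime power `q` and `n > 1`, (every prime factor of `n` divides `q - 1`, and `4 ∣ n → 4 ∣ q - 1`) holds exactly when `q ^ n ≡ 1` modulo `n * (q - 1)` but `q ^ i` is not, for `0 < i < n`. -/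
theorem result (q n : ℕ) (hq : IsPrimePow q) (hn : 1 < n) : ((∀ r : ℕ, r.Prime → r ∣ n → r ∣ q - 1) ∧ (4 ∣ n → 4 ∣ q - 1)) ↔ (q ^ n ≡ 1 [MOD n * (q - 1)] ∧ ∀ i : ℕ, 0 < i → i < n → ¬ q ^ i ≡ 1 [MOD n * (q - 1)]) := by
  have hq2 : 2 ≤ q := hq.two_le
  have hc : ∀ r : ℕ, r ∣ q - 1 ↔ (r : ℤ) ∣ (q : ℤ) - 1 := by
    intro r
    rw [← Int.natCast_dvd_natCast, Nat.cast_sub (by omega), Nat.cast_one]
  simp only [modEq_iff hq2, hc]
  have hx : (2 : ℤ) ≤ q := by exact_mod_cast hq2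
  generalize (q : ℤ) = x at hx
  constructor
  · rintro ⟨h1, h4⟩
    simp only [dvd_iff hx h1 h4]
    exact ⟨dvd_rfl, fun i h0 hi => Nat.not_dvd_of_pos_of_lt h0 hi⟩
  · rintro ⟨h1, h2⟩
    have : NeZero n := ⟨by omega⟩
    set y : ZMod n := (x : ZMod n) with hy
    have hS : ∀ i, (n : ℤ) ∣ ∑ k ∈ range i, x ^ k ↔ ∑ k ∈ range i, y ^ k = 0 := by
      intro i
      rw [← ZMod.intCast_zmod_eq_zero_iff_dvd]
      push_cast
      rfl
    simp only [hS] at h1 h2
    have hyn : y ^ n = 1 := by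
      have := geom_sum_mul y n
      rw [h1, zero_mul] at this
      exact (sub_eq_zero.1 this.symm)
    have hu : IsUnit y := IsUnit.of_pow_eq_one hyn (by omega)
    have hlt : ∀ i j : ℕ, i < j → j < n → ∑ k ∈ range i, y ^ k ≠ ∑ k ∈ range j, y ^ k := by
      intro i j hij hj h
      obtain ⟨d, rfl⟩ := Nat.exists_eq_add_of_lt hij
      rw [add_assoc, sum_range_add, left_eq_add] at h
      simp only [pow_add y i, ← mul_sum] at h
      exact h2 (d + 1) (by omega) (by omega) ((hu.pow i).mul_right_eq_zero.1 h)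
    have hsurj : Function.Surjective fun i : Fin n => ∑ k ∈ range i, y ^ k := by
      refine ((Nat.bijective_iff_injective_and_card _).2 ⟨?_, by simp⟩).2
      intro i j h
      rcases lt_trichotomy i j with hij | hij | hij
      · exact absurd h (hlt i j hij j.2)
      · exact hij
      · exact absurd h.symm (hlt j i hij i.2)
    have hr : ∀ r : ℕ, r.Prime → r ∣ n → (r : ℤ) ∣ x - 1 := by
      intro r hr hrn
      have : Fact r.Prime := ⟨hr⟩
      by_contra hcon
      rw [← ZMod.intCast_zmod_eq_zero_iff_dvd] at hcon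
      push_cast at hcon
      obtain ⟨z, hz⟩ := ZMod.ringHom_surjective (ZMod.castHom hrn (ZMod r))
        (-((x : ZMod r) - 1)⁻¹)
      obtain ⟨i, rfl⟩ := hsurj z
      simp only [map_sum, map_pow, hy, map_intCast] at hz
      have h3 := geom_sum_mul (x : ZMod r) i
      rw [hz, neg_mul, inv_mul_cancel₀ hcon] at h3
      have h5 : (x : ZMod r) ^ (i : ℕ) = 0 := by linear_combination -h3
      have h6 := congrArg (ZMod.castHom hrn (ZMod r)) hyn
      simp only [map_pow, hy, map_intCast, map_one, pow_eq_zero_iff'.1 h5 |>.1] at h6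
      rw [zero_pow (by omega)] at h6
      exact zero_ne_one h6
    refine ⟨hr, fun h4 => ?_⟩
    have h5 := hr 2 Nat.prime_two (Dvd.dvd.trans (by norm_num) h4)
    by_contra hcon
    have h6 : (x : ZMod 4) = 3 := by
      have : x = 4 * (x / 4) + 3 := by push_cast at h5 hcon; omega
      rw [this]
      push_cast
      rw [show (4 : ZMod 4) = 0 from rfl, zero_mul, zero_add]
    obtain ⟨z, hz⟩ := ZMod.ringHom_surjective (ZMod.castHom h4 (ZMod 4)) 2
    obtain ⟨i, rfl⟩ := hsurj z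
    simp only [map_sum, map_pow, hy, map_intCast, h6] at hz
    have h7 : ∀ j : ℕ, ∑ k ∈ range j, (3 : ZMod 4) ^ k = 0 ∨ ∑ k ∈ range j, (3 : ZMod 4) ^ k = 1 := by
      intro j
      induction j with
      | zero => simp
      | succ j ih =>
        rw [geom_sum_succ]
        rcases ih with h | h <;> rw [h] <;> decide
    rcases h7 i with h | h <;> rw [h] at hz <;> exact absurd hz (by decide)

end Cfsg.Agent.S0694
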