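import Cfsg.Statements.S0697
import Cfsg.Agent.Perm.NormalMult

set_option autoImplicit false
open Cfsg

namespace Cfsg.Agent.S0697

open MulAction

/-- In a `k`-primitive permutation group which is not the whole symmetric group, a non-trivial non-regular normal subgroup is `k`-transitive. -/
theorem result {α : Type*} [Fintype α] [DecidableEq α] (G : Subgroup (Equiv.Perm α)) {k : ℕ} (hk : 1 ≤ k) (hkn : k ≤ Fintype.card α) (hG : MulAction.IsMultiplyPreprimitive G α k) (htop : G ≠ ⊤) (H : Subgroup G) [H.Normal] (hH : H ≠ ⊥) (hnr : ∃ a : α, MulAction.stabilizer H a ≠ ⊥) : MulAction.IsMultiplyPretransitive H α k := by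
  rcases Nat.lt_or_ge (Nat.card α) (k + 2) with h | h
  · exact absurd (Equiv.Perm.eq_top_of_isMultiplyPretransitive
      (isMultiplyPretransitive_of_le (n := k) (by omega)
        (by rw [Nat.card_eq_fintype_card]; exact hkn))) htop
  · obtain ⟨a, ha⟩ := hnr
    obtain ⟨x, hx⟩ := (Subgroup.ne_bot_iff_exists_ne_one).1 ha
    exact Perm.multTrans_of_normal_of_nonregular hG h H
      ⟨x.1, x.1.2, fun h => hx (Subtype.ext (Subtype.ext h)), a, x.2⟩

end Cfsg.Agent.S0697
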