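import Cfsg.Statements.S0705
import Cfsg.Agent.Perm.MultTrans

set_option autoImplicit false
open scoped Pointwise
open Cfsg

namespace Cfsg.Agent.S0705

open MulAction

/-- A generously `k`-transitive permutation group (every `(k+1)`-subset has its full symmetric group induced by the setwise stabiliser) of degree greater than `k` is `k`-transitive, and for a `k`-subset the setwise and pointwise stabilisers have the same orbits outside it. -/
theorem result {α : Type*} [Fintype α] [DecidableEq α] (G : Subgroup (Equiv.Perm α)) {k : ℕ} (hk : k < Fintype.card α) (hgen : ∀ s : Finset α, s.card = k + 1 → ∀ σ : Equiv.Perm ↥s, ∃ g ∈ G, ∀ x : ↥s, g (x : α) = σ x) : MulAction.IsMultiplyPretransitive G α k ∧ ∀ s : Finset α, s.card = k → ∀ a b : α, a ∉ s → b ∉ s → (∃ g ∈ G, g • s = s ∧ g a = b) → ∃ g ∈ G, (∀ x ∈ s, g x = x) ∧ g a = b := by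
  constructor
  · refine Perm.multTrans_of_forall_lt fun s hs a b ha hb => ?_
    obtain ⟨t, hst, -, ht⟩ := Finset.exists_subsuperset_card_eq (n := k + 1)
      (Finset.subset_univ (insert a (insert b s)))
      ((Finset.card_insert_le _ _).trans (by have := Finset.card_insert_le b s; omega))
      (by rw [Finset.card_univ]; omega)
    have hat : a ∈ t := hst (by simp)
    have hbt : b ∈ t := hst (by simp)
    obtain ⟨g, hg, h⟩ := hgen t ht (Equiv.swap ⟨a, hat⟩ ⟨b, hbt⟩)
    refine ⟨⟨g, hg⟩, fun x hx => ?_, ?_⟩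
    · have hxt : x ∈ t := hst (by simp [hx])
      have := h ⟨x, hxt⟩
      rw [Equiv.swap_apply_of_ne_of_ne (fun e => ha (by rw [← Subtype.mk.inj e]; exact hx))
        (fun e => hb (by rw [← Subtype.mk.inj e]; exact hx))] at this
      exact this
    · have := h ⟨a, hat⟩
      rw [Equiv.swap_apply_left] at this
      exact this
  · rintro s hs a b ha hb ⟨g, hg, hgs, hab⟩
    have hmem : ∀ x, g x ∈ s ↔ x ∈ s := fun x => by
      conv_lhs => rw [← hgs]
      exact Finset.smul_mem_smul_finset_iff g
    let τ : Equiv.Perm α := Equiv.Perm.ofSubtype (g.subtypePerm hmem)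
    have hτ1 : ∀ x ∈ s, τ x = g x := fun x hx =>
      Equiv.Perm.ofSubtype_apply_of_mem _ hx
    have hτ2 : ∀ x, x ∉ s → τ x = x := fun x hx =>
      Equiv.Perm.ofSubtype_apply_of_not_mem _ hx
    have hτ : ∀ x, τ x ∈ insert a s ↔ x ∈ insert a s := by
      intro x
      by_cases hx : x ∈ s
      · simp [hx, hτ1 x hx, hmem]
      · rw [hτ2 x hx]
    obtain ⟨h, hh, hhx⟩ := hgen (insert a s) (by rw [Finset.card_insert_of_notMem ha, hs])
      (τ.subtypePerm hτ)⁻¹
    have hh' : ∀ x ∈ insert a s, h (τ x) = x := by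
      intro x hx
      have := hhx (τ.subtypePerm hτ ⟨x, hx⟩)
      rw [Equiv.Perm.inv_def, Equiv.symm_apply_apply] at this
      exact this
    refine ⟨g * h, mul_mem hg hh, fun x hx => ?_, ?_⟩
    · obtain ⟨y, rfl⟩ := g.surjective x
      have hy := (hmem y).1 hx
      rw [Equiv.Perm.mul_apply, ← hτ1 y hy, hh' y (Finset.mem_insert_of_mem hy), hτ1 y hy]
    · rw [Equiv.Perm.mul_apply, ← hτ2 a ha, hh' a (Finset.mem_insert_self _ _), hab]

end Cfsg.Agent.S0705
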