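import Cfsg.Statements.S0706
import Cfsg.Agent.Perm.PrimRel
import Cfsg.Agent.S0705
import Cfsg.Agent.Block.FixCount

set_option autoImplicit false
open Cfsg

namespace Cfsg.Agent.S0706

open MulAction
open scoped Pointwise

/-- In a generously `k`-transitive permutation group, for a prime `p ≤ k` and a `k`-set `Γ`, there are no `p` points outside `Γ` lying in distinct orbits of the pointwise stabiliser of `Γ` all of length prime to `p` (at most `p - 1` such orbits). -/
theorem result {α : Type*} [Fintype α] [DecidableEq α] (G : Subgroup (Equiv.Perm α)) {k : ℕ} (hk : k < Fintype.card α) (hgen : ∀ s : Finset α, s.card = k + 1 → ∀ σ : Equiv.Perm ↥s, ∃ g ∈ G, ∀ x : ↥s, g (x : α) = σ x) {p : ℕ} (hp : p.Prime) (hpk : p ≤ k) (Γ : Finset α) (hΓ : Γ.card = k) (f : Fin p → α) (hf : ∀ i, f i ∉ Γ) (hdist : ∀ i j, i ≠ j → f j ∉ MulAction.orbit (fixingSubgroup G (Γ : Set α)) (f i)) : ∃ i, p ∣ Nat.card (MulAction.orbit (fixingSubgroup G (Γ : Set α)) (f i)) := by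
  classical
  by_contra hcon
  push Not at hcon
  haveI := Fact.mk hp
  obtain ⟨htr, horb⟩ := S0705.result G hk hgen
  obtain ⟨Δ, hΔΓ, hΔ⟩ := Finset.exists_subset_card_eq (s := Γ) (n := p) (hΓ ▸ hpk)
  set K := fixingSubgroup G (Γ : Set α) with hK
  let S : Subgroup G := stabilizer G Γ ⊓ fixingSubgroup G ((Γ \ Δ : Finset α) : Set α)
  have hKS : K ≤ S := by
    intro g hg
    have hg' := (mem_fixingSubgroup_iff G).1 hg
    refine ⟨?_, (mem_fixingSubgroup_iff G).2 fun x hx => hg' x (Finset.mem_sdiff.1 hx).1⟩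
    change g • Γ = Γ
    apply Finset.eq_of_subset_of_card_le
    · intro y hy
      obtain ⟨x, hx, rfl⟩ := Finset.mem_smul_finset.1 hy
      rw [hg' x hx]; exact hx
    · rw [Finset.card_smul_finset]
  obtain ⟨δ, hδ⟩ : Δ.Nonempty := Finset.card_pos.1 (hΔ ▸ hp.pos)
  have horbS : orbit S δ = (Δ : Set α) := by
    ext y
    constructor
    · rintro ⟨g, rfl⟩
      have h1 : (g : G) • δ ∈ Γ := by
        have : (g : G) • Γ = Γ := g.2.1
        rw [← this]; exact Finset.smul_mem_smul_finset (hΔΓ hδ)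
      by_contra h2
      have h3 := (mem_fixingSubgroup_iff G).1 g.2.2 ((g : G) • δ)
        (Finset.mem_coe.2 (Finset.mem_sdiff.2 ⟨h1, h2⟩))
      have h4 : (g : G) • δ = δ := MulAction.injective _ h3
      apply h2
      change (g : G) • δ ∈ Δ
      rw [h4]; exact hδ
    · intro hy
      obtain ⟨g, hg⟩ := Perm.exists_smul_eq_of_injOn htr Γ hΓ (Equiv.swap δ y)
        (Equiv.injective _).injOn
      refine ⟨⟨g, ?_, (mem_fixingSubgroup_iff G).2 fun x hx => ?_⟩, ?_⟩
      · change g • Γ = Γ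
        apply Finset.eq_of_subset_of_card_le
        · intro z hz
          obtain ⟨x, hx, rfl⟩ := Finset.mem_smul_finset.1 hz
          rw [hg x hx, Equiv.swap_apply_def]
          split_ifs
          exacts [hΔΓ hy, hΔΓ hδ, hx]
        · rw [Finset.card_smul_finset]
      · obtain ⟨h1, h2⟩ := Finset.mem_sdiff.1 (Finset.mem_coe.1 hx)
        rw [hg x h1, Equiv.swap_apply_of_ne_of_ne (fun e : x = δ => h2 (e ▸ hδ))
          (fun e : x = y => h2 (e ▸ hy))]
      · change g • δ = y
        rw [hg δ (hΔΓ hδ), Equiv.swap_apply_left]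
  have hidx : p ∣ K.relIndex S := by
    have h1 : (stabilizer S δ).index = p := by
      rw [index_stabilizer, horbS, Set.ncard_coe_finset, hΔ]
    rw [← h1]
    exact Subgroup.index_dvd_of_le fun g hg =>
      (mem_fixingSubgroup_iff G).1 (Subgroup.mem_subgroupOf.1 hg) δ (hΔΓ hδ)
  obtain ⟨Q, hQ, -, hQS, hQi⟩ := Perm.exists_sylow_in p S ⊥ IsPGroup.of_bot bot_le
  have hout : ∀ i, ∀ x ∈ orbit K (f i), x ∉ Γ := by
    rintro i _ ⟨g, rfl⟩
    exact Perm.smul_notMem_of_fix (s := (Γ : Set α)) ((mem_fixingSubgroup_iff G).1 g.2) (hf i)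
  have hfix : ∀ i, ∃ x ∈ orbit K (f i), ∀ u : Q, u • x = x := by
    intro i
    have h := Block.card_modEq_card_fixed hQ (fun x => x ∈ orbit K (f i)) (by
      intro u x hx
      have hu : ((u : G) : Equiv.Perm α) • Γ = Γ := (hQS u.2).1
      have hux : (u : G) • x ∉ Γ := by
        rw [← hu]
        exact fun h => hout i x hx ((Finset.smul_mem_smul_finset_iff _).1 h)
      obtain ⟨g, hg, hg1, hg2⟩ := horb Γ hΓ x _ (hout i x hx) hux ⟨_, (u : G).2, hu, rfl⟩
      obtain ⟨v, rfl⟩ := hx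
      exact ⟨(⟨⟨g, hg⟩, (mem_fixingSubgroup_iff G).2 hg1⟩ : K) * v, by
        simp only [mul_smul]; exact hg2⟩)
    by_contra hne
    push Not at hne
    have : IsEmpty {x // x ∈ orbit K (f i) ∧ ∀ u : Q, u • x = x} :=
      ⟨fun x => by obtain ⟨u, hu⟩ := hne x.1 x.2.1; exact hu (x.2.2 u)⟩
    rw [Nat.card_of_isEmpty (α := {x // x ∈ orbit K (f i) ∧ ∀ u : Q, u • x = x})] at h
    exact hcon i (Nat.modEq_zero_iff_dvd.1 h)
  choose x hx hxQ using hfix
  have hxinj : Function.Injective x := by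
    intro i j hij
    by_contra hne
    apply hdist i j hne
    have h1 := orbit_eq_iff.2 (hx i)
    have h2 := orbit_eq_iff.2 (hx j)
    rw [← h1, hij, h2]
    exact mem_orbit_self _
  let Γ' : Finset α := (Γ \ Δ) ∪ Finset.univ.image x
  have hΓ' : Γ'.card = k := by
    rw [Finset.card_union_of_disjoint, Finset.card_sdiff_of_subset hΔΓ,
      Finset.card_image_of_injective _ hxinj, hΓ, hΔ, Finset.card_univ, Fintype.card_fin]
    · omega
    · rw [Finset.disjoint_right]
      intro y hy hy'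
      obtain ⟨i, -, rfl⟩ := Finset.mem_image.1 hy
      exact hout i _ (hx i) (Finset.mem_sdiff.1 hy').1
  have hQ' : Q ≤ fixingSubgroup G (Γ' : Set α) := by
    intro u hu
    rw [mem_fixingSubgroup_iff]
    intro y hy
    rcases Finset.mem_union.1 (Finset.mem_coe.1 hy) with hy | hy
    · exact (mem_fixingSubgroup_iff G).1 (hQS hu).2 y hy
    · obtain ⟨i, -, rfl⟩ := Finset.mem_image.1 hy
      exact hxQ i ⟨u, hu⟩
  have hidx' : (fixingSubgroup G (Γ' : Set α)).index = K.index := by
    rw [hK, IsMultiplyPretransitive.index_of_fixingSubgroup_eq _ (by simpa [hΓ'] using htr),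
      IsMultiplyPretransitive.index_of_fixingSubgroup_eq _ (by simpa [hΓ] using htr)]
    simp [hΓ, hΓ']
  have h1 := Subgroup.index_dvd_of_le hQ'
  rw [hidx', ← Subgroup.relIndex_mul_index hKS, ← Subgroup.relIndex_mul_index hQS] at h1
  exact hQi (hidx.trans (Nat.dvd_of_mul_dvd_mul_right
    (Nat.pos_of_ne_zero Subgroup.index_ne_zero_of_finite) h1))

end Cfsg.Agent.S0706
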