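import Cfsg.Statements.S0699
import Cfsg.Agent.Perm.PrimRel
import Cfsg.Agent.Perm.Classes
import Cfsg.Agent.S0698
import Cfsg.Agent.S0706

set_option autoImplicit false
open Cfsg

namespace Cfsg.Agent.S0699

open MulAction

/-- Wagner's Theorem: a non-trivial normal subgroup of a triply transitive permutation group of odd degree at least 5 is triply transitive. -/
theorem result {α : Type*} [Fintype α] [DecidableEq α] (G : Subgroup (Equiv.Perm α)) (hodd : Odd (Fintype.card α)) (h5 : 5 ≤ Fintype.card α) (hG : MulAction.IsMultiplyPretransitive G α 3) (N : Subgroup G) [N.Normal] (hN : N ≠ ⊥) : MulAction.IsMultiplyPretransitive N α 3 := by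
  classical
  have hn : Nat.card α = Fintype.card α := Nat.card_eq_fintype_card
  have hG2 : IsMultiplyPretransitive G α 2 :=
    isMultiplyPretransitive_of_le (n := 3) (by norm_num) (by omega)
  have hN1 : IsPretransitive N α :=
    Perm.isPretransitive_of_normal_of_ne_bot (isPreprimitive_of_is_two_pretransitive hG2) N hN
  have hN2 : IsMultiplyPretransitive N α 2 := by
    rcases S0698.result G (by norm_num) (by omega) hG N hN with h | ⟨-, -, h⟩
    · exact h
    · exfalso
      have hp : IsPGroup 2 N := fun n => ⟨1, Subtype.ext (by simpa using h n n.2)⟩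
      obtain ⟨a, ha⟩ := hp.nonempty_fixed_point_of_prime_not_dvd_card α
        (by rw [hn]; exact hodd.not_two_dvd_nat)
      obtain ⟨b, hb⟩ := Fintype.exists_ne_of_one_lt_card (by omega) a
      obtain ⟨n, rfl⟩ := exists_smul_eq N a b
      exact hb (ha n)
  obtain ⟨a₀, b₀, hab₀⟩ := Fintype.one_lt_card_iff.1 (show 1 < Fintype.card α by omega)
  obtain ⟨s, hs1, hs2⟩ := is_two_pretransitive_iff.1 hN2 hab₀ hab₀.symm
  obtain ⟨m, e, ht, ht1, ht2⟩ := Perm.exists_two_element_swap (isOfFinOrder_of_finite s) hs1 hs2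
  obtain ⟨c₀, ht3⟩ := Perm.exists_smul_eq_self_of_pow_prime_pow (α := α) Nat.prime_two
    (by rw [hn]; exact hodd.not_two_dvd_nat) ht
  set t := s ^ m
  have hca : a₀ ≠ c₀ := by rintro rfl; exact hab₀ (ht3.symm.trans ht1)
  have hcb : b₀ ≠ c₀ := by rintro rfl; exact hab₀ (ht2.symm.trans ht3)
  have hswap : ∀ a b c : α, a ≠ b → a ≠ c → b ≠ c →
      ∃ n ∈ N, n • a = b ∧ n • b = a ∧ n • c = c := by
    intro a b c h1 h2 h3
    obtain ⟨g, rfl, rfl, rfl⟩ := Perm.three_trans_iff.1 hG a₀ b₀ c₀ a b c hab₀ hca hcb h1 h2 h3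
    refine ⟨g * t * g⁻¹, Subgroup.Normal.conj_mem inferInstance _ t.2 g, ?_, ?_, ?_⟩ <;>
      rw [mul_smul, mul_smul, inv_smul_smul]
    exacts [congrArg _ ht1, congrArg _ ht2, congrArg _ ht3]
  have hgen : ∀ s : Finset α, s.card = 2 + 1 → ∀ σ : Equiv.Perm s,
      ∃ g ∈ N.map G.subtype, ∀ x : s, g (x : α) = σ x := by
    intro s hs σ
    obtain ⟨g, hg, h⟩ := Perm.induces_of_induces_swap N s (by
      intro a ha b hb hab
      obtain ⟨c, hc⟩ := Finset.card_eq_one.1 (show ((s.erase a).erase b).card = 1 by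
        rw [Finset.card_erase_of_mem (Finset.mem_erase.2 ⟨hab.symm, hb⟩),
          Finset.card_erase_of_mem ha, hs])
      have hc' : c ∈ (s.erase a).erase b := by rw [hc]; exact Finset.mem_singleton_self c
      simp only [Finset.mem_erase] at hc'
      obtain ⟨n, hn, h1, h2, h3⟩ := hswap a b c hab (Ne.symm hc'.2.1) (Ne.symm hc'.1)
      refine ⟨n, hn, fun x hx => ?_⟩
      by_cases hxa : x = a
      · rw [hxa, h1, Equiv.swap_apply_left]
      by_cases hxb : x = b
      · rw [hxb, h2, Equiv.swap_apply_right]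
      have : x ∈ (s.erase a).erase b := by simp [hxa, hxb, hx]
      rw [hc, Finset.mem_singleton] at this
      rw [Equiv.swap_apply_of_ne_of_ne hxa hxb, this, h3]) σ
    exact ⟨g, Subgroup.mem_map_of_mem _ hg, h⟩
  refine Perm.multTrans_succ_of_forall hN2 fun Γ hΓ c d hc hd => ?_
  by_contra hcon
  let r : α → α → Prop := fun x y => ∃ n ∈ N, (∀ z ∈ Γ, n • z = z) ∧ n • x = y
  have hr : Equivalence r := ⟨fun x => ⟨1, one_mem _, by simp, by simp⟩,
    fun ⟨n, hn, h1, h2⟩ => ⟨n⁻¹, inv_mem hn, fun z hz => by rw [inv_smul_eq_iff, h1 z hz],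
      by rw [inv_smul_eq_iff, h2]⟩,
    fun ⟨n, hn, h1, h2⟩ ⟨n', hn', h1', h2'⟩ => ⟨n' * n, mul_mem hn' hn,
      fun z hz => by rw [mul_smul, h1 z hz, h1' z hz], by rw [mul_smul, h2, h2']⟩⟩
  have horb : ∀ x, orbit (fixingSubgroup (N.map G.subtype) (Γ : Set α)) x = {y | r x y} := by
    intro x
    ext y
    constructor
    · rintro ⟨⟨⟨_, n, hn, rfl⟩, h⟩, rfl⟩
      exact ⟨n, hn, (mem_fixingSubgroup_iff _).1 h, rfl⟩
    · rintro ⟨n, hn, h, rfl⟩
      exact ⟨⟨⟨_, n, hn, rfl⟩, (mem_fixingSubgroup_iff _).2 h⟩, rfl⟩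
  obtain ⟨i, hi⟩ := S0706.result (N.map G.subtype) (by omega) hgen Nat.prime_two le_rfl Γ hΓ
    ![c, d] (fun i => by fin_cases i <;> assumption) (by
      have h1 : ¬ r c d := fun ⟨n, hn, h1, h2⟩ => hcon ⟨⟨n, hn⟩, h1, h2⟩
      intro i j hij
      rw [horb]
      fin_cases i <;> fin_cases j
      · exact absurd rfl hij
      · exact h1
      · exact fun h => h1 (hr.symm h)
      · exact absurd rfl hij)
  rw [horb, Nat.card_coe_set_eq] at hi
  have hdvd := Perm.ncard_class_dvd_card (fixingSubgroup G (Γ : Set α)) Γᶜ r hr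
    (fun g hg x y ⟨n, hn, h1, h2⟩ => ⟨g * n * g⁻¹, Subgroup.Normal.conj_mem inferInstance _ hn g,
      fun z hz => by
        have := (mem_fixingSubgroup_iff G).1 hg z hz
        rw [mul_smul, mul_smul, inv_smul_eq_iff.2 this.symm, h1 z hz, this],
      by rw [mul_smul, mul_smul, inv_smul_smul, h2]⟩)
    (fun x hx y ⟨n, _, h1, h2⟩ => by
      rw [← h2, Finset.mem_compl]
      exact Perm.smul_notMem_of_fix (s := (Γ : Set α)) h1 (Finset.mem_compl.1 hx))
    (fun x hx y hy => by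
      obtain ⟨g, h1, h2⟩ := Perm.exists_fix_smul_eq_of_succ hG Γ hΓ (Finset.mem_compl.1 hx)
        (Finset.mem_compl.1 hy)
      exact ⟨g, (mem_fixingSubgroup_iff G).2 h1, h2⟩)
    (a := ![c, d] i) (by fin_cases i <;> simpa)
  have := hi.trans hdvd
  rw [Finset.card_compl, hΓ] at this
  obtain ⟨j, hj⟩ := hodd
  omega

end Cfsg.Agent.S0699
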