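import Cfsg.Statements.S0701
import Cfsg.Agent.Perm.Centralizer

set_option autoImplicit false
open Cfsg

namespace Cfsg.Agent.S0701

open MulAction

/-- The centraliser in the full symmetric group of a transitive permutation group `G` is semiregular, and it is transitive if and only if `G` is regular. -/
theorem result {α : Type*} (G : Subgroup (Equiv.Perm α)) [MulAction.IsPretransitive G α] : (∀ c ∈ Subgroup.centralizer (G : Set (Equiv.Perm α)), ∀ a : α, c a = a → c = 1) ∧ (MulAction.IsPretransitive (Subgroup.centralizer (G : Set (Equiv.Perm α))) α ↔ ∀ a : α, MulAction.stabilizer G a = ⊥) := by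
  refine ⟨fun c hc a ha => Perm.eq_one_of_mem_centralizer_of_apply_eq G hc ha, ?_, ?_⟩
  · intro h a
    rw [eq_bot_iff]
    intro g hg
    rw [Subgroup.mem_bot]
    apply Subtype.ext
    exact Perm.eq_one_of_mem_centralizer_of_apply_eq
      (Subgroup.centralizer (G : Set (Equiv.Perm α)))
      (Subgroup.le_centralizer_iff.1 le_rfl g.2) (a := a) hg
  · intro h
    refine ⟨fun a b => ?_⟩
    obtain ⟨c, hc, hab⟩ := Perm.exists_mem_centralizer_apply_eq G (a := a) (b := b)
      (by rw [h, h])
    exact ⟨⟨c, hc⟩, hab⟩

end Cfsg.Agent.S0701
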