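import Cfsg.Statements.S0702
import Cfsg.Agent.Perm.Centralizer

set_option autoImplicit false
open Cfsg

namespace Cfsg.Agent.S0702

open MulAction

theorem stab_eq {α : Type*} (G : Subgroup (Equiv.Perm α)) (a : α) (n : G)
    (hn : n ∈ Subgroup.normalizer ((stabilizer G a : Subgroup G) : Set G)) :
    stabilizer G a = stabilizer G (n⁻¹ • a) := by
  ext g
  rw [Subgroup.mem_normalizer_iff.1 hn g, mem_stabilizer_iff, mem_stabilizer_iff, mul_smul,
    mul_smul, ← eq_inv_smul_iff]

/-- For a transitive permutation group `G` on a finite set, the centraliser of `G` in the symmetric group is isomorphic to `N_G(G_ω)/G_ω`, and its orbit of `ω` is the set of fixed points of `G_ω`. -/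
theorem result {α : Type*} [Finite α] (G : Subgroup (Equiv.Perm α)) [MulAction.IsPretransitive G α] (a : α) : Nonempty (Subgroup.centralizer (G : Set (Equiv.Perm α)) ≃* Subgroup.normalizer ((MulAction.stabilizer G a : Subgroup G) : Set G) ⧸ (MulAction.stabilizer G a).subgroupOf (Subgroup.normalizer ((MulAction.stabilizer G a : Subgroup G) : Set G))) ∧ MulAction.orbit (Subgroup.centralizer (G : Set (Equiv.Perm α))) a = MulAction.fixedPoints (MulAction.stabilizer G a) α := by
  constructor
  · set N := Subgroup.normalizer ((stabilizer G a : Subgroup G) : Set G) with hN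
    choose f hf hfa using fun n : N =>
      Perm.exists_mem_centralizer_apply_eq G (stab_eq G a n n.2)
    have comm : ∀ (n : N) (g : G) (x : α), f n (g • x) = g • f n x := fun n g x =>
      (DFunLike.congr_fun (Subgroup.mem_centralizer_iff.1 (hf n) g g.2) x).symm
    let φ : N →* Subgroup.centralizer (G : Set (Equiv.Perm α)) :=
      MonoidHom.mk' (fun n => ⟨f n, hf n⟩) fun m n => Subtype.ext
        (Perm.eq_of_mem_centralizer_of_apply_eq G (hf _) (mul_mem (hf m) (hf n)) (a := a) (by
          change f (m * n) a = f m (f n a)
          rw [hfa, hfa, comm, hfa, Subgroup.coe_mul, mul_inv_rev, mul_smul]))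
    have hsurj : Function.Surjective φ := by
      intro c
      obtain ⟨g, hg⟩ := exists_smul_eq G a ((c : Equiv.Perm α) a)
      have hst := Perm.stabilizer_apply_of_mem_centralizer G c.2 a
      have hmem : g⁻¹ ∈ N := by
        rw [hN, Subgroup.mem_normalizer_iff]
        intro h
        conv_lhs => rw [← hst, ← hg]
        rw [mem_stabilizer_iff, mem_stabilizer_iff, mul_smul, mul_smul, inv_inv, inv_smul_eq_iff]
      refine ⟨⟨g⁻¹, hmem⟩, Subtype.ext
        (Perm.eq_of_mem_centralizer_of_apply_eq G (hf _) c.2 (a := a) ?_)⟩
      change f _ a = _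
      rw [hfa, inv_inv, hg]
    have hker : φ.ker = (stabilizer G a).subgroupOf N := by
      ext n
      rw [MonoidHom.mem_ker, Subgroup.mem_subgroupOf, mem_stabilizer_iff]
      constructor
      · intro h
        have h1 : f n = 1 := congrArg Subtype.val h
        have := hfa n
        rw [h1, Equiv.Perm.one_apply, eq_inv_smul_iff] at this
        exact this
      · intro h
        apply Subtype.ext
        refine Perm.eq_one_of_mem_centralizer_of_apply_eq G (hf n) (a := a) ?_
        change f n a = a
        rw [hfa, inv_smul_eq_iff, h]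
    exact ⟨((QuotientGroup.quotientMulEquivOfEq hker).symm.trans
      (QuotientGroup.quotientKerEquivOfSurjective φ hsurj)).symm⟩
  · ext b
    constructor
    · rintro ⟨c, rfl⟩ g
      have hst := Perm.stabilizer_apply_of_mem_centralizer G c.2 a
      have : (g : G) ∈ stabilizer G ((c : Equiv.Perm α) a) := by rw [hst]; exact g.2
      exact this
    · intro hb
      have hle : stabilizer G a ≤ stabilizer G b := fun g hg => hb ⟨g, hg⟩
      obtain ⟨g, hg⟩ := exists_smul_eq G a b
      have hcard : Nat.card (stabilizer G b) = Nat.card (stabilizer G a) :=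
        (Nat.card_congr (stabilizerEquivStabilizer hg.symm).toEquiv).symm
      obtain ⟨c, hc, hab⟩ := Perm.exists_mem_centralizer_apply_eq G
        (Subgroup.eq_of_le_of_card_ge hle hcard.le)
      exact ⟨⟨c, hc⟩, hab⟩

end Cfsg.Agent.S0702
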