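import Cfsg.Statements.S0703
import Cfsg.Agent.Perm.Centralizer
import Cfsg.Agent.Grp.MinNormal

set_option autoImplicit false
open Cfsg

namespace Cfsg.Agent.S0703

open MulAction

/-- An abelian transitive minimal normal subgroup `M` of a permutation group on a finite set is self-centralising in the symmetric group, regular, elementary abelian, and is the unique minimal normal subgroup. -/
theorem result {α : Type*} [Finite α] (G : Subgroup (Equiv.Perm α)) (M : Subgroup G) [M.Normal] (hM : M ≠ ⊥) (hmin : ∀ L : Subgroup G, L.Normal → L ≤ M → L = ⊥ ∨ L = M) (hab : IsMulCommutative M) (htrans : MulAction.IsPretransitive M α) : Subgroup.centralizer ((M.map G.subtype : Subgroup (Equiv.Perm α)) : Set (Equiv.Perm α)) = M.map G.subtype ∧ (∀ a : α, MulAction.stabilizer M a = ⊥) ∧ (∃ p : ℕ, p.Prime ∧ ∀ m ∈ M, m ^ p = 1) ∧ ∀ L : Subgroup G, L.Normal → L ≠ ⊥ → (∀ L' : Subgroup G, L'.Normal → L' ≤ L → L' = ⊥ ∨ L' = L) → L = M := by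
  haveI := Perm.isPretransitive_map_subtype (α := α) M
  have hle : M.map G.subtype ≤
      Subgroup.centralizer ((M.map G.subtype : Subgroup (Equiv.Perm α)) : Set (Equiv.Perm α)) := by
    rintro _ ⟨m, hm, rfl⟩
    rw [Subgroup.mem_centralizer_iff]
    rintro _ ⟨n, hn, rfl⟩
    have := hab.is_comm.comm ⟨n, hn⟩ ⟨m, hm⟩
    exact congrArg (fun x : M => ((x : G) : Equiv.Perm α)) this
  haveI : Group.IsSolvable M := Group.isSolvable_of_comm fun a b => hab.is_comm.comm a b
  have h1 := Perm.eq_centralizer_of_isPretransitive _ _ hle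
  refine ⟨h1, fun a => ?_, (Grp.minNormal_elementaryAbelian M hM hmin).2, fun L hL hL0 hLmin => ?_⟩
  · rw [eq_bot_iff]
    intro m hm
    rw [Subgroup.mem_bot]
    apply Subtype.ext
    apply Subtype.ext
    exact Perm.eq_one_of_mem_centralizer_of_apply_eq (M.map G.subtype)
      (hle (Subgroup.mem_map_of_mem _ m.2)) (a := a) hm
  · have hLM : L ≤ M := by
      rcases hLmin (L ⊓ M) inferInstance inf_le_left with h | h
      · intro l hl
        have : (l : Equiv.Perm α) ∈ M.map G.subtype := by
          rw [← h1, Subgroup.mem_centralizer_iff]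
          rintro _ ⟨m, hm, rfl⟩
          have := Subgroup.commute_of_normal_of_disjoint L M hL inferInstance
            (disjoint_iff.2 h) l m hl hm
          exact congrArg Subtype.val this.symm.eq
        obtain ⟨m, hm, hml⟩ := this
        rwa [← Subtype.ext hml]
      · exact inf_eq_left.1 h
    exact (hmin L hL hLM).resolve_left hL0

end Cfsg.Agent.S0703
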