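import Cfsg.Statements.S0704
import Cfsg.Agent.Perm.Centralizer

set_option autoImplicit false
open Cfsg

namespace Cfsg.Agent.S0704

open MulAction

theorem le_cent {α : Type*} (G : Subgroup (Equiv.Perm α)) (M N : Subgroup G) [hM : M.Normal]
    [hN : N.Normal] (h : M ⊓ N = ⊥) : N.map G.subtype ≤
      Subgroup.centralizer ((M.map G.subtype : Subgroup (Equiv.Perm α)) : Set (Equiv.Perm α)) := by
  rintro _ ⟨n, hn, rfl⟩
  rw [Subgroup.mem_centralizer_iff]
  rintro _ ⟨m, hm, rfl⟩
  have := Subgroup.commute_of_normal_of_disjoint M N hM hN (disjoint_iff.2 h) m n hm hn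
  exact congrArg Subtype.val this.eq

theorem reg {α : Type*} (G : Subgroup (Equiv.Perm α)) (M N : Subgroup G) [hM : M.Normal]
    [hN : N.Normal] (h : M ⊓ N = ⊥) [IsPretransitive M α] (a : α) : stabilizer N a = ⊥ := by
  haveI := Perm.isPretransitive_map_subtype (α := α) M
  rw [eq_bot_iff]
  intro m hm
  rw [Subgroup.mem_bot]
  apply Subtype.ext
  apply Subtype.ext
  exact Perm.eq_one_of_mem_centralizer_of_apply_eq (M.map G.subtype)
    (le_cent G M N h (Subgroup.mem_map_of_mem _ m.2)) (a := a) hm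

/-- Two distinct transitive minimal normal subgroups `M`, `N` of a permutation group are regular, non-abelian, isomorphic, each other's centraliser in the symmetric group, and the only minimal normal subgroups. -/
theorem result {α : Type*} (G : Subgroup (Equiv.Perm α)) (M N : Subgroup G) [M.Normal] [N.Normal] (hM : M ≠ ⊥) (hN : N ≠ ⊥) (hMmin : ∀ L : Subgroup G, L.Normal → L ≤ M → L = ⊥ ∨ L = M) (hNmin : ∀ L : Subgroup G, L.Normal → L ≤ N → L = ⊥ ∨ L = N) (hMN : M ≠ N) (hMt : MulAction.IsPretransitive M α) (hNt : MulAction.IsPretransitive N α) : (∀ a : α, MulAction.stabilizer M a = ⊥) ∧ (∀ a : α, MulAction.stabilizer N a = ⊥) ∧ ¬ IsMulCommutative M ∧ Nonempty (M ≃* N) ∧ Subgroup.centralizer ((M.map G.subtype : Subgroup (Equiv.Perm α)) : Set (Equiv.Perm α)) = N.map G.subtype ∧ Subgroup.centralizer ((N.map G.subtype : Subgroup (Equiv.Perm α)) : Set (Equiv.Perm α)) = M.map G.subtype ∧ ∀ L : Subgroup G, L.Normal → L ≠ ⊥ → (∀ L' : Subgroup G, L'.Normal → L' ≤ L → L' = ⊥ ∨ L' = L) → L = M ∨ L =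 N := by
  haveI := Perm.isPretransitive_map_subtype (α := α) M
  haveI := Perm.isPretransitive_map_subtype (α := α) N
  have hinf : M ⊓ N = ⊥ := by
    rcases hMmin (M ⊓ N) inferInstance inf_le_left with h | h
    · exact h
    · exact absurd ((hNmin M inferInstance (inf_eq_left.1 h)).resolve_left hM) hMN
  have hinf' : N ⊓ M = ⊥ := by rw [inf_comm, hinf]
  have h1 := Perm.eq_centralizer_of_isPretransitive _ _ (le_cent G M N hinf)
  have h2 := Perm.eq_centralizer_of_isPretransitive _ _ (le_cent G N M hinf')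
  have hinj := G.subtype_injective
  refine ⟨reg G N M hinf', reg G M N hinf, fun hc => ?_, ?_, h1, h2, fun L hL hL0 hLmin => ?_⟩
  · apply hM
    rw [← hinf, eq_comm, inf_eq_left, ← Subgroup.map_le_map_iff_of_injective hinj, ← h1]
    rintro _ ⟨m, hm, rfl⟩
    rw [Subgroup.mem_centralizer_iff]
    rintro _ ⟨n, hn, rfl⟩
    have := hc.is_comm.comm ⟨n, hn⟩ ⟨m, hm⟩
    exact congrArg (fun x : M => ((x : G) : Equiv.Perm α)) this
  · obtain ⟨e⟩ := Perm.nonempty_mulEquiv_of_centralize _ _ (le_cent G M N hinf)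
    exact ⟨((M.equivMapOfInjective _ hinj).trans e).trans (N.equivMapOfInjective _ hinj).symm⟩
  · rcases hMmin (M ⊓ L) inferInstance inf_le_left with h | h
    · right
      have := le_cent G M L h
      rw [h1, Subgroup.map_le_map_iff_of_injective hinj] at this
      exact (hNmin L hL this).resolve_left hL0
    · left
      exact ((hLmin M inferInstance (inf_eq_left.1 h)).resolve_left hM).symm

end Cfsg.Agent.S0704
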