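import Cfsg.Statements.S0707
import Cfsg.Agent.Perm.PrimRel

set_option autoImplicit false
open Cfsg

namespace Cfsg.Agent.S0707

open MulAction

/-- In a primitive permutation group, distinct points have distinct stabilisers unless the group is regular of prime degree. -/
theorem result {α : Type*} (G : Subgroup (Equiv.Perm α)) [MulAction.IsPreprimitive G α] (h : ¬ (Nat.card α).Prime ∨ ∃ a : α, MulAction.stabilizer G a ≠ ⊥) {a b : α} (hab : a ≠ b) : MulAction.stabilizer G a ≠ MulAction.stabilizer G b := by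
  intro heq
  rcases Perm.rel_trivial_of_isPreprimitive (G := G) inferInstance
    (fun x y : α => stabilizer G x = stabilizer G y) ⟨fun _ => rfl, Eq.symm, Eq.trans⟩
    (fun g x y h => by rw [stabilizer_smul_eq_stabilizer_map_conj,
      stabilizer_smul_eq_stabilizer_map_conj, h]) with h1 | h1
  · exact hab (h1 a b heq)
  have hbot : ∀ c : α, stabilizer G c = ⊥ := by
    intro c
    rw [eq_bot_iff]
    intro g hg
    rw [Subgroup.mem_bot]
    ext x
    have : g ∈ stabilizer G x := h1 c x ▸ hg
    exact this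
  refine h.elim (fun h => h ?_) fun ⟨c, hc⟩ => hc (hbot c)
  have : Nontrivial α := ⟨⟨a, b, hab⟩⟩
  have hco := IsPreprimitive.isCoatom_stabilizer_of_isPreprimitive G a
  rw [hbot] at hco
  have hsub : ∀ H : Subgroup G, H = ⊥ ∨ H = ⊤ := fun H =>
    (eq_or_ne H ⊥).imp id fun h => hco.2 H (bot_lt_iff_ne_bot.2 h)
  have hnt : Nontrivial G := by
    rw [← Subgroup.nontrivial_iff]
    exact ⟨⟨⊥, ⊤, hco.1⟩⟩
  have hs : IsSimpleGroup G := ⟨fun H _ => hsub H⟩
  obtain ⟨g, hg⟩ := exists_ne (1 : G)
  have hc : IsCyclic G := isCyclic_iff_exists_zpowers_eq_top.2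
    ⟨g, (hsub _).resolve_left (by simpa using hg)⟩
  have hp : (Nat.card G).Prime := Group.is_simple_iff_prime_card.1 hs
  have e : G ≃ α := Equiv.ofBijective (fun g : G => g • a) ⟨fun m n h => by
    have : n⁻¹ * m ∈ stabilizer G a := by
      rw [mem_stabilizer_iff, mul_smul, inv_smul_eq_iff]; exact h
    rw [hbot, Subgroup.mem_bot, inv_mul_eq_one] at this
    exact this.symm, fun x => exists_smul_eq G a x⟩
  rwa [← Nat.card_congr e]

end Cfsg.Agent.S0707
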