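import Cfsg.Statements.S0708
import Cfsg.Agent.Spor.Sharp

set_option autoImplicit false
open Cfsg

namespace Cfsg.Agent.S0708

/-- Tits' argument: a sharply 4-transitive group (no finiteness assumed) has finite degree at most 11, and at most 6 when the degree is even. -/
theorem result {G : Type*} [Group G] {Ω : Type*} [MulAction G Ω] (h4 : MulAction.IsMultiplyPretransitive G Ω 4) (hsharp : ∀ x : Fin 4 ↪ Ω, MulAction.stabilizer G x = ⊥) (hne : Nonempty (Fin 4 ↪ Ω)) : Finite Ω ∧ Nat.card Ω ≤ 11 ∧ (Even (Nat.card Ω) → Nat.card Ω ≤ 6) := by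
  have hf := Spor.fixTrivial_of_stabilizer hsharp
  by_cases h : ∃ s : Finset Ω, 6 ≤ s.card
  · obtain ⟨s, hs⟩ := h
    obtain ⟨h1, h2⟩ := Spor.sharp_four_card h4 hf s hs
    refine ⟨h1, by omega, fun h3 => ?_⟩
    rw [Nat.even_iff] at h3
    omega
  · push Not at h
    have : Finite Ω := by
      by_contra h'
      have := not_finite_iff_infinite.1 h'
      obtain ⟨s, hs⟩ := Infinite.exists_subset_card_eq Ω 6
      exact absurd (h s) (by omega)
    have := Fintype.ofFinite Ω
    have h1 := h Finset.univ
    rw [Finset.card_univ, ← Nat.card_eq_fintype_card] at h1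
    exact ⟨inferInstance, by omega, fun _ => by omega⟩

end Cfsg.Agent.S0708
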