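import Cfsg.Statements.S0709
import Mathlib
import Cfsg.Agent.Perm.MultTrans

set_option autoImplicit false
open Cfsg

namespace Cfsg.Agent.S0709

open MulAction Subgroup Cfsg.Agent.Perm

theorem step {Γ : Type*} [Group Γ] {L K : Subgroup Γ} {r s : Γ} (hLK : L ≤ K)
    (h : ∀ g ∈ K, g ∈ L ∨ ∃ a ∈ L, ∃ b ∈ L, g = a * r * b) (hn : s ∈ normalizer (L : Set Γ))
    (h2 : s ^ 2 ∈ K) (hr : r ∈ K) (h3 : (r * s) ^ 3 ∈ K) :
    ∀ g ∈ K ⊔ zpowers s, g ∈ K ∨ ∃ a ∈ K, ∃ b ∈ K, g = a * s * b := by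
  have key : ∀ g ∈ K, s * g * s ∈ K ∨ ∃ a ∈ K, ∃ b ∈ K, s * g * s = a * s * b := by
    intro g hg
    rcases h g hg with h1 | ⟨a, ha, b, hb, rfl⟩
    · refine .inl ?_
      have := mul_mem (hLK ((mem_normalizer_iff.1 hn g).1 h1)) h2
      rwa [show s * g * s⁻¹ * s ^ 2 = s * g * s by rw [sq]; group] at this
    · refine .inr ⟨s * a * s⁻¹ * r⁻¹ * (r * s) ^ 3, mul_mem (mul_mem
        (hLK ((mem_normalizer_iff.1 hn a).1 ha)) (inv_mem hr)) h3,
        (s ^ 2)⁻¹ * r⁻¹ * (s⁻¹ * b * s), mul_mem (mul_mem (inv_mem h2) (inv_mem hr))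
        (hLK ((mem_normalizer_iff''.1 hn b).1 hb)), ?_⟩
      simp only [pow_succ, pow_zero]
      group
  let D : Subgroup Γ :=
    { carrier := {g | g ∈ K ∨ ∃ a ∈ K, ∃ b ∈ K, g = a * s * b}
      one_mem' := .inl K.one_mem
      mul_mem' := by
        rintro x y (hx | ⟨a, ha, b, hb, rfl⟩) (hy | ⟨c, hc, d, hd, rfl⟩)
        · exact .inl (mul_mem hx hy)
        · exact .inr ⟨x * c, mul_mem hx hc, d, hd, by group⟩
        · exact .inr ⟨a, ha, b * y, mul_mem hb hy, by group⟩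
        · rcases key _ (mul_mem hb hc) with e | ⟨u, hu, v, hv, e⟩
          · refine .inl ?_
            rw [show a * s * b * (c * s * d) = a * (s * (b * c) * s) * d by group]
            exact mul_mem (mul_mem ha e) hd
          · refine .inr ⟨a * u, mul_mem ha hu, v * d, mul_mem hv hd, ?_⟩
            rw [show a * s * b * (c * s * d) = a * (s * (b * c) * s) * d by group, e]
            group
      inv_mem' := by
        rintro x (hx | ⟨a, ha, b, hb, rfl⟩)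
        · exact .inl (inv_mem hx)
        · refine .inr ⟨b⁻¹, inv_mem hb, (s ^ 2)⁻¹ * a⁻¹, mul_mem (inv_mem h2) (inv_mem ha), ?_⟩
          rw [sq]
          group }
  exact fun g hg => (sup_le (fun x hx => .inl hx)
    (zpowers_le.2 (.inr ⟨1, K.one_mem, 1, K.one_mem, by group⟩)) : _ ≤ D) hg

/-- The chain of extensions. -/
def ch {Γ : Type*} [Group Γ] (L : Subgroup Γ) (s : ℕ → Γ) : ℕ → Subgroup Γ
  | 0 => L
  | i + 1 => ch L s i ⊔ zpowers (s (i + 1))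

theorem ch_le {Γ : Type*} [Group Γ] {L M : Subgroup Γ} {s : ℕ → Γ} {i : ℕ} :
    ch L s i ≤ M ↔ L ≤ M ∧ ∀ j, 1 ≤ j → j ≤ i → s j ∈ M := by
  induction i with
  | zero => exact ⟨fun h => ⟨h, fun j _ _ => by omega⟩, fun h => h.1⟩
  | succ i ih =>
    rw [ch, sup_le_iff, ih, zpowers_le]
    refine ⟨fun h => ⟨h.1.1, fun j h1 h2 => ?_⟩,
      fun h => ⟨⟨h.1, fun j h1 h2 => h.2 j h1 (by omega)⟩, h.2 _ (by omega) le_rfl⟩⟩
    rcases h2.eq_or_lt with rfl | h2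
    · exact h.2
    · exact h.1.2 j h1 (by omega)

/-- Witt's Lemma for constructing transitive extensions. Points `q 1, …, q t` (`t ≥ 2`) of a finite set are given; `G` fixes `q i` for `i ≥ 3` and is doubly transitive on the remaining points; `s 1 ∈ G` swaps `q 1, q 2`; for `2 ≤ i ≤ t-1`, `s i` swaps `q i, q (i+1)` and fixes the other `q j`; with `H` the stabiliser of `q 1, q 2` in `G`: `s i ^ 2 ∈ H`, `(s i * s (i+1)) ^ 3 ∈ H`, `(s i * s j) ^ 2 ∈ H` for `j ≥ i + 2`, and `s i` (`i ≥ 2`) normalises the stabiliser of `q 2` in `G`. Then `G` and the `s i` generate a `t`-transitive group whose pointwise stabiliser of the `q`'s is `H`. -/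
theorem result {α : Type*} [Fintype α] [DecidableEq α] (t : ℕ) (ht : 2 ≤ t) (q : ℕ → α) (hq : ∀ i j : ℕ, 1 ≤ i → i ≤ t → 1 ≤ j → j ≤ t → q i = q j → i = j) (G : Subgroup (Equiv.Perm α)) (hfix : ∀ g ∈ G, ∀ i : ℕ, 3 ≤ i → i ≤ t → g (q i) = q i) (h2 : ∀ a b c d : α, (∀ i, 3 ≤ i → i ≤ t → a ≠ q i ∧ b ≠ q i ∧ c ≠ q i ∧ d ≠ q i) → a ≠ b → c ≠ d → ∃ g ∈ G, g a = c ∧ g b = d) (s : ℕ → Equiv.Perm α) (hs1 : s 1 ∈ G) (hs1q : s 1 (q 1) = q 2 ∧ s 1 (q 2) = q 1) (hsq : ∀ i : ℕ, 2 ≤ i → i + 1 ≤ t → s i (q i) = q (i + 1) ∧ s i (q (i + 1)) = q i ∧ ∀ j : ℕ, 1 ≤ j → j ≤ t → j ≠ i → j ≠ i + 1 → s i (q j) = q j) (H : Subgroup (Equiv.Perm α)) (hH : H = G ⊓ MulAction.stabilizer (Equiv.Perm α) (q 1) ⊓ MulAction.stabilizer (Equiv.Perm α) (q 2)) (hsq2 : ∀ i : ℕ, 1 ≤ i → i + 1 ≤ t → s i ^ 2 ∈ H) (hbraid : ∀ i : ℕ, 1 ≤ i → i + 2 ≤ t → (s i * s (i + 1)) ^ 3 ∈ H) (hcomm : ∀ i j : ℕ, 1 ≤ i → i + 2 ≤ j → j + 1 ≤ t → (s i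 * s j) ^ 2 ∈ H ∧ (s j * s i) ^ 2 ∈ H) (hnorm : ∀ i : ℕ, 2 ≤ i → i + 1 ≤ t → ∀ g ∈ G ⊓ MulAction.stabilizer (Equiv.Perm α) (q 2), s i * g * (s i)⁻¹ ∈ G ⊓ MulAction.stabilizer (Equiv.Perm α) (q 2)) : MulAction.IsMultiplyPretransitive ↥(Subgroup.closure ((G : Set (Equiv.Perm α)) ∪ {x | ∃ i : ℕ, 2 ≤ i ∧ i + 1 ≤ t ∧ x = s i})) α t ∧ Subgroup.closure ((G : Set (Equiv.Perm α)) ∪ {x | ∃ i : ℕ, 2 ≤ i ∧ i + 1 ≤ t ∧ x = s i}) ⊓ fixingSubgroup (Equiv.Perm α) {x | ∃ i : ℕ, 1 ≤ i ∧ i ≤ t ∧ x = q i} = H := by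
  classical
  set L := G ⊓ stabilizer (Equiv.Perm α) (q 2) with hL
  have hHL : H ≤ L := hH ▸ fun g hg => ⟨hg.1.1, hg.2⟩
  have hLc : ∀ i, L ≤ ch L s i := fun i => (ch_le.1 le_rfl).1
  have hsc : ∀ i j, 1 ≤ j → j ≤ i → s j ∈ ch L s i := fun i => (ch_le.1 le_rfl).2
  have hHc : ∀ i, H ≤ ch L s i := fun i => hHL.trans (hLc i)
  have hne : ∀ i j, 1 ≤ i → i < j → j ≤ t → q i ≠ q j := fun i j h1 h2 h3 c => by
    have := hq i j h1 (by omega) (by omega) h3 c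
    omega
  have hs' : ∀ i, 1 ≤ i → i + 1 ≤ t → s i (q i) = q (i + 1) ∧ s i (q (i + 1)) = q i := by
    intro i h1 h2
    rcases h1.eq_or_lt with rfl | h1
    · exact hs1q
    · exact ⟨(hsq i h1 h2).1, (hsq i h1 h2).2.1⟩
  have hfx : ∀ i j, i + 2 ≤ j → j ≤ t → ∀ g ∈ ch L s i, g (q j) = q j := by
    intro i j h1 h2
    refine (ch_le.2 ⟨fun g hg => ?_, fun l h3 h4 => ?_⟩ : _ ≤ stabilizer (Equiv.Perm α) (q j))
    · rcases (show 2 ≤ j by omega).eq_or_lt with rfl | h3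
      · exact hg.2
      · exact hfix g hg.1 j h3 h2
    · rcases h3.eq_or_lt with rfl | h3
      · exact hfix _ hs1 j (by omega) h2
      · exact (hsq l h3 (by omega)).2.2 j (by omega) h2 (by omega) (by omega)
  have hmv : ∀ g ∈ G, ∀ x, (∀ i, 3 ≤ i → i ≤ t → x ≠ q i) → ∀ i, 3 ≤ i → i ≤ t → g x ≠ q i :=
    fun g hg x hx i h1 h2 c => hx i h1 h2 (g.injective (c.trans (hfix g hg i h1 h2).symm))
  have hq1 : ∀ i, 3 ≤ i → i ≤ t → q 1 ≠ q i := fun i h1 => hne 1 i le_rfl (by omega)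
  have hq2 : ∀ i, 3 ≤ i → i ≤ t → q 2 ≠ q i := fun i h1 => hne 2 i (by omega) (by omega)
  have hG : ∀ g ∈ G, g ∈ L ∨ ∃ a ∈ L, ∃ b ∈ L, g = a * s 1 * b := by
    intro g hg
    by_cases h : g (q 2) = q 2
    · exact .inl ⟨hg, h⟩
    obtain ⟨a, ha, e1, e2⟩ := h2 (q 2) (q 1) (q 2) (g (q 2)) (fun i h1 h2 =>
      ⟨hq2 i h1 h2, hq1 i h1 h2, hq2 i h1 h2, hmv g hg _ hq2 i h1 h2⟩)
      (hne 1 2 le_rfl (by omega) ht).symm (Ne.symm h)
    refine .inr ⟨a, ⟨ha, e1⟩, (s 1)⁻¹ * a⁻¹ * g,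
      ⟨G.mul_mem (G.mul_mem (G.inv_mem hs1) (G.inv_mem ha)) hg, ?_⟩, by group⟩
    change (s 1)⁻¹ (a⁻¹ (g (q 2))) = q 2
    rw [← e2, Equiv.Perm.inv_eq_iff_eq, hs1q.2]
    simp
  have hG1 : ch L s 1 = G := le_antisymm (ch_le.2 ⟨inf_le_left, fun j h1 h2 => by
    rwa [show j = 1 by omega]⟩) fun g hg => by
      rcases hG g hg with h | ⟨a, ha, b, hb, rfl⟩
      · exact hLc 1 h
      · exact mul_mem (mul_mem (hLc 1 ha) (hsc 1 1 le_rfl le_rfl)) (hLc 1 hb)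
  have hdc : ∀ i, i + 2 ≤ t → ∀ g ∈ ch L s (i + 1),
      g ∈ ch L s i ∨ ∃ a ∈ ch L s i, ∃ b ∈ ch L s i, g = a * s (i + 1) * b := by
    intro i
    induction i with
    | zero => exact fun _ => hG1 ▸ hG
    | succ i ih =>
      intro hi
      refine step le_sup_left (ih (by omega)) ?_ (hHc _ (hsq2 _ (by omega) (by omega)))
        (hsc _ _ (by omega) le_rfl) (hHc _ (hbraid _ (by omega) (by omega)))
      refine mem_normalizer_fintype fun g hg => ?_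
      refine (ch_le.2 ⟨fun g hg => hLc i (hnorm _ (by omega) (by omega) g hg), fun j h1 h2 => ?_⟩ :
        _ ≤ (ch L s i).comap (MulAut.conj (s (i + 2))).toMonoidHom) hg
      have := mul_mem (mul_mem (hHc i (hcomm j (i + 2) h1 (by omega) (by omega)).2)
        (inv_mem (hsc i j h1 h2))) (inv_mem (hHc i (hsq2 (i + 2) (by omega) (by omega))))
      change s (i + 2) * s j * (s (i + 2))⁻¹ ∈ ch L s i
      convert this using 1
      simp only [sq]
      group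
  have hst : ∀ i, i + 1 ≤ t → ∀ g ∈ ch L s i, (∀ j, 1 ≤ j → j ≤ t → g (q j) = q j) → g ∈ L := by
    intro i
    induction i with
    | zero => exact fun _ g hg _ => hg
    | succ i ih =>
      intro hi g hg h
      rcases hdc i hi g hg with h1 | ⟨a, ha, b, hb, rfl⟩
      · exact ih (by omega) g h1 h
      have := h (i + 2) (by omega) hi
      rw [Equiv.Perm.mul_apply, Equiv.Perm.mul_apply, hfx i _ le_rfl hi b hb,
        (hs' (i + 1) (by omega) hi).2] at this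
      exact absurd (a.injective (this.trans (hfx i _ le_rfl hi a ha).symm))
        (hne _ _ (by omega) (by omega) hi)
  have htr : ∀ i, 1 ≤ i → i + 1 ≤ t → ∀ x, (∀ j, i + 2 ≤ j → j ≤ t → x ≠ q j) →
      ∃ g ∈ ch L s i, g x = q (i + 1) := by
    intro i h1
    induction i, h1 using Nat.le_induction with
    | base =>
      intro _ x hx
      by_cases h : x = q 2
      · exact ⟨1, one_mem _, h⟩
      obtain ⟨g, hg, e, -⟩ := h2 x (q 2) (q 2) (q 1) (fun i h1 h2 =>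
        ⟨hx i h1 h2, hq2 i h1 h2, hq2 i h1 h2, hq1 i h1 h2⟩) h (hne 1 2 le_rfl (by omega) ht).symm
      exact ⟨g, hG1 ▸ hg, e⟩
    | succ i h1 ih =>
      intro hi x hx
      by_cases h : x = q (i + 2)
      · exact ⟨1, one_mem _, h⟩
      obtain ⟨g, hg, e⟩ := ih (by omega) x fun j h3 h4 => by
        rcases h3.eq_or_lt with rfl | h3
        · exact h
        · exact hx j h3 h4
      exact ⟨s (i + 1) * g, mul_mem (hsc _ _ (by omega) le_rfl) (mem_sup_left hg), by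
        rw [Equiv.Perm.mul_apply, e, (hs' (i + 1) (by omega) hi).1]⟩
  have hmt : ∀ i, 1 ≤ i → i + 1 ≤ t → ∀ x : ℕ → α,
      (∀ j l, 1 ≤ j → j < l → l ≤ i + 1 → x j ≠ x l) →
      (∀ l, 1 ≤ l → l ≤ i + 1 → ∀ j, i + 2 ≤ j → j ≤ t → x l ≠ q j) →
      ∃ g ∈ ch L s i, ∀ l, 1 ≤ l → l ≤ i + 1 → g (x l) = q l := by
    intro i h1
    induction i, h1 using Nat.le_induction with
    | base =>
      intro _ x hx hx'
      obtain ⟨g, hg, e1, e2⟩ := h2 (x 1) (x 2) (q 1) (q 2) (fun i h1 h2 =>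
        ⟨hx' 1 le_rfl (by omega) i h1 h2, hx' 2 (by omega) le_rfl i h1 h2, hq1 i h1 h2,
          hq2 i h1 h2⟩) (hx 1 2 le_rfl (by omega) le_rfl) (hne 1 2 le_rfl (by omega) ht)
      refine ⟨g, hG1 ▸ hg, fun l h1 h2 => ?_⟩
      rcases (by omega : l = 1 ∨ l = 2) with rfl | rfl
      · exact e1
      · exact e2
    | succ i h1 ih =>
      intro hi x hx hx'
      obtain ⟨g, hg, e⟩ := htr (i + 1) (by omega) hi (x (i + 2)) (hx' _ (by omega) le_rfl)
      obtain ⟨g', hg', e'⟩ := ih (by omega) (fun l => g (x l))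
        (fun j l a b c => g.injective.ne (hx j l a b (by omega))) fun l a b j c d => by
          rcases c.eq_or_lt with rfl | c
          · rw [← e]
            exact g.injective.ne (hx _ _ a (by omega) le_rfl)
          · rw [← hfx (i + 1) j c d g hg]
            exact g.injective.ne (hx' l a (by omega) j c d)
      refine ⟨g' * g, mul_mem (mem_sup_left hg') hg, fun l a b => ?_⟩
      rcases b.eq_or_lt with rfl | b
      · rw [Equiv.Perm.mul_apply, e, hfx i _ le_rfl hi g' hg']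
      · exact e' l a (by omega)
  have hcl : closure ((G : Set (Equiv.Perm α)) ∪ {x | ∃ i : ℕ, 2 ≤ i ∧ i + 1 ≤ t ∧ x = s i}) =
      ch L s (t - 1) := by
    refine le_antisymm ((closure_le _).2 ?_) (ch_le.2 ⟨fun g hg => subset_closure (.inl hg.1),
      fun j h1 h2 => subset_closure ?_⟩)
    · rintro g (hg | ⟨i, h1, h2, rfl⟩)
      · exact (ch_le.2 ⟨hLc _, fun j a b => hsc _ j a (by omega)⟩ : ch L s 1 ≤ _) (hG1 ▸ hg)
      · exact hsc _ i (by omega) (by omega)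
    · rcases h1.eq_or_lt with rfl | h1
      · exact .inl hs1
      · exact .inr ⟨j, h1, by omega, rfl⟩
  rw [hcl]
  constructor
  · have key : ∀ x : Fin t → α, Function.Injective x →
        ∃ g ∈ ch L s (t - 1), ∀ i, g (x i) = q (i + 1) := by
      intro x hx
      obtain ⟨g, hg, e⟩ := hmt (t - 1) (by omega) (by omega)
        (fun l => x ⟨min (l - 1) (t - 1), by omega⟩)
        (fun j l a b c => hx.ne fun e => by simp only [Fin.mk.injEq] at e; omega)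
        fun l a b j c d => by omega
      refine ⟨g, hg, fun i => ?_⟩
      rw [← e (i + 1) (by omega) (by omega)]
      congr 2
      ext
      simp only
      omega
    refine multTrans_subgroup_iff.2 fun x y hx hy => ?_
    obtain ⟨g, hg, e⟩ := key x hx
    obtain ⟨g', hg', e'⟩ := key y hy
    refine ⟨g'⁻¹ * g, mul_mem (inv_mem hg') hg, fun i => ?_⟩
    change g'⁻¹ (g (x i)) = y i
    rw [e, ← e', Equiv.Perm.inv_eq_iff_eq]
  · ext g
    rw [mem_inf, mem_fixingSubgroup_iff]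
    constructor
    · rintro ⟨h1, h3⟩
      have h4 : ∀ j, 1 ≤ j → j ≤ t → g (q j) = q j := fun j a b => h3 _ ⟨j, a, b, rfl⟩
      have := hst (t - 1) (by omega) g h1 h4
      rw [hH]
      exact ⟨⟨this.1, h4 1 le_rfl (by omega)⟩, this.2⟩
    · intro hg
      refine ⟨hHc _ hg, ?_⟩
      rintro _ ⟨j, a, b, rfl⟩
      rcases a.eq_or_lt with rfl | a
      · exact (hH ▸ hg :).1.2
      · exact hfx 0 j a b g (hHL hg)

end Cfsg.Agent.S0709
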