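import Cfsg.Statements.S0712
import Cfsg.Agent.Perm.MultTrans

set_option autoImplicit false
open Cfsg

namespace Cfsg.Agent.S0712

open MulAction

theorem result {α : Type*} [Fintype α] [DecidableEq α] (G : Subgroup (Equiv.Perm α)) (hG : MulAction.IsPreprimitive G α) (s : Set α) {m : ℕ} (hsm : s.ncard = m) (hm : m + 2 ≤ Fintype.card α) (h2 : MulAction.IsMultiplyPretransitive (fixingSubgroup G s) (SubMulAction.ofFixingSubgroup G s) 2) : MulAction.IsMultiplyPretransitive G α (m + 2) := by
  classical
  have hm' : IsMultiplyPretransitive G α m := by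
    rcases m with _ | n
    · exact is_zero_pretransitive'
    · have hprim := isPreprimitive_of_is_two_pretransitive h2
      have hc : n + 2 < Nat.card α := by rw [Nat.card_eq_fintype_card]; omega
      have := hG.isMultiplyPreprimitive hsm hc hprim
      exact isMultiplyPretransitive_of_le (n := n + 2) (by omega) hc.le
  refine Perm.multTrans_add_of_exists hm' s.toFinset (by rw [← hsm, Set.ncard_eq_toFinset_card']) ?_
  intro t ht hst f hf hfs
  obtain ⟨g, hg, hg'⟩ := Perm.exists_fix_of_multTrans_ofFixingSubgroup h2 t ht
    (fun x hx hxs => Finset.disjoint_right.1 hst hx (by simpa using hxs)) f hf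
    (fun x hx hxs => hfs x hx (by simpa using hxs))
  exact ⟨g, fun x hx => hg x (by simpa using hx), hg'⟩

end Cfsg.Agent.S0712
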