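import Cfsg.Statements.S0716
import Cfsg.Agent.Perm.Orbital
import Cfsg.Agent.S0669

set_option autoImplicit false
open Cfsg

namespace Cfsg.Agent.S0716

open Cfsg.Agent.Char MulAction in
theorem aux {G : Type*} [Group G] [Fintype G] {Ω : Type*} [Fintype Ω] [MulAction G Ω]
    [IsPretransitive G Ω] (a : Ω) : ∃ c : IrrCharacter G → ℕ,
      (∀ χ : IrrCharacter G, classInner (permChar G Ω) χ = c χ) ∧ c (irrOne G) = 1 ∧
      (Nat.card Ω : ℂ) = ∑ χ : IrrCharacter G, c χ * (χ : G → ℂ) 1 ∧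
      Nat.card (orbitRel.Quotient (stabilizer G a) Ω) = ∑ χ, c χ ^ 2 := by
  have : Nonempty Ω := ⟨a⟩
  have hπ := isCharacter_permChar (G := G) Ω
  obtain ⟨c, hc, -⟩ := hπ.exists_coeff
  refine ⟨c, hc, ?_, ?_, ?_⟩
  · have := hc (irrOne G)
    rw [show ((irrOne G : IrrCharacter G) : G → ℂ) = fun _ => 1 from rfl,
      classInner_permChar_one_of_isPretransitive] at this
    exact_mod_cast this.symm
  · rw [← permChar_one (G := G), hπ.isClassFunction.apply_eq_sum_irr]; simp only [hc]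
  · have h1 := hπ.isClassFunction.inner_eq_sum (permChar G Ω)
    simp only [hc, Complex.conj_natCast] at h1
    rw [classInner_permChar_permChar, S0669.result a] at h1
    simp only [sq]
    exact_mod_cast h1

open Cfsg.Agent.Char MulAction in
theorem partA {G : Type*} [Group G] [Fintype G] {Ω : Type*} [Fintype Ω] [MulAction G Ω]
    [IsPretransitive G Ω] (a : Ω) (f : ℕ) (hf : ∀ χ : G → ℂ, IsIrrCharacter G χ →
      χ ≠ (fun _ => 1) → classInner (permChar G Ω) χ ≠ 0 → χ 1 = f) :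
    (∀ χ : G → ℂ, IsIrrCharacter G χ →
      classInner (permChar G Ω) χ = 0 ∨ classInner (permChar G Ω) χ = 1) ∧
    ∀ b : Ω, b ≠ a → Nat.card (orbit (stabilizer G a) b) = f := by
  classical
  obtain ⟨c, hc, h1, h2, h3⟩ := aux (G := G) a
  have := Fintype.ofFinite (orbitRel.Quotient (stabilizer G a) Ω)
  have hdvd : ∀ b, b ≠ a → f ≤ Nat.card (orbit (stabilizer G a) b) := fun b hb =>
    Nat.le_of_dvd (Nat.card_pos_iff.2 ⟨⟨b, mem_orbit_self b⟩, inferInstance⟩)
      (Perm.Orbital.dvd_card_orbit f (fun χ h4 h5 h6 => ⟨1, by rw [hf χ h4 h5 h6]; simp⟩) hb)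
  have h4 : Nat.card Ω = ∑ ω : orbitRel.Quotient (stabilizer G a) Ω, Nat.card ω.orbit := by
    rw [Nat.card_congr (selfEquivSigmaOrbits' (stabilizer G a) Ω), Nat.card_sigma]
  have h5 : orbit (stabilizer G a) a = {a} := by
    ext x; constructor
    · rintro ⟨g, rfl⟩; exact g.2
    · rintro rfl; exact mem_orbit_self _
  set q : orbitRel.Quotient (stabilizer G a) Ω := Quotient.mk'' a with hq
  have h6 : ∀ b : Ω, (Quotient.mk'' b : orbitRel.Quotient (stabilizer G a) Ω) ≠ q ↔ b ≠ a := by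
    intro b
    rw [hq, Ne, Quotient.eq'', orbitRel_apply, h5]; rfl
  have h7 : ∀ ω ∈ Finset.univ.erase q, f ≤ Nat.card ω.orbit := by
    intro ω hω
    induction ω using Quotient.inductionOn' with
    | h b => exact hdvd b ((h6 b).1 (Finset.ne_of_mem_erase hω))
  rw [← Finset.add_sum_erase _ _ (Finset.mem_univ q), hq, orbitRel.Quotient.orbit_mk, h5,
    Nat.card_unique (α := ({a} : Set Ω)), ← hq] at h4
  have h8 : ∀ χ ∈ Finset.univ.erase (irrOne G), (c χ : ℂ) * (χ : G → ℂ) 1 = c χ * f := by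
    intro χ hχ
    by_cases h : c χ = 0
    · simp [h]
    · rw [hf χ χ.2 (fun h => Finset.ne_of_mem_erase hχ (Subtype.ext h)) (by rw [hc]; simpa using h)]
  rw [← Finset.add_sum_erase _ _ (Finset.mem_univ (irrOne G)), h1, Finset.sum_congr rfl h8,
    ← Finset.sum_mul] at h2
  have h9 : Nat.card Ω = 1 + (∑ χ ∈ Finset.univ.erase (irrOne G), c χ) * f := by
    simp only [irrOne_apply] at h2; exact_mod_cast h2
  rw [← Finset.add_sum_erase _ _ (Finset.mem_univ (irrOne G)), h1, Nat.card_eq_fintype_card] at h3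
  have h10 := Finset.sum_le_sum h7
  rw [Finset.sum_const, Finset.card_erase_of_mem (Finset.mem_univ _), Finset.card_univ, h3,
    smul_eq_mul, one_pow, Nat.add_sub_cancel_left] at h10
  have h11 : ∀ χ ∈ Finset.univ.erase (irrOne G), c χ ≤ c χ ^ 2 := fun χ _ => Nat.le_self_pow two_ne_zero _
  have h12 := Finset.sum_le_sum h11
  refine ⟨fun χ hχ => ?_, fun b hb => ?_⟩
  · rw [hc ⟨χ, hχ⟩]
    by_cases h : (⟨χ, hχ⟩ : IrrCharacter G) = irrOne G
    · rw [h, h1]; simp
    by_cases h0 : c ⟨χ, hχ⟩ = 0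
    · simp [h0]
    have hf0 : 0 < f := Nat.pos_of_ne_zero fun h13 => hχ.one_ne_zero (by
      rw [hf χ hχ (fun h' => h (Subtype.ext h')) (by rw [hc ⟨χ, hχ⟩]; simpa using h0), h13]; simp)
    have h13 := (Finset.sum_eq_sum_iff_of_le h11).1 (le_antisymm h12
      (Nat.le_of_mul_le_mul_right (by omega) hf0)) _ (Finset.mem_erase.2 ⟨h, Finset.mem_univ _⟩)
    right
    have : c ⟨χ, hχ⟩ = 1 := by nlinarith [Nat.pos_of_ne_zero h0]
    rw [this]; simp
  · refine ((Finset.sum_eq_sum_iff_of_le h7).1 (le_antisymm (Finset.sum_le_sum h7) ?_) _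
      (Finset.mem_erase.2 ⟨(h6 b).2 hb, Finset.mem_univ _⟩)).symm
    rw [Finset.sum_const, Finset.card_erase_of_mem (Finset.mem_univ _), Finset.card_univ, h3,
      smul_eq_mul, one_pow, Nat.add_sub_cancel_left]
    have := Nat.mul_le_mul_right f h12
    omega

open Cfsg.Agent.Char in

/-- (a) If all non-principal irreducible constituents of the permutation character of a transitive group have the same degree `f`, the character is multiplicity-free and all non-trivial subdegrees equal `f`. (b) A transitive group of rank at most 5 has multiplicity-free permutation character. -/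
theorem result {G : Type*} [Group G] [Fintype G] {Ω : Type*} [Fintype Ω] [MulAction G Ω] [MulAction.IsPretransitive G Ω] (a : Ω) : ((f : ℕ) → (∀ χ : G → ℂ, Cfsg.IsIrrCharacter G χ → χ ≠ (fun _ => 1) → Cfsg.classInner (fun g : G => (Nat.card (MulAction.fixedBy Ω g) : ℂ)) χ ≠ 0 → χ 1 = f) → (∀ χ : G → ℂ, Cfsg.IsIrrCharacter G χ → Cfsg.classInner (fun g : G => (Nat.card (MulAction.fixedBy Ω g) : ℂ)) χ = 0 ∨ Cfsg.classInner (fun g : G => (Nat.card (MulAction.fixedBy Ω g) : ℂ)) χ = 1) ∧ ∀ b : Ω, b ≠ a → Nat.card (MulAction.orbit (MulAction.stabilizer G a) b) = f) ∧ (Nat.card (MulAction.orbitRel.Quotient (MulAction.stabilizer G a) Ω) ≤ 5 → ∀ χ : G → ℂ, Cfsg.IsIrrCharacter G χ → Cfsg.classInner (fun g : G => (Nat.card (MulAction.fixedBy Ω g) : ℂ)) χ = 0 ∨ Cfsg.classInner (fun g : G => (Nat.card (MulAction.fixedBy Ω g) : ℂ)) χ = 1) := by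
  classical
  refine ⟨partA a, fun hr χ hχ => ?_⟩
  change classInner (permChar G Ω) χ = 0 ∨ classInner (permChar G Ω) χ = 1
  by_contra h0
  obtain ⟨c, hc, h1, -, h3⟩ := aux (G := G) a
  obtain ⟨f, -, hf⟩ := hχ.exists_nat_one
  refine h0 ((partA a f fun ψ hψ h4 h5 => ?_).1 χ hχ)
  by_contra h6
  rw [hc ⟨χ, hχ⟩] at h0
  rw [hc ⟨ψ, hψ⟩, Nat.cast_ne_zero] at h5
  have h7 : 2 ≤ c ⟨χ, hχ⟩ := by
    by_contra h7
    have : c ⟨χ, hχ⟩ = 0 ∨ c ⟨χ, hχ⟩ = 1 := by omega
    rcases this with h | h <;> simp [h] at h0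
  have h8 := Finset.sum_le_sum_of_subset (f := fun χ => c χ ^ 2)
    (Finset.subset_univ ({irrOne G, ⟨χ, hχ⟩, ⟨ψ, hψ⟩} : Finset (IrrCharacter G)))
  have n1 : irrOne G ≠ ⟨χ, hχ⟩ := fun h => by rw [h] at h1; omega
  have n2 : irrOne G ≠ ⟨ψ, hψ⟩ := fun h => h4 (congrArg Subtype.val h).symm
  have n3 : (⟨χ, hχ⟩ : IrrCharacter G) ≠ ⟨ψ, hψ⟩ := fun h => h6 (by
    rw [← hf, show χ = ψ from congrArg Subtype.val h])
  rw [Finset.sum_insert (by simp [n1, n2]), Finset.sum_pair n3, h1] at h8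
  nlinarith [Nat.pos_of_ne_zero h5]

end Cfsg.Agent.S0716
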