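import Cfsg.Statements.S0717
import Cfsg.Agent.Char.RealClifford
import Cfsg.Agent.Char.PermRank
import Cfsg.Agent.Char.PermChar

set_option autoImplicit false
open Cfsg

namespace Cfsg.Agent.S0717

open Cfsg.Agent.Char MulAction


/-- All suborbits of a transitive group are self-paired (every pair of points is interchanged by some group element) if and only if the permutation character is multiplicity-free and each of its irreducible constituents is real-valued. -/
theorem result {G : Type*} [Group G] [Fintype G] {Ω : Type*} [Fintype Ω] [MulAction G Ω] [MulAction.IsPretransitive G Ω] : (∀ a b : Ω, ∃ g : G, g • a = b ∧ g • b = a) ↔ ∀ χ : G → ℂ, Cfsg.IsIrrCharacter G χ → Cfsg.classInner (fun g : G => (Nat.card (MulAction.fixedBy Ω g) : ℂ)) χ ≠ 0 → Cfsg.classInner (fun g : G => (Nat.card (MulAction.fixedBy Ω g) : ℂ)) χ = 1 ∧ ∀ g : G, (starRingEnd ℂ) (χ g) = χ g := by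
  classical
  change _ ↔ ∀ χ : G → ℂ, IsIrrCharacter G χ → classInner (permChar G Ω) χ ≠ 0 →
    classInner (permChar G Ω) χ = 1 ∧ _
  have hπ := isCharacter_permChar (G := G) Ω
  obtain ⟨c, hc, -⟩ := hπ.exists_coeff
  let s : Ω × Ω → ℕ := fun x => (Finset.univ.filter fun g : G => g • x.1 = x.2 ∧ g • x.2 = x.1).card
  let t : Ω × Ω → ℕ := fun x => (Finset.univ.filter fun g : G => g • x.1 = x.1 ∧ g • x.2 = x.2).card
  have hst : ∀ x, (∃ g : G, g • x.1 = x.2 ∧ g • x.2 = x.1) → s x = t x := by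
    rintro x ⟨g, h1, h2⟩
    refine Finset.card_bij (fun h _ => g⁻¹ * h) (fun h hh => ?_) (fun a _ b _ e => by simpa using e)
      fun h hh => ⟨g * h, ?_, by simp⟩
    · simp only [Finset.mem_filter, Finset.mem_univ, true_and] at hh ⊢
      rw [mul_smul, mul_smul, hh.1, hh.2, inv_smul_eq_iff, inv_smul_eq_iff]
      exact ⟨h1.symm, h2.symm⟩
    · simp only [Finset.mem_filter, Finset.mem_univ, true_and] at hh ⊢
      rw [mul_smul, mul_smul, hh.1, hh.2]
      exact ⟨h1, h2⟩
  have hst' : ∀ x, ¬ (∃ g : G, g • x.1 = x.2 ∧ g • x.2 = x.1) → s x < t x := by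
    intro x h
    have h1 : s x = 0 := by
      simp only [s, Finset.card_eq_zero, Finset.filter_eq_empty_iff]
      exact fun g _ hg => h ⟨g, hg⟩
    rw [h1]
    exact Finset.card_pos.mpr ⟨1, by simp⟩
  have hle : ∀ x, s x ≤ t x := fun x => by
    by_cases h : ∃ g : G, g • x.1 = x.2 ∧ g • x.2 = x.1
    · exact (hst x h).le
    · exact (hst' x h).le
  have hs : ((∑ x, s x : ℕ) : ℂ) = Nat.card G * ∑ χ : IrrCharacter G, c χ * fsInd (χ : G → ℂ) := by
    simp only [← hc]
    rw [← hπ.isClassFunction.fsInd_eq_sum, fsInd_def, mul_inv_cancel_left₀ (card_ne_zero G)]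
    simp only [permChar_apply, s, Finset.card_filter]
    rw [Finset.sum_comm, Nat.cast_sum]
    refine Finset.sum_congr rfl fun g _ => ?_
    rw [← Finset.card_filter, Nat.card_eq_fintype_card, Fintype.card_subtype, Nat.cast_inj]
    refine Finset.card_bij (fun x _ => x.1) (fun x hx => ?_) (fun x hx y hy e => ?_)
      fun a ha => ⟨(a, g • a), ?_, rfl⟩
    · simp only [Finset.mem_filter, Finset.mem_univ, true_and, mem_fixedBy] at hx ⊢
      rw [mul_smul, hx.1, hx.2]
    · simp only [Finset.mem_filter, Finset.mem_univ, true_and] at hx hy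
      exact Prod.ext e (by rw [← hx.1, ← hy.1, e])
    · simpa [mul_smul] using ha
  have ht : ((∑ x, t x : ℕ) : ℂ) = Nat.card G * ∑ χ : IrrCharacter G, (c χ : ℂ) * c χ := by
    have h1 := hπ.isClassFunction.inner_eq_sum (permChar G Ω)
    simp only [hc, Complex.conj_natCast] at h1
    rw [← h1, ← sum_mul_conj_eq]
    simp only [conj_permChar, t, Finset.card_filter]
    rw [Finset.sum_comm, Nat.cast_sum]
    refine Finset.sum_congr rfl fun g _ => ?_
    rw [← Finset.card_filter, ← Pi.mul_apply, ← permChar_prod, permChar_apply,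
      Nat.card_eq_fintype_card, Fintype.card_subtype, Nat.cast_inj]
    congr 1
    ext x
    simp [Prod.ext_iff]
  obtain ⟨ν, hν⟩ : ∃ ν : IrrCharacter G → ℤ,
      ∀ χ : IrrCharacter G, fsInd (χ : G → ℂ) = ν χ ∧ ν χ ≤ 1 := by
    refine ⟨fun χ => if fsInd (χ : G → ℂ) = 1 then 1 else if fsInd (χ : G → ℂ) = 0 then 0 else -1,
      fun χ => ?_⟩
    rcases fsInd_trichotomy χ.2 with e | e | e <;> simp [e, neg_eq_iff_add_eq_zero]
  have key : ∑ x, s x = ∑ x, t x ↔ ∀ χ, (c χ : ℤ) * ν χ = c χ * c χ := by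
    rw [← Nat.cast_inj (R := ℂ), hs, ht, mul_right_inj' (card_ne_zero G)]
    simp only [(hν _).1]
    have h1 : ∀ χ ∈ Finset.univ, (c χ : ℤ) * ν χ ≤ c χ * c χ := fun χ _ => by
      have := (hν χ).2
      rcases Nat.eq_zero_or_pos (c χ) with h | h
      · simp [h]
      · nlinarith
    have h2 := Finset.sum_eq_sum_iff_of_le h1
    simp only [Finset.mem_univ, true_imp_iff] at h2
    rw [← h2]
    exact_mod_cast Iff.rfl
  constructor
  · intro h χ hχ hne
    have h1 := key.mp (Finset.sum_congr rfl fun x _ => hst x (h x.1 x.2)) ⟨χ, hχ⟩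
    have h2 := hc ⟨χ, hχ⟩
    have h3 := hν ⟨χ, hχ⟩
    simp only at h2 h3
    rw [h2] at hne ⊢
    have h4 : (0 : ℤ) < c ⟨χ, hχ⟩ := by exact_mod_cast Nat.pos_of_ne_zero (by exact_mod_cast hne)
    have h5 := mul_left_cancel₀ h4.ne' h1
    have h6 : c ⟨χ, hχ⟩ = 1 := by omega
    refine ⟨by rw [h6, Nat.cast_one], fun g => Complex.conj_eq_iff_im.mpr
      (real_of_fsInd_eq_one hχ (by rw [h3.1, h5, h6]; simp) g)⟩
  · intro h a b
    by_contra hab
    refine (Finset.sum_lt_sum (fun x _ => hle x) ⟨(a, b), Finset.mem_univ _, hst' _ hab⟩).ne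
      (key.mpr fun χ => ?_)
    by_cases h0 : c χ = 0
    · simp [h0]
    obtain ⟨h1, h2⟩ := h χ χ.2 (by rw [hc]; exact_mod_cast h0)
    have h3 : fsInd (χ : G → ℂ) = 1 := by
      refine fsInd_eq_one_of_odd_inner_indFun χ.2 (fun g => Complex.conj_eq_iff_im.mp (h2 g))
        (stabilizer G a) odd_one ?_
      rw [funext (PermChar.indFun_stabilizer_one_of_pretransitive a), Nat.cast_one]
      exact h1
    rw [hc] at h1
    rw [(hν χ).1] at h3
    have h4 : c χ = 1 := by exact_mod_cast h1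
    have h5 : ν χ = 1 := by exact_mod_cast h3
    simp [h4, h5]

end Cfsg.Agent.S0717
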