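import Cfsg.Statements.S0719
import Cfsg.Agent.Perm.Orbital

set_option autoImplicit false
open Cfsg

namespace Cfsg.Agent.S0719

open Cfsg.Agent.Char MulAction Perm.Orbital Perm.TwoP

theorem arith {m k : ℕ} {α : ℤ} {β r s : ℂ} (hk : 2 ≤ k) (hk' : k + 3 ≤ 2 * m)
    (h1 : 0 = k + r * (m - 1) + s * m) (h2 : 2 * m * k = k * k + r * r * (m - 1) + s * s * m)
    (h3 : r * r = α * r + β) (h4 : s * s = α * s + β) :
    ∃ t : ℤ, (m : ℤ) = 2 * t ^ 2 + 2 * t + 1 ∧ (k : ℤ) = t * (2 * t + 1) := by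
  have hm : (m : ℂ) ≠ 0 := Nat.cast_ne_zero.2 (by omega)
  have hk0 : (k : ℂ) ≠ 0 := Nat.cast_ne_zero.2 (by omega)
  by_cases hrs : r = s
  · subst hrs
    have h5 : (k : ℂ) + 1 = 2 * m := by
      apply mul_left_cancel₀ hm; apply mul_left_cancel₀ hk0
      linear_combination (-(2 * m - 1) / 2) * h2 + ((r * (2 * m - 1) - k) / 2) * h1
    have h6 : k + 1 = 2 * m := by exact_mod_cast h5
    omega
  have h5 : r = α - s := by
    apply mul_left_cancel₀ (sub_ne_zero.2 hrs); linear_combination h3 - h4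
  have h6 : s = -k - (m - 1) * α := by rw [h5] at h1; linear_combination -h1
  have h7 : 2 * (k : ℂ) = 2 * (k + (m - 1) * α) ^ 2 + (m - 1) * α ^ 2 := by
    apply mul_left_cancel₀ hm
    rw [h5, h6] at h2
    linear_combination h2
  have h8 : 2 * (k : ℤ) = 2 * (k + (m - 1) * α) ^ 2 + (m - 1) * α ^ 2 := by exact_mod_cast h7
  have h9 : α ^ 2 < 2 ^ 2 := by
    by_contra! h
    nlinarith [sq_nonneg (k + (m - 1) * α), show (k : ℤ) + 3 ≤ 2 * m by exact_mod_cast hk']
  have h10 := abs_lt.1 (abs_lt_of_sq_lt_sq h9 (by norm_num))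
  have h11 : α = -1 ∨ α = 0 ∨ α = 1 := by omega
  have hk2 : (2 : ℤ) ≤ k := by exact_mod_cast hk
  have hk3 : (k : ℤ) + 3 ≤ 2 * m := by exact_mod_cast hk'
  rcases h11 with rfl | rfl | rfl
  · exact ⟨m - 1 - k, by linear_combination h8, by linear_combination h8⟩
  · nlinarith
  · nlinarith

theorem all_fixed {G : Type*} [Group G] [Finite G] {Ω : Type*} [MulAction G Ω]
    (hprim : IsPreprimitive G Ω) {a b : Ω} (hab : b ≠ a)
    (h : Nat.card (orbit (stabilizer G a) b) = 1) (c : Ω) :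
    Nat.card (orbit (stabilizer G a) c) = 1 := by
  have h1 : stabilizer G a ≤ stabilizer G b := fun g hg => by
    have := (Nat.card_eq_one_iff_unique.1 h).1
    exact congrArg Subtype.val (Subsingleton.elim
      (⟨_, mem_orbit b (⟨g, hg⟩ : stabilizer G a)⟩ : orbit (stabilizer G a) b)
      ⟨b, mem_orbit_self b⟩)
  have h2 : stabilizer G a = stabilizer G b := by
    refine Subgroup.eq_of_le_of_card_ge h1 ?_
    obtain ⟨g, rfl⟩ := exists_smul_eq G a b
    rw [stabilizer_smul_eq_stabilizer_map_conj, Subgroup.card_map_of_injective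
      (MulEquiv.injective _)]
  rcases Perm.rel_trivial_of_isPreprimitive hprim (fun x y => stabilizer G x = stabilizer G y)
    ⟨fun _ => rfl, Eq.symm, Eq.trans⟩ (fun g x y h => by
      rw [stabilizer_smul_eq_stabilizer_map_conj, stabilizer_smul_eq_stabilizer_map_conj, h])
    with h3 | h3
  · exact absurd (h3 _ _ h2).symm hab
  · have : orbit (stabilizer G a) c = {c} := by
      ext x; constructor
      · rintro ⟨g, rfl⟩; exact (h3 a c ▸ g.2 : (g : G) ∈ stabilizer G c)
      · rintro rfl; exact mem_orbit_self _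
    rw [this]; exact Nat.card_unique

theorem exists_third {G : Type*} [Group G] {Ω : Type*} [Fintype Ω] [MulAction G Ω] [IsPretransitive G Ω]
    {a b : Ω} (hab : b ≠ a) (hrank : Nat.card (orbitRel.Quotient (stabilizer G a) Ω) = 3) :
    ∃ c, c ≠ a ∧ (∀ x y, ¬ (orbl G a b x y ∧ orbl G a c x y)) ∧
      ∀ x y, x = y ∨ orbl G a b x y ∨ orbl G a c x y := by
  classical
  have : Finite (orbitRel.Quotient (stabilizer G a) Ω) := Nat.finite_of_card_ne_zero (by omega)
  have := Fintype.ofFinite (orbitRel.Quotient (stabilizer G a) Ω)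
  have hq : ∀ x y : Ω, (Quotient.mk'' x : orbitRel.Quotient (stabilizer G a) Ω) = Quotient.mk'' y ↔
      orbl G a y a x := fun x y => by
    rw [Quotient.eq'', orbitRel_apply]
    exact ⟨fun ⟨g, hg⟩ => ⟨g, g.2, hg⟩, fun ⟨g, h1, h2⟩ => ⟨⟨g, h1⟩, h2⟩⟩
  have h1 : (Quotient.mk'' a : orbitRel.Quotient (stabilizer G a) Ω) ≠ Quotient.mk'' b := by
    rw [Ne, hq]; rintro ⟨g, h1, h2⟩; exact hab (smul_left_cancel g (h2.trans h1.symm))
  obtain ⟨q, h2⟩ := Finset.card_eq_one.1 (show (({Quotient.mk'' a, Quotient.mk'' b} :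
      Finset (orbitRel.Quotient (stabilizer G a) Ω))ᶜ).card = 1 by
    rw [Finset.card_compl, Finset.card_pair h1, ← Nat.card_eq_fintype_card, hrank])
  induction q using Quotient.inductionOn' with
  | h c =>
  have h3 : ∀ x : Ω, (¬ orbl G a a a x ∧ ¬ orbl G a b a x) ↔ orbl G a c a x := fun x => by
    have := Finset.ext_iff.1 h2 (Quotient.mk'' x)
    simpa only [Finset.mem_compl, Finset.mem_insert, Finset.mem_singleton, not_or, hq] using this
  have h4 := (h3 c).2 ⟨1, by simp, by simp⟩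
  refine ⟨c, ?_, ?_, fun x y => ?_⟩
  · rintro rfl; exact h4.1 ⟨1, by simp, by simp⟩
  · rintro _ _ ⟨⟨g, rfl, rfl⟩, k, h5, h6⟩
    exact h4.2 ⟨k⁻¹ * g, by rw [mul_smul, ← h5, inv_smul_smul], by
      rw [mul_smul, ← h6, inv_smul_smul]⟩
  · obtain ⟨g, rfl⟩ := exists_smul_eq G a x
    obtain ⟨z, rfl⟩ := MulAction.surjective g y
    by_cases h5 : orbl G a a a z
    · obtain ⟨k, h6, h7⟩ := h5
      exact Or.inl (by rw [← h7, h6])
    by_cases h6 : orbl G a b a z
    · exact Or.inr (Or.inl (orbl_inv _ _ _ _ _ h6))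
    · exact Or.inr (Or.inr (orbl_inv _ _ _ _ _ ((h3 z).1 ⟨h5, h6⟩)))

theorem key {G : Type*} [Group G] [Fintype G] {Ω : Type*} [Fintype Ω] [MulAction G Ω]
    (hprim : IsPreprimitive G Ω) {m : ℕ} (hm : Fintype.card Ω = 2 * m) (a : Ω)
    (hrank : Nat.card (orbitRel.Quotient (stabilizer G a) Ω) = 3) (χ₁ χ₂ : G → ℂ)
    (h₁ : IsIrrCharacter G χ₁) (h₂ : IsIrrCharacter G χ₂)
    (hπ : permChar G Ω = (fun _ => 1) + χ₁ + χ₂) (hd₁ : χ₁ 1 = (m : ℂ) - 1) (hd₂ : χ₂ 1 = m)
    {b : Ω} (hab : b ≠ a) : ∃ t : ℤ, (m : ℤ) = 2 * t ^ 2 + 2 * t + 1 ∧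
      (Nat.card (orbit (stabilizer G a) b) : ℤ) = t * (2 * t + 1) := by
  classical
  have : Nonempty Ω := ⟨a⟩
  have h₀ := isIrrCharacter_one (G := G)
  have n12 : χ₁ ≠ χ₂ := fun h => by
    rw [h, hd₂] at hd₁; exact one_ne_zero (by linear_combination hd₁)
  have i1 := classInner_permChar_one_of_isPretransitive (G := G) Ω
  rw [hπ, classInner_add_left, classInner_add_left, h₀.inner_self, h₁.inner_eq_ite h₀,
    h₂.inner_eq_ite h₀] at i1
  have n0 : χ₁ ≠ (fun _ => 1) ∧ χ₂ ≠ fun _ => 1 := by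
    split_ifs at i1 with e1 e2 e2
    · norm_num at i1
    · norm_num at i1
    · norm_num at i1
    · exact ⟨e1, e2⟩
  have hρ := (char_permRep (G := G) (Ω := Ω)).trans hπ
  have m1 : classInner (permRep ℂ G Ω).character χ₁ = 1 := by
    rw [hρ, classInner_add_left, classInner_add_left, h₁.inner_self, h₀.inner_eq_zero h₁ n0.1.symm,
      h₂.inner_eq_zero h₁ n12.symm]; simp
  have m2 : classInner (permRep ℂ G Ω).character χ₂ = 1 := by
    rw [hρ, classInner_add_left, classInner_add_left, h₂.inner_self, h₀.inner_eq_zero h₂ n0.2.symm,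
      h₁.inner_eq_zero h₂ n12]; simp
  have htr : ∀ M : Matrix Ω Ω ℚ, Inv G M → ((∑ x, M x x : ℚ) : ℂ) = ((∑ y, M a y : ℚ) : ℂ) +
      classInner (tau (permRep ℂ G Ω) (op M)) χ₁ * (m - 1) +
      classInner (tau (permRep ℂ G Ω) (op M)) χ₂ * m := by
    intro M hM
    rw [trace_eq_sum hM, ← Finset.sum_subset
      (Finset.subset_univ ({irrOne G, ⟨χ₁, h₁⟩, ⟨χ₂, h₂⟩} : Finset (IrrCharacter G))),
      Finset.sum_insert (by simpa [irrOne, eq_comm] using n0), Finset.sum_pair (by simpa using n12),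
      ← inner_one hM a, ← hd₁, ← hd₂, add_assoc]
    · simp [irrOne]
    · intro χ _ hχ
      simp only [Finset.mem_insert, Finset.mem_singleton, not_or, Subtype.ext_iff, irrOne] at hχ
      rw [(comm_op hM).inner_eq_zero χ.2.isCharacter, zero_mul]
      rw [hρ, classInner_add_left, classInner_add_left, h₀.inner_eq_zero χ.2 (Ne.symm hχ.1),
        h₁.inner_eq_zero χ.2 (Ne.symm hχ.2.1), h₂.inner_eq_zero χ.2 (Ne.symm hχ.2.2)]; simp
  obtain ⟨c, hca, hdis, hcov⟩ := exists_third hab hrank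
  have irr : ∀ {b}, b ≠ a → ∀ x, ¬ orbl G a b x x := by
    rintro b hb x ⟨h, h1, h2⟩; exact hb (smul_left_cancel h (h2.trans h1.symm))
  obtain ⟨A, hAd⟩ : ∃ A, A = adj (orbl G a b) := ⟨_, rfl⟩
  have hA : Inv G A := hAd ▸ inv_adj (orbl_inv a b)
  have hexp : ∀ M : Matrix Ω Ω ℚ, Inv G M →
      M = (M a b - M a c) • A + (M a a - M a c) • 1 + M a c • ones Ω := by
    intro M hM
    ext x y
    simp only [hAd, Matrix.add_apply, Matrix.smul_apply, adj_apply, Matrix.one_apply, ones,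
      Matrix.of_apply, smul_eq_mul]
    rcases hcov x y with rfl | h | h
    · obtain ⟨g, rfl⟩ := exists_smul_eq G a x
      rw [if_neg (irr hab _), hM]; simp
    · rw [if_pos h, if_neg (by rintro rfl; exact irr hab _ h)]
      obtain ⟨g, rfl, rfl⟩ := h
      rw [hM]; simp
    · rw [if_neg fun h' => hdis _ _ ⟨h', h⟩, if_neg (by rintro rfl; exact irr hca _ h)]
      obtain ⟨g, rfl, rfl⟩ := h
      rw [hM]; simp
  obtain ⟨k, hk⟩ : ∃ k, k = Nat.card (orbit (stabilizer G a) b) := ⟨_, rfl⟩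
  obtain ⟨l, hl⟩ : ∃ l, l = Nat.card (orbit (stabilizer G a) c) := ⟨_, rfl⟩
  have hrow : ∀ x, ∑ y, A x y = k := fun x => by
    rw [hA.rowsum x a, hAd, sum_adj, hk, card_orbit_eq_val]
  have hsum : ∀ M : Matrix Ω Ω ℚ, Inv G M →
      ∑ y, M a y = (M a b - M a c) * k + (M a a - M a c) + M a c * (2 * m) := by
    intro M hM
    conv_lhs => rw [hexp M hM]
    simp [Finset.sum_add_distrib, ← Finset.mul_sum, hrow, Matrix.one_apply, ones, hm, mul_comm (M a c)]
  have hkl : k + l + 1 = 2 * m := by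
    have h1 := hsum _ (inv_adj (orbl_inv (G := G) a c))
    rw [sum_adj, ← card_orbit_eq_val, ← hl, adj_apply, adj_apply, adj_apply, if_neg (irr hca _),
      if_pos (show orbl G a c a c from ⟨1, by simp, by simp⟩),
      if_neg fun h => hdis _ _ ⟨⟨1, by simp, by simp⟩, h⟩] at h1
    have : (k + l + 1 : ℚ) = 2 * m := by linear_combination h1
    exact_mod_cast this
  have pos : ∀ x : Ω, 0 < Nat.card (orbit (stabilizer G a) x) := fun x =>
    Nat.card_pos_iff.2 ⟨⟨x, mem_orbit_self x⟩, inferInstance⟩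
  have hk1 : 2 ≤ k := by
    have := pos b
    by_contra h
    have := all_fixed hprim hab (by omega) c
    omega
  have hl1 : 2 ≤ l := by
    have := pos c
    by_contra h
    have := all_fixed hprim hca (by omega) b
    omega
  have h01 : ∀ x y, A x y = 0 ∨ A x y = 1 := fun x y => by
    rw [hAd, adj_apply]; split_ifs <;> simp
  have hdiag : ∀ x, A x x = 0 := fun x => by rw [hAd, adj_apply, if_neg (irr hab _)]
  have hsymm : A.transpose = A := by
    have hT : Inv G A.transpose := fun g x y => hA g y x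
    have h1 := hsum _ hT
    have h2 : ∑ y, A.transpose a y = k := by
      have h3 : ∑ x, ∑ y, A x y = ∑ y, ∑ x, A x y := Finset.sum_comm
      simp only [hrow, fun y => hA.colsum y a, Finset.sum_const, nsmul_eq_mul] at h3
      exact (mul_left_cancel₀ (by simp) h3).symm
    have h3 := hexp _ hT
    simp only [Matrix.transpose_apply, hdiag] at h1 h2 h3
    have hkl' : (k + l + 1 : ℚ) = 2 * m := by exact_mod_cast hkl
    rw [h2, ← hkl'] at h1
    rcases h01 b a with e1 | e1 <;> rcases h01 c a with e2 | e2 <;> rw [e1, e2] at h1 h3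
    · have : k = 0 := by exact_mod_cast (show (k : ℚ) = 0 by linear_combination h1)
      omega
    · have : k = l := by exact_mod_cast (show (k : ℚ) = l by linear_combination h1)
      omega
    · simpa using h3
    · have : l = 0 := by exact_mod_cast (show (l : ℚ) = 0 by linear_combination -h1)
      omega
  have hAA : Inv G (A * A) := fun g x y => by
    simp only [Matrix.mul_apply]
    exact (Fintype.sum_equiv (MulAction.toPerm g) _ _ fun z => by simp [hA g]).symm
  have hint : ∀ x y, ∃ z : ℤ, (A * A) x y = z := fun x y =>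
    ⟨∑ z, if A x z = 1 ∧ A z y = 1 then 1 else 0, by
      rw [Matrix.mul_apply]; push_cast
      refine Finset.sum_congr rfl fun z _ => ?_
      rcases h01 x z with e1 | e1 <;> rcases h01 z y with e2 | e2 <;> simp [e1, e2]⟩
  obtain ⟨u, hu⟩ := hint a b
  obtain ⟨v, hv⟩ := hint a c
  have hq : ∀ χ, IsIrrCharacter G χ → χ ≠ (fun _ => 1) →
      classInner (permRep ℂ G Ω).character χ = 1 →
      classInner (tau (permRep ℂ G Ω) (op A)) χ * classInner (tau (permRep ℂ G Ω) (op A)) χ =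
        ((u - v : ℤ) : ℂ) * classInner (tau (permRep ℂ G Ω) (op A)) χ +
          (((A * A) a a - v : ℚ) : ℂ) := by
    intro χ hχ h1 h2
    rw [← inner_mul hχ h2 (comm_op hA) (comm_op hA), ← map_mul]
    conv_lhs => rw [hexp _ hAA]
    simp only [map_add, op_smul, map_one, tau_add, tau_smul, tau_one, tau_ones,
      classInner_add_left, classInner_smul_left, h2, h₀.inner_eq_zero hχ h1.symm, hu, hv]
    push_cast; ring
  have e1 := htr A hA
  have e2 := htr _ hAA
  rw [map_mul, inner_mul h₁ m1 (comm_op hA) (comm_op hA),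
    inner_mul h₂ m2 (comm_op hA) (comm_op hA)] at e2
  have e3 : ∑ x, (A * A) x x = 2 * m * k := by
    have : ∀ x, (A * A) x x = k := fun x => by
      rw [← hrow x, Matrix.mul_apply]
      refine Finset.sum_congr rfl fun z _ => ?_
      rw [show A z x = A x z from congrFun (congrFun hsymm x) z]
      rcases h01 x z with e | e <;> simp [e]
    simp [this, hm]
  have e4 : ∑ y, (A * A) a y = k * k := by
    simp only [Matrix.mul_apply]
    rw [Finset.sum_comm]
    simp only [← Finset.mul_sum, hrow, ← Finset.sum_mul]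
  simp only [hdiag, Finset.sum_const_zero, hrow] at e1
  rw [e3, e4] at e2
  rw [← hk]
  exact arith hk1 (by omega) (by exact_mod_cast e1) (by exact_mod_cast e2)
    (hq χ₁ h₁ n0.1 m1) (hq χ₂ h₂ n0.2 m2)


/-- Groups of Wielandt type: if a primitive group of degree `2m` has rank 3 and permutation character `1 + χ₁ + χ₂` with irreducible `χ₁, χ₂` of degrees `m - 1` and `m`, then `m = 2a² + 2a + 1` for some positive integer `a` and the two non-trivial subdegrees are `a(2a+1)` and `(a+1)(2a+1)`. -/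
theorem result {G : Type*} [Group G] [Fintype G] {Ω : Type*} [Fintype Ω] [MulAction G Ω] (hprim : MulAction.IsPreprimitive G Ω) {m : ℕ} (hm : Fintype.card Ω = 2 * m) (a₀ : Ω) (hrank : Nat.card (MulAction.orbitRel.Quotient (MulAction.stabilizer G a₀) Ω) = 3) (χ₁ χ₂ : G → ℂ) (h₁ : Cfsg.IsIrrCharacter G χ₁) (h₂ : Cfsg.IsIrrCharacter G χ₂) (hπ : (fun g : G => (Nat.card (MulAction.fixedBy Ω g) : ℂ)) = fun g => 1 + χ₁ g + χ₂ g) (hd₁ : χ₁ 1 = (m : ℂ) - 1) (hd₂ : χ₂ 1 = m) : ∃ a : ℕ, 0 < a ∧ m = 2 * a ^ 2 + 2 * a + 1 ∧ ∀ b : Ω, b ≠ a₀ → Nat.card (MulAction.orbit (MulAction.stabilizer G a₀) b) = a * (2 * a + 1) ∨ Nat.card (MulAction.orbit (MulAction.stabilizer G a₀) b) = (a + 1) * (2 * a + 1) := by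
  have K := fun b (hb : b ≠ a₀) => key hprim hm a₀ hrank χ₁ χ₂ h₁ h₂ hπ hd₁ hd₂ hb
  obtain ⟨b₀, hb₀⟩ : ∃ b, b ≠ a₀ := by
    by_contra! h
    have : Subsingleton Ω := ⟨fun x y => (h x).trans (h y).symm⟩
    have := Finite.card_le_one_iff_subsingleton.2
      (inferInstance : Subsingleton (orbitRel.Quotient (stabilizer G a₀) Ω))
    omega
  obtain ⟨t, ht, -⟩ := K b₀ hb₀
  obtain ⟨a, ha⟩ : ∃ a : ℕ, (m : ℤ) = 2 * a ^ 2 + 2 * a + 1 := by
    rcases le_or_gt 0 t with h | h
    · lift t to ℕ using h; exact ⟨t, ht⟩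
    · obtain ⟨a, ha⟩ := Int.eq_ofNat_of_zero_le (show 0 ≤ -t - 1 by omega)
      exact ⟨a, by rw [ht, ← ha]; ring⟩
  refine ⟨a, Nat.pos_of_ne_zero ?_, by exact_mod_cast ha, fun b hb => ?_⟩
  · rintro rfl
    have : m = 1 := by exact_mod_cast ha
    exact h₁.one_ne_zero (by rw [hd₁, this]; simp)
  · obtain ⟨s, h1, h2⟩ := K b hb
    have h3 : (s - a) * (s + a + 1) = 0 := by linarith
    rcases mul_eq_zero.1 h3 with h | h
    · left; zify; rw [h2, show s = a by omega]
    · right; zify; rw [h2, show s = -a - 1 by omega]; ring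

end Cfsg.Agent.S0719
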