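import Cfsg.Statements.S0723
import Cfsg.Agent.Perm.AutPower
import Cfsg.Agent.S0722

set_option autoImplicit false
open Cfsg

namespace Cfsg.Agent.S0723

open MulAction

/-- The core of the O'Nan–Scott Theorem. Let `H` be a primitive permutation group on a finite set whose unique minimal normal subgroup `N` is non-abelian, and `K` a point stabiliser. Then there are a non-abelian simple group `T` and an isomorphism `N ≃* T^m` (`m ≥ 1`) under which `K ⊓ N` becomes either a product `∏ K_i` of proper subgroups `K_i < T`, or the set of functions constant on each block of a partition of the index set into blocks of one common size `k ≥ 2`. -/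
theorem result {α : Type*} [Finite α] (H : Subgroup (Equiv.Perm α)) [MulAction.IsPreprimitive H α] (N : Subgroup H) [N.Normal] (hN : N ≠ ⊥) (hmin : ∀ M : Subgroup H, M.Normal → M ≤ N → M = ⊥ ∨ M = N) (huniq : ∀ L : Subgroup H, L.Normal → L ≠ ⊥ → (∀ M : Subgroup H, M.Normal → M ≤ L → M = ⊥ ∨ M = L) → L = N) (hnab : ¬ IsMulCommutative N) (a : α) : ∃ (T : Type) (_ : Group T) (m : ℕ) (e : N ≃* (Fin m → T)), IsSimpleGroup T ∧ ¬ IsMulCommutative T ∧ 0 < m ∧ ((∃ K : Fin m → Subgroup T, (∀ i, K i ≠ ⊤) ∧ ∀ n : N, (n : H) ∈ MulAction.stabilizer H a ↔ ∀ i, e n i ∈ K i) ∨ (∃ (k : ℕ) (c : Fin m → Fin m), 2 ≤ k ∧ (∀ j : Fin m, Nat.card {i : Fin m // c i = j} = k ∨ Nat.card {i : Fin m // c i = j} = 0) ∧ ∀ n : N, (n : H) ∈ MulAction.stabilizer H a ↔ ∀ i j : Fin m, c i = c j → e n i = e n j)) := by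
  classical
  obtain ⟨T, _, m, hTs, hm, ⟨e⟩⟩ := Perm.exists_simple_type_mulEquiv_pi N hN hmin
  have hT : ¬ IsMulCommutative T := by
    intro h
    refine hnab ⟨⟨fun x y => e.injective ?_⟩⟩
    rw [map_mul, map_mul]
    funext i
    exact h.is_comm.comm _ _
  set K := stabilizer H a with hK
  have htrans : IsPretransitive N α := by
    apply IsQuasiPreprimitive.isPretransitive_of_normal
    intro h
    apply hN
    rw [eq_bot_iff]
    intro n hn
    rw [Subgroup.mem_bot]
    ext x
    exact (h ▸ Set.mem_univ x : x ∈ fixedPoints N α) ⟨n, hn⟩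
  have hNK : ¬ N ≤ K := by
    intro h
    apply hN
    rw [eq_bot_iff]
    intro n hn
    rw [Subgroup.mem_bot]
    ext x
    obtain ⟨n', rfl⟩ := exists_smul_eq N a x
    have h1 : (n' : H) • a = a := h n'.2
    have h2 : n • a = a := h hn
    change n • ((n' : H) • a) = (n' : H) • a
    rw [h1, h2]
  let D : Subgroup (Fin m → T) := (K.subgroupOf N).map e.toMonoidHom
  have memD : ∀ n : N, e n ∈ D ↔ (n : H) ∈ K := fun n => by
    simp only [D, Subgroup.mem_map_equiv, MulEquiv.symm_apply_apply, Subgroup.mem_subgroupOf]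
  let ψ : H → MulAut (Fin m → T) := fun h => e.symm.trans ((MulAut.conjNormal h).trans e)
  have hψ : ∀ h n, ψ h (e n) = e (MulAut.conjNormal h n) := fun h n => by simp [ψ]
  have hψD : ∀ k ∈ K, ∀ x, ψ k x ∈ D ↔ x ∈ D := by
    intro k hk x
    obtain ⟨n, rfl⟩ := e.surjective x
    rw [hψ, memD, memD, MulAut.conjNormal_apply, mul_mem_cancel_right (inv_mem hk),
      mul_mem_cancel_left hk]
  choose τ al hτ using fun h : H => Perm.exists_perm_of_mulAut_pi hT (ψ h)
  -- subgroups of `N` given by subgroups of the power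
  let up : Subgroup (Fin m → T) → Subgroup H := fun Y => (Y.comap e.toMonoidHom).map N.subtype
  have up_le : ∀ Y, up Y ≤ N := fun Y => Subgroup.map_subtype_le _
  have mem_up : ∀ Y (n : N), (n : H) ∈ up Y ↔ e n ∈ Y := by
    intro Y n
    constructor
    · rintro ⟨n', hn', h⟩
      rw [← Subtype.ext h]; exact hn'
    · intro h; exact ⟨n, h, rfl⟩
  have up_conj : ∀ Y (h : H), (∀ x ∈ Y, ψ h x ∈ Y) → ∀ x ∈ up Y, h * x * h⁻¹ ∈ up Y := by
    intro Y h hY x hx
    have hxN := up_le Y hx
    have := hY _ ((mem_up Y ⟨x, hxN⟩).1 hx)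
    rw [hψ, ← mem_up] at this
    exact this
  have inv_set : ∀ O : Set (Fin m), (∀ k ∈ K, ∀ j ∈ O, τ k j ∈ O) → O.Nonempty → O = Set.univ := by
    intro O hO ⟨i, hi⟩
    have hn : (up (Perm.coordKer ⊤ O)).Normal := by
      refine ⟨fun x hx h => ?_⟩
      obtain ⟨n, hn⟩ := exists_smul_eq N a (h • a)
      have hk : (n : H)⁻¹ * h ∈ K := by
        rw [hK, mem_stabilizer_iff, mul_smul, inv_smul_eq_iff]; exact hn.symm
      have h1 := up_conj (Perm.coordKer ⊤ O) ((n : H)⁻¹ * h)
        (fun y hy => Perm.mem_coordKer.2 ⟨Subgroup.mem_top _, fun j hj => by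
        rw [hτ, hy.2 _ (hO _ hk j hj), map_one]⟩) x hx
      have h2 := up_conj (Perm.coordKer ⊤ O) n (fun y hy => by
        obtain ⟨n', rfl⟩ := e.surjective y
        rw [hψ]
        have : MulAut.conjNormal (n : H) n' = n * n' * n⁻¹ := Subtype.ext (by simp)
        rw [this, map_mul, map_mul, map_inv]
        exact Perm.conj_mem_coordKer ⊤ O _ (Subgroup.mem_top _) _ hy) _ h1
      simpa [mul_assoc] using h2
    obtain ⟨t, ht⟩ := exists_ne (1 : T)
    rcases hmin _ hn (up_le _) with h | h
    · rw [Set.eq_univ_iff_forall]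
      intro j
      by_contra hj
      have : ((e.symm (Pi.mulSingle j t) : N) : H) ∈ up (Perm.coordKer ⊤ O) := by
        rw [mem_up, MulEquiv.apply_symm_apply]
        exact ⟨Subgroup.mem_top _, fun l hl => Pi.mulSingle_eq_of_ne (fun h : l = j => hj (h ▸ hl)) _⟩
      rw [h, Subgroup.mem_bot, OneMemClass.coe_eq_one, MulEquiv.map_eq_one_iff] at this
      exact ht (by simpa using congrFun this j)
    · have : ((e.symm (Pi.mulSingle i t) : N) : H) ∈ up (Perm.coordKer ⊤ O) := by
        rw [h]; exact Subtype.prop _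
      rw [mem_up, MulEquiv.apply_symm_apply] at this
      exact absurd (by simpa using this.2 i hi) ht
  let R : Fin m → Subgroup T := fun i => D.map (Pi.evalMonoidHom (fun _ => T) i)
  have hR : ∀ k ∈ K, ∀ j, ∀ t ∈ R (τ k j), al k j t ∈ R j := by
    rintro k hk j _ ⟨y, hy, rfl⟩
    exact ⟨ψ k y, (hψD k hk y).2 hy, hτ k y j⟩
  by_cases hsub : ∀ i, R i = ⊤
  · obtain ⟨φ, hφ⟩ := Perm.scott_lemma hT D fun i t => (hsub i ▸ Subgroup.mem_top t : t ∈ R i)
    let r : Setoid (Fin m) := ⟨fun i j => ∀ y ∈ D, y i = 1 ↔ y j = 1,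
      ⟨fun _ _ _ => Iff.rfl, fun h y hy => (h y hy).symm,
        fun h h' y hy => (h y hy).trans (h' y hy)⟩⟩
    let c : Fin m → Fin m := fun i => (Quotient.mk r i).out
    have hcc : ∀ i j, c i = c j ↔ r i j := fun i j => by
      simp only [c, Quotient.out_inj, Quotient.eq]
    have hrτ : ∀ k ∈ K, ∀ i j, r (τ k i) (τ k j) ↔ r i j := by
      intro k hk i j
      constructor
      · intro h y hy
        obtain ⟨x, rfl⟩ := (ψ k).surjective y
        rw [hτ, hτ, MulEquiv.map_eq_one_iff, MulEquiv.map_eq_one_iff]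
        exact h x ((hψD k hk x).1 hy)
      · intro h y hy
        have := h _ ((hψD k hk y).2 hy)
        rwa [hτ, hτ, MulEquiv.map_eq_one_iff, MulEquiv.map_eq_one_iff] at this
    let i₀ : Fin m := ⟨0, hm⟩
    have hsize : ∀ j, Nat.card {i // r i j} = Nat.card {i // r i i₀} := by
      have := inv_set {j | Nat.card {i // r i j} = Nat.card {i // r i i₀}} (by
        intro k hk j hj
        rw [Set.mem_ofPred_eq, ← hj]
        exact (Nat.card_congr ((τ k).subtypeEquiv fun i => (hrτ k hk i j).symm)).symm) ⟨i₀, rfl⟩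
      intro j
      exact (this ▸ Set.mem_univ j : j ∈ {j | Nat.card {i // r i j} = Nat.card {i // r i i₀}})
    refine ⟨T, inferInstance, m, e.trans (MulEquiv.piCongrRight φ), hTs, hT, hm, Or.inr
      ⟨Nat.card {i // r i i₀}, c, ?_, fun j => ?_, fun n => ?_⟩⟩
    · by_contra hlt
      apply hNK
      intro n hn
      rw [← memD ⟨n, hn⟩, hφ]
      intro i j hij
      have : Subsingleton {l // r l j} := by
        rw [← Finite.card_le_one_iff_subsingleton, hsize]; omega
      have : i = j := congrArg Subtype.val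
        (Subsingleton.elim (⟨i, hij⟩ : {l // r l j}) ⟨j, r.refl j⟩)
      rw [this]
    · by_cases hj : ∃ i, c i = j
      · obtain ⟨i, rfl⟩ := hj
        left
        rw [← hsize i]
        exact Nat.card_congr (Equiv.subtypeEquivRight fun l => hcc l i)
      · right
        have : IsEmpty {i // c i = j} := ⟨fun x => hj ⟨x.1, x.2⟩⟩
        exact Nat.card_of_isEmpty
    · rw [← memD, hφ]
      refine forall_congr' fun i => forall_congr' fun j => ?_
      rw [hcc]
      rfl
  · have hall := inv_set {i | R i ≠ ⊤} (by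
      intro k hk j hj h
      apply hj
      rw [eq_top_iff]
      intro t _
      obtain ⟨s, rfl⟩ := (al k j).surjective t
      exact hR k hk j s (h ▸ Subgroup.mem_top s)) (not_forall.1 hsub)
    have hall' : ∀ i, R i ≠ ⊤ := fun i => (hall ▸ Set.mem_univ i : i ∈ {i | R i ≠ ⊤})
    refine ⟨T, inferInstance, m, e, hTs, hT, hm, Or.inl ⟨R, hall', fun n => ?_⟩⟩
    have hKX : K ⊓ N ≤ up (Subgroup.pi Set.univ R) := by
      rintro x ⟨hxK, hxN⟩
      rw [show x = ((⟨x, hxN⟩ : N) : H) from rfl, mem_up]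
      intro i _
      exact ⟨_, (memD ⟨x, hxN⟩).2 hxK, rfl⟩
    have hconj : ∀ k ∈ K, ∀ x ∈ up (Subgroup.pi Set.univ R),
        k * x * k⁻¹ ∈ up (Subgroup.pi Set.univ R) := fun k hk =>
      up_conj _ k fun y hy j _ => by rw [hτ]; exact hR k hk j _ (hy _ trivial)
    rcases S0722.result H N hN hmin a _ (up_le _) hKX (fun k hk => by
      rw [Subgroup.mem_normalizer_iff]
      refine fun x => ⟨hconj k hk x, fun hx => ?_⟩
      simpa [mul_assoc] using hconj k⁻¹ (inv_mem hk) _ hx) with h | h
    · constructor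
      · intro hn i
        exact ⟨_, (memD n).2 hn, rfl⟩
      · intro hn
        have : (n : H) ∈ up (Subgroup.pi Set.univ R) := (mem_up _ n).2 fun i _ => hn i
        rw [h] at this
        exact this.1
    · exfalso
      apply hall' ⟨0, hm⟩
      rw [eq_top_iff]
      intro t _
      have : ((e.symm (fun _ => t) : N) : H) ∈ up (Subgroup.pi Set.univ R) := by
        rw [h]; exact Subtype.prop _
      rw [mem_up, MulEquiv.apply_symm_apply] at this
      exact this _ trivial

end Cfsg.Agent.S0723
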