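import Cfsg.Statements.S0726
import Cfsg.Agent.Perm.Centralizer

set_option autoImplicit false
open Cfsg

namespace Cfsg.Agent.S0726

open MulAction

/-- The left and right regular permutation representations of a group are each other's centralisers in the symmetric group: the centraliser of the left regular image is the right regular image, and a transitive subgroup centralising the left regular image is the whole right regular image. -/
theorem result {G : Type*} [Group G] : Subgroup.centralizer ((MulAction.toPermHom G G).range : Set (Equiv.Perm G)) = (MulAction.toPermHom Gᵐᵒᵖ G).range ∧ ∀ H : Subgroup (Equiv.Perm G), H ≤ Subgroup.centralizer ((MulAction.toPermHom G G).range : Set (Equiv.Perm G)) → MulAction.IsPretransitive H G → H = (MulAction.toPermHom Gᵐᵒᵖ G).range := by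
  haveI hL : IsPretransitive (toPermHom G G).range G :=
    ⟨fun x y => ⟨⟨toPermHom G G (y * x⁻¹), ⟨_, rfl⟩⟩, by
      change (y * x⁻¹) * x = y
      simp⟩⟩
  haveI hR : IsPretransitive (toPermHom Gᵐᵒᵖ G).range G :=
    ⟨fun x y => ⟨⟨toPermHom Gᵐᵒᵖ G (MulOpposite.op (x⁻¹ * y)), ⟨_, rfl⟩⟩, by
      change x * (x⁻¹ * y) = y
      simp⟩⟩
  have h1 : Subgroup.centralizer ((toPermHom G G).range : Set (Equiv.Perm G)) =
      (toPermHom Gᵐᵒᵖ G).range := by
    apply Perm.eq_centralizer_of_isPretransitive
    rintro _ ⟨g, rfl⟩
    rw [Subgroup.mem_centralizer_iff]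
    rintro _ ⟨h, rfl⟩
    ext x
    change h * (x * g.unop) = (h * x) * g.unop
    rw [mul_assoc]
  refine ⟨h1, fun H hH ht => ?_⟩
  rw [← h1]
  exact (Perm.eq_centralizer_of_isPretransitive _ H hH).symm

end Cfsg.Agent.S0726
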