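import Cfsg.Statements.S0730
import Mathlib
import Cfsg.Agent.Perm.ZassSharp3

set_option autoImplicit false
open Cfsg

namespace Cfsg.Agent.S0730



/-- A sharply triply transitive group of degree `p^f + 1`, `p` an odd prime and `f` odd, is isomorphic to the projective general linear group of degree 2 over the field with `p^f` elements (for even `f` there is a second, twisted, group). -/
theorem result {α : Type*} [Fintype α] [DecidableEq α] {p f : ℕ} (hp : p.Prime) (hp2 : p ≠ 2) (hfo : Odd f) (hα : Fintype.card α = p ^ f + 1) (G : Subgroup (Equiv.Perm α)) (h3 : MulAction.IsMultiplyPretransitive G α 3) (hsharp : ∀ x : Fin 3 ↪ α, MulAction.stabilizer G x = ⊥) : ∃ (F : Type) (_ : Field F) (_ : Fintype F), Fintype.card F = p ^ f ∧ Nonempty (G ≃* Matrix.ProjGenLinGroup (Fin 2) F) := by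
  rw [← Nat.card_eq_fintype_card] at hα
  have heven : Even (Nat.card α) := hα ▸ (hp.odd_of_ne_two hp2).pow.add_one
  have h3p : 3 ≤ p ^ f := (Nat.succ_le_of_lt (lt_of_le_of_ne hp.two_le hp2.symm)).trans
    (Nat.le_self_pow hfo.pos.ne' p)
  rcases h3p.eq_or_lt with h | h
  · have hG := Perm.card_eq_descFactorial_of_sharp h3 hsharp (by omega)
    rw [hα, ← h] at hG
    have : Fact (Nat.Prime 3) := ⟨by norm_num⟩
    refine ⟨ZMod 3, inferInstance, inferInstance, by rw [← h, ZMod.card], ?_⟩
    obtain ⟨e₁⟩ : Nonempty (Option (ZMod 3) ≃ α) := by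
      apply Finite.card_eq.mp
      rw [Finite.card_option, Nat.card_zmod, hα, ← h]
    let e₂ : Option (ZMod 3) ≃ Class.Dickson.P1 (ZMod 3) := Equiv.ofBijective
      (fun o => o.elim (Class.Dickson.inf (ZMod 3)) Class.Dickson.pt) ⟨by
      rintro (_ | s) (_ | t) h
      · rfl
      · exact absurd h (Class.Dickson.inf_ne_pt t)
      · exact absurd h (Class.Dickson.pt_ne_inf s)
      · exact congrArg some (Class.Dickson.pt_injective h), by
      intro x
      rcases Class.Dickson.inf_or_pt x with rfl | ⟨t, rfl⟩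
      · exact ⟨none, rfl⟩
      · exact ⟨some t, rfl⟩⟩
    have h24 : Nat.card (Equiv.Perm α) = 24 := by
      rw [Nat.card_perm, hα, ← h]; rfl
    have h1 : Function.Bijective G.subtype :=
      G.subtype_injective.bijective_of_nat_card_le (by rw [h24, hG]; rfl)
    have h2 : Function.Bijective (Perm.ZassPSL.pglAct (e₂.symm.trans e₁)) :=
      (Perm.ZassPSL.pglAct_injective _).bijective_of_nat_card_le (by
        rw [h24, Class.Dickson.card_PGL2, Nat.card_zmod]; norm_num)
    exact ⟨(MulEquiv.ofBijective _ h1).trans (MulEquiv.ofBijective _ h2).symm⟩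
  · have hZ := Perm.ZassPSL.isZassenhaus_of_sharp inferInstance heven (by omega) h3 hsharp
    obtain ⟨a, b, hab⟩ := Perm.Zass.exists_pair hZ
    obtain ⟨F, _, _, h1, h2⟩ := Perm.ZassPSL.pgl_of_sharp hZ (by omega) hp hp2 hfo hα hab
      (Perm.ZassPSL.card_two_of_sharp hZ h3 hsharp hab)
    exact ⟨F, inferInstance, inferInstance, by rw [← Nat.card_eq_fintype_card, h1], h2⟩

end Cfsg.Agent.S0730
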