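import Cfsg.Statements.S0732
import Mathlib
import Cfsg.Agent.Perm.ZassEven
import Cfsg.Agent.Perm.ZassAbel

set_option autoImplicit false
open Cfsg

namespace Cfsg.Agent.S0732

open MulAction Perm.ZassPSL

theorem affine_case {α : Type*} [Finite α] {p : ℕ} (hp : p.Prime) (hp2 : p ≠ 2)
    (hα : Nat.card α = p + 1) (G : Subgroup (Equiv.Perm α)) {a : α} (P : Subgroup G)
    (hP : Nat.card P = p) (ha : ∀ u ∈ P, u • a = a)
    (hn : ∀ g : G, g • a = a → ∀ u ∈ P, g * u * g⁻¹ ∈ P)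
    (h1 : ∀ u ∈ P, ∀ c, c ≠ a → u • c = c → u = 1)
    (h2 : ∀ c d, c ≠ a → d ≠ a → ∃ u ∈ P, u • c = d)
    (N : Subgroup G) (hN : N.Normal) (hNt : ∀ b, ∃ n ∈ N, n • a = b)
    (hfree : ∀ n ∈ N, n • a = a → n = 1) :
    ∃ q : ℕ, q.Prime ∧ p + 1 = 2 ^ q ∧
      (∃ b, a ≠ b ∧ Nat.card ↥(stabilizer G a ⊓ stabilizer G b) ∣ q) ∧
      ∃ e : α ≃ GaloisField 2 q, ∀ g : G,
        (e.symm.trans (((g : Equiv.Perm α)).trans e)) ∈ Cfsg.semiaffineGroup (GaloisField 2 q) := by
  have heq : ∀ n ∈ N, ∀ m ∈ N, n • a = m • a → n = m := fun n hn m hm h =>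
    (inv_mul_eq_one.mp (hfree _ (N.mul_mem (N.inv_mem hm) hn)
      (by rw [mul_smul, h, inv_smul_smul]))).symm
  have hcard : Nat.card N = p + 1 := hα ▸ Nat.card_congr (Equiv.ofBijective
    (fun n : N => n.1 • a) ⟨fun n m h => Subtype.ext (heq _ n.2 _ m.2 h), fun x => by
      obtain ⟨n, hn, h⟩ := hNt x
      exact ⟨⟨n, hn⟩, h⟩⟩)
  obtain ⟨t, htN, ht⟩ := Inv.Count.exists_involution_mem (H := N)
    (hcard ▸ (hp.odd_of_ne_two hp2).add_one)
  have ht1 := Inv.Count.ne_one_of_orderOf ht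
  have hinv : ∀ n ∈ N, n * n = 1 := by
    intro n hn
    by_cases h : n = 1
    · rw [h, one_mul]
    obtain ⟨g, hg, hg2⟩ := h2 (t • a) (n • a) (fun e => ht1 (hfree t htN e))
      (fun e => h (hfree n hn e))
    rw [← heq _ (hN.conj_mem t htN g) n hn
      (by rw [mul_smul, mul_smul, inv_smul_eq_iff.mpr (ha g hg).symm, hg2])]
    exact Inv.Count.mul_self_of_orderOf ((Inv.Count.orderOf_conj _ _).trans ht)
  have hcomm : ∀ n ∈ N, ∀ m ∈ N, n * m = m * n := fun n hn m hm => by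
    rw [← inv_eq_of_mul_eq_one_right (hinv _ (N.mul_mem hn hm)), mul_inv_rev,
      inv_eq_of_mul_eq_one_right (hinv n hn), inv_eq_of_mul_eq_one_right (hinv m hm)]
  have : Fact p.Prime := ⟨hp⟩
  have hPc : IsCyclic P := isCyclic_of_prime_card hP
  obtain ⟨F, _, _, τ, χ, hτ, hτN, hadd, -, hχ, hconj⟩ := exists_field_conj N P hcomm
    (fun x hx y hy => congrArg Subtype.val (hPc.isMulCommutative.is_comm.comm ⟨x, hx⟩ ⟨y, hy⟩))
    (fun k _ u hu => hN.conj_mem u hu k)
    (fun k hk u hu h => by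
      by_contra hc
      push Not at hc
      exact hc.1 (h1 k hk (u • a) (fun e => hc.2 (hfree u hu e))
        (by rw [smul_smul, h, mul_smul, ha k hk])))
    (by rw [hcard, hP]; omega) htN ht1
  have hτ' : ∀ s, τ s ∈ N := fun s => (hτN _).mpr ⟨s, rfl⟩
  let ψ : F ≃ α := Equiv.ofBijective (fun s => τ s • a)
    ⟨fun s t h => hτ (heq _ (hτ' s) _ (hτ' t) h), fun x => by
      obtain ⟨n, hn, h⟩ := hNt x
      obtain ⟨s, rfl⟩ := (hτN n).mp hn
      exact ⟨s, h⟩⟩
  have hψ : ∀ s, ψ s = τ s • a := fun _ => rfl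
  have hF : Nat.card F = p + 1 := hα ▸ Nat.card_congr ψ
  obtain ⟨r, hr⟩ := CharP.exists F
  obtain ⟨q, hr', hq⟩ := FiniteField.card F r
  rw [← Nat.card_eq_fintype_card, hF] at hq
  obtain rfl : r = 2 := by
    have := (hp.odd_of_ne_two hp2).add_one
    rw [hq] at this
    exact (hr'.even_iff).mp (Nat.even_pow.mp this).1
  have hqp : (q : ℕ).Prime := Nat.Prime.of_mersenne (by
    unfold mersenne
    rw [← hq]
    exact hp)
  have hsurj := (hχ.bijective_of_nat_card_le (by rw [Nat.card_units, hF, hP]; omega)).2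
  have hsemi : ∀ g : G, g • a = a → ∃ (c : Fˣ) (σ : F ≃+* F), ∀ s, g • ψ s = ψ (c * σ s) := by
    intro g hg
    have e1 : ∀ s, ∃ s', g * τ s * g⁻¹ = τ s' := fun s => by
      obtain ⟨s', h⟩ := (hτN _).mp (hN.conj_mem _ (hτ' s) g)
      exact ⟨s', h.symm⟩
    choose η hη using e1
    have e2 : ∀ s t, η (s + t) = η s + η t := fun s t => hτ (by
      rw [hadd, ← hη, ← hη, ← hη, hadd]; group)
    have e3 : Function.Injective η := fun s t h => hτ (by
      have := (hη s).trans ((congrArg τ h).trans (hη t).symm)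
      simpa using this)
    let η' : F ≃+ F := AddEquiv.ofBijective (AddMonoidHom.mk' η e2)
      (Finite.injective_iff_bijective.mp e3)
    obtain ⟨σ, hσ⟩ := exists_semilinear η' Set.univ
      (fun x => ⟨x, trivial, 0, trivial, (add_zero x).symm⟩) (fun s _ => by
        by_cases hs : s = 0
        · exact ⟨0, by simp [hs]⟩
        obtain ⟨k, hk⟩ := hsurj (Units.mk0 s hs)
        refine ⟨χ ⟨_, hn g hg k k.2⟩, fun t => hτ ?_⟩
        change τ (η (s * t)) = τ (_ * η t)
        have := hconj k t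
        rw [hk, Units.val_mk0] at this
        rw [← hconj, ← hη, ← hη, ← this]
        simp only []
        group)
    refine ⟨Units.mk0 (η' 1) (fun h => one_ne_zero (η'.map_eq_zero_iff.mp h)), σ, fun s => ?_⟩
    rw [Units.val_mk0, ← hσ, hψ, hψ]
    change _ = τ (η s) • a
    rw [← hη, mul_smul, mul_smul, inv_smul_eq_iff.mpr hg.symm]
  have h0 : τ 0 = 1 := by
    have := hadd 0 0
    rw [add_zero] at this
    simpa using this
  have hψ0 : ψ 0 = a := by rw [hψ, h0, one_smul]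
  let _ := ZMod.algebra F 2
  refine ⟨q, hqp, hq, ⟨ψ 1, fun h => zero_ne_one (ψ.injective (hψ0.trans h)), ?_⟩, ?_⟩
  · have e1 : ∀ g : ↥(stabilizer G a ⊓ stabilizer G (ψ 1)), ∃ σ : F ≃ₐ[ZMod 2] F,
        ∀ s, g.1 • ψ s = ψ (σ s) := by
      intro g
      obtain ⟨c, σ, h⟩ := hsemi g.1 g.2.1
      have hc : (c : F) = 1 := by
        have := ψ.injective ((h 1).symm.trans g.2.2)
        simpa using this
      refine ⟨AlgEquiv.ofRingEquiv (f := σ) (fun x => ?_), fun s => by rw [h, hc, one_mul]; rfl⟩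
      obtain ⟨n, rfl⟩ := ZMod.intCast_surjective x
      simp
    choose f hf using e1
    let f' : ↥(stabilizer G a ⊓ stabilizer G (ψ 1)) →* (F ≃ₐ[ZMod 2] F) :=
      MonoidHom.mk' f (fun g h => AlgEquiv.ext fun s => ψ.injective (by
        rw [← hf, AlgEquiv.mul_apply, ← hf, ← hf, smul_smul]; rfl))
    have hf' : Function.Injective f' := by
      rw [injective_iff_map_eq_one]
      intro g hg
      refine Subtype.ext (Subtype.ext (Equiv.ext fun x => ?_))
      obtain ⟨s, rfl⟩ := ψ.surjective x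
      have := hf g s
      rw [show f g = 1 from hg] at this
      exact this
    have e3 := Subgroup.card_dvd_of_injective f' hf'
    rw [IsGalois.card_aut_eq_finrank] at e3
    have e4 := Module.natCard_eq_pow_finrank (K := ZMod 2) (V := F)
    rw [hF, hq, Nat.card_zmod] at e4
    rwa [← Nat.pow_right_injective le_rfl e4] at e3
  · let ι : F ≃+* GaloisField 2 q := (GaloisField.algEquivGaloisField 2 q (hF.trans hq)).toRingEquiv
    refine ⟨ψ.symm.trans ι.toEquiv, fun g => ?_⟩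
    obtain ⟨b, hb⟩ := ψ.surjective (g • a)
    obtain ⟨c, σ, h⟩ := hsemi ((τ b)⁻¹ * g) (by rw [mul_smul, ← hb, hψ, inv_smul_smul])
    refine ⟨Units.map (ι : F →* GaloisField 2 q) c, ι b, (ι.symm.trans σ).trans ι, fun x => ?_⟩
    have e1 : g • ψ (ι.symm x) = ψ (b + c * σ (ι.symm x)) := by
      have := h (ι.symm x)
      rw [mul_smul, inv_smul_eq_iff] at this
      rw [this, hψ, hψ, hadd, mul_smul]
    change ι (ψ.symm (g • ψ (ι.symm x))) = _
    rw [e1, ψ.symm_apply_apply, map_add, map_mul, add_comm]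
    rfl

/-- A transitive permutation group on `p + 1` points (`p` prime) of order `(p+1) p d` with `d < p` is isomorphic to `PGL(2,p)` with `d = p - 1`, or to `PSL(2,p)` with `2d = p - 1`, or else `p + 1 = 2^q` for a prime `q`, `d = 1` or `d = q`, and the group is permutation-isomorphic to a group of semi-affine maps `x ↦ a φ(x) + b` of the field with `2^q` elements. -/
theorem result {α : Type*} [Fintype α] [DecidableEq α] {p d : ℕ} (hp : p.Prime) (hα : Fintype.card α = p + 1) (G : Subgroup (Equiv.Perm α)) [MulAction.IsPretransitive G α] (hG : Nat.card G = (p + 1) * p * d) (hd : d < p) : (d = p - 1 ∧ Nonempty (G ≃* Matrix.ProjGenLinGroup (Fin 2) (ZMod p))) ∨ (2 * d = p - 1 ∧ Nonempty (G ≃* Matrix.ProjectiveSpecialLinearGroup (Fin 2) (ZMod p))) ∨ (∃ q : ℕ, q.Prime ∧ p + 1 = 2 ^ q ∧ (d = 1 ∨ d = q) ∧ ∃ e : α ≃ GaloisField 2 q, ∀ g : G, (e.symm.trans (((g : Equiv.Perm α)).trans e)) ∈ Cfsg.semiaffineGroup (GaloisField 2 q)) := by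
  rw [← Nat.card_eq_fintype_card] at hα
  have : Fact p.Prime := ⟨hp⟩
  have hd0 : 0 < d := Nat.pos_of_ne_zero (by
    rintro rfl
    exact Nat.card_pos.ne' hG)
  have : Nontrivial α := Finite.one_lt_card_iff_nontrivial.mp (by have := hp.pos; omega)
  obtain ⟨a, b, hab⟩ := exists_pair_ne α
  have hGa : Nat.card (stabilizer G a) = p ^ 1 * d := by
    have h1 := (stabilizer G a).index_mul_card
    rw [index_stabilizer_of_transitive, hα, hG, mul_assoc] at h1
    rw [pow_one]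
    exact Nat.eq_of_mul_eq_mul_left (Nat.succ_pos p) h1
  have hpd : ¬ p ∣ d := fun h => absurd (Nat.le_of_dvd hd0 h) (by omega)
  obtain ⟨P₀⟩ := (inferInstance : Nonempty (Sylow p (stabilizer G a)))
  have hP₀ : (P₀ : Subgroup (stabilizer G a)).Normal := by
    have h1 := Nat.le_of_dvd hd0 (Small.card_sylow_dvd hGa hpd)
    have h2 := card_sylow_modEq_one p (stabilizer G a)
    rw [Nat.ModEq, Nat.mod_eq_of_lt hp.one_lt, Nat.mod_eq_of_lt (by omega)] at h2
    have := Finite.card_le_one_iff_subsingleton.mp h2.le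
    exact P₀.normal_of_subsingleton
  let P : Subgroup G := (P₀ : Subgroup (stabilizer G a)).map (stabilizer G a).subtype
  have hP : Nat.card P = p := by
    rw [Subgroup.card_map_of_injective (stabilizer G a).subtype_injective,
      Small.card_sylow_subgroup hGa hpd, pow_one]
  have ha : ∀ u ∈ P, u • a = a := fun u hu => Subgroup.map_subtype_le _ hu
  have hn : ∀ g : G, g • a = a → ∀ u ∈ P, g * u * g⁻¹ ∈ P := by
    rintro g hg _ ⟨u, hu, rfl⟩
    exact ⟨_, hP₀.conj_mem u hu ⟨g, hg⟩, rfl⟩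
  obtain ⟨h1, h2⟩ := regular_of_prime hp hα P hP ha (by
    obtain ⟨⟨u, hu⟩, hu1⟩ := Subgroup.ne_bot_iff_exists_ne_one.mp (show P ≠ ⊥ by
      intro h
      rw [h, Subgroup.card_bot] at hP
      exact hp.one_lt.ne hP)
    obtain ⟨c₀, hc₀⟩ : ∃ c₀, u • c₀ ≠ c₀ := by
      by_contra h
      push Not at h
      exact hu1 (Subtype.ext (Subtype.ext (Equiv.ext h)))
    have : Fact (Nat.card P).Prime := ⟨hP ▸ hp⟩
    have h3 : stabilizer P c₀ = ⊥ := (stabilizer P c₀).eq_bot_or_eq_top_of_prime_card.resolve_right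
      fun h => hc₀ (show (⟨u, hu⟩ : P) ∈ stabilizer P c₀ from h ▸ Subgroup.mem_top _)
    have hc₀a : c₀ ≠ a := fun h => hc₀ (h ▸ ha u hu)
    let f : P → {x : α // x ≠ a} := fun v =>
      ⟨v.1 • c₀, fun h => hc₀a (smul_left_cancel v.1 (h.trans (ha _ v.2).symm))⟩
    have hf : Function.Injective f := by
      intro v w h
      have h4 : v.1 • c₀ = w.1 • c₀ := congrArg Subtype.val h
      have : w⁻¹ * v ∈ stabilizer P c₀ := by
        change (w.1⁻¹ * v.1) • c₀ = c₀
        rw [mul_smul, h4, inv_smul_smul]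
      rw [h3, Subgroup.mem_bot] at this
      exact (inv_mul_eq_one.mp this).symm
    intro c hc
    obtain ⟨v, hv⟩ := (hf.bijective_of_nat_card_le
      (by rw [Perm.DoubleCount.card_ne, hα, hP]; omega)).2 ⟨c, hc⟩
    have h4 : v.1 • c₀ = c := congrArg Subtype.val hv
    refine ⟨v * u * v.1⁻¹, P.mul_mem (P.mul_mem v.2 hu) (P.inv_mem v.2), fun h => hc₀ ?_⟩
    rw [← h4, mul_smul, mul_smul, inv_smul_smul] at h
    exact smul_left_cancel _ h)
  have h2t := two_trans_of_regular ha h2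
  have h3 := eq_one_of_fix_three_of_prime hp hP hn h1 h2
  have hH : ∀ b, a ≠ b → Nat.card ↥(stabilizer G a ⊓ stabilizer G b) = d := by
    intro b hab
    have := card_stabilizer_of_two h2t hab
    rw [hGa, hα, pow_one, Nat.add_sub_cancel, mul_comm] at this
    exact (Nat.eq_of_mul_eq_mul_right hp.pos this).symm
  by_cases hsmall : d = p - 1 ∧ p ≤ 3
  · refine Or.inl ⟨hsmall.1, pgl_of_card_perm G (ZMod p) (by rw [hα, Nat.card_zmod]) ?_ ?_⟩
    all_goals
      obtain ⟨rfl, h⟩ := hsmall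
      have := hp.two_le
      rw [hα]
      simp only [hG, Nat.card_zmod]
      have h' : p = 2 ∨ p = 3 := by omega
      rcases h' with h' | h' <;> rw [h'] <;> decide
  have hp2 : p ≠ 2 := by
    rintro rfl
    omega
  by_cases hreg : ∃ N : Subgroup G, N.Normal ∧ (∀ b, ∃ n ∈ N, n • a = b) ∧
      ∀ n ∈ N, n • a = a → n = 1
  · obtain ⟨N, hN, hN1, hN2⟩ := hreg
    obtain ⟨q, hq, h4, ⟨c, hc, h5⟩, h6⟩ := affine_case hp hp2 hα G P hP ha hn h1 h2 N hN hN1 hN2
    rw [hH c hc] at h5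
    exact Or.inr (Or.inr ⟨q, hq, h4, (Nat.dvd_prime hq).mp h5, h6⟩)
  have hd1 : d ≠ 1 := by
    intro h
    apply hreg
    obtain ⟨K, hK, hK1, -, -, hK2, -⟩ := Perm.exists_sharp_two_kernel h2t (by
      intro g x y hxy hx hy
      obtain ⟨k, rfl⟩ := exists_smul_eq G a x
      have h4 := hH (k⁻¹ • y) (fun e => hxy (inv_smul_eq_iff.mp e.symm).symm)
      rw [h, Subgroup.card_eq_one] at h4
      have h5 : k⁻¹ * g * k ∈ stabilizer G a ⊓ stabilizer G (k⁻¹ • y) :=
        Perm.Zass.mem_two.mpr ⟨by rw [mul_smul, mul_smul, hx, inv_smul_smul],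
          by rw [mul_smul, mul_smul, smul_inv_smul, hy]⟩
      rw [h4, Subgroup.mem_bot] at h5
      simpa [mul_assoc, inv_mul_eq_one] using h5) (by have := hp.pos; omega)
    exact ⟨K, hK, hK2 a, fun n hn e => ((hK1 n).mp hn).resolve_right fun h => h a e⟩
  have hZ : IsZassenhausGroup G α := by
    have h4 := hH b hab
    obtain ⟨⟨g, hg⟩, hg1⟩ := Subgroup.ne_bot_iff_exists_ne_one.mp
      (show stabilizer G a ⊓ stabilizer G b ≠ ⊥ by
        intro h
        rw [h, Subgroup.card_bot] at h4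
        exact hd1 h4.symm)
    refine ⟨inferInstance, h2t, h3, ⟨g, fun h => hg1 (Subtype.ext h), a, b, hab, hg.1, hg.2⟩,
      fun N hN hNt => ⟨a, fun h => hreg ⟨N, hN, fun c => ?_, fun n hn e => ?_⟩⟩⟩
    · obtain ⟨n, hn⟩ := hNt.exists_smul_eq a c
      exact ⟨n.1, n.2, hn⟩
    · have : (⟨n, hn⟩ : N) ∈ stabilizer N a := e
      rw [h] at this
      exact congrArg Subtype.val this
  have hU := Perm.Zass.isKer_of_card hZ (a := a) (H := P) ha (by rw [hP, hα])
    (fun u hu h c hc => by_contra fun e => h (h1 u hu c e hc))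
  have hPc : IsCyclic P := isCyclic_of_prime_card hP
  rcases sharp_or_psl hZ hab hU
    (fun x hx y hy => congrArg Subtype.val (hPc.isMulCommutative.is_comm.comm ⟨x, hx⟩ ⟨y, hy⟩))
    with h | ⟨h, F, _, _, h4, h5⟩
  · have h4 : d = p - 1 := by rw [← hH b hab, h, hα]; omega
    obtain ⟨F, _, _, h5, h6⟩ := pgl_of_sharp hZ (by omega) hp hp2 odd_one (by rw [hα, pow_one])
      hab h
    exact Or.inl ⟨h4, pgl_transport (by rw [h5, pow_one, Nat.card_zmod]) h6⟩
  · rw [hH b hab, hα] at h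
    exact Or.inr (Or.inl ⟨by omega, psl_transport (by rw [Nat.card_zmod]; omega) h5⟩)

end Cfsg.Agent.S0732
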