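import Cfsg.Statements.S0733
import Cfsg.Agent.Perm.PrimRel

set_option autoImplicit false
open Cfsg

namespace Cfsg.Agent.S0733

open MulAction

/-- A permutation group of affine type — generated by the translations of a finite vector space `V` over `ZMod p` together with a group `G₀` of linear automorphisms — is primitive on `V` if and only if `G₀` is irreducible on `V`. -/
theorem result {p : ℕ} [Fact p.Prime] {V : Type*} [AddCommGroup V] [Module (ZMod p) V] [Finite V] [Nontrivial V] (G₀ : Subgroup (V ≃ₗ[ZMod p] V)) (G : Subgroup (Equiv.Perm V)) (hG : ∀ σ : Equiv.Perm V, σ ∈ G ↔ ∃ g ∈ G₀, ∃ b : V, ∀ x : V, σ x = (g : V ≃ₗ[ZMod p] V) x + b) : MulAction.IsPreprimitive G V ↔ ∀ W : Submodule (ZMod p) V, (∀ g ∈ G₀, ∀ v ∈ W, (g : V ≃ₗ[ZMod p] V) v ∈ W) → W = ⊥ ∨ W = ⊤ := by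
  have htr : ∀ b : V, Equiv.addRight b ∈ G := fun b =>
    (hG _).2 ⟨1, one_mem _, b, fun x => rfl⟩
  have hlin : ∀ g ∈ G₀, (g : V ≃ₗ[ZMod p] V).toEquiv ∈ G := fun g hg =>
    (hG _).2 ⟨g, hg, 0, fun x => by simp⟩
  constructor
  · intro h W hW
    rcases Perm.rel_trivial_of_isPreprimitive h (fun x y => x - y ∈ W)
      ⟨fun x => by simp, fun {x y} h => by simpa using W.neg_mem h,
        fun {x y z} h h' => by simpa using W.add_mem h h'⟩
      (fun σ x y hxy => by
        obtain ⟨g, hg, b, hσ⟩ := (hG σ).1 σ.2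
        change (σ : Equiv.Perm V) x - (σ : Equiv.Perm V) y ∈ W
        rw [hσ, hσ, add_sub_add_right_eq_sub, ← map_sub]
        exact hW g hg _ hxy) with h1 | h1
    · left
      rw [eq_bot_iff]
      intro v hv
      exact h1 v 0 (by simpa using hv)
    · right
      rw [eq_top_iff]
      intro v _
      simpa using h1 v 0
  · intro h
    haveI : IsPretransitive G V := ⟨fun x y => ⟨⟨_, htr (y - x)⟩, by
      change x + (y - x) = y
      abel⟩⟩
    refine Perm.isPreprimitive_of_rel fun r hr hinv => ?_
    have hadd : ∀ b x y, r x y → r (x + b) (y + b) := fun b x y => hinv ⟨_, htr b⟩ x y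
    let A : AddSubgroup V :=
      { carrier := {v | r 0 v}
        zero_mem' := hr.refl 0
        add_mem' := fun {v w} hv hw => hr.trans hw (by simpa using hadd w _ _ hv)
        neg_mem' := fun {v} hv => hr.symm (by simpa using hadd (-v) _ _ hv) }
    have hA : ∀ x y, r x y ↔ y - x ∈ AddSubgroup.toZModSubmodule p A := fun x y =>
      ⟨fun h => show r 0 (y - x) by simpa [sub_eq_add_neg] using hadd (-x) _ _ h,
        fun h => by simpa using hadd x _ _ (show r 0 (y - x) from h)⟩
    rcases h (AddSubgroup.toZModSubmodule p A) (fun g hg v hv => by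
      have := hinv ⟨_, hlin g hg⟩ 0 v hv
      change r (g 0) (g v) at this
      rw [map_zero] at this
      exact this) with h1 | h1
    · left
      intro x y hxy
      rw [hA, h1, Submodule.mem_bot, sub_eq_zero] at hxy
      exact hxy.symm
    · right
      intro x y
      rw [hA, h1]
      trivial

end Cfsg.Agent.S0733
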