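import Cfsg.Statements.S0735
import Cfsg.Agent.Perm.Homog
import Cfsg.Agent.Perm.PrimRel

set_option autoImplicit false
open Cfsg

namespace Cfsg.Agent.S0735

open MulAction
open scoped Pointwise

/-- A 2-homogeneous permutation group (transitive on 2-subsets) of even order is doubly transitive; a non-trivial 2-homogeneous group is primitive. -/
theorem result {α : Type*} [Fintype α] [DecidableEq α] (G : Subgroup (Equiv.Perm α)) (h2 : MulAction.IsPretransitive G (Set.powersetCard α 2)) (hα : 3 ≤ Fintype.card α) : (Even (Nat.card G) → MulAction.IsMultiplyPretransitive G α 2) ∧ (G ≠ ⊥ → MulAction.IsPreprimitive G α) := by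
  have key : ∀ a b c d : α, a ≠ b → c ≠ d →
      ∃ g : G, (g • a = c ∧ g • b = d) ∨ (g • a = d ∧ g • b = c) := by
    intro a b c d hab hcd
    obtain ⟨g, hg⟩ := Perm.homog_iff.1 h2 {a, b} {c, d} (Finset.card_pair hab)
      (Finset.card_pair hcd)
    refine ⟨g, ?_⟩
    have h1 : g • a ∈ ({c, d} : Finset α) := hg ▸ Finset.smul_mem_smul_finset (by simp)
    have h2 : g • b ∈ ({c, d} : Finset α) := hg ▸ Finset.smul_mem_smul_finset (by simp)
    have h3 : g • a ≠ g • b := fun e => hab (MulAction.injective g e)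
    simp only [Finset.mem_insert, Finset.mem_singleton] at h1 h2
    rcases h1 with h1 | h1 <;> rcases h2 with h2 | h2
    · exact absurd (h1.trans h2.symm) h3
    · exact Or.inl ⟨h1, h2⟩
    · exact Or.inr ⟨h1, h2⟩
    · exact absurd (h1.trans h2.symm) h3
  constructor
  · intro heven
    obtain ⟨t, ht⟩ := exists_prime_orderOf_dvd_card' (G := G) 2 heven.two_dvd
    obtain ⟨x, hx⟩ : ∃ x : α, t • x ≠ x := by
      by_contra h
      push Not at h
      have : t = 1 := Subtype.ext (Equiv.ext h)
      rw [this, orderOf_one] at ht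
      omega
    have htt : t • t • x = x := by rw [smul_smul, ← sq, ← ht, pow_orderOf_eq_one, one_smul]
    rw [is_two_pretransitive_iff]
    have k2 : ∀ a b : α, a ≠ b → ∃ g : G, g • a = x ∧ g • b = t • x := by
      intro a b hab
      obtain ⟨g, h | h⟩ := key a b x (t • x) hab hx.symm
      · exact ⟨g, h⟩
      · exact ⟨t * g, by rw [mul_smul, h.1, htt], by rw [mul_smul, h.2]⟩
    intro a b c d hab hcd
    obtain ⟨g, h1, h2⟩ := k2 a b hab
    obtain ⟨g', h1', h2'⟩ := k2 c d hcd
    exact ⟨g'⁻¹ * g, by rw [mul_smul, h1, inv_smul_eq_iff, h1'],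
      by rw [mul_smul, h2, inv_smul_eq_iff, h2']⟩
  · intro _
    have main : ∀ r : α → α → Prop, Equivalence r →
        (∀ (g : G) (x y : α), r x y → r (g • x) (g • y)) → (∀ x y, r x y → x = y) ∨ ∀ x y, r x y := by
      intro r hr hinv
      by_cases h1 : ∀ x y, r x y → x = y
      · exact Or.inl h1
      right
      push Not at h1
      obtain ⟨a, b, hr', hab⟩ := h1
      intro x y
      by_cases hxy : x = y
      · rw [hxy]; exact hr.refl _
      obtain ⟨g, h | h⟩ := key a b x y hab hxy
      · rw [← h.1, ← h.2]; exact hinv g _ _ hr'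
      · rw [← h.1, ← h.2]; exact hr.symm (hinv g _ _ hr')
    haveI : IsPretransitive G α := by
      rcases main (fun x y => ∃ g : G, g • x = y) ⟨fun x => ⟨1, one_smul _ _⟩,
        fun ⟨g, e⟩ => ⟨g⁻¹, by rw [← e, inv_smul_smul]⟩,
        fun ⟨g, e⟩ ⟨g', e'⟩ => ⟨g' * g, by rw [mul_smul, e, e']⟩⟩
        (fun g x y ⟨u, e⟩ => ⟨g * u * g⁻¹, by simp [mul_smul, e]⟩) with h | h
      · obtain ⟨a, b, c, -, -, -, hab, hac, hbc⟩ := Finset.two_lt_card_iff.1
          (show 2 < (Finset.univ : Finset α).card by rw [Finset.card_univ]; omega)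
        obtain ⟨g, h' | h'⟩ := key a b a c hab hac
        · exact absurd (h _ _ ⟨g, h'.2⟩) hbc
        · exact absurd (h _ _ ⟨g, h'.1⟩) hac
      · exact ⟨h⟩
    exact Perm.isPreprimitive_of_rel main

end Cfsg.Agent.S0735
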