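import Cfsg.Statements.S0736
import Cfsg.Agent.Perm.Homog

set_option autoImplicit false
open Cfsg

namespace Cfsg.Agent.S0736

open MulAction
open scoped Pointwise

theorem not_dvd_choose {p a k : ℕ} (hp : p.Prime) (hk : p ^ a ∣ k) :
    ¬ p ∣ (k + (p ^ a - 1)).choose (p ^ a - 1) := by
  have hq : 0 < p ^ a := pow_pos hp.pos a
  rw [Nat.add_choose_eq, ← Finset.add_sum_erase _ _ (a := (0, p ^ a - 1)) (by simp)]
  simp only [Nat.choose_zero_right, Nat.choose_self, mul_one]
  rw [Nat.dvd_add_left]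
  · exact hp.not_dvd_one
  · refine Finset.dvd_sum fun ij hij => Dvd.dvd.mul_right ?_ _
    obtain ⟨i, j⟩ := ij
    have hij1 : i + j = p ^ a - 1 := by simpa using (Finset.mem_erase.1 hij).2
    have hi : i ≠ 0 := by
      rintro rfl
      exact (Finset.mem_erase.1 hij).1 (Prod.ext rfl (by simpa using hij1))
    obtain ⟨i, rfl⟩ := Nat.exists_eq_succ_of_ne_zero hi
    by_contra hnd
    rcases Nat.eq_zero_or_pos k with rfl | hk0
    · simp at hnd
    obtain ⟨k, rfl⟩ := Nat.exists_eq_succ_of_ne_zero hk0.ne'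
    have h1 := Nat.add_one_mul_choose_eq k i
    have h2 : p ^ a ∣ (k + 1).choose (i + 1) * (i + 1) := h1 ▸ hk.mul_right _
    have h3 : p ^ a ∣ i + 1 :=
      (Nat.Coprime.pow_left a ((Nat.Prime.coprime_iff_not_dvd hp).2 hnd)).dvd_of_dvd_mul_left h2
    have := Nat.le_of_dvd (by omega) h3
    omega

/-- A `k`-homogeneous permutation group of degree `n`, `k ≥ 2`, with `k + q - 1 ≤ n` for every prime power `q` dividing `k`, is `(k-1)`-homogeneous. -/
theorem result {α : Type*} [Fintype α] [DecidableEq α] (G : Subgroup (Equiv.Perm α)) {k : ℕ} (hk : 2 ≤ k) (hG : MulAction.IsPretransitive G (Set.powersetCard α k)) (hq : ∀ q : ℕ, IsPrimePow q → q ∣ k → k + q - 1 ≤ Fintype.card α) : MulAction.IsPretransitive G (Set.powersetCard α (k - 1)) := by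
  classical
  obtain ⟨j, rfl⟩ : ∃ j, k = j + 1 := ⟨k - 1, by omega⟩
  rw [Nat.add_sub_cancel]
  refine Perm.homog_iff.2 fun s t hs ht => ?_
  have hkn : j + 1 ≤ Fintype.card α := by
    obtain ⟨p, hp, hpk⟩ := Nat.exists_prime_and_dvd (show j + 1 ≠ 1 by omega)
    have := hq p hp.prime.isPrimePow hpk
    have := hp.two_le
    omega
  let O : Finset α → Prop := fun A => ∃ g : G, g • s = A
  let c : Finset α → ℕ := fun K => ((K.powersetCard j).filter O).card
  have hc : ∀ K K' : Finset α, K.card = j + 1 → K'.card = j + 1 → c K = c K' := by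
    intro K K' hK hK'
    obtain ⟨g, rfl⟩ := Perm.homog_iff.1 hG K K' hK hK'
    refine Finset.card_bij (fun A _ => g • A) ?_ (fun A _ B _ h => MulAction.injective g h) ?_
    · intro A hA
      simp only [Finset.mem_filter, Finset.mem_powersetCard] at hA ⊢
      obtain ⟨⟨h1, h2⟩, u, hu⟩ := hA
      exact ⟨⟨Finset.smul_finset_subset_smul_finset h1, by simp [h2]⟩, g * u, by rw [mul_smul, hu]⟩
    · intro B hB
      simp only [Finset.mem_filter, Finset.mem_powersetCard] at hB ⊢
      obtain ⟨⟨h1, h2⟩, u, hu⟩ := hB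
      exact ⟨g⁻¹ • B, ⟨⟨Finset.subset_smul_finset_iff.1 h1, by simp [h2]⟩, g⁻¹ * u,
        by rw [mul_smul, hu]⟩, by simp⟩
  have hext : ∀ A : Finset α, A.card = j → ∃ K, A ⊆ K ∧ K.card = j + 1 := fun A hA => by
    obtain ⟨K, h1, -, h2⟩ := Finset.exists_subsuperset_card_eq (Finset.subset_univ A)
      (n := j + 1) (by omega) (by rwa [Finset.card_univ])
    exact ⟨K, h1, h2⟩
  obtain ⟨K₀, hsK, hK₀⟩ := hext s hs
  have hpos : 0 < c K₀ := Finset.card_pos.2 ⟨s, by
    simp only [Finset.mem_filter, Finset.mem_powersetCard]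
    exact ⟨⟨hsK, hs⟩, 1, one_smul _ _⟩⟩
  have hdvd : j + 1 ∣ c K₀ := by
    rw [Nat.dvd_iff_prime_pow_dvd_dvd]
    intro p a hp hpa
    rcases Nat.eq_zero_or_pos a with rfl | ha
    · simp
    have hq0 : 0 < p ^ a := pow_pos hp.pos a
    obtain ⟨X, -, hX⟩ := Finset.exists_subset_card_eq (s := (Finset.univ : Finset α))
      (n := j + 1 + p ^ a - 1) (by
        rw [Finset.card_univ]; exact hq _ ⟨p, a, hp.prime, ha, rfl⟩ hpa)
    have hsum := Finset.sum_card_bipartiteAbove_eq_sum_card_bipartiteBelow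
      (s := (X.powersetCard j).filter O) (t := X.powersetCard (j + 1)) (fun A K => A ⊆ K)
    rw [Finset.sum_congr rfl (g := fun _ => p ^ a),
      Finset.sum_congr (s₁ := X.powersetCard (j + 1)) rfl (g := fun _ => c K₀)] at hsum
    · simp only [Finset.sum_const, smul_eq_mul, Finset.card_powersetCard] at hsum
      have h1 : p ^ a ∣ X.card.choose (j + 1) * c K₀ := hsum ▸ Dvd.intro_left _ rfl
      refine (Nat.Coprime.pow_left a
        ((Nat.Prime.coprime_iff_not_dvd hp).2 ?_)).dvd_of_dvd_mul_left h1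
      have := not_dvd_choose hp hpa
      rwa [hX, show j + 1 + p ^ a - 1 = j + 1 + (p ^ a - 1) by omega, Nat.choose_symm_add]
    · intro K hK
      obtain ⟨h1, h2⟩ := Finset.mem_powersetCard.1 hK
      rw [← hc K K₀ h2 hK₀]
      congr 1
      ext A
      simp only [Finset.mem_bipartiteBelow, Finset.mem_filter, Finset.mem_powersetCard]
      exact ⟨fun h => ⟨⟨h.2, h.1.1.2⟩, h.1.2⟩, fun h => ⟨⟨⟨h.1.1.trans h1, h.1.2⟩, h.2⟩, h.1.1⟩⟩
    · intro A hA
      obtain ⟨⟨h1, h2⟩, -⟩ : (A ⊆ X ∧ A.card = j) ∧ O A := by simpa using hA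
      have : (X \ A).card = p ^ a := by rw [Finset.card_sdiff_of_subset h1]; omega
      rw [← this]
      symm
      refine Finset.card_bij (fun x _ => insert x A) ?_ ?_ ?_
      · intro x hx
        obtain ⟨h3, h4⟩ := Finset.mem_sdiff.1 hx
        simp only [Finset.mem_bipartiteAbove, Finset.mem_powersetCard]
        exact ⟨⟨Finset.insert_subset h3 h1, by rw [Finset.card_insert_of_notMem h4, h2]⟩,
          Finset.subset_insert _ _⟩
      · intro x hx y _ h
        exact (Finset.insert_inj (Finset.mem_sdiff.1 hx).2).1 h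
      · intro K hK
        simp only [Finset.mem_bipartiteAbove, Finset.mem_powersetCard] at hK
        obtain ⟨x, hx, rfl⟩ := Finset.exists_eq_insert_iff.2 ⟨hK.2, by omega⟩
        exact ⟨x, Finset.mem_sdiff.2 ⟨hK.1.1 (Finset.mem_insert_self _ _), hx⟩, rfl⟩
  obtain ⟨K, htK, hK⟩ := hext t ht
  have h1 : j + 1 ≤ c K := by rw [hc K K₀ hK hK₀]; exact Nat.le_of_dvd hpos hdvd
  have h2 : (K.powersetCard j).filter O = K.powersetCard j :=
    Finset.eq_of_subset_of_card_le (Finset.filter_subset _ _) (by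
      rw [Finset.card_powersetCard, hK, Nat.choose_succ_self_right]; exact h1)
  have : t ∈ (K.powersetCard j).filter O := by
    rw [h2]; exact Finset.mem_powersetCard.2 ⟨htK, ht⟩
  exact (Finset.mem_filter.1 this).2

end Cfsg.Agent.S0736
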