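import Cfsg.Statements.S0737
import Mathlib
import Cfsg.Agent.Perm.Semilinear
import Cfsg.Agent.Perm.Homog
import Cfsg.Agent.Perm.PrimRel
import Cfsg.Agent.PLocal.ElemAb
import Cfsg.Agent.Grp.MinNormal
import Cfsg.Agent.S0205
import Cfsg.Agent.S0547
import Cfsg.Agent.S0548
import Cfsg.Agent.S0736

set_option autoImplicit false
open Cfsg

namespace Cfsg.Agent.S0737

open MulAction
open scoped Pointwise

theorem exists_pair {G : Type*} [Group G] {α : Type*} [DecidableEq α] [MulAction G α]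
    (h : ∀ s t : Finset α, s.card = 2 → t.card = 2 → ∃ g : G, g • s = t)
    {a b c d : α} (hab : a ≠ b) (hcd : c ≠ d) :
    ∃ g : G, (g • a = c ∧ g • b = d) ∨ (g • a = d ∧ g • b = c) := by
  obtain ⟨g, hg⟩ := h {a, b} {c, d} (Finset.card_pair hab) (Finset.card_pair hcd)
  have h1 : g • a ∈ ({c, d} : Finset α) := by rw [← hg]; exact Finset.smul_mem_smul_finset (by simp)
  have h2 : g • b ∈ ({c, d} : Finset α) := by rw [← hg]; exact Finset.smul_mem_smul_finset (by simp)
  have h3 : g • a ≠ g • b := fun h => hab (smul_left_cancel g h)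
  simp only [Finset.mem_insert, Finset.mem_singleton] at h1 h2
  refine ⟨g, ?_⟩
  rcases h1 with h1 | h1 <;> rcases h2 with h2 | h2
  · exact absurd (h1.trans h2.symm) h3
  · exact Or.inl ⟨h1, h2⟩
  · exact Or.inr ⟨h1, h2⟩
  · exact absurd (h1.trans h2.symm) h3

theorem two_trans_of_swap {G : Type*} [Group G] {α : Type*} [DecidableEq α] [MulAction G α]
    (h : ∀ s t : Finset α, s.card = 2 → t.card = 2 → ∃ g : G, g • s = t)
    {a b : α} (hab : a ≠ b) {t : G} (h1 : t • a = b) (h2 : t • b = a) :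
    IsMultiplyPretransitive G α 2 := by
  have key : ∀ c d : α, c ≠ d → ∃ g : G, g • a = c ∧ g • b = d := by
    intro c d hcd
    obtain ⟨g, hg | hg⟩ := exists_pair h hab hcd
    · exact ⟨g, hg⟩
    · exact ⟨g * t, by rw [mul_smul, h1, hg.2], by rw [mul_smul, h2, hg.1]⟩
  rw [is_two_pretransitive_iff]
  intro c d c' d' h1 h2
  obtain ⟨g, hg1, hg2⟩ := key c d h1
  obtain ⟨k, hk1, hk2⟩ := key c' d' h2
  exact ⟨k * g⁻¹, by rw [mul_smul, ← hg1, inv_smul_smul, hk1],
    by rw [mul_smul, ← hg2, inv_smul_smul, hk2]⟩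

/-- A non-trivial 2-homogeneous permutation group that is not doubly transitive has odd order and degree `p^f ≡ 3 (mod 4)`, and is permutation-isomorphic to a group of semi-affine transformations `x ↦ a φ(x) + b` of the field with `p^f` elements containing all translations. -/
theorem result {α : Type*} [Fintype α] [DecidableEq α] (G : Subgroup (Equiv.Perm α)) (hne : G ≠ ⊥) (h2 : MulAction.IsPretransitive G (Set.powersetCard α 2)) (hn2 : ¬ MulAction.IsMultiplyPretransitive G α 2) : Odd (Nat.card G) ∧ ∃ (p f : ℕ) (_ : Fact p.Prime), p ≠ 2 ∧ Fintype.card α = p ^ f ∧ p ^ f % 4 = 3 ∧ ∃ e : α ≃ GaloisField p f, (∀ g : G, e.symm.trans (((g : Equiv.Perm α)).trans e) ∈ Cfsg.semiaffineGroup (GaloisField p f)) ∧ ∀ b : GaloisField p f, ∃ g : G, ∀ x : α, e ((g : Equiv.Perm α) x) = e x + b := by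
  classical
  have hh := Perm.homog_iff.1 h2
  have hodd : Odd (Nat.card G) := by
    rw [← Nat.not_even_iff_odd, even_iff_two_dvd]
    intro h
    obtain ⟨t, ht⟩ := exists_prime_orderOf_dvd_card' 2 h
    have ht1 : t ≠ 1 := by rintro rfl; simp at ht
    obtain ⟨a, ha⟩ : ∃ a : α, t • a ≠ a := by
      by_contra! h
      exact ht1 (Subtype.ext (Equiv.ext h))
    refine hn2 (two_trans_of_swap hh ha.symm rfl ?_)
    rw [← mul_smul, ← sq, ← ht, pow_orderOf_eq_one, one_smul]
  refine ⟨hodd, ?_⟩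
  have hnt : Nontrivial G := (Subgroup.nontrivial_iff_ne_bot G).2 hne
  have hn3 : 3 ≤ Fintype.card α := by
    by_contra h
    have h1 := Subgroup.card_subgroup_dvd_card G
    rw [Nat.card_eq_fintype_card (α := Equiv.Perm α), Fintype.card_perm] at h1
    have h3 : Nat.card G ∣ 2 := h1.trans (Nat.factorial_dvd_factorial (by omega : _ ≤ 2))
    have h4 := Finite.one_lt_card (α := G)
    have h5 := Nat.le_of_dvd two_pos h3
    have h6 : Nat.card G = 2 := by omega
    rw [h6] at hodd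
    exact absurd hodd (by decide)
  have hh1 := Perm.homog_iff.1 (S0736.result G le_rfl h2 (fun q hq h => by
    have := Nat.le_of_dvd two_pos h; omega))
  have htr : IsPretransitive G α := ⟨fun a b => by
    obtain ⟨g, hg⟩ := hh1 {a} {b} rfl rfl
    exact ⟨g, by simpa using hg⟩⟩
  have hprim : IsPreprimitive G α := Perm.isPreprimitive_of_rel fun r hr hinv => by
    by_cases h : ∀ x y, r x y → x = y
    · exact Or.inl h
    right
    push Not at h
    obtain ⟨a, b, hab, hne⟩ := h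
    intro c d
    by_cases hcd : c = d
    · rw [hcd]; exact hr.refl d
    obtain ⟨g, hg | hg⟩ := exists_pair hh hne hcd
    · rw [← hg.1, ← hg.2]; exact hinv g a b hab
    · rw [← hg.1, ← hg.2]; exact hr.symm (hinv g a b hab)
  have hsol := S0205.result hodd
  obtain ⟨p, M, hp, hMn, hM0, hMc, hMp, hMP, hmin⟩ := Grp.exists_minNormal_elementaryAbelian G
  have hα : Nonempty α := Fintype.card_pos_iff.1 (by omega)
  obtain ⟨a₀⟩ := id hα
  obtain ⟨hMt, hMr, p', d, hp', hd, hc1, hc2⟩ := S0547.result hprim M hM0 hmin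
  obtain ⟨hcompl, hfaith, -⟩ := S0548.result hprim M hM0 hmin a₀
  haveI := Fact.mk hp
  have hpp : p' = p := by
    obtain ⟨k, hk⟩ := hMP.exists_card_eq
    have : p' ∣ p ^ k := by rw [← hk, hc2]; exact dvd_pow_self _ hd.ne'
    exact (Nat.prime_dvd_prime_iff_eq hp' hp).1 (hp'.dvd_of_dvd_pow this)
  subst hpp
  rw [Nat.card_eq_fintype_card] at hc1
  obtain ⟨a, b, hab⟩ := Fintype.exists_pair_of_one_lt_card (α := α) (by omega)
  have hG1 := Perm.card_eq_choose_mul_card_stabilizer h2 {a, b} (Finset.card_pair hab)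
  have hG2 := hcompl.card_mul_card
  rw [hc2] at hG2
  have hnodd : Odd (p' ^ d) := hodd.of_dvd_nat (Dvd.intro _ hG2)
  obtain ⟨m, hm⟩ := hnodd
  have hch : (Fintype.card α).choose 2 = p' ^ d * m := by
    rw [Nat.choose_two_right, hc1, hm, Nat.add_sub_cancel, mul_left_comm, Nat.mul_div_cancel_left _ two_pos]
  have hH : Nat.card (stabilizer G a₀) = m * Nat.card (stabilizer G ({a, b} : Finset α)) := by
    apply Nat.eq_of_mul_eq_mul_left (show 0 < p' ^ d by omega)
    rw [hG2, hG1, hch, mul_assoc]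
  have hHodd : Odd (Nat.card (stabilizer G a₀)) := hodd.of_dvd_nat (Dvd.intro_left _ hG2)
  have hmodd : Odd m := hHodd.of_dvd_nat (Dvd.intro _ hH.symm)
  have h43 : p' ^ d % 4 = 3 := by obtain ⟨k, hk⟩ := hmodd; omega
  have hp2 : p' ≠ 2 := by
    rintro rfl
    have : 2 ∣ 2 ^ d := dvd_pow_self _ hd.ne'
    omega
  refine ⟨p', d, inferInstance, hp2, hc1, h43, ?_⟩
  have hV : IsElementaryAbelian p' M := ⟨hMc, hMp⟩
  have hHN : stabilizer G a₀ ≤ Subgroup.normalizer (M : Set G) := by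
    rw [Subgroup.normalizer_eq_top]; exact le_top
  let ρ : stabilizer G a₀ →* Module.End (ZMod p') (PLocal.EA hV) := PLocal.EA.rep hV _ hHN
  have hρ : Function.Injective ρ := PLocal.EA.rep_injective hHN hfaith
  have hcard : Nat.card (PLocal.EA hV) = p' ^ d := by rw [PLocal.EA.card_eq, hc2]
  obtain ⟨f, hf⟩ : ∃ f : PLocal.EA hV ≃ₗ[ZMod p'] GaloisField p' d, ∀ g, ∃ (a : GaloisField p' d)
      (σ : GaloisField p' d ≃+* GaloisField p' d), a ≠ 0 ∧ ∀ v, f (ρ g v) = a * σ (f v) := by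
    by_cases hd1 : d = 1
    · subst hd1
      exact Perm.SemiLin.semilinear_of_dim_one ρ hcard
    obtain ⟨ℓ, hℓ⟩ := Misc.Zsig.zsigmondy hp.one_lt (show 1 < d by omega) (fun h => hp2 h.1) (by
      rintro ⟨rfl, -⟩
      obtain ⟨k, rfl⟩ := hp.odd_of_ne_two hp2
      have : (2 * k + 1) ^ 2 = 4 * (k ^ 2 + k) + 1 := by ring
      omega)
    refine Perm.SemiLin.semilinear_of_ppd_dvd hρ hd hcard hℓ ?_ fun _ h => absurd ?_ h
    · have h1 := hℓ.2.1
      rw [hm, Nat.add_sub_cancel] at h1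
      have h3 := hℓ.lt hd hp.one_lt
      have h4 : ℓ ∣ m := ((Nat.coprime_primes hℓ.1 Nat.prime_two).2 (by omega)).dvd_of_dvd_mul_left h1
      exact h4.trans (Dvd.intro _ hH.symm)
    · obtain ⟨k, hk⟩ := (Grp.pCore_isPGroup 2 (stabilizer G a₀)).exists_card_eq
      have h1 := hHodd.of_dvd_nat (Subgroup.card_subgroup_dvd_card (pCore 2 (stabilizer G a₀)))
      rw [hk] at h1
      rcases k with _ | k
      · exact Subgroup.card_eq_one.1 hk
      · exact absurd h1 (by simp [Nat.even_pow])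
  let t : PLocal.EA hV → α := fun v => v.val • a₀
  have ht : Function.Bijective t := by
    refine ⟨fun v w h => ?_, fun x => ?_⟩
    · have h1 : (⟨w.val⁻¹ * v.val, M.mul_mem (M.inv_mem w.val_mem) v.val_mem⟩ : M)
          ∈ stabilizer M a₀ := by
        change (w.val⁻¹ * v.val) • a₀ = a₀
        rw [mul_smul, show v.val • a₀ = w.val • a₀ from h, inv_smul_smul]
      rw [hMr, Subgroup.mem_bot] at h1
      exact PLocal.EA.ext (inv_mul_eq_one.1 (congrArg Subtype.val h1)).symm
    · obtain ⟨m, hm⟩ := exists_smul_eq M a₀ x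
      exact ⟨PLocal.EA.of hV m m.2, hm⟩
  let e := Equiv.ofBijective t ht
  have hadd : ∀ u v : PLocal.EA hV, u.val • e v = e (u + v) := fun u v => by
    change u.val • v.val • a₀ = (u + v).val • a₀
    rw [PLocal.EA.val_add, mul_smul]
  refine ⟨e.symm.trans f.toEquiv, fun g => ?_, fun b => ?_⟩
  · obtain ⟨⟨m, h⟩, hmh, -⟩ := hcompl.existsUnique g
    obtain ⟨a, σ, ha, hσ⟩ := hf h
    refine ⟨Units.mk0 a ha, f (PLocal.EA.of hV m m.2), σ, fun y => ?_⟩
    obtain ⟨v, rfl⟩ := f.surjective y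
    have h1 : (g : Equiv.Perm α) (e v) = e (PLocal.EA.of hV m m.2 + ρ h v) := by
      rw [← hadd]
      change g • v.val • a₀ = (m : G) • (h * v.val * (h : G)⁻¹) • a₀
      rw [← hmh, mul_smul, mul_smul, mul_smul, show (h : G)⁻¹ • a₀ = a₀ from (h⁻¹).2]
    simp [h1, hσ, add_comm]
  · obtain ⟨u, rfl⟩ := f.surjective b
    refine ⟨u.val, fun x => ?_⟩
    obtain ⟨v, rfl⟩ := e.surjective x
    have h1 : (u.val : Equiv.Perm α) (e v) = e (u + v) := hadd u v
    simp [h1, add_comm]

end Cfsg.Agent.S0737
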