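import Mathlib
import Cfsg.Statements.S0739
import Cfsg.Agent.Perm.ZassOdd
-- import your own Cfsg.Agent.* helpers here

set_option autoImplicit false
open Cfsg

namespace Cfsg.Agent.S0739

/-- In a finite Zassenhaus group whose two-point stabiliser `H = G_{a,b}` has odd order `d`, and which has no normal `q`-complement for any prime `q ∣ d`, `H` is cyclic, `C_G(H) = H`, and every element swapping `a` and `b` inverts each element of `H`. -/
theorem result {G Ω : Type*} [Group G] [Finite G] [MulAction G Ω] [Fintype Ω] (hZ : Cfsg.IsZassenhausGroup G Ω) {a b : Ω} (hab : a ≠ b) (hodd : Odd (Nat.card ↥(MulAction.stabilizer G a ⊓ MulAction.stabilizer G b))) (hnil : ∀ q : ℕ, q.Prime → q ∣ Nat.card ↥(MulAction.stabilizer G a ⊓ MulAction.stabilizer G b) → ¬ ∃ N : Subgroup G, N.Normal ∧ N.index = q ^ (Nat.card G).factorization q) : IsCyclic ↥(MulAction.stabilizer G a ⊓ MulAction.stabilizer G b) ∧ Subgroup.centralizer ((MulAction.stabilizer G a ⊓ MulAction.stabilizer G b : Subgroup G) : Set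 G) = MulAction.stabilizer G a ⊓ MulAction.stabilizer G b ∧ ∀ s : G, s • a = b → s • b = a → ∀ h ∈ MulAction.stabilizer G a ⊓ MulAction.stabilizer G b, s * h * s⁻¹ = h⁻¹ := by
  obtain ⟨h1, h2⟩ := Perm.Zass.two_structure hZ hab hodd hnil
  refine ⟨h1, ?_, h2⟩
  obtain ⟨x, hx1, hx⟩ := Perm.Zass.exists_ne_one_fix hZ hab
  have h3 := Perm.Zass.centralizer_eq_of_inverts hZ hab hodd h1 h2 (x := x) hx hx1
  apply le_antisymm
  · rw [← h3]
    nth_rewrite 1 [h3]
    exact Subgroup.centralizer_le (Set.singleton_subset_iff.mpr hx)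
  · intro g hg
    rw [Subgroup.mem_centralizer_iff]
    intro y hy
    exact congrArg Subtype.val (h1.isMulCommutative.1.1 ⟨y, hy⟩ ⟨g, hg⟩)

end Cfsg.Agent.S0739
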