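import Mathlib
import Cfsg.Statements.S0740
import Cfsg.Agent.Perm.ZassBasic
-- import your own Cfsg.Agent.* helpers here

set_option autoImplicit false
open Cfsg

namespace Cfsg.Agent.S0740

/-- In a finite Zassenhaus group any two points `a ≠ b` are swapped by an involution; every such involution has exactly one fixed point when the degree is odd and 0 or 2 fixed points when the degree is even; and if the two-point stabiliser has even order, some such involution has exactly 2 fixed points. -/
theorem result {G Ω : Type*} [Group G] [Finite G] [MulAction G Ω] [Fintype Ω] (hZ : Cfsg.IsZassenhausGroup G Ω) {a b : Ω} (hab : a ≠ b) : (∃ s : G, orderOf s = 2 ∧ s • a = b ∧ s • b = a) ∧ (∀ s : G, orderOf s = 2 → s • a = b → s • b = a → (Odd (Fintype.card Ω) → Nat.card (MulAction.fixedBy Ω s) = 1) ∧ (Even (Fintype.card Ω) → Nat.card (MulAction.fixedBy Ω s) = 0 ∨ Nat.card (MulAction.fixedBy Ω s) = 2)) ∧ (Even (Fintype.card Ω) → Even (Nat.card ↥(MulAction.stabilizer G a ⊓ MulAction.stabilizer G b)) → ∃ s : G, orderOf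 s = 2 ∧ s • a = b ∧ s • b = a ∧ Nat.card (MulAction.fixedBy Ω s) = 2) := by
  refine ⟨Perm.Zass.exists_swap_involution hZ hab, fun s hs _ _ => ?_, fun _ he => ?_⟩
  · have h1 := Perm.Zass.card_fixedBy_le_two hZ (Inv.Count.ne_one_of_orderOf hs)
    have h2 := Perm.Zass.card_fixedBy_modEq_two (Ω := Ω) (Inv.Count.mul_self_of_orderOf hs)
    rw [Nat.card_eq_fintype_card, Nat.ModEq] at h2
    refine ⟨fun h => ?_, fun h => ?_⟩
    · rw [Nat.odd_iff] at h; omega
    · rw [Nat.even_iff] at h; omega
  · obtain ⟨t, ht, ht2⟩ := Inv.Count.exists_involution_mem he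
    obtain ⟨g, hg⟩ := Perm.Zass.exists_conj_swap hZ ht2 hab
    refine ⟨g * t * g⁻¹, by rw [Inv.Count.orderOf_conj, ht2], hg.1, hg.2, ?_⟩
    have ha : t • a = a := ht.1
    have hb : t • b = b := ht.2
    refine Perm.Zass.card_fixedBy_two hZ (by simpa using Inv.Count.ne_one_of_orderOf ht2)
      (a := g • a) (b := g • b) (fun h => hab (smul_left_cancel g h)) ?_ ?_
    · simp [mul_smul, ha]
    · simp [mul_smul, hb]

end Cfsg.Agent.S0740
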