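import Cfsg.Statements.S0744
import Cfsg.Agent.Perm.Homog
import Cfsg.Agent.Perm.PrimRel

set_option autoImplicit false
open Cfsg

namespace Cfsg.Agent.S0744

open MulAction

/-- If for some `k > 1` the pointwise stabilisers of all `(k-1)`-subsets have the same order `> 1` and those of all `k`-subsets have the same order, then the group is `(k-1)`-transitive. -/
theorem result {α : Type*} [Fintype α] [DecidableEq α] (G : Subgroup (Equiv.Perm α)) {k : ℕ} (hk : 1 < k) (hkn : k ≤ Fintype.card α) (l m : ℕ) (hl : 1 < l) (hkm1 : ∀ s : Finset α, s.card = k - 1 → Nat.card (fixingSubgroup G (s : Set α)) = l) (hkm : ∀ s : Finset α, s.card = k → Nat.card (fixingSubgroup G (s : Set α)) = m) : MulAction.IsMultiplyPretransitive G α (k - 1) := by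
  have hn : Nat.card α = Fintype.card α := Nat.card_eq_fintype_card
  have hle : ∀ (s : Finset α) (x : α), fixingSubgroup G ((insert x s : Finset α) : Set α) ≤
      fixingSubgroup G (s : Set α) := fun s x => fixingSubgroup_antitone G α (by simp)
  have hidx : ∀ s : Finset α, s.card = k - 1 → ∀ x, x ∉ s →
      m * (fixingSubgroup G ((insert x s : Finset α) : Set α)).relIndex
        (fixingSubgroup G (s : Set α)) = l := by
    intro s hs x hx
    rw [← hkm1 s hs, ← hkm (insert x s) (by rw [Finset.card_insert_of_notMem hx]; omega),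
      ← Nat.card_congr (Subgroup.subgroupOfEquivOfLe (hle s x)).toEquiv]
    exact Subgroup.card_mul_index _
  have hout : ∀ s : Finset α, s.card = k - 1 → ∃ x, x ∉ s := fun s hs => by
    obtain ⟨x, -, hx⟩ := Finset.exists_mem_notMem_of_card_lt_card
      (show s.card < (Finset.univ : Finset α).card by rw [Finset.card_univ]; omega)
    exact ⟨x, hx⟩
  obtain ⟨s₀, -, hs₀⟩ := Finset.exists_subset_card_eq (s := (Finset.univ : Finset α)) (n := k - 1)
    (by rw [Finset.card_univ]; omega)
  obtain ⟨x₀, hx₀⟩ := hout s₀ hs₀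
  set d := (fixingSubgroup G ((insert x₀ s₀ : Finset α) : Set α)).relIndex
        (fixingSubgroup G (s₀ : Set α)) with hd
  have hmd := hidx s₀ hs₀ x₀ hx₀
  rw [← hd] at hmd
  have hm : 0 < m := Nat.pos_of_ne_zero (by rintro rfl; omega)
  have hidx' : ∀ s : Finset α, s.card = k - 1 → ∀ x, x ∉ s →
      (fixingSubgroup G ((insert x s : Finset α) : Set α)).relIndex
        (fixingSubgroup G (s : Set α)) = d := fun s hs x hx =>
    Nat.eq_of_mul_eq_mul_left hm ((hidx s hs x hx).trans hmd.symm)
  have hd1 : d ≠ 1 := by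
    intro h1
    have : fixingSubgroup G (s₀ : Set α) = ⊥ := by
      rw [eq_bot_iff]
      intro g hg
      rw [Subgroup.mem_bot]
      ext x
      by_cases hx : x ∈ s₀
      · exact (mem_fixingSubgroup_iff G).1 hg x hx
      · exact (mem_fixingSubgroup_iff G).1
          (Subgroup.relIndex_eq_one.1 ((hidx' s₀ hs₀ x hx).trans h1) hg) x (by simp)
    have h2 := hkm1 s₀ hs₀
    rw [this, Subgroup.card_bot] at h2
    omega
  obtain ⟨p, hp, hpd⟩ := Nat.exists_prime_and_dvd hd1
  haveI := Fact.mk hp
  refine Perm.gleason hp (by omega) fun s hs => ?_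
  obtain ⟨P, hP, -, hPs, hPi⟩ := Perm.exists_sylow_in p (fixingSubgroup G (s : Set α)) ⊥
    IsPGroup.of_bot bot_le
  refine ⟨P, hP, fun x => ⟨fun h => ?_, fun hx u hu => (mem_fixingSubgroup_iff G).1 (hPs hu) x hx⟩⟩
  by_contra hx
  apply hPi
  have hP' : P ≤ fixingSubgroup G ((insert x s : Finset α) : Set α) := fun u hu =>
    (mem_fixingSubgroup_iff G).2 fun y hy => by
      rcases Finset.mem_insert.1 (Finset.mem_coe.1 hy) with rfl | hy
      exacts [h u hu, (mem_fixingSubgroup_iff G).1 (hPs hu) y hy]
  rw [← Subgroup.relIndex_mul_relIndex _ _ _ hP' (hle s x), hidx' s hs x hx]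
  exact hpd.mul_left _

end Cfsg.Agent.S0744
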