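import Cfsg.Statements.S0745
import Mathlib
import Cfsg.Agent.Perm.HallK
import Cfsg.Agent.Perm.Homog
import Cfsg.Agent.S0744
import Cfsg.Agent.S0417
import Cfsg.Agent.Perm.PrimeDegree

set_option autoImplicit false
open Cfsg

namespace Cfsg.Agent.S0745

open Cfsg.Agent.Perm Cfsg.Agent.Perm.Hall4 MulAction
open scoped Pointwise

theorem card_modEq_Fx {G α : Type*} [Group G] [MulAction G α] [Fintype α] [DecidableEq α] {p : ℕ}
    [Fact p.Prime] {g : G} (hg : g ^ p = 1) : Fintype.card α ≡ (Fx α g).card [MOD p] := by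
  have := Equiv.Perm.card_fixedPoints_modEq (α := α) (p := p) (n := 1)
    (f := (MulAction.toEndHom g : Function.End α)) (by rw [pow_one, ← map_pow, hg, map_one])
  convert this using 1
  exact (Fintype.card_of_subtype (Fx α g) fun x => mem_Fx).symm

theorem of_alt_le {α : Type*} [Fintype α] [DecidableEq α] (G : Subgroup (Equiv.Perm α)) {j : ℕ}
    (hj : j + 1 ≤ Fintype.card α) (hnt : ¬ IsMultiplyPretransitive G α j)
    (h : alternatingGroup α ≤ G) : j + 1 = Fintype.card α ∧ G = alternatingGroup α := by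
  classical
  constructor
  · by_contra hc
    refine hnt (multTrans_of_le h ?_)
    have := alternatingGroup.isMultiplyPretransitive α
    exact isMultiplyPretransitive_of_le (n := Nat.card α - 2)
      (by rw [Nat.card_eq_fintype_card]; omega) (Nat.sub_le _ _)
  · refine le_antisymm (fun g hg => by_contra fun hc => hnt ?_) h
    refine multTrans_subgroup_iff.2 fun x y hx hy => ?_
    obtain ⟨σ, hσ⟩ := multTrans_iff_fun.1 (Equiv.Perm.isMultiplyPretransitive α j) x y hx hy
    refine ⟨σ, by_contra fun hs => hs ((G.mul_mem_cancel_right hg).1 (h ?_)), hσ⟩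
    have : σ ∉ alternatingGroup α := fun c => hs (h c)
    rw [Equiv.Perm.mem_alternatingGroup] at hc this ⊢
    rw [map_mul, (Int.units_eq_one_or _).resolve_left hc, (Int.units_eq_one_or _).resolve_left this]
    rfl

theorem not_eleven {G α : Type*} [Group G] [MulAction G α] [FaithfulSMul G α] [IsPretransitive G α]
    (h : Nat.card α = 11) : Nat.card G ≠ 330 := by
  have : Fact (Nat.Prime 11) := ⟨by norm_num⟩
  intro hG
  obtain ⟨P⟩ : Nonempty (Sylow 11 G) := inferInstance
  obtain ⟨d, n, h1, h2, h3, -⟩ := Perm.card_eq_of_prime_degree h P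
  have h4 : d ≤ 10 := Nat.le_of_dvd (by norm_num) h1
  rw [hG] at h3
  interval_cases d <;> omega

theorem not_twentythree {G α : Type*} [Group G] [MulAction G α] [FaithfulSMul G α]
    [IsPretransitive G α] (h : Nat.card α = 23) : Nat.card G ≠ 3542 := by
  have : Fact (Nat.Prime 23) := ⟨by norm_num⟩
  intro hG
  obtain ⟨P⟩ : Nonempty (Sylow 23 G) := inferInstance
  obtain ⟨d, n, h1, h2, h3, -⟩ := Perm.card_eq_of_prime_degree h P
  have h4 : d ≤ 22 := Nat.le_of_dvd (by norm_num) h1
  rw [hG] at h3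
  interval_cases d <;> omega

theorem exists_stab {G α : Type*} [Group G] [MulAction G α] [FaithfulSMul G α] [Finite α]
    [Nonempty α] (h : IsMultiplyPretransitive G α 2) :
    ∃ (H : Subgroup G) (β : Set α) (_ : MulAction H β), FaithfulSMul H β ∧ IsPretransitive H β ∧
      Nat.card β + 1 = Nat.card α ∧ Nat.card α * Nat.card H = Nat.card G := by
  obtain ⟨a⟩ : Nonempty α := inferInstance
  have h1 : IsPretransitive G α := isPretransitive_of_is_two_pretransitive
  refine ⟨stabilizer G a, SubMulAction.ofStabilizer G a, inferInstanceAs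
    (MulAction (stabilizer G a) (SubMulAction.ofStabilizer G a)), ⟨fun {g g'} e => Subtype.ext
    (eq_of_smul_eq_smul fun u : α => ?_)⟩, ?_, SubMulAction.nat_card_ofStabilizer_add_one_eq G a, ?_⟩
  · by_cases hu : u = a
    · rw [hu, g.2, g'.2]
    · exact congrArg Subtype.val (e ⟨u, hu⟩)
  · exact is_one_pretransitive_iff.1 ((SubMulAction.ofStabilizer.isMultiplyPretransitive).1 h)
  · rw [← index_stabilizer_of_transitive G a, Subgroup.index_mul_card]

theorem not_seven {G α : Type*} [Group G] [MulAction G α] [Fintype α] [DecidableEq α]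
    (hn : Fintype.card α = 7) (h : IsMultiplyPretransitive G α 3)
    (hs : ∀ g : G, 3 ≤ (Fx α g).card → g = 1) : False := by
  have : Fact (Nat.Prime 3) := ⟨by norm_num⟩
  obtain ⟨x, y, z, -, -, -, hxy, hxz, hyz⟩ := Finset.two_lt_card_iff.1
    (show 2 < (Finset.univ : Finset α).card by rw [Finset.card_univ]; omega)
  have key : ∀ g : G, g • x = x → g • y = y → g • z = z → g = 1 := fun g e1 e2 e3 =>
    hs g (Finset.two_lt_card_iff.2 ⟨x, y, z, mem_Fx.2 e1, mem_Fx.2 e2, mem_Fx.2 e3, hxy, hxz, hyz⟩)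
  obtain ⟨g, g1, g2, g3⟩ := three_trans_iff.1 h x y z y z x hxy hxz hyz hyz hxy.symm hxz.symm
  obtain ⟨t, t1, t2, t3⟩ := three_trans_iff.1 h x y z y x z hxy hxz hyz hxy.symm hyz hxz
  have e1 : g ^ 3 = 1 := key _ (by simp [pow_succ, mul_smul, *]) (by simp [pow_succ, mul_smul, *])
    (by simp [pow_succ, mul_smul, *])
  have e2 : t ^ 2 = 1 := key _ (by simp [pow_succ, mul_smul, *]) (by simp [pow_succ, mul_smul, *])
    (by simp [pow_succ, mul_smul, *])
  have e3 : g * t * g * t⁻¹ = 1 := by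
    have : g * t * g * t = 1 := key _ (by simp [mul_smul, *]) (by simp [mul_smul, *])
      (by simp [mul_smul, *])
    rwa [inv_eq_of_mul_eq_one_right (sq t ▸ e2)]
  have h1 := card_modEq_Fx (α := α) e1
  have h2 := card_modEq_Fx (α := α) e2
  have h3 : ¬ 3 ≤ (Fx α g).card := fun c => hxy (by rw [← g1, hs g c, one_smul])
  have h4 : ¬ 3 ≤ (Fx α t).card := fun c => hxy (by rw [← t1, hs t c, one_smul])
  rw [hn, Nat.ModEq] at h1 h2
  obtain ⟨w, hw⟩ := Finset.card_eq_one.1 (show (Fx α g).card = 1 by omega)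
  have hw' : ∀ u : α, g • u = u ↔ u = w := fun u => by rw [← mem_Fx, hw, Finset.mem_singleton]
  have h5 : t • w = w := (hw' _).1 (by
    rw [mul_inv_eq_one] at e3
    nth_rewrite 2 [← e3]
    rw [mul_smul, mul_smul, (hw' w).2 rfl])
  have h6 : 1 < (Fx α t).card := Finset.one_lt_card.2 ⟨z, mem_Fx.2 t3, w, mem_Fx.2 h5, fun c =>
    hxz (by rw [← g3, (hw' z).2 c])⟩
  omega

theorem arith2 {d e s : ℕ} (hd1 : d ≠ 1) (he : e ≠ 1) (h1 : d * s = e + 1)
    (hdd : d ∣ (2 + 1).factorial)
    (hed : d * e ∣ (2 + 2).factorial) (hs : s % 2 = 1) : (e = 2 ∧ s = 1) ∨ (e = 8 ∧ s = 3) := by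
  have h2 : d ∈ Nat.divisors 6 := Nat.mem_divisors.2 ⟨hdd, by norm_num⟩
  have h3 : d * e ∈ Nat.divisors 24 := Nat.mem_divisors.2 ⟨hed, by norm_num⟩
  clear hdd hed
  rw [show Nat.divisors 6 = {1, 2, 3, 6} by decide] at h2
  rw [show Nat.divisors 24 = {1, 2, 3, 4, 6, 8, 12, 24} by decide] at h3
  simp only [Finset.mem_insert, Finset.mem_singleton] at h2 h3
  rcases h2 with rfl | rfl | rfl | rfl <;> omega

theorem arith3 {d e s : ℕ} (hd1 : d ≠ 1) (he : e ≠ 1) (h1 : d * s = e + 1)
    (hdd : d ∣ (3 + 1).factorial) (hed : d * e ∣ (3 + 2).factorial) (hs : s % 2 = 1) :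
    (e = 2 ∧ s = 1) ∨ (e = 3 ∧ d = 4) ∨ (e = 5 ∧ (s = 1 ∨ s = 3)) ∨ (e = 8 ∧ s = 3) ∨
        (e = 20 ∧ s = 7) := by
  have h2 : d ∈ Nat.divisors 24 := Nat.mem_divisors.2 ⟨hdd, by norm_num⟩
  have h3 : d * e ≤ 120 := Nat.le_of_dvd (by norm_num) hed
  change d * e ∣ 120 at hed
  clear hdd
  rw [show Nat.divisors 24 = {1, 2, 3, 4, 6, 8, 12, 24} by decide] at h2
  simp only [Finset.mem_insert, Finset.mem_singleton] at h2
  have h4 : s ≤ 31 := by rcases h2 with rfl | rfl | rfl | rfl | rfl | rfl | rfl | rfl <;> omega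
  obtain rfl : e = d * s - 1 := by omega
  clear h3
  revert h1 hed hs hd1 he
  rcases h2 with rfl | rfl | rfl | rfl | rfl | rfl | rfl | rfl <;> interval_cases s <;> decide

set_option maxHeartbeats 1000000 in
/-- Let `G` have degree `n` and `3 ≤ k ≤ n`; suppose `G` is `(k-2)`-transitive but not `(k-1)`-transitive, and is `(k-1)`-homogeneous and `k`-homogeneous. Then `k = n` and `G` is the alternating group, or `n = 5, k = 4, |G| = 20`, or `n = 6, k = 5, |G| = 120`, or `n = 9, k = 5, |G| ∈ {504, 1512}`. -/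
theorem result {α : Type*} [Fintype α] [DecidableEq α] (G : Subgroup (Equiv.Perm α)) {k : ℕ} (hk : 3 ≤ k) (hkn : k ≤ Fintype.card α) (ht : MulAction.IsMultiplyPretransitive G α (k - 2)) (hnt : ¬ MulAction.IsMultiplyPretransitive G α (k - 1)) (hh1 : MulAction.IsPretransitive G (Set.powersetCard α (k - 1))) (hh : MulAction.IsPretransitive G (Set.powersetCard α k)) : (k = Fintype.card α ∧ G = alternatingGroup α) ∨ (Fintype.card α = 5 ∧ k = 4 ∧ Nat.card G = 20) ∨ (Fintype.card α = 6 ∧ k = 5 ∧ Nat.card G = 120) ∨ (Fintype.card α = 9 ∧ k = 5 ∧ (Nat.card G = 504 ∨ Nat.card G = 1512)) := by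
  classical
  obtain ⟨t, rfl⟩ : ∃ t, k = t + 2 := ⟨k - 2, by omega⟩
  simp only [Nat.add_sub_cancel, show t + 2 - 1 = t + 1 from rfl] at ht hnt
  replace hh1 : IsPretransitive G (Set.powersetCard α (t + 1)) := hh1
  have hsub : ∀ j ≤ Fintype.card α, ∃ s : Finset α, s.card = j := fun j hj => by
    obtain ⟨s, -, hs⟩ := Finset.exists_subset_card_eq (s := (Finset.univ : Finset α)) (n := j) hj
    exact ⟨s, hs⟩
  obtain ⟨Γ, hΓ⟩ := hsub (t + 1) (by omega)
  obtain ⟨Δ, hΔ⟩ := hsub (t + 2) hkn
  have hconst : ∀ {j : ℕ}, IsPretransitive G (Set.powersetCard α j) → ∀ s s' : Finset α,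
      s.card = j → s'.card = j →
      Nat.card (fixingSubgroup G (s' : Set α)) = Nat.card (fixingSubgroup G (s : Set α)) := by
    intro j h s s' hs hs'
    obtain ⟨g, rfl⟩ := homog_iff.1 h s s' hs hs'
    exact card_fixingSubgroup_smul g s
  have hF : ∀ (g : G) (s : Finset α), t + 1 ≤ s.card → (∀ x ∈ s, g • x = x) → g = 1 := by
    intro g s hs hg
    obtain ⟨s', h1, h2⟩ := Finset.exists_subset_card_eq hs
    have : fixingSubgroup G (s' : Set α) = ⊥ := by
      by_contra hc
      exact hnt (S0744.result G (k := t + 2) (by omega) hkn _ _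
        ((Subgroup.one_lt_card_iff_ne_bot _).2 hc) (fun s hs => hconst hh1 s' s h2 hs)
        fun s hs => hconst hh Δ s hΔ hs)
    exact Subgroup.mem_bot.1 (this ▸ (mem_fixingSubgroup_iff _).2 fun x hx => hg x (h1 hx))
  have halt := of_alt_le G (j := t + 1) hkn hnt
  by_cases hn2 : Fintype.card α = t + 2
  · refine .inl (halt (IsMultiplyPretransitive.alternatingGroup_le α G ?_))
    rwa [Nat.card_eq_fintype_card, hn2]
  obtain ⟨d, hd⟩ := card_stabilizer_dvd_factorial Γ fun g => hF g Γ hΓ.ge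
  have ha := card_eq_choose_mul_card_stabilizer hh1 Γ hΓ
  have hb := card_eq_choose_mul_card_stabilizer hh Δ hΔ
  obtain ⟨e, he⟩ : ∃ e, Fintype.card α = t + 1 + e := ⟨Fintype.card α - (t + 1), by omega⟩
  rw [hΓ] at hd
  have hpos : ∀ j ≤ Fintype.card α, 0 < (Fintype.card α).choose j := fun j => Nat.choose_pos
  have hs : ∀ Λ : Finset α, Λ.card = t → d * Nat.card (fixingSubgroup G (Λ : Set α)) = e + 1 ∧
      Nat.card G = (Fintype.card α).choose t * t.factorial *
        Nat.card (fixingSubgroup G (Λ : Set α)) := by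
    intro Λ hΛ
    have h1 := IsMultiplyPretransitive.index_of_fixingSubgroup_eq (G := G) (Λ : Set α)
      (by rwa [Set.ncard_coe_finset, hΛ])
    rw [Set.ncard_coe_finset, hΛ, Nat.card_eq_fintype_card] at h1
    have h2 := (fixingSubgroup G (Λ : Set α)).index_mul_card
    rw [h1] at h2
    refine ⟨?_, h2.symm⟩
    have h3 := Nat.choose_succ_right_eq (Fintype.card α) t
    rw [show Fintype.card α - t = e + 1 by omega] at h3
    refine Nat.eq_of_mul_eq_mul_left (Nat.mul_pos (hpos t (by omega))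
      (Nat.card_pos (α := stabilizer G Γ))) ?_
    calc _ = (Fintype.card α).choose t * (Nat.card (stabilizer G Γ) * d) *
          Nat.card (fixingSubgroup G (Λ : Set α)) := by ring
      _ = (t + 1) * Nat.card G := by rw [← hd, ← h2, Nat.factorial_succ]; ring
      _ = ((Fintype.card α).choose (t + 1) * (t + 1)) * Nat.card (stabilizer G Γ) := by
          rw [ha]; ring
      _ = _ := by rw [h3]; ring
  have hde : d * e * Nat.card (stabilizer G Δ) = (t + 2).factorial := by
    have h3 := Nat.choose_succ_right_eq (Fintype.card α) (t + 1)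
    rw [show Fintype.card α - (t + 1) = e by omega] at h3
    refine Nat.eq_of_mul_eq_mul_left (hpos (t + 1) (by omega)) ?_
    calc _ = d * ((Fintype.card α).choose (t + 1) * e) * Nat.card (stabilizer G Δ) := by ring
      _ = d * (t + 2) * Nat.card G := by rw [← h3, hb]; ring
      _ = _ := by rw [ha, Nat.factorial_succ (t + 1), hd]; ring
  have hd1 : d ≠ 1 := by
    rintro rfl
    refine hnt (multTrans_of_homog_of_induces hh1 Γ hΓ fun σ => ?_)
    have : Function.Bijective (stabilizerToPerm G Γ) := by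
      rw [Nat.bijective_iff_injective_and_card, injective_iff_map_eq_one]
      refine ⟨fun g hg => Subtype.ext (hF g Γ hΓ.ge fun x hx => ?_), ?_⟩
      · exact (congrArg Subtype.val (DFunLike.congr_fun hg ⟨x, hx⟩) :)
      · rw [Nat.card_perm, Nat.card_eq_fintype_card (α := Γ), Fintype.card_coe, hΓ, hd, mul_one]
    obtain ⟨g, rfl⟩ := this.2 σ
    exact ⟨g, fun x => rfl⟩
  obtain ⟨Λ, hΛ⟩ := hsub t (by omega)
  obtain ⟨h1, h2⟩ := hs Λ hΛ
  have hodd : 2 ≤ t → ∀ g : G, t ≤ (Fx α g).card → Odd (orderOf g) := by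
    intro h g hg
    by_contra hc
    obtain ⟨u, hu, u1, u2⟩ := exists_invol_of_even hc (orderOf_pos g)
    refine hnt (multTrans_of_homog_of_induces hh1 Γ hΓ (all_of_sw (sw_of_even h ht
      (fun v v1 _ => not_lt.1 fun c => v1 (hF v _ c fun x => mem_Fx.1)) u1 u2
      (hg.trans (Finset.card_le_card fun x hx => ?_)) Γ hΓ)))
    exact mem_Fx.2 (Subgroup.zpowers_le.2 (mem_stabilizer_iff.2 (mem_Fx.1 hx)) hu)
  have hodd' : 2 ≤ t → Nat.card (fixingSubgroup G (Λ : Set α)) % 2 = 1 := by
    intro h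
    by_contra hc
    obtain ⟨g, hg⟩ := exists_prime_orderOf_dvd_card' (G := fixingSubgroup G (Λ : Set α)) 2
      (by omega)
    have := hodd h g.1 (hΛ ▸ Finset.card_le_card fun x hx =>
      mem_Fx.2 ((mem_fixingSubgroup_iff _).1 g.2 x hx))
    rw [Subgroup.orderOf_coe, hg] at this
    exact absurd this (by decide)
  have hdd : d ∣ (t + 1).factorial := Dvd.intro_left _ hd.symm
  have hed : d * e ∣ (t + 2).factorial := Dvd.intro _ hde
  set s := Nat.card (fixingSubgroup G (Λ : Set α)) with hsdef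
  rcases (by omega : t = 1 ∨ t = 2 ∨ t = 3 ∨ 4 ≤ t) with rfl | rfl | rfl | h4
  · exfalso
    have := Nat.le_of_dvd (by norm_num) hdd
    have := Nat.le_of_dvd (by norm_num) ((Dvd.intro_left _ rfl).trans hed)
    simp only [Nat.factorial] at *
    have : d = 2 ∧ e = 3 := by
      interval_cases d <;> interval_cases e <;> omega
    obtain ⟨rfl, rfl⟩ := this
    obtain ⟨g, hg⟩ := exists_prime_orderOf_dvd_card' (G := fixingSubgroup G (Λ : Set α)) 2
      (by omega)
    obtain ⟨x, hx⟩ : ∃ x, g.1 • x ≠ x := by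
      by_contra hc
      push Not at hc
      rw [show g = 1 from Subtype.ext (Subtype.ext (Equiv.ext hc)), orderOf_one] at hg
      omega
    have h5 := card_eq_choose_mul_card_stabilizer hh1 {x, g.1 • x} (Finset.card_pair hx.symm)
    rw [ha] at h5
    have h6 := Nat.eq_of_mul_eq_mul_left (hpos _ (by omega)) h5
    rw [show Nat.card (stabilizer G Γ) = 1 by omega, eq_comm, Subgroup.card_eq_one] at h6
    have : g.1 ∈ stabilizer G ({x, g.1 • x} : Finset α) := by
      rw [mem_stabilizer_iff, Finset.smul_finset_insert, Finset.smul_finset_singleton,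
        ← mul_smul, ← sq, ← hg, ← Subgroup.orderOf_coe, pow_orderOf_eq_one, one_smul,
        Finset.pair_comm]
    rw [h6, Subgroup.mem_bot] at this
    exact hx (by rw [this, one_smul])
  · have : (e = 2 ∧ s = 1) ∨ (e = 8 ∧ s = 3) := arith2 hd1 (by omega) h1 hdd hed (hodd' le_rfl)
    rcases this with ⟨rfl, h⟩ | ⟨rfl, h⟩
    · exact .inr (.inl ⟨he, rfl, by rw [h2, he, h]; rfl⟩)
    · have : IsPretransitive G α := isPretransitive_of_is_two_pretransitive
      exact absurd (by rw [h2, he, h]; rfl)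
        (not_eleven (G := G) (α := α) (by rw [Nat.card_eq_fintype_card, he]))
  · have := arith3 hd1 (by omega) h1 hdd hed (hodd' (by norm_num))
    have hne : Nonempty α := Fintype.card_pos_iff.1 (by omega)
    obtain ⟨H, β, _, _, _, b1, b2⟩ := exists_stab (G := G) (α := α)
      (isMultiplyPretransitive_of_le (n := 3) (by norm_num)
        (by rw [Nat.card_eq_fintype_card]; omega))
    rw [Nat.card_eq_fintype_card (α := α), he] at b1 b2
    rcases this with ⟨rfl, h⟩ | ⟨rfl, rfl⟩ | ⟨rfl, h⟩ | ⟨rfl, h⟩ | ⟨rfl, h⟩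
    · exact .inr (.inr (.inl ⟨he, rfl, by rw [h2, he, h]; rfl⟩))
    · refine (not_seven he ht fun g hg => ?_).elim
      obtain ⟨s', e1, e2⟩ := Finset.exists_subset_card_eq hg
      have := (hs s' e2).1
      have : fixingSubgroup G (s' : Set α) = ⊥ := Subgroup.card_eq_one.1 (by omega)
      exact Subgroup.mem_bot.1 (this ▸ (mem_fixingSubgroup_iff _).2 fun x hx => mem_Fx.1 (e1 hx))
    · refine .inr (.inr (.inr ⟨he, rfl, ?_⟩))
      rcases h with h | h
      · exact .inl (by rw [h2, he, h]; rfl)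
      · exact .inr (by rw [h2, he, h]; rfl)
    · rw [h2, he, h] at b2
      norm_num [Nat.choose, Nat.factorial, -Nat.card_eq_fintype_card] at b2
      exact absurd (by omega) (not_eleven (G := H) (α := β) (by omega))
    · rw [h2, he, h] at b2
      norm_num [Nat.choose, Nat.factorial, -Nat.card_eq_fintype_card] at b2
      exact absurd (by omega) (not_twentythree (G := H) (α := β) (by omega))
  · by_cases hn : t + 4 ≤ Fintype.card α
    · exfalso
      obtain ⟨h5, h6⟩ := hallK h4 ht (hodd (by omega)) hn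
      have h7 : s = 1 := Subgroup.card_eq_one.2 (eq_bot_iff.2 fun g hg => h6 g (hΛ ▸
        Finset.card_le_card fun x hx => mem_Fx.2 ((mem_fixingSubgroup_iff _).1 hg x hx)))
      have h8 : d = 7 := by rw [h7] at h1; omega
      rw [h8, Nat.Prime.dvd_factorial (by norm_num)] at hdd
      have := S0417.result G t (by omega) (by omega)
        (Spor.stabilizer_eq_bot_of_fixTrivial fun g s e1 e2 =>
          h6 g (e1.trans (Finset.card_le_card fun x hx => mem_Fx.2 (e2 x hx))))
      omega
    · exact .inl (halt (alt_le_of_card_le G h4 ht (by omega) (by omega)))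

end Cfsg.Agent.S0745
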