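import Cfsg.Statements.S0746
import Mathlib
import Cfsg.Agent.S0745
import Cfsg.Agent.S0736
import Cfsg.Agent.Perm.Homog

set_option autoImplicit false
open Cfsg

namespace Cfsg.Agent.S0746

open MulAction Cfsg.Agent.Perm
open scoped Pointwise

/-- The Livingstone–Wagner Theorem, first form: a `k`-homogeneous group of degree `n` with `4 ≤ 2k ≤ n` is `(k-1)`-transitive. -/
theorem result {α : Type*} [Fintype α] [DecidableEq α] (G : Subgroup (Equiv.Perm α)) {k : ℕ} (hk : 2 ≤ k) (hkn : 2 * k ≤ Fintype.card α) (hh : MulAction.IsPretransitive G (Set.powersetCard α k)) : MulAction.IsMultiplyPretransitive G α (k - 1) := by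
  classical
  have hpred : ∀ {k : ℕ}, 2 ≤ k → 2 * k ≤ Fintype.card α →
      IsPretransitive G (Set.powersetCard α k) → IsPretransitive G (Set.powersetCard α (k - 1)) :=
    fun {k} hk hkn hh => S0736.result G hk hh fun q _ hq => by
      have := Nat.le_of_dvd (by omega) hq
      omega
  induction k, hk using Nat.le_induction with
  | base =>
    have h1 := hpred le_rfl hkn hh
    refine is_one_pretransitive_iff.2 ⟨fun x y => ?_⟩
    obtain ⟨g, hg⟩ := homog_iff.1 h1 {x} {y} (Finset.card_singleton x) (Finset.card_singleton y)
    rw [Finset.smul_finset_singleton, Finset.singleton_inj] at hg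
    exact ⟨g, hg⟩
  | succ k hk ih =>
    have h1 := hpred (by omega) hkn hh
    by_contra hc
    have := S0745.result G (k := k + 1) (by omega) (by omega) (ih (by omega) h1) hc h1 hh
    omega

end Cfsg.Agent.S0746
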