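import Cfsg.Statements.S0747
import Mathlib
import Cfsg.Agent.Perm.HallK
import Cfsg.Agent.Perm.Homog
import Cfsg.Agent.S4219

set_option autoImplicit false
open scoped Pointwise
open Cfsg

namespace Cfsg.Agent.S0747

open Cfsg.Agent.Perm Cfsg.Agent.Perm.Hall4 MulAction Cfsg.Agent.PLocal.Amb
open scoped Pointwise

theorem core {β : Type*} [Fintype β] [DecidableEq β] (Y : Subgroup (Equiv.Perm β)) {k : ℕ}
    (hk : 4 ≤ k) (hkn : k < Fintype.card β) (hY : IsMultiplyPretransitive Y β k)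
    (hle : ∀ t : Y, t ≠ 1 → t * t = 1 → (Fx β t).card ≤ k) :
    ∃ Δ : Finset β, Δ.card = k + 1 ∧ ∀ σ : Equiv.Perm Δ, σ ∈ alternatingGroup Δ →
      ∃ g : Y, ∀ x : Δ, g • (x : β) = σ x := by
  obtain ⟨Δ, -, hΔ⟩ := Finset.exists_subset_card_eq (s := (Finset.univ : Finset β)) (n := k + 1)
    (by rw [Finset.card_univ]; omega)
  by_cases h : ∀ g : Y, k ≤ (Fx β g).card → Odd (orderOf g)
  · by_cases hn : k + 4 ≤ Fintype.card β
    · obtain ⟨Δ, h1, h2⟩ := sw_of_odd hk hY h hn
      exact ⟨Δ, h1, fun σ _ => all_of_sw h2 σ⟩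
    · refine ⟨Δ, hΔ, fun σ hσ => ⟨⟨Equiv.Perm.ofSubtype σ,
        alt_le_of_card_le Y hk hY hkn.le (by omega) ?_⟩, fun x => ?_⟩⟩
      · rw [Equiv.Perm.mem_alternatingGroup] at hσ ⊢
        rw [Equiv.Perm.sign_ofSubtype]
        convert hσ
      · exact Equiv.Perm.ofSubtype_apply_coe σ x
  · push Not at h
    obtain ⟨g, h1, h2⟩ := h
    obtain ⟨t, ht, t1, t2⟩ := exists_invol_of_even h2 (orderOf_pos g)
    refine ⟨Δ, hΔ, fun σ _ => all_of_sw (sw_of_even (by omega) hY hle t1 t2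
      (h1.trans (Finset.card_le_card fun u hu => ?_)) Δ hΔ) σ⟩
    exact mem_Fx.2 (Subgroup.zpowers_le.2 (mem_stabilizer_iff.2 (mem_Fx.1 hu)) ht)

theorem main {G α : Type*} [Group G] [Finite G] [MulAction G α] [Fintype α] [DecidableEq α] {k : ℕ}
    (hk : 4 ≤ k) (hkn : k < Fintype.card α) (hG : IsMultiplyPretransitive G α k) :
    ∃ Δ : Finset α, Δ.card = k + 1 ∧ ∀ σ : Equiv.Perm Δ, σ ∈ alternatingGroup Δ →
      ∃ g : G, ∀ x : Δ, g • (x : α) = σ x := by
  classical
  let fx : Subgroup G → Finset α := fun Q => Finset.univ.filter fun u => ∀ g ∈ Q, g • u = u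
  have hfx : ∀ Q u, u ∈ fx Q ↔ ∀ g ∈ Q, g • u = u := fun Q u => by simp [fx]
  obtain ⟨Q, ⟨hQ, hQk⟩, hmax⟩ := Set.exists_max_image
    {Q : Subgroup G | IsPGroup 2 Q ∧ k < (fx Q).card} (fun Q => Nat.card Q) (Set.toFinite _)
    ⟨⊥, IsPGroup.of_bot, by
      rwa [Finset.eq_univ_of_forall (s := fx ⊥) fun u => (hfx _ u).2 fun g hg => by
        rw [Subgroup.mem_bot.1 hg, one_smul]]⟩
  have hmax' : ∀ R : Subgroup G, IsPGroup 2 R → Q ≤ R → k < (fx R).card → R ≤ Q :=
    fun R h1 h2 h3 => (Subgroup.eq_of_le_of_card_ge h2 (hmax R ⟨h1, h3⟩)).ge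
  have hN : Subgroup.normalizer (Q : Set G) ≤ stabilizer G (fx Q) := fun n hn =>
    smul_finset_eq_of_mapsTo fun u hu => (hfx _ _).2 fun g hg => by
      have := (hfx _ _).1 hu _ ((Subgroup.mem_normalizer_iff''.1 hn g).1 hg)
      rwa [mul_smul, mul_smul, inv_smul_eq_iff] at this
  let π := (stabilizerToPerm G (fx Q)).comp (Subgroup.inclusion hN)
  have hπ : ∀ n (u : fx Q), (π n u : α) = (n : G) • (u : α) := fun _ _ => rfl
  have htr : IsMultiplyPretransitive π.range (fx Q) k := by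
    by_cases h : ∃ x : Fin k → α, Function.Injective x ∧ IsSyl 2 Q (stabilizer G x)
    · obtain ⟨x, hx, hs⟩ := h
      have key : ∀ y : Fin k → fx Q, Function.Injective y →
          ∃ n ∈ Subgroup.normalizer (Q : Set G), ∀ i, n • x i = y i := by
        intro y hy
        obtain ⟨g, hg⟩ := multTrans_iff_fun.1 hG x (fun i => y i) hx
          (Subtype.val_injective.comp hy)
        obtain ⟨n, hn, e⟩ := S4219.aux x hs g fun u hu => funext fun i => by
          change u • g • x i = g • x i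
          rw [hg]
          exact (hfx _ _).1 (y i).2 u hu
        exact ⟨n, hn, fun i => (congrFun e i).trans (hg i)⟩
      refine multTrans_iff_fun.2 fun y z hy hz => ?_
      obtain ⟨n, hn, e⟩ := key y hy
      obtain ⟨m, hm, e'⟩ := key z hz
      refine ⟨⟨π ⟨m * n⁻¹, mul_mem hm (inv_mem hn)⟩, _, rfl⟩, fun i => Subtype.ext ?_⟩
      change (m * n⁻¹) • (y i : α) = z i
      rw [← e, ← e', mul_smul, inv_smul_smul]
    · push Not at h
      refine gleason Nat.prime_two (by simpa using hQk) fun s hs => ?_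
      let e := (Finset.equivFinOfCardEq hs).symm
      let x : Fin k → α := fun i => (e i).1
      have hx : Function.Injective x :=
        Subtype.val_injective.comp (Subtype.val_injective.comp e.injective)
      have h1 : Q ≤ stabilizer G x := fun g hg => funext fun i => (hfx _ _).1 (e i).1.2 g hg
      have h2 : ¬ ∀ R : Subgroup G, IsPGroup 2 R → Q ≤ R →
          R ≤ stabilizer G x ⊓ Subgroup.normalizer (Q : Set G) → R ≤ Q := fun c =>
        h x hx (isSyl_of_isSyl_normalizer ⟨le_inf h1 Subgroup.le_normalizer, hQ, c⟩)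
      push Not at h2
      obtain ⟨R, r1, r2, r3, r4⟩ := h2
      have r5 : s.map (Function.Embedding.subtype _) = fx R := by
        refine Finset.eq_of_subset_of_card_le (fun u hu => ?_) ?_
        · obtain ⟨v, hv, rfl⟩ := Finset.mem_map.1 hu
          refine (hfx _ _).2 fun g hg => ?_
          have := congrFun (mem_stabilizer_iff.1 (r3 hg).1) (e.symm ⟨v, hv⟩)
          simpa [x] using this
        · rw [Finset.card_map, hs]
          exact not_lt.1 fun c => r4 (hmax' R r1 r2 c)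
      refine ⟨(R.subgroupOf _).map π.rangeRestrict, (r1.comap_subtype).map _, fun u => ?_⟩
      rw [← Finset.mem_map' (Function.Embedding.subtype _), r5, hfx]
      constructor
      · intro c g hg
        exact congrArg Subtype.val (c _ ⟨⟨g, (r3 hg).2⟩, hg, rfl⟩)
      · rintro c _ ⟨g, hg, rfl⟩
        exact Subtype.ext (c g hg)
  obtain ⟨Δ, hΔ, hσ⟩ := core π.range hk (by simpa using hQk) htr (by
    rintro ⟨_, n, rfl⟩ t1 t2
    by_contra hc
    obtain ⟨a, m, hm, e⟩ := Nat.exists_eq_two_pow_mul_odd (orderOf_pos n).ne'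
    have e1 : π (n ^ m) = π n := by
      obtain ⟨j, rfl⟩ := hm
      rw [map_pow, pow_succ, pow_mul, sq, show π n * π n = 1 from congrArg Subtype.val t2, one_pow,
        one_mul]
    have e2 : IsPGroup 2 (Subgroup.zpowers ((n ^ m : Subgroup.normalizer (Q : Set G)) : G)) := by
      refine IsPGroup.of_card_dvd_pow (n := a) ?_
      rw [Nat.card_zpowers, Subgroup.orderOf_coe, orderOf_dvd_iff_pow_eq_one, ← pow_mul, mul_comm,
        ← e, pow_orderOf_eq_one]
    have e3 := hmax' _ (hQ.to_sup_of_normal_left' e2 (Subgroup.zpowers_le.2 (n ^ m).2)) le_sup_left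
      (by
        refine lt_of_lt_of_le (not_le.1 hc) ?_
        rw [← Finset.card_map (Function.Embedding.subtype _)]
        refine Finset.card_le_card fun u hu => ?_
        obtain ⟨v, hv, rfl⟩ := Finset.mem_map.1 hu
        refine (hfx _ _).2 fun g hg => ?_
        refine (sup_le (fun g hg => (hfx _ _).1 v.2 g hg) (Subgroup.zpowers_le.2 ?_) :
          _ ≤ stabilizer G v.1) hg
        rw [mem_stabilizer_iff, ← hπ, e1]
        exact congrArg Subtype.val (mem_Fx.1 hv))
    refine t1 (Subtype.ext ?_)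
    change π n = 1
    rw [← e1]
    ext u
    exact (hfx _ _).1 u.2 _ (e3 (Subgroup.mem_sup_right (Subgroup.mem_zpowers _))))
  refine ⟨Δ.map (Function.Embedding.subtype _), by rw [Finset.card_map, hΔ], fun σ h => ?_⟩
  let e : Δ ≃ Δ.map (Function.Embedding.subtype (· ∈ fx Q)) := Equiv.ofBijective
    (fun u => ⟨u.1.1, Finset.mem_map_of_mem _ u.2⟩) ⟨fun a b c =>
      Subtype.ext (Subtype.ext (Subtype.mk.inj c)), by
      rintro ⟨_, hu⟩
      obtain ⟨v, hv, rfl⟩ := Finset.mem_map.1 hu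
      exact ⟨⟨v, hv⟩, rfl⟩⟩
  obtain ⟨⟨_, n, rfl⟩, hg⟩ := hσ (e.symm.permCongr σ) (by
    rwa [Equiv.Perm.mem_alternatingGroup, Equiv.Perm.sign_permCongr])
  refine ⟨n, fun u => ?_⟩
  obtain ⟨v, rfl⟩ := e.surjective u
  have h1 := congrArg Subtype.val (hg v)
  have h2 : ∀ w, ((e.symm w : Δ) : α) = w := fun w => congrArg Subtype.val (e.apply_symm_apply w)
  rw [← h2 (σ (e v))]
  exact h1

/-- In a `k`-transitive permutation group with `4 ≤ k < n`, some `(k+1)`-subset `Δ` has the property that every even permutation of `Δ` is induced by an element of the group stabilising `Δ`. -/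
theorem result {α : Type*} [Fintype α] [DecidableEq α] (G : Subgroup (Equiv.Perm α)) {k : ℕ} (hk : 4 ≤ k) (hkn : k < Fintype.card α) (hG : MulAction.IsMultiplyPretransitive G α k) : ∃ Δ : Finset α, Δ.card = k + 1 ∧ ∀ σ : Equiv.Perm ↥Δ, σ ∈ alternatingGroup ↥Δ → ∃ g ∈ G, ∀ x : ↥Δ, g (x : α) = σ x := by
  obtain ⟨Δ, h1, h2⟩ := main hk hkn hG
  refine ⟨Δ, h1, fun σ hσ => ?_⟩
  obtain ⟨g, hg⟩ := h2 σ hσ
  exact ⟨g, g.2, hg⟩

end Cfsg.Agent.S0747
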