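import Cfsg.Statements.S0748
import Mathlib
import Cfsg.Agent.S0746
import Cfsg.Agent.S0747
import Cfsg.Agent.Perm.Homog
import Cfsg.Agent.Perm.HallK

set_option autoImplicit false
open Cfsg

namespace Cfsg.Agent.S0748

open MulAction Cfsg.Agent.Perm Cfsg.Agent.Perm.Hall4
open scoped Pointwise

/-- The Livingstone–Wagner Theorem: a `k`-homogeneous permutation group of degree `n` with `10 ≤ 2k ≤ n` is `k`-transitive. -/
theorem result {α : Type*} [Fintype α] [DecidableEq α] (G : Subgroup (Equiv.Perm α)) {k : ℕ} (hk : 5 ≤ k) (hkn : 2 * k ≤ Fintype.card α) (hh : MulAction.IsPretransitive G (Set.powersetCard α k)) : MulAction.IsMultiplyPretransitive G α k := by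
  classical
  obtain ⟨K, rfl⟩ : ∃ K, k = K + 1 := ⟨k - 1, by omega⟩
  have ht : IsMultiplyPretransitive G α K := S0746.result G (k := K + 1) (by omega) hkn hh
  by_cases h : ∀ g : G, K ≤ (Fx α g).card → Odd (orderOf g)
  · obtain ⟨Δ, h1, h2⟩ := sw_of_odd (by omega) ht h (by omega)
    exact multTrans_of_homog_of_induces hh Δ h1 (all_of_sw h2)
  push Not at h
  obtain ⟨g, h1, h2⟩ := h
  obtain ⟨t, htg, t1, t2⟩ := exists_invol_of_even h2 (orderOf_pos g)
  have h3 : K ≤ (Fx α t).card := h1.trans (Finset.card_le_card fun u hu =>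
    mem_Fx.2 (Subgroup.zpowers_le.2 (mem_stabilizer_iff.2 (mem_Fx.1 hu)) htg))
  obtain ⟨F, hF, hFc⟩ := Finset.exists_subset_card_eq (s := Fx α t) (n := K - 1) (by omega)
  obtain ⟨x, hx⟩ : ∃ x, t • x ≠ x := by
    by_contra hc
    push Not at hc
    exact t1 (Subtype.ext (Equiv.ext hc))
  have hx1 : x ∉ F := fun c => hx (mem_Fx.1 (hF c))
  have hx2 : t • x ∉ F := fun c => hx (smul_left_cancel t (mem_Fx.1 (hF c)))
  obtain ⟨Δ, hΔ, hσ⟩ := S0747.main (by omega) (by omega) ht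
  obtain ⟨c, hc⟩ := homog_iff.1 hh (insert x (insert (t • x) F)) Δ (by
    rw [Finset.card_insert_of_notMem (by simp [hx1, hx.symm]), Finset.card_insert_of_notMem hx2]
    omega) hΔ
  have ha : c • x ∈ Δ := hc ▸ Finset.smul_mem_smul_finset (by simp)
  have hb : c • t • x ∈ Δ := hc ▸ Finset.smul_mem_smul_finset (by simp)
  have hab : (⟨_, ha⟩ : Δ) ≠ ⟨_, hb⟩ := fun e => hx (smul_left_cancel c (Subtype.mk.inj e)).symm
  have hsw : ∀ u : Δ, (c * t * c⁻¹) • (u : α) = Equiv.swap (⟨_, ha⟩ : Δ) ⟨_, hb⟩ u := by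
    intro u
    by_cases e1 : u = ⟨_, ha⟩
    · rw [e1, Equiv.swap_apply_left, ← mul_smul, inv_mul_cancel_right, mul_smul]
    by_cases e2 : u = ⟨_, hb⟩
    · rw [e2, Equiv.swap_apply_right, ← mul_smul, inv_mul_cancel_right, mul_smul, invol_smul t2]
    rw [Equiv.swap_apply_of_ne_of_ne e1 e2]
    obtain ⟨u, hu⟩ := u
    obtain ⟨v, hv, rfl⟩ := Finset.mem_smul_finset.1 (hc ▸ hu : u ∈ c • insert x (insert (t • x) F))
    rw [← mul_smul, inv_mul_cancel_right, mul_smul]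
    simp only [Finset.mem_insert] at hv
    rcases hv with rfl | rfl | hv
    · exact absurd rfl e1
    · exact absurd rfl e2
    · rw [mem_Fx.1 (hF hv)]
  refine multTrans_of_homog_of_induces hh Δ hΔ fun σ => ?_
  by_cases hs : σ ∈ alternatingGroup Δ
  · exact hσ σ hs
  obtain ⟨d, hd⟩ := hσ (σ * Equiv.swap ⟨_, ha⟩ ⟨_, hb⟩) (by
    rw [Equiv.Perm.mem_alternatingGroup] at hs ⊢
    rw [map_mul, Equiv.Perm.sign_swap hab, (Int.units_eq_one_or _).resolve_left hs]
    rfl)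
  refine ⟨d * (c * t * c⁻¹), fun u => ?_⟩
  rw [mul_smul, hsw, hd, Equiv.Perm.mul_apply, Equiv.swap_apply_self]

end Cfsg.Agent.S0748
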