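import Cfsg.Statements.S0757
import Cfsg.Agent.Class.Orth.SymmForm

set_option autoImplicit false
open Cfsg

namespace Cfsg.Agent.S0757

/-- The two diagonal forms Σ x_i^2 and Σ_(i<n) x_i^2 + α x_n^2 on F^(n+1), with α a non-square and 2 ≠ 0 in F, are inequivalent quadratic forms (so over a finite field of odd order there are exactly two classes of non-singular symmetric bilinear forms in each dimension). -/
theorem result {F : Type*} [Field F] (h2 : (2 : F) ≠ 0) (n : ℕ) (α : F) (hα : ¬ IsSquare α) : ¬ (QuadraticMap.weightedSumSquares F (fun _ : Fin (n + 1) => (1 : F))).Equivalent (QuadraticMap.weightedSumSquares F (fun i : Fin (n + 1) => if i = Fin.last n then α else (1 : F))) := by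
  rintro ⟨e⟩
  have key : ∀ w : Fin (n + 1) → F, Class.QF.gramDet (QuadraticMap.weightedSumSquares F w)
      (Pi.basisFun F (Fin (n + 1))) = ∏ i, 2 * w i := by
    intro w
    rw [← Matrix.det_diagonal, Class.QF.gramDet]
    congr 1
    ext i j
    by_cases hij : i = j
    · subst hij
      simp [QuadraticMap.polar_self, Pi.single_apply]
    · simp only [QuadraticMap.polar, QuadraticMap.weightedSumSquares_apply, Matrix.of_apply,
        Matrix.diagonal_apply_ne _ hij, ← Finset.sum_sub_distrib]
      refine Finset.sum_eq_zero fun k _ => ?_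
      simp only [Pi.basisFun_apply, Pi.add_apply, Pi.single_apply, smul_eq_mul]
      split_ifs with h1 h3
      · exact absurd (h1.symm.trans h3) hij
      all_goals simp
  obtain ⟨u, hu, h⟩ := Class.QF.gramDet_of_isometry _ e.toLinearEquiv (fun v => e.map_app v)
    (Pi.basisFun F _) (Pi.basisFun F _)
  rw [key, key, Finset.prod_mul_distrib, Finset.prod_mul_distrib] at h
  simp only [Finset.prod_ite_eq', Finset.mem_univ, if_true, Finset.prod_const_one, mul_one] at h
  have h0 : (∏ _i : Fin (n + 1), (2 : F)) ≠ 0 := Finset.prod_ne_zero_iff.2 fun _ _ => h2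
  exact hα ⟨u, mul_left_cancel₀ h0 (by rw [h]; ring)⟩

end Cfsg.Agent.S0757
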