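import Cfsg.Statements.S0759
import Cfsg.Agent.Class.Orth.SymmForm

set_option autoImplicit false
open Cfsg

namespace Cfsg.Agent.S0759

/-- Type of the orthonormal form: over a finite field of odd order q and for m ≥ 1, the quadratic form Σ_(i<2m) x_i² on F^(2m) admits an m-dimensional subspace on which it vanishes identically if and only if it is not the case that q ≡ 3 (mod 4) and m is odd. -/
theorem result {F : Type*} [Field F] [Fintype F] (h2 : (2 : F) ≠ 0) (m : ℕ) (hm : 1 ≤ m) : (∃ W : Submodule F (Fin (2 * m) → F), Module.finrank F W = m ∧ ∀ w ∈ W, ∑ i, w i ^ 2 = 0) ↔ ¬ (Fintype.card F % 4 = 3 ∧ Odd m) := by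
  let B : LinearMap.BilinForm F (Fin (2 * m) → F) := Matrix.toBilin' 1
  have hBa : ∀ x y, B x y = ∑ i, x i * y i := fun x y => by
    simp [B, Matrix.toBilin'_apply', dotProduct]
  have hS : B.IsSymm := ⟨fun x y => by simp [hBa, mul_comm]⟩
  have hB : B.Nondegenerate :=
    Matrix.Nondegenerate.toBilin' (Matrix.nondegenerate_of_det_ne_zero (by simp))
  have h := Class.Orth.exists_isotropic_iff_det h2 hS hB (m := m) (by simp) (Pi.basisFun F _)
  rw [LinearMap.BilinForm.toMatrix_basisFun, LinearMap.BilinForm.toMatrix'_toBilin', Matrix.det_one,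
    mul_one, Class.QF.isSquare_neg_one_pow] at h
  rw [not_and_or, Nat.not_odd_iff_even, or_comm, ← h]
  refine exists_congr fun W => and_congr_right fun _ => ⟨fun hW x hx y hy => ?_, fun hW w hw => ?_⟩
  · apply mul_left_cancel₀ h2
    rw [← Class.Orth.polar_toQuadraticMap_of_isSymm hS]
    have hq : ∀ w ∈ W, B.toQuadraticMap w = 0 := fun w hw => by
      rw [LinearMap.BilinMap.toQuadraticMap_apply, hBa, ← hW w hw]; simp [pow_two]
    simp [QuadraticMap.polar, hq x hx, hq y hy, hq _ (W.add_mem hx hy)]
  · rw [← hW w hw w hw, hBa]; simp [pow_two]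

end Cfsg.Agent.S0759
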