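import Cfsg.Statements.S0760
import Cfsg.Agent.Class.Orth.MaxSingular

set_option autoImplicit false
open Cfsg

namespace Cfsg.Agent.S0760

/-- Witt index is well defined: if Q is a quadratic form on a finite-dimensional space V over a finite field with non-degenerate polar form, and W₁, W₂ are subspaces on which Q vanishes that are maximal with this property, then W₁ and W₂ have the same dimension, and twice this dimension is at most dim V. -/
theorem result {F V : Type*} [Field F] [Finite F] [AddCommGroup V] [Module F V] [FiniteDimensional F V] (Q : QuadraticForm F V) (hQ : (QuadraticMap.polarBilin Q).Nondegenerate) (W₁ W₂ : Submodule F V) (h₁ : ∀ w ∈ W₁, Q w = 0) (h₂ : ∀ w ∈ W₂, Q w = 0) (hmax₁ : ∀ W : Submodule F V, W₁ ≤ W → (∀ w ∈ W, Q w = 0) → W = W₁) (hmax₂ : ∀ W : Submodule F V, W₂ ≤ W → (∀ w ∈ W, Q w = 0) → W = W₂) : Module.finrank F W₁ = Module.finrank F W₂ ∧ 2 * Module.finrank F W₁ ≤ Module.finrank F V := by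
  have t₁ : Class.Orth.TS Q W₁ := h₁
  have t₂ : Class.Orth.TS Q W₂ := h₂
  have a := t₂.extend t₁
  have b := t₁.extend t₂
  rw [hmax₁ _ le_sup_left a.1] at a
  rw [hmax₂ _ le_sup_left b.1] at b
  exact ⟨le_antisymm b.2 a.2, t₁.two_mul_le ((Class.Orth.nd_iff Q).2 hQ)⟩

end Cfsg.Agent.S0760
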