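import Cfsg.Statements.S0763
import Cfsg.Agent.Class.Orth.SymmForm

set_option autoImplicit false
open Cfsg

namespace Cfsg.Agent.S0763

/-- Binary quadratic forms in characteristic two over a finite field: if Q is a quadratic form on a 2-dimensional space whose polar form is non-degenerate, then either there are vectors v, w with Q v = Q w = 0 and polar value 1 (Q is xy in these coordinates), or there are v, w and μ with Q v = 1, Q w = μ, polar value 1 and x² + x + μ without roots in F (Q is x² + xy + μy²). -/
theorem result {F V : Type*} [Field F] [Finite F] [CharP F 2] [AddCommGroup V] [Module F V] (Q : QuadraticForm F V) (h2 : Module.finrank F V = 2) (hQ : (QuadraticMap.polarBilin Q).Nondegenerate) : (∃ v w : V, LinearIndependent F ![v, w] ∧ Q v = 0 ∧ Q w = 0 ∧ QuadraticMap.polar Q v w = 1) ∨ (∃ (v w : V) (μ : F), LinearIndependent F ![v, w] ∧ (∀ x : F, x ^ 2 + x + μ ≠ 0) ∧ Q v = 1 ∧ Q w = μ ∧ QuadraticMap.polar Q v w = 1) := by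
  have hfin : Module.Finite F V := Module.finite_of_finrank_pos (by omega)
  have h20 : (2 : F) = 0 := CharTwo.two_eq_zero
  have hli : ∀ v w : V, QuadraticMap.polar Q v w = 1 → LinearIndependent F ![v, w] := by
    intro v w h
    rw [LinearIndependent.pair_iff]
    intro s t hst
    have e1 := congrArg (QuadraticMap.polar Q v) hst
    have e2 := congrArg (QuadraticMap.polar Q w) hst
    rw [QuadraticMap.polar_add_right, Class.Orth.polar_smul_right', Class.Orth.polar_smul_right',
      Class.Orth.polar_self', h20, QuadraticMap.polar_zero_right] at e1 e2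
    rw [h] at e1
    rw [QuadraticMap.polar_comm, h] at e2
    exact ⟨by simpa using e2, by simpa using e1⟩
  by_cases han : ∀ v, Q v = 0 → v = 0
  · right
    obtain ⟨μ, hμ⟩ := Class.QF.exists_noroot (F := F)
    obtain ⟨g, hg⟩ := Class.QF.anisotropic_plane Q h2 han (a := 1) (b := μ)
      ((Class.QF.aniso_iff_noroot 1 μ).2 (by simpa using hμ))
    have hp : QuadraticMap.polar Q (g ![1, 0]) (g ![0, 1]) = 1 := by
      simp [QuadraticMap.polar, ← map_add, hg]; ring
    exact ⟨g ![1, 0], g ![0, 1], μ, hli _ _ hp, hμ, by simp [hg], by simp [hg], hp⟩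
  · left
    push Not at han
    obtain ⟨v, hv, hv0⟩ := han
    obtain ⟨w, hw, hvw⟩ := Class.QF.exists_hyp_partner hQ hv0 hv
    exact ⟨v, w, hli v w hvw, hv, hw, hvw⟩

end Cfsg.Agent.S0763
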