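import Mathlib
import Cfsg.Statements.S0768
import Cfsg.Agent.Class.Sp.Simple

set_option autoImplicit false
open scoped LinearAlgebra.Projectivization
open Cfsg

namespace Cfsg.Agent.S0768

/-- Primitivity: for m ≥ 1 and F finite, the symplectic group of the form sympForm (as a subgroup of the general linear group) acts primitively on the projective space of F^(2m). -/
theorem result {F : Type*} [Field F] [Finite F] (m : ℕ) (hm : 1 ≤ m) : MulAction.IsPreprimitive ↥(Cfsg.spGL m F) (ℙ F (Fin m ⊕ Fin m → F)) := by
  let f : ℙ F (Fin m ⊕ Fin m → F) →ₑ[(Class.Sp.equivSpGL (m := m) (F := F))] ℙ F (Fin m ⊕ Fin m → F) :=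
    { toFun := id
      map_smul' := fun g x => by
        induction x using Projectivization.ind with | _ u hu =>
        rfl }
  exact MulAction.IsPreprimitive.of_surjective (f := f) Function.surjective_id

end Cfsg.Agent.S0768
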