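import Cfsg.Statements.S0769
import Mathlib

set_option autoImplicit false
open Cfsg

namespace Cfsg.Agent.S0769

/-- Order of the Borel subgroup of GL_n(q): the invertible lower-triangular n × n matrices over a field with q elements number q^(n(n-1)/2) (q-1)^n (unitriangular part times the diagonal torus). -/
theorem result {F : Type*} [Field F] [Fintype F] {q : ℕ} (hF : Fintype.card F = q) (n : ℕ) : Nat.card {g : Matrix.GeneralLinearGroup (Fin n) F // ∀ i j : Fin n, i < j → (g : Matrix (Fin n) (Fin n) F) i j = 0} = q ^ (n * (n - 1) / 2) * (q - 1) ^ n := by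
  classical
  let P : Fin n → Fin n → F → Prop := fun i j x => (i < j → x = 0) ∧ (i = j → x ≠ 0)
  have e1 : {g : Matrix.GeneralLinearGroup (Fin n) F //
      ∀ i j : Fin n, i < j → (g : Matrix (Fin n) (Fin n) F) i j = 0} ≃
      (∀ i j : Fin n, {x : F // P i j x}) :=
    { toFun := fun g i j => ⟨(g.1 : Matrix (Fin n) (Fin n) F) i j, g.2 i j, by
        rintro rfl
        have := Matrix.GeneralLinearGroup.det_ne_zero g.1
        rw [Matrix.det_of_isLowerTriangular _ (fun a b h => g.2 a b h),
          Finset.prod_ne_zero_iff] at this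
        exact this i (Finset.mem_univ i)⟩
      invFun := fun M => ⟨Matrix.GeneralLinearGroup.mkOfDetNeZero (Matrix.of fun i j => (M i j).1) (by
        rw [Matrix.det_of_isLowerTriangular (Matrix.of fun i j => (M i j).1)
          (fun a b h => (M a b).2.1 h), Finset.prod_ne_zero_iff]
        exact fun i _ => (M i i).2.2 rfl), fun i j h => (M i j).2.1 h⟩
      left_inv := fun g => Subtype.ext (Units.ext rfl)
      right_inv := fun M => rfl }
  have c1 : ∀ i j, Nat.card {x : F // P i j x} = if j < i then q else if j = i then q - 1 else 1 := by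
    intro i j
    rcases lt_trichotomy j i with h | h | h
    · rw [if_pos h, ← hF, ← Nat.card_eq_fintype_card]
      exact Nat.card_congr (Equiv.subtypeUnivEquiv fun x =>
        ⟨fun h' => absurd h' (not_lt.mpr h.le), fun h' => absurd h' h.ne'⟩)
    · subst h
      rw [if_neg (lt_irrefl _), if_pos rfl, ← hF, ← Fintype.card_units, ← Nat.card_eq_fintype_card,
        Nat.card_congr unitsEquivNeZero]
      exact Nat.card_congr (Equiv.subtypeEquivRight fun x => by simp [P])
    · rw [if_neg (not_lt.mpr h.le), if_neg h.ne', Nat.card_eq_one_iff_unique]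
      exact ⟨⟨fun x y => Subtype.ext ((x.2.1 h).trans (y.2.1 h).symm)⟩,
        ⟨⟨0, fun _ => rfl, fun h' => absurd h' h.ne⟩⟩⟩
  have c2 : ∀ i : Fin n, ∏ j : Fin n, (if j < i then q else if j = i then q - 1 else 1) =
      q ^ (i : ℕ) * (q - 1) := by
    intro i
    rw [Finset.prod_ite, Finset.prod_const, Finset.prod_ite_eq']
    simp [Finset.filter_gt_eq_Iio]
  rw [Nat.card_congr e1, Nat.card_pi]
  simp_rw [Nat.card_pi, c1, c2]
  rw [Finset.prod_mul_distrib, Finset.prod_pow_eq_pow_sum, Finset.prod_const, Finset.card_univ,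
    Fintype.card_fin, Fin.sum_univ_eq_sum_range (fun i => i) n, Finset.sum_range_id]

end Cfsg.Agent.S0769
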