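import Cfsg.Statements.S0770
import Mathlib
import Cfsg.Agent.Class.GLStab

set_option autoImplicit false
open Cfsg

namespace Cfsg.Agent.S0770

open Matrix

/-- For a field with at least 3 elements, an invertible matrix normalises the subgroup of invertible diagonal matrices of GL_n if and only if it is monomial (exactly one non-zero entry in each row). -/
theorem result {F : Type*} [Field F] (hF : ∃ a : F, a ≠ 0 ∧ a ≠ 1) (n : ℕ) (g : Matrix.GeneralLinearGroup (Fin n) F) : g ∈ Subgroup.normalizer ((Units.map (Matrix.diagonalRingHom (Fin n) F).toMonoidHom).range : Subgroup (Matrix.GeneralLinearGroup (Fin n) F)) ↔ ∀ i : Fin n, ∃! j : Fin n, (g : Matrix (Fin n) (Fin n) F) i j ≠ 0 := by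
  classical
  obtain ⟨a, ha0, ha1⟩ := hF
  set T := (Units.map (Matrix.diagonalRingHom (Fin n) F).toMonoidHom).range with hT
  have hmem : ∀ x : GL (Fin n) F, x ∈ T ↔
      ∃ d : Fin n → F, (x : Matrix (Fin n) (Fin n) F) = diagonal d := by
    intro x
    constructor
    · rintro ⟨d, rfl⟩
      exact ⟨(d : Fin n → F), rfl⟩
    · rintro ⟨d, hd⟩
      have hd0 : ∀ i, d i ≠ 0 := by
        have := Matrix.GeneralLinearGroup.det_ne_zero x
        rw [hd, det_diagonal, Finset.prod_ne_zero_iff] at this
        exact fun i => this i (Finset.mem_univ i)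
      refine ⟨⟨d, fun i => (d i)⁻¹, ?_, ?_⟩, Units.ext hd.symm⟩
      · ext i; simp [hd0 i]
      · ext i; simp [hd0 i]
  have hrow : ∀ i, ∃ j, (g : Matrix (Fin n) (Fin n) F) i j ≠ 0 := by
    intro i
    by_contra hc
    push Not at hc
    exact Matrix.GeneralLinearGroup.det_ne_zero g (det_eq_zero_of_row_eq_zero i hc)
  rw [Subgroup.mem_normalizer_iff]
  constructor
  · intro h i
    obtain ⟨j, hj⟩ := hrow i
    refine ⟨j, hj, fun j' hj' => ?_⟩
    by_contra hne
    let d : Fin n → F := Function.update 1 j a
    have hd : (diagonal d).det ≠ 0 := by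
      rw [det_diagonal, Finset.prod_ne_zero_iff]
      intro l _
      by_cases hl : l = j
      · simp [d, hl, ha0]
      · simp [d, hl]
    let x : GL (Fin n) F := Matrix.GeneralLinearGroup.mkOfDetNeZero _ hd
    have hx : x ∈ T := (hmem x).mpr ⟨d, rfl⟩
    obtain ⟨d', hd'⟩ := (hmem _).mp ((h x).mp hx)
    have e : (g : Matrix (Fin n) (Fin n) F) * diagonal d = diagonal d' * g := by
      rw [← hd', ← Units.val_mul, inv_mul_cancel_right]; rfl
    have e1 := congrFun (congrFun e i) j
    have e2 := congrFun (congrFun e i) j'
    simp only [mul_diagonal, diagonal_mul, d, Function.update_self, Function.update_of_ne hne,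
      Pi.one_apply, mul_one] at e1 e2
    have h1 : d' i = 1 := by
      apply mul_right_cancel₀ hj'
      rw [← e2, one_mul]
    rw [h1, one_mul] at e1
    apply ha1
    apply mul_left_cancel₀ hj
    rw [e1, mul_one]
  · intro h
    choose s hs hs' using h
    have hz : ∀ i j, j ≠ s i → (g : Matrix (Fin n) (Fin n) F) i j = 0 := fun i j hij => by
      by_contra hc
      exact hij (hs' i j hc)
    have hsurj : Function.Surjective s := by
      intro j
      by_contra hc
      push Not at hc
      exact Matrix.GeneralLinearGroup.det_ne_zero g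
        (det_eq_zero_of_column_eq_zero j fun i => hz i j (hc i).symm)
    have hbij : Function.Bijective s := Finite.surjective_iff_bijective.mp hsurj
    have key : ∀ d : Fin n → F, (g : Matrix (Fin n) (Fin n) F) * diagonal d =
        diagonal (d ∘ s) * g := by
      intro d
      ext i j
      simp only [mul_diagonal, diagonal_mul, Function.comp_apply]
      by_cases hij : j = s i
      · rw [hij, mul_comm]
      · simp [hz i j hij]
    intro x
    rw [hmem, hmem]
    constructor
    · rintro ⟨d, hd⟩
      refine ⟨d ∘ s, ?_⟩
      rw [Units.val_mul, Units.val_mul, hd, key, mul_assoc, ← Units.val_mul, mul_inv_cancel,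
        Units.val_one, mul_one]
    · rintro ⟨d, hd⟩
      let e := Equiv.ofBijective s hbij
      refine ⟨d ∘ e.symm, ?_⟩
      have e1 := key (d ∘ e.symm)
      have e2 : (d ∘ e.symm) ∘ s = d := by
        ext i
        simp only [Function.comp_apply]
        rw [show s i = e i from rfl, e.symm_apply_apply]
      rw [e2, ← hd, ← Units.val_mul, inv_mul_cancel_right, Units.val_mul] at e1
      exact ((Units.isUnit g).mul_left_cancel e1).symm

end Cfsg.Agent.S0770
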