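import Cfsg.Statements.S0771
import Mathlib
import Cfsg.Agent.Class.GLStab

set_option autoImplicit false
open Cfsg

namespace Cfsg.Agent.S0771

open Class.GLStab Matrix

/-- Maximal parabolic of GL_n(q): the stabiliser of the coordinate subspace spanned by the first k basis vectors has order q^(k(n-k)) · |GL_k(q)| · |GL_(n-k)(q)| (unipotent radical of order q^(k(n-k)) and Levi complement GL_k × GL_(n-k)). -/
theorem result {F : Type*} [Field F] [Fintype F] {q : ℕ} (hF : Fintype.card F = q) (n k : ℕ) (hk : k ≤ n) : Nat.card ↥(Cfsg.stabilizing (Cfsg.glToMat (Fin n) F) {v : Fin n → F | ∀ i : Fin n, k ≤ (i : ℕ) → v i = 0}) = q ^ (k * (n - k)) * (∏ i : Fin k, (q ^ k - q ^ (i : ℕ))) * ∏ i : Fin (n - k), (q ^ (n - k) - q ^ (i : ℕ)) := by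
  classical
  obtain ⟨l, rfl⟩ := Nat.exists_eq_add_of_le hk
  rw [Nat.add_sub_cancel_left]
  let e : Fin k ⊕ Fin l ≃ Fin (k + l) := finSumFinEquiv
  have hblock : ∀ g : stab (coord F (k + l) k),
      ((g.1 : Matrix (Fin (k + l)) (Fin (k + l)) F).submatrix e e).toBlocks₂₁ = 0 := by
    intro g
    ext i j
    exact mem_stab_coord.mp g.2 _ _ (by simp [e]) (by simp [e])
  have hdet : ∀ g : stab (coord F (k + l) k),
      ((g.1 : Matrix (Fin (k + l)) (Fin (k + l)) F).submatrix e e).toBlocks₁₁.det *
        ((g.1 : Matrix (Fin (k + l)) (Fin (k + l)) F).submatrix e e).toBlocks₂₂.det ≠ 0 := by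
    intro g
    rw [← det_fromBlocks_zero₂₁ _
      ((g.1 : Matrix (Fin (k + l)) (Fin (k + l)) F).submatrix e e).toBlocks₁₂, ← hblock g,
      fromBlocks_toBlocks, det_submatrix_equiv_self]
    exact Matrix.GeneralLinearGroup.det_ne_zero _
  let E : stab (coord F (k + l) k) ≃ Matrix (Fin k) (Fin l) F × GL (Fin k) F × GL (Fin l) F :=
    { toFun := fun g => (((g.1 : Matrix (Fin (k + l)) (Fin (k + l)) F).submatrix e e).toBlocks₁₂,
        Matrix.GeneralLinearGroup.mkOfDetNeZero _ (left_ne_zero_of_mul (hdet g)),
        Matrix.GeneralLinearGroup.mkOfDetNeZero _ (right_ne_zero_of_mul (hdet g)))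
      invFun := fun x => ⟨Matrix.GeneralLinearGroup.mkOfDetNeZero
        ((fromBlocks (x.2.1 : Matrix (Fin k) (Fin k) F) x.1 0
          (x.2.2 : Matrix (Fin l) (Fin l) F)).submatrix e.symm e.symm) (by
          rw [det_submatrix_equiv_self, det_fromBlocks_zero₂₁]
          exact mul_ne_zero (Matrix.GeneralLinearGroup.det_ne_zero _)
            (Matrix.GeneralLinearGroup.det_ne_zero _)), by
          rw [mem_stab_coord]
          intro i j hi hj
          obtain ⟨i, rfl⟩ := e.surjective i
          obtain ⟨j, rfl⟩ := e.surjective j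
          change fromBlocks _ _ _ _ (e.symm (e i)) (e.symm (e j)) = _
          rw [e.symm_apply_apply, e.symm_apply_apply]
          rcases i with i | i
          · simp [e] at hi; omega
          rcases j with j | j
          · rfl
          · simp [e] at hj⟩
      left_inv := fun g => by
        refine Subtype.ext (Units.ext ?_)
        change (fromBlocks (toBlocks₁₁ _) (toBlocks₁₂ _) 0 (toBlocks₂₂ _)).submatrix e.symm e.symm = _
        rw [← hblock g, fromBlocks_toBlocks]
        simp
      right_inv := fun x => by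
        refine Prod.ext ?_ (Prod.ext (Units.ext ?_) (Units.ext ?_))
        · change toBlocks₁₂ (((fromBlocks _ _ _ _).submatrix e.symm e.symm).submatrix e e) = _
          simp
        · change toBlocks₁₁ (((fromBlocks _ _ _ _).submatrix e.symm e.symm).submatrix e e) = _
          simp
        · change toBlocks₂₂ (((fromBlocks _ _ _ _).submatrix e.symm e.symm).submatrix e e) = _
          simp }
  refine (Nat.card_congr E).trans ?_
  rw [Nat.card_prod, Nat.card_prod, Matrix.card_GL_field, Matrix.card_GL_field, hF, mul_assoc]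
  congr 1
  rw [Nat.card_congr (Matrix.of.symm), Nat.card_fun, Nat.card_fun, Nat.card_eq_fintype_card, hF,
    ← pow_mul]
  simp [mul_comm]

end Cfsg.Agent.S0771
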