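import Cfsg.Statements.S0773
import Mathlib
import Cfsg.Agent.Class.GLStab

set_option autoImplicit false
open Cfsg

namespace Cfsg.Agent.S0773

open Class.GLStab Matrix

/-- inverse transpose, conjugated by the reversal of coordinates -/
noncomputable def tau (F : Type*) [Field F] (n : ℕ) : GL (Fin n) F →* GL (Fin n) F where
  toFun g :=
    { val := (((g⁻¹ : GL (Fin n) F) : Matrix (Fin n) (Fin n) F)ᵀ).submatrix Fin.revPerm Fin.revPerm
      inv := ((g : Matrix (Fin n) (Fin n) F)ᵀ).submatrix Fin.revPerm Fin.revPerm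
      val_inv := by
        rw [submatrix_mul_equiv, ← transpose_mul, ← Units.val_mul, mul_inv_cancel]; simp
      inv_val := by
        rw [submatrix_mul_equiv, ← transpose_mul, ← Units.val_mul, inv_mul_cancel]; simp }
  map_one' := Units.ext (by simp)
  map_mul' g h := Units.ext (by
    simp only [Units.val_mul, _root_.mul_inv_rev, transpose_mul, submatrix_mul_equiv])

theorem tau_tau {F : Type*} [Field F] {n : ℕ} (g : GL (Fin n) F) : tau F n (tau F n g) = g := by
  refine Units.ext ?_
  ext i j
  change ((g : Matrix (Fin n) (Fin n) F)) (Fin.rev (Fin.rev i)) (Fin.rev (Fin.rev j)) = _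
  simp

theorem tau_mem {F : Type*} [Field F] {n k : ℕ} (hk : k ≤ n) {g : GL (Fin n) F}
    (hg : g ∈ stab (coord F n k)) : tau F n g ∈ stab (coord F n (n - k)) := by
  have := mem_stab_coord.mp ((stab _).inv_mem hg)
  rw [mem_stab_coord]
  intro i j hi hj
  change ((g⁻¹ : GL (Fin n) F) : Matrix (Fin n) (Fin n) F) (Fin.rev j) (Fin.rev i) = 0
  have hi2 := i.2
  refine this _ _ ?_ ?_ <;> simp only [Fin.val_rev] <;> omega

/-- The stabilisers in GL_n(F), F finite, of the coordinate subspaces of dimensions k and n − k are isomorphic groups, but when 2k ≠ n (and 0 < k < n) no element of GL_n conjugates one onto the other. -/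
theorem result {F : Type*} [Field F] [Finite F] (n k : ℕ) (hk0 : 0 < k) (hkn : k < n) (h2 : 2 * k ≠ n) : Nonempty (↥(Cfsg.stabilizing (Cfsg.glToMat (Fin n) F) {v : Fin n → F | ∀ i : Fin n, k ≤ (i : ℕ) → v i = 0}) ≃* ↥(Cfsg.stabilizing (Cfsg.glToMat (Fin n) F) {v : Fin n → F | ∀ i : Fin n, n - k ≤ (i : ℕ) → v i = 0})) ∧ ∀ g : Matrix.GeneralLinearGroup (Fin n) F, (Cfsg.stabilizing (Cfsg.glToMat (Fin n) F) {v : Fin n → F | ∀ i : Fin n, k ≤ (i : ℕ) → v i = 0}).map (MulAut.conj g).toMonoidHom ≠ Cfsg.stabilizing (Cfsg.glToMat (Fin n) F) {v : Fin n → F | ∀ i : Fin n, n - k ≤ (i : ℕ) → v i = 0} := by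
  constructor
  · refine ⟨{ toFun := fun g => ⟨tau F n g.1, tau_mem hkn.le g.2⟩
              invFun := fun g => ⟨tau F n g.1, ?_⟩
              left_inv := fun g => Subtype.ext (tau_tau _)
              right_inv := fun g => Subtype.ext (tau_tau _)
              map_mul' := fun g h => Subtype.ext (map_mul _ _ _) }⟩
    have := tau_mem (F := F) (n := n) (k := n - k) (Nat.sub_le _ _) g.2
    rwa [Nat.sub_sub_self hkn.le] at this
  · intro g hg
    have h1 := finrank_coord (F := F) hkn.le
    have h3 := finrank_coord (F := F) (Nat.sub_le n k)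
    have hn : Module.finrank F (Fin n → F) = n := by simp
    let e : (Fin n → F) ≃ₗ[F] (Fin n → F) :=
      (Matrix.GeneralLinearGroup.toLin g).toLinearEquiv
    have he : ∀ v, e v = (g : Matrix (Fin n) (Fin n) F) *ᵥ v := fun v => rfl
    have h4 : Module.finrank F ((coord F n k).map e.toLinearMap) = k := by
      rw [LinearEquiv.finrank_map_eq, h1]
    have := eq_of_invariant (W := coord F n (n - k)) (U := (coord F n k).map e.toLinearMap)
      (fun h => by rw [h, finrank_bot] at h3; omega)
      (fun h => by rw [h, finrank_top, hn] at h3; omega)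
      (fun x hx _ => by
        have hx' : x ∈ (stab (coord F n k)).map (MulAut.conj g).toMonoidHom := by
          have hg' : (stab (coord F n k)).map (MulAut.conj g).toMonoidHom =
            stab (coord F n (n - k)) := hg
          rw [hg']; exact hx
        obtain ⟨y, hy, rfl⟩ := hx'
        rintro _ ⟨v, hv, rfl⟩
        refine ⟨(y : Matrix (Fin n) (Fin n) F) *ᵥ v, (hy v).mp hv, ?_⟩
        change e _ = ((g * y * g⁻¹ : GL (Fin n) F) : Matrix (Fin n) (Fin n) F) *ᵥ e v
        rw [he, he, Units.val_mul, Units.val_mul, ← mulVec_mulVec, ← mulVec_mulVec,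
          inv_mulVec_mulVec])
    rcases this with h | h | h
    · rw [h, finrank_bot] at h4; omega
    · rw [h, h3] at h4; omega
    · rw [h, finrank_top, hn] at h4; omega

end Cfsg.Agent.S0773
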