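import Cfsg.Statements.S0774
import Mathlib
import Cfsg.Agent.Class.Parabolic
import Cfsg.Agent.Class.GLStab
import Cfsg.Agent.S0769

set_option autoImplicit false
open Cfsg

namespace Cfsg.Agent.S0774

open Cfsg.Agent.Class Matrix

/-- the span of the first half of the standard basis -/
def W (F : Type*) [Field F] (m : ℕ) : Submodule F (Fin m ⊕ Fin m → F) where
  carrier := {v | ∀ i, v (Sum.inr i) = 0}
  add_mem' ha hb i := by simp [ha i, hb i]
  zero_mem' _ := rfl
  smul_mem' c _ hx i := by simp [hx i]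

/-- coordinates on `W` -/
def eW (F : Type*) [Field F] (m : ℕ) : W F m ≃ₗ[F] (Fin m → F) where
  toFun v i := v.1 (Sum.inl i)
  map_add' _ _ := rfl
  map_smul' _ _ := rfl
  invFun w := ⟨Sum.elim w 0, fun _ => rfl⟩
  left_inv v := by
    ext i
    rcases i with i | i
    · rfl
    · exact (v.2 i).symm
  right_inv _ := rfl

theorem card_upper {F : Type*} [Field F] [Fintype F] (m : ℕ) :
    Nat.card ↥(⨅ k : Fin m, GLStab.stab (GLStab.coord F m (k + 1))) =
      Fintype.card F ^ (m * (m - 1) / 2) * (Fintype.card F - 1) ^ m := by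
  rw [← S0769.result rfl m]
  refine Nat.card_congr
    { toFun := fun g => ⟨Matrix.GeneralLinearGroup.mkOfDetNeZero (g.1 : Matrix (Fin m) (Fin m) F)ᵀ
        (by rw [det_transpose]; exact Matrix.GeneralLinearGroup.det_ne_zero _), fun i j hij =>
          GLStab.mem_stab_coord.mp (Subgroup.mem_iInf.mp g.2 i) j i hij (Nat.lt_succ_self _)⟩
      invFun := fun g => ⟨Matrix.GeneralLinearGroup.mkOfDetNeZero (g.1 : Matrix (Fin m) (Fin m) F)ᵀ
        (by rw [det_transpose]; exact Matrix.GeneralLinearGroup.det_ne_zero _),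
          Subgroup.mem_iInf.mpr fun k => GLStab.mem_stab_coord.mpr fun i j hi hj =>
            g.2 j i (by rw [Fin.lt_def]; omega)⟩
      left_inv := fun g => Subtype.ext (Units.ext rfl)
      right_inv := fun g => Subtype.ext (Units.ext rfl) }

/-- Borel subgroup of the symplectic group: the elements of Sp_2m(q) stabilising each of the totally isotropic coordinate subspaces ⟨e_0, ..., e_k⟩ (k < m) form a subgroup of order q^(m²) (q − 1)^m. -/
theorem result {F : Type*} [Field F] [Fintype F] {q : ℕ} (hF : Fintype.card F = q) (m : ℕ) : Nat.card ↥(⨅ k : Fin m, Cfsg.stabilizing (Cfsg.spToMat m F) {v : Fin m ⊕ Fin m → F | (∀ i : Fin m, (k : ℕ) < (i : ℕ) → v (Sum.inl i) = 0) ∧ ∀ i : Fin m, v (Sum.inr i) = 0}) = q ^ (m ^ 2) * (q - 1) ^ m := by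
  subst hF
  have h := isSympSpace_sympB m F
  have hW : ∀ x ∈ W F m, ∀ y ∈ W F m, sympB m F x y = 0 := fun x hx y hy => by
    have hx' : ∀ i, x (Sum.inr i) = 0 := hx
    have hy' : ∀ i, y (Sum.inr i) = 0 := hy
    simp [Sp.form_eq, hx', hy']
  have hk : Module.finrank F (W F m) = m := by rw [(eW F m).finrank_eq]; simp
  let b : Module.Basis (Fin m) F (W F m) := Module.Basis.ofEquivFun (eW F m)
  let T := (⨅ k : Fin m, GLStab.stab (GLStab.coord F m (k + 1))).comap
    (linearEquivEquivGL b).toMonoidHom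
  have hT : Nat.card T = _ := (Nat.card_congr (subgroupEquivOfMem (linearEquivEquivGL b)
    (fun g => Iff.rfl)).toEquiv).trans (card_upper m)
  have h1 := h.card_comap_restrictS hW (fun _ _ => rfl) T
  rw [h.card_fixS (k := m) (l := 0) (by simp [two_mul]) hk hW, hT] at h1
  have hact : ∀ (g : stabS (sympB m F) (fun _ => 0) (W F m)) (v : W F m),
      (linearEquivEquivGL b (restrictS _ _ _ g) : Matrix (Fin m) (Fin m) F) *ᵥ eW F m v =
        eW F m (restrictS _ _ _ g v) := fun g v => by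
    rw [coe_linearEquivEquivGL]
    exact LinearMap.toMatrix_mulVec_repr b b _ v
  have key : ∀ (g : Matrix.symplecticGroup (Fin m) F)
      (hg : spEquiv m F g ∈ stabS (sympB m F) (fun _ => 0) (W F m)) (k : Fin m),
      g ∈ Cfsg.stabilizing (Cfsg.spToMat m F) {v : Fin m ⊕ Fin m → F |
        (∀ i : Fin m, (k : ℕ) < (i : ℕ) → v (Sum.inl i) = 0) ∧ ∀ i : Fin m, v (Sum.inr i) = 0} ↔
      linearEquivEquivGL b (restrictS _ _ _ ⟨_, hg⟩) ∈ GLStab.stab (GLStab.coord F m (k + 1)) := by
    intro g hg k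
    constructor
    · intro H
      rw [GLStab.mem_stab_iff_le]
      intro v hv
      obtain ⟨v, rfl⟩ := (eW F m).surjective v
      rw [hact]
      exact ((H v).mp ⟨hv, v.2⟩).1
    · intro H v
      constructor
      · rintro ⟨v1, v2⟩
        have := (H (eW F m ⟨v, v2⟩)).mp v1
        rw [glToMat, Units.coeHom_apply, hact] at this
        exact ⟨this, (hg v).mp v2⟩
      · rintro ⟨v1, v2⟩
        have v3 := (hg v).mpr v2
        refine ⟨(H (eW F m ⟨v, v3⟩)).mpr ?_, v3⟩
        rw [glToMat, Units.coeHom_apply, hact]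
        exact v1
  have hst : ∀ g ∈ (⨅ k : Fin m, Cfsg.stabilizing (Cfsg.spToMat m F) {v : Fin m ⊕ Fin m → F |
        (∀ i : Fin m, (k : ℕ) < (i : ℕ) → v (Sum.inl i) = 0) ∧ ∀ i : Fin m, v (Sum.inr i) = 0}),
      spEquiv m F g ∈ stabS (sympB m F) (fun _ => 0) (W F m) := by
    intro g hg
    rcases Nat.eq_zero_or_pos m with rfl | hm
    · exact fun v => ⟨fun _ i => i.elim0, fun _ i => i.elim0⟩
    · have := Subgroup.mem_iInf.mp hg ⟨m - 1, by omega⟩
      refine mem_stabS_iff_le.mpr fun v hv => ((this v).mp ⟨fun i hi => ?_, hv⟩).2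
      have := i.2
      simp at hi
      omega
  set S := (⨅ k : Fin m, Cfsg.stabilizing (Cfsg.spToMat m F) {v : Fin m ⊕ Fin m → F |
        (∀ i : Fin m, (k : ℕ) < (i : ℕ) → v (Sum.inl i) = 0) ∧ ∀ i : Fin m, v (Sum.inr i) = 0}) with hS
  have key2 : ∀ (g : Matrix.symplecticGroup (Fin m) F)
      (hg : spEquiv m F g ∈ stabS (sympB m F) (fun _ => 0) (W F m)), g ∈ S ↔
      (⟨_, hg⟩ : stabS (sympB m F) (fun _ => 0) (W F m)) ∈ T.comap (restrictS _ _ _) := by
    intro g hg
    rw [hS, Subgroup.mem_iInf, Subgroup.mem_comap, Subgroup.mem_comap, Subgroup.mem_iInf]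
    exact forall_congr' fun k => key g hg k
  let φ : S → T.comap (restrictS (sympB m F) (fun _ => 0) (W F m)) := fun g =>
    ⟨⟨_, hst g.1 g.2⟩, (key2 g.1 _).mp g.2⟩
  have hφ : Function.Bijective φ := by
    constructor
    · intro a b e
      have e' : spEquiv m F a.1 = spEquiv m F b.1 := congrArg (fun x => x.1.1) e
      exact Subtype.ext ((spEquiv m F).injective e')
    · rintro ⟨⟨g, hg⟩, hg'⟩
      obtain ⟨g, rfl⟩ := (spEquiv m F).surjective g
      exact ⟨⟨g, (key2 g hg).mpr hg'⟩, rfl⟩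
  rw [Nat.card_congr (Equiv.ofBijective φ hφ), h1]
  · have e : m * (m + 1) / 2 + m * (m - 1) / 2 = m ^ 2 := by
      rcases m with _ | m
      · simp
      · have e1 := Nat.even_mul_succ_self m
        have e2 : (m + 1) * (m + 1 + 1) = m * (m + 1) + 2 * (m + 1) := by ring
        have e3 : (m + 1) ^ 2 = m * (m + 1) + (m + 1) := by ring
        rw [Nat.add_sub_cancel, mul_comm (m + 1) m, e2, e3]
        obtain ⟨t, ht⟩ := e1
        omega
    simp only [mul_zero, add_zero, Finset.range_zero, Finset.prod_empty, mul_one]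
    rw [← e, pow_add]
    simp [mul_assoc]

end Cfsg.Agent.S0774
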