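import Cfsg.Statements.S0776
import Mathlib
import Cfsg.Agent.Class.Parabolic

set_option autoImplicit false
open Cfsg

namespace Cfsg.Agent.S0776

/-- If W ≤ F^(2m) is a 2k-dimensional subspace on which the symplectic form is non-degenerate, then the stabiliser of W in Sp_2m(F) is isomorphic to Sp_2k(F) × Sp_(2m−2k)(F). -/
theorem result {F : Type*} [Field F] (m k : ℕ) (hk : k ≤ m) (W : Submodule F (Fin m ⊕ Fin m → F)) (hWk : Module.finrank F W = 2 * k) (hW : ∀ u ∈ W, (∀ v ∈ W, Cfsg.sympForm m F u v = 0) → u = 0) : Nonempty (↥(Cfsg.stabilizing (Cfsg.spToMat m F) (W : Set (Fin m ⊕ Fin m → F))) ≃* Matrix.symplecticGroup (Fin k) F × Matrix.symplecticGroup (Fin (m - k)) F) := by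
  have h := Class.isSympSpace_sympB m F
  have h1 := h.inf_perp_eq_bot hW
  have h2 : Class.IsSympSpace (Class.resB (Class.sympB m F) W) := h.restrict h1
  have h3 : Class.IsSympSpace (Class.resB (Class.sympB m F) (Class.perp (Class.sympB m F) W)) :=
    h.restrict (h.perp_inf_perp_perp h1)
  obtain ⟨e1⟩ := h2.nonempty_isom_equiv hWk
  obtain ⟨e2⟩ := h3.nonempty_isom_equiv (m := m - k) (by
    have := h.finrank_add_finrank_perp W
    simp only [Module.finrank_fintype_fun_eq_card, Fintype.card_sum, Fintype.card_fin] at this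
    omega)
  exact ⟨(Class.subgroupEquivOfMem (Class.spEquiv _ F) (Class.mem_stabilizing_sp_iff W)).trans
    ((h.stabSEquivProd h1).trans (e1.prodCongr e2))⟩

end Cfsg.Agent.S0776
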