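import Cfsg.Statements.S0777
import Mathlib
import Cfsg.Agent.Class.FormedSpU
import Cfsg.Agent.Class.GLStab

set_option autoImplicit false
open Cfsg

namespace Cfsg.Agent.S0777

open Cfsg.Agent.Class Matrix

variable {F : Type*} [Field F] {m : ℕ}

/-- the sign `f(e_x, e_(swap x))` -/
def om (F : Type*) [Field F] {m : ℕ} : Fin m ⊕ Fin m → F := Sum.elim (fun _ => -1) (fun _ => 1)

theorem om_mul_self (x : Fin m ⊕ Fin m) : om F x * om F x = 1 := by
  rcases x with x | x <;> simp [om]

theorem om_swap (x : Fin m ⊕ Fin m) : om F x.swap = - om F x := by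
  rcases x with x | x <;> simp [om]

theorem om_ne_zero (x : Fin m ⊕ Fin m) : om F x ≠ 0 := left_ne_zero_of_mul_eq_one (om_mul_self x)

theorem form_single (x y : Fin m ⊕ Fin m) :
    sympForm m F (Pi.single x 1) (Pi.single y 1) = if y = x.swap then om F x else 0 := by
  rcases x with x | x <;> rcases y with y | y <;>
    simp [Sp.form_single_inl_left, Sp.form_single_inr_left, om, Pi.single_apply, eq_comm]
  split_ifs <;> simp

/-- monomial matrices -/
def mono (s : Fin m ⊕ Fin m → Fin m ⊕ Fin m) (d : Fin m ⊕ Fin m → F) :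
    Matrix (Fin m ⊕ Fin m) (Fin m ⊕ Fin m) F := Matrix.of fun i j => if i = s j then d j else 0

theorem mono_mulVec_single (s : Fin m ⊕ Fin m → Fin m ⊕ Fin m) (d : Fin m ⊕ Fin m → F)
    (j : Fin m ⊕ Fin m) : mono s d *ᵥ Pi.single j 1 = d j • Pi.single (s j) 1 := by
  ext i
  simp [mono, Pi.single_apply]

theorem eq_mono {M : Matrix (Fin m ⊕ Fin m) (Fin m ⊕ Fin m) F} {s : Fin m ⊕ Fin m → Fin m ⊕ Fin m}
    {d : Fin m ⊕ Fin m → F} (h : ∀ j, M *ᵥ Pi.single j 1 = d j • Pi.single (s j) 1) :
    M = mono s d := by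
  ext i j
  have := congrFun (h j) i
  simpa [mono, Pi.single_apply] using this

theorem mono_mem_iff (s : Fin m ⊕ Fin m → Fin m ⊕ Fin m) (d : Fin m ⊕ Fin m → F) :
    mono s d ∈ Matrix.symplecticGroup (Fin m) F ↔ ∀ x y, d x * d y *
      (if s y = (s x).swap then om F (s x) else 0) = if y = x.swap then om F x else 0 := by
  rw [Sp.mem_iff_preserves]
  constructor
  · intro h x y
    rw [← form_single, ← form_single, ← h (Pi.single x 1), mono_mulVec_single, mono_mulVec_single,
      Sp.form_smul_left, Sp.form_smul_right, mul_assoc]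
  · intro h
    refine sesq_eq_of_basis (Pi.basisFun F _) (sympB m F) (sympB m F) (mono s d).mulVecLin ?_
    intro x y
    rw [Pi.basisFun_apply, Pi.basisFun_apply, mulVecLin_apply, mulVecLin_apply, mono_mulVec_single,
      mono_mulVec_single, sympB_apply, sympB_apply, Sp.form_smul_left, Sp.form_smul_right,
      form_single, form_single, ← h x y, mul_assoc]

/-- the torus -/
abbrev T (F : Type*) [Field F] (m : ℕ) : Subgroup (Matrix.symplecticGroup (Fin m) F) :=
  ⨅ i : Fin m ⊕ Fin m, Cfsg.stabilizing (Cfsg.spToMat m F)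
    ((Submodule.span F {(Pi.single i (1 : F) : Fin m ⊕ Fin m → F)} :
      Submodule F (Fin m ⊕ Fin m → F)) : Set (Fin m ⊕ Fin m → F))

theorem mem_T {g : Matrix.symplecticGroup (Fin m) F} :
    g ∈ T F m ↔ ∀ i, ∃ c : F, g • (Pi.single i 1 : Fin m ⊕ Fin m → F) = c • Pi.single i 1 := by
  rw [Subgroup.mem_iInf]
  refine forall_congr' fun i => ?_
  rw [GLStab.mem_stabilizing_iff_le]
  constructor
  · intro h
    obtain ⟨c, hc⟩ := Submodule.mem_span_singleton.mp (h _ (Submodule.mem_span_singleton_self _))
    exact ⟨c, hc.symm⟩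
  · rintro ⟨c, hc⟩ v hv
    obtain ⟨a, rfl⟩ := Submodule.mem_span_singleton.mp hv
    change g • (a • (Pi.single i 1 : Fin m ⊕ Fin m → F)) ∈ _
    rw [Sp.smul_smul_comm, hc]
    exact Submodule.smul_mem _ _ (Submodule.smul_mem _ _ (Submodule.mem_span_singleton_self _))

theorem smul_single_ne_zero (g : Matrix.symplecticGroup (Fin m) F) (i : Fin m ⊕ Fin m) :
    g • (Pi.single i 1 : Fin m ⊕ Fin m → F) ≠ 0 := by
  rw [smul_ne_zero_iff_ne]; simp

theorem mem_normalizer_iff {a : F} (ha0 : a ≠ 0) (ha : a * a ≠ 1)
    {g : Matrix.symplecticGroup (Fin m) F} :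
    g ∈ Subgroup.normalizer (T F m : Set (Matrix.symplecticGroup (Fin m) F)) ↔
      ∀ j, ∃ (i : Fin m ⊕ Fin m) (c : F),
        g • (Pi.single j 1 : Fin m ⊕ Fin m → F) = c • Pi.single i 1 := by
  classical
  constructor
  · intro hg j
    obtain ⟨i, hi⟩ := Function.ne_iff.mp (smul_single_ne_zero g j)
    refine ⟨i, (g • (Pi.single j 1 : Fin m ⊕ Fin m → F)) i, ?_⟩
    ext i'
    by_cases hii : i' = i
    · simp [hii]
    rw [Pi.smul_apply, Pi.single_eq_of_ne hii, smul_zero]
    let d : Fin m ⊕ Fin m → F := fun x => if x = i then a else if x = i.swap then a⁻¹ else 1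
    have hsw : ∀ x : Fin m ⊕ Fin m, x.swap ≠ x := by rintro (x | x) <;> simp
    have hd : mono id d ∈ Matrix.symplecticGroup (Fin m) F := by
      rw [mono_mem_iff]
      intro x y
      by_cases hxy : y = x.swap
      · subst hxy
        by_cases h1 : x = i
        · simp [d, h1, hsw, ha0]
        by_cases h2 : x = i.swap
        · simp [d, h2, hsw, ha0]
        · have h3 : x.swap ≠ i := fun e => h2 (by rw [← e, Sum.swap_swap])
          have h4 : x.swap ≠ i.swap := fun e => h1 (Sum.swap_leftInverse.injective e)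
          simp [d, h1, h2, h3, h4]
      · simp [hxy]
    let t : Matrix.symplecticGroup (Fin m) F := ⟨_, hd⟩
    have ht : t ∈ T F m := mem_T.mpr fun x => ⟨d x, mono_mulVec_single _ _ _⟩
    have h1 : g⁻¹ * t * g ∈ T F m := by
      have := (Subgroup.mem_normalizer_iff.mp ((Subgroup.normalizer _).inv_mem hg) t).mp ht
      simpa using this
    obtain ⟨c, hc⟩ := mem_T.mp h1 j
    have h2 : t • g • (Pi.single j 1 : Fin m ⊕ Fin m → F) = c • g • (Pi.single j 1) := by
      rw [← Sp.smul_smul_comm, ← hc, mul_smul, mul_smul, smul_inv_smul]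
    have h3 : ∀ x, d x * (g • (Pi.single j 1 : Fin m ⊕ Fin m → F)) x =
        c * (g • (Pi.single j 1 : Fin m ⊕ Fin m → F)) x := fun x => by
      have := congrFun h2 x
      rw [Sp.smul_def t] at this
      simpa [t, mono, mulVec, dotProduct] using this
    have h4 : c = a := by
      have := mul_right_cancel₀ hi (h3 i)
      simpa [d] using this.symm
    by_contra hne
    have := mul_right_cancel₀ hne (h3 i')
    rw [h4] at this
    simp only [d, if_neg hii] at this
    split_ifs at this with h5
    · exact ha (by rw [← mul_inv_cancel₀ ha0, this])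
    · exact ha (by rw [← this, one_mul])
  · intro h
    choose s d hs using h
    have hd : ∀ j, d j ≠ 0 := fun j e => smul_single_ne_zero g j (by rw [hs, e, zero_smul])
    have hinj : Function.Injective s := by
      intro x y e
      by_contra hne
      have : d y • g • (Pi.single x 1 : Fin m ⊕ Fin m → F) = d x • g • Pi.single y 1 := by
        rw [hs, hs, e, smul_comm]
      rw [← Sp.smul_smul_comm, ← Sp.smul_smul_comm, smul_left_cancel_iff] at this
      have := congrFun this x
      simp [hd y, hne] at this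
    have hsurj := Finite.injective_iff_surjective.mp hinj
    have hs' : ∀ j, g⁻¹ • (Pi.single (s j) 1 : Fin m ⊕ Fin m → F) = (d j)⁻¹ • Pi.single j 1 := by
      intro j
      rw [inv_smul_eq_iff, Sp.smul_smul_comm, hs, smul_smul, inv_mul_cancel₀ (hd j), one_smul]
    rw [Subgroup.mem_normalizer_iff]
    intro t
    simp only [mem_T]
    constructor
    · intro ht i
      obtain ⟨j, rfl⟩ := hsurj i
      obtain ⟨c, hc⟩ := ht j
      refine ⟨c, ?_⟩
      rw [mul_smul, mul_smul, hs', Sp.smul_smul_comm, hc, Sp.smul_smul_comm, Sp.smul_smul_comm, hs,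
        smul_comm, smul_smul _ (d j), inv_mul_cancel₀ (hd j), one_smul]
    · intro ht j
      obtain ⟨c, hc⟩ := ht (s j)
      refine ⟨c, ?_⟩
      rw [mul_smul, mul_smul, ← eq_inv_smul_iff, Sp.smul_smul_comm g⁻¹, hs', Sp.smul_smul_comm,
        smul_comm c] at hc
      exact smul_right_injective _ (inv_ne_zero (hd j)) hc

/-- signed permutations -/
def sp (π : Equiv.Perm (Fin m)) (ε : Fin m → Bool) : Fin m ⊕ Fin m → Fin m ⊕ Fin m :=
  Sum.elim (fun i => if ε i then Sum.inl (π i) else Sum.inr (π i))
    (fun i => if ε i then Sum.inr (π i) else Sum.inl (π i))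

/-- coefficients -/
def co (ε : Fin m → Bool) (c : Fin m → Fˣ) : Fin m ⊕ Fin m → F :=
  Sum.elim (fun i => c i) (fun i => if ε i then (c i : F)⁻¹ else -(c i : F)⁻¹)

theorem mono_sp_mem (π : Equiv.Perm (Fin m)) (ε : Fin m → Bool) (c : Fin m → Fˣ) :
    mono (sp π ε) (co ε c) ∈ Matrix.symplecticGroup (Fin m) F := by
  rw [mono_mem_iff]
  rintro (x | x) (y | y) <;> by_cases hxy : y = x <;> cases hx : ε x <;> cases hy : ε y <;>
    simp_all [sp, co, om]

/-- Weyl group of type C_m: for q ≥ 4 the diagonal matrices of Sp_2m(q) form a torus T ≅ (C_(q−1))^m (the elements stabilising every coordinate axis), and the normaliser of T in Sp_2m(q) has order 2^m · m! · (q − 1)^m. -/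
theorem result {F : Type*} [Field F] [Fintype F] {q : ℕ} (hF : Fintype.card F = q) (hq : 4 ≤ q) (m : ℕ) : Nat.card ↥(Subgroup.normalizer (⨅ i : Fin m ⊕ Fin m, Cfsg.stabilizing (Cfsg.spToMat m F) ((Submodule.span F {(Pi.single i (1 : F) : Fin m ⊕ Fin m → F)} : Submodule F (Fin m ⊕ Fin m → F)) : Set (Fin m ⊕ Fin m → F)) : Set (Matrix.symplecticGroup (Fin m) F))) = 2 ^ m * Nat.factorial m * (q - 1) ^ m := by
  classical
  obtain ⟨a, ha0, ha⟩ : ∃ a : F, a ≠ 0 ∧ a * a ≠ 1 := by
    by_contra hc
    push Not at hc
    have : (Finset.univ : Finset F) ⊆ {0, 1, -1} := fun x _ => by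
      by_cases hx : x = 0
      · simp [hx]
      · rcases mul_self_eq_one_iff.mp (hc x hx) with h | h <;> simp [h]
    have h1 := Finset.card_le_card this
    have h2 : ({0, 1, -1} : Finset F).card ≤ 3 := Finset.card_le_three
    rw [Finset.card_univ] at h1
    omega
  let φ : (Fin m → Bool) × Equiv.Perm (Fin m) × (Fin m → Fˣ) →
      Subgroup.normalizer (T F m : Set (Matrix.symplecticGroup (Fin m) F)) := fun x =>
    ⟨⟨_, mono_sp_mem x.2.1 x.1 x.2.2⟩, (mem_normalizer_iff ha0 ha).mpr fun j =>
      ⟨_, _, mono_mulVec_single _ _ j⟩⟩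
  have hφ : Function.Bijective φ := by
    constructor
    · rintro ⟨ε, π, c⟩ ⟨ε', π', c'⟩ e
      have e' : mono (sp π ε) (co ε c) = mono (sp π' ε') (co ε' c') := congrArg (fun x => x.1.1) e
      have key : ∀ i, ε i = ε' i ∧ π i = π' i ∧ c i = c' i := by
        intro i
        have := congrFun (congrFun e' (sp π ε (Sum.inl i))) (Sum.inl i)
        simp only [mono, of_apply, if_true, co, Sum.elim_inl] at this
        split_ifs at this with h
        · refine ⟨?_, ?_, Units.ext this⟩ <;> cases hx : ε i <;> cases hy : ε' i <;> simp_all [sp]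
        · exact absurd this (c i).ne_zero
      exact Prod.ext (funext fun i => (key i).1)
        (Prod.ext (Equiv.ext fun i => (key i).2.1) (funext fun i => (key i).2.2))
    · rintro ⟨g, hg⟩
      choose s d hs using (mem_normalizer_iff ha0 ha).mp hg
      have hd : ∀ j, d j ≠ 0 := fun j e => smul_single_ne_zero g j (by rw [hs, e, zero_smul])
      have hg1 : g.1 = mono s d := eq_mono hs
      have hg2 := (mono_mem_iff s d).mp (hg1 ▸ g.2)
      have hsw : ∀ x y, s y = (s x).swap ↔ y = x.swap := by
        intro x y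
        have := hg2 x y
        constructor
        · intro e
          by_contra hne
          rw [if_pos e, if_neg hne] at this
          exact mul_ne_zero (mul_ne_zero (hd x) (hd y)) (om_ne_zero _) this
        · intro e
          by_contra hne
          rw [if_pos e, if_neg hne, mul_zero] at this
          exact om_ne_zero _ this.symm
      let π₀ : Fin m → Fin m := fun i => Sum.elim id id (s (Sum.inl i))
      have hπ : Function.Injective π₀ := by
        intro i j e
        have h1 := hsw (Sum.inl i) (Sum.inl j)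
        have h2 := hsw (Sum.inl i) (Sum.inr j)
        have h3 := (hsw (Sum.inl j) (Sum.inr j)).mpr rfl
        rcases hi : s (Sum.inl i) with x | x <;> rcases hj : s (Sum.inl j) with y | y <;>
          simp_all [π₀]
      refine ⟨(fun i => (s (Sum.inl i)).isLeft,
        Equiv.ofBijective π₀ (Finite.injective_iff_bijective.mp hπ),
        fun i => Units.mk0 _ (hd (Sum.inl i))), Subtype.ext (Subtype.ext ?_)⟩
      rw [hg1]
      change mono _ _ = _
      congr 1
      · ext x
        rcases x with i | i
        · rcases hi : s (Sum.inl i) with x | x <;> simp [sp, π₀, hi]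
        · have h3 := (hsw (Sum.inl i) (Sum.inr i)).mpr rfl
          rcases hi : s (Sum.inl i) with x | x <;> simp [sp, π₀, hi, h3]
      · ext x
        rcases x with i | i
        · rfl
        · have h3 := hg2 (Sum.inl i) (Sum.inr i)
          rw [if_pos ((hsw (Sum.inl i) (Sum.inr i)).mpr rfl), if_pos (Sum.swap_inl).symm] at h3
          have h4 := hd (Sum.inl i)
          rcases hi : s (Sum.inl i) with x | x
          · simp only [hi, om, Sum.elim_inl] at h3
            simp only [co, hi, Sum.elim_inr, Sum.isLeft_inl, if_true, Units.val_mk0]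
            field_simp
            linear_combination h3
          · simp only [hi, om, Sum.elim_inl, Sum.elim_inr] at h3
            simp only [co, hi, Sum.elim_inr, Sum.isLeft_inr, Units.val_mk0]
            rw [if_neg (by simp)]
            field_simp
            linear_combination -h3
  rw [Set.iInf_eq_iInter, ← Subgroup.coe_iInf, ← Nat.card_congr (Equiv.ofBijective φ hφ), Nat.card_prod, Nat.card_prod, Nat.card_fun,
    Nat.card_fun, Nat.card_perm, Nat.card_units, Nat.card_eq_fintype_card (α := F), hF]
  simp [mul_assoc]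

end Cfsg.Agent.S0777
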