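import Mathlib
import Cfsg.Statements.S0779
import Cfsg.Agent.Class.U.Basic

set_option autoImplicit false
open Cfsg

namespace Cfsg.Agent.S0779

/-- Unitary transvections: let |F| = q², h the standard Hermitian form Σ x_i y_i^q and v ≠ 0 with h(v, v) = 0. The linear map x ↦ x + c h(x, v) v is an isometry of h if and only if c = 0 or c^(q−1) = −1. -/
theorem result {F : Type*} [Field F] [Fintype F] {q : ℕ} (hF : Fintype.card F = q ^ 2) (n : ℕ) (v : Fin n → F) (hv : v ≠ 0) (hv0 : Cfsg.hermForm n F q v v = 0) (c : F) : (∀ x y : Fin n → F, Cfsg.hermForm n F q ((Cfsg.unitaryTransvection n q v c).mulVec x) ((Cfsg.unitaryTransvection n q v c).mulVec y) = Cfsg.hermForm n F q x y) ↔ (c = 0 ∨ c ^ (q - 1) = -1) := by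
  have := Class.U.UF.of_card hF
  have hq := Class.U.two_le_q F q
  have h := Class.U.pres_unitaryTransvection_iff (q := q) hv (c := c)
  rw [hv0, mul_zero, add_zero, Class.U.conj_apply] at h
  refine Iff.trans h ?_
  have h2 : c + c ^ q = c * (c ^ (q - 1) + 1) := by
    conv_lhs => rw [show q = q - 1 + 1 by omega, pow_succ]
    ring
  rw [h2, mul_eq_zero, add_eq_zero_iff_eq_neg]

end Cfsg.Agent.S0779
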