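import Cfsg.Statements.S0782
import Mathlib
import Cfsg.Agent.Class.Parabolic

set_option autoImplicit false
open Cfsg

namespace Cfsg.Agent.S0782

open Cfsg.Agent.Class Matrix

/-- Maximal parabolics of SU_n(q): if W is a k-dimensional subspace of F^n (n ≥ 1, |F| = q²) on which the Hermitian form vanishes, then (q + 1) times the order of its stabiliser in SU_n(q) equals q^(k(2n−3k)) · |GL_k(q²)| · |GU_(n−2k)(q)|, where |GU_m(q)| = q^(m(m−1)/2) Π_(i=1..m) (q^i − (−1)^i). -/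
theorem result {F : Type*} [Field F] [Fintype F] {q : ℕ} (hF : Fintype.card F = q ^ 2) (n k : ℕ) (hn : 1 ≤ n) (hk : 2 * k ≤ n) (W : Submodule F (Fin n → F)) (hWk : Module.finrank F W = k) (hW : ∀ u ∈ W, ∀ v ∈ W, Cfsg.hermForm n F q u v = 0) : (q + 1) * Nat.card ↥((Cfsg.stabilizing (Cfsg.slToMat n F) (W : Set (Fin n → F))).subgroupOf (Cfsg.SU n F q)) = q ^ (k * (2 * n - 3 * k)) * (∏ i : Fin k, ((q ^ 2) ^ k - (q ^ 2) ^ (i : ℕ))) * (q ^ ((n - 2 * k) * ((n - 2 * k) - 1) / 2) * ∏ i ∈ Finset.range (n - 2 * k), (if Even i then q ^ (i + 1) + 1 else q ^ (i + 1) - 1)) := by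
  have := U.UF.of_card hF
  have h := isHermSpace_hermB n F q
  obtain ⟨l, rfl⟩ := Nat.exists_eq_add_of_le hk
  rw [Nat.add_sub_cancel_left, show 2 * (2 * k + l) - 3 * k = k + 2 * l by omega,
    ← h.card_stabS (k := k) (l := l) (W := W) (by simp) hWk (fun x hx y hy => hW y hy x hx),
    ← Nat.card_congr (subgroupEquivOfMem (guEquiv _ F q) (mem_stabilizing_gu_iff W)).toEquiv]
  set H := (stabilizing (glToMat (Fin (2 * k + l)) F) (W : Set (Fin (2 * k + l) → F))).subgroupOf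
    (GU (2 * k + l) F q) with hH
  let δ : H →* Fˣ := U.detGU.comp H.subtype
  have hmem : ∀ g : GU (2 * k + l) F q, (∀ v ∈ W, g • v ∈ W) → g ∈ H := fun g hg =>
    (mem_stabilizing_gu_iff W g).mpr (mem_stabS_iff_le.mpr hg)
  have hr : δ.range = (U.detGU : GU (2 * k + l) F q →* Fˣ).range := by
    apply le_antisymm
    · rintro _ ⟨g, rfl⟩
      exact ⟨g.1, rfl⟩
    · intro e he
      by_cases hW0 : W = ⊥
      · obtain ⟨g, rfl⟩ := he
        exact ⟨⟨g, hmem g fun v hv => by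
          rw [hW0, Submodule.mem_bot] at hv ⊢
          rw [hv, smul_zero]⟩, rfl⟩
      obtain ⟨u, hu, hu0⟩ := (Submodule.ne_bot_iff W).mp hW0
      obtain ⟨v, hv1, hv2, -⟩ := h.exists_partner ⊥ (x := u) (by simpa using hu0) (hW u hu u hu)
        (by simp [U.herm_zero_right])
      have he' := (U.mem_range_detGU hn).mp he
      obtain ⟨s, hs0, hs⟩ := U.exists_conj_div_eq (e := (e : F)⁻¹) (q := q) (by
        rw [map_inv₀, ← mul_inv, he', inv_one])
      have hs1 : U.conj F q s ≠ 0 := U.conj_ne_zero.mpr hs0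
      refine ⟨⟨U.mkGU _ (U.pres_hypDiag (hW u hu u hu) hv1 hv2 (l := (U.conj F q s)⁻¹) (m := s)
        (inv_mul_cancel₀ hs1)), hmem _ fun x hx => ?_⟩, Units.ext ?_⟩
      · rw [U.mkGU_smul, U.hypDiag_mulVec hv1, hW x hx u hu, mul_zero, zero_smul, add_zero]
        exact W.add_mem hx (W.smul_mem _ hu)
      · change ((U.detGU (U.mkGU _ _) : Fˣ) : F) = e
        rw [U.detGU_mkGU, U.det_hypDiag hv2, hs]
        field_simp
  rw [← δ.ker.card_mul_index, Subgroup.index_ker, hr, U.card_range_detGU hn, mul_comm]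
  congr 1
  refine Nat.card_congr (Equiv.ofBijective (fun g => ⟨⟨U.toGU g.1, g.2⟩, ?_⟩) ⟨?_, ?_⟩)
  · have : U.toGU g.1 ∈ (U.detGU : GU (2 * k + l) F q →* Fˣ).ker := by
      rw [← U.range_toGU]; exact ⟨g.1, rfl⟩
    exact this
  · intro a b e
    exact Subtype.ext (U.toGU_injective (congrArg (fun x => x.1.1) e))
  · rintro ⟨⟨g, hg⟩, hg'⟩
    have : g ∈ (U.toGU : SU (2 * k + l) F q →* _).range := by
      rw [U.range_toGU]; exact hg'
    obtain ⟨x, rfl⟩ := this
    exact ⟨⟨x, hg⟩, rfl⟩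

end Cfsg.Agent.S0782
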