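import Cfsg.Statements.S0786
import Mathlib
import Cfsg.Agent.Class.Orth.Eichler

set_option autoImplicit false
open Cfsg

namespace Cfsg.Agent.S0786

open Cfsg.Agent.Class.Orth QuadraticMap


/-- Generation by reflections: if F is finite, Q is a quadratic form on F^n with non-degenerate polar form, and (|F|, n) ≠ (2, 4), then the isometry group of Q is generated by the reflections r_v, Q(v) ≠ 0. -/
theorem result {F : Type*} [Field F] [Fintype F] {n : ℕ} (Q : QuadraticForm F (Fin n → F)) (hQ : (QuadraticMap.polarBilin Q).Nondegenerate) (h : Fintype.card F ≠ 2 ∨ n ≠ 4) : Subgroup.closure {g : ↥(Cfsg.isometryGroup F ⇑Q) | ∃ v : Fin n → F, Q v ≠ 0 ∧ ((g : Matrix.GeneralLinearGroup (Fin n) F) : Matrix (Fin n) (Fin n) F) = Cfsg.reflectionMatrix ⇑Q v} = ⊤ := by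
  have hnd := (nd_iff Q).2 hQ
  let e := isoEquiv Q Q (fun _ => rfl)
  have hx : (∃ a : F, a ≠ 0 ∧ a ≠ 1) ∨ Module.finrank F (Fin n → F) ≠ 4 := by
    rcases h with h | h
    · exact Or.inl (exists_ne_zero_ne_one_of_card h)
    · right; simpa using h
  apply Subgroup.map_injective (f := e.toMonoidHom) e.injective
  rw [Subgroup.map_top_of_surjective _ e.surjective]
  refine hnd.eq_top_of_refl hx _ fun v hv => ⟨e.symm (refl Q v), Subgroup.subset_closure
    ⟨v, hv, ?_⟩, by simp⟩
  exact (isoEquiv_eq_iff Q Q (fun _ => rfl) _ (refl Q v) _ (reflectionMatrix_mulVec Q v)).1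
    (e.apply_symm_apply _)

end Cfsg.Agent.S0786
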