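import Cfsg.Statements.S0792
import Mathlib
import Cfsg.Agent.Class.Orth.Eichler
import Cfsg.Agent.Class.Orth.Mat

set_option autoImplicit false
open Cfsg

namespace Cfsg.Agent.S0792

open Cfsg.Agent.Class.Orth QuadraticMap


/-- For q odd and Q with non-degenerate polar form on F^n, the determinant-one isometries form the subgroup generated by all products r_u r_v of two reflections (Q(u), Q(v) ≠ 0). -/
theorem result {F : Type*} [Field F] [Fintype F] (h2 : (2 : F) ≠ 0) {n : ℕ} (Q : QuadraticForm F (Fin n → F)) (hQ : (QuadraticMap.polarBilin Q).Nondegenerate) : Cfsg.specialIsometryGroup F ⇑Q = Subgroup.closure {g : ↥(Cfsg.isometryGroup F ⇑Q) | ∃ u v : Fin n → F, Q u ≠ 0 ∧ Q v ≠ 0 ∧ ((g : Matrix.GeneralLinearGroup (Fin n) F) : Matrix (Fin n) (Fin n) F) = Cfsg.reflectionMatrix ⇑Q u * Cfsg.reflectionMatrix ⇑Q v} := by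
  have hnd := (nd_iff Q).2 hQ
  let e := isoEquiv Q Q (fun _ => rfl)
  have hx : (∃ a : F, a ≠ 0 ∧ a ≠ 1) ∨ Module.finrank F (Fin n → F) ≠ 4 :=
    Or.inl (exists_ne_zero_ne_one_of_two_ne_zero h2)
  have hmat : ∀ v, ((e.symm (refl Q v) : Matrix.GeneralLinearGroup (Fin n) F) : Matrix (Fin n) (Fin n) F)
      = Cfsg.reflectionMatrix ⇑Q v := fun v =>
    (isoEquiv_eq_iff Q Q (fun _ => rfl) _ (refl Q v) _ (reflectionMatrix_mulVec Q v)).1
      (e.apply_symm_apply _)
  have hmem : ∀ g : ↥(Cfsg.isometryGroup F ⇑Q), g ∈ Cfsg.specialIsometryGroup F ⇑Q ↔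
      ((g : Matrix.GeneralLinearGroup (Fin n) F) : Matrix (Fin n) (Fin n) F).det = 1 := by
    intro g
    rw [specialIsometryGroup, MonoidHom.mem_ker, ← Units.val_inj]
    rfl
  apply le_antisymm
  · intro g hg
    obtain ⟨l, hl, hlg⟩ := hnd.exists_list_refl hx (e g)
    have hg' : g = (l.map (fun v => e.symm (refl Q v))).prod := by
      apply e.injective
      rw [← hlg, map_list_prod, List.map_map]
      congr 2
      funext v
      simp
    rw [hmem] at hg
    rw [hg'] at hg ⊢
    clear hg' hlg
    induction l using List.twoStepInduction with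
    | nil => simp
    | singleton v =>
      exfalso
      simp only [List.map_cons, List.map_nil, List.prod_cons, List.prod_nil, mul_one] at hg
      rw [hmat, Mat.det_reflectionMatrix Q v (hl v (by simp))] at hg
      exact h2 (by linear_combination -hg)
    | cons_cons u v l ih _ =>
      simp only [List.map_cons, List.prod_cons] at hg ⊢
      rw [← mul_assoc]
      refine Subgroup.mul_mem _ (Subgroup.subset_closure ⟨u, v, hl u (by simp), hl v (by simp), ?_⟩)
        (ih ?_ (fun x hx => hl x (by simp [hx])))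
      · rw [Subgroup.coe_mul, Units.val_mul, hmat, hmat]
      · rw [Subgroup.coe_mul, Units.val_mul, Subgroup.coe_mul, Units.val_mul, Matrix.det_mul,
          Matrix.det_mul, hmat, hmat, Mat.det_reflectionMatrix Q u (hl u (by simp)),
          Mat.det_reflectionMatrix Q v (hl v (by simp))] at hg
        linear_combination hg
  · rw [Subgroup.closure_le]
    rintro g ⟨u, v, hu, hv, hg⟩
    rw [SetLike.mem_coe, hmem, hg, Matrix.det_mul, Mat.det_reflectionMatrix Q u hu,
      Mat.det_reflectionMatrix Q v hv]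
    ring

end Cfsg.Agent.S0792
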