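import Cfsg.Statements.S0793
import Cfsg.Agent.Class.Orth.Mat

set_option autoImplicit false
open Cfsg

namespace Cfsg.Agent.S0793

/-- Root elements: if Q(u) = Q(v) = 0 and f(u, v) = 0 (f the polar form), then for every c the Siegel matrix T_(u,v)(c) preserves Q, fixes u and v, and T(c) T(d) = T(c + d). -/
theorem result {F : Type*} [Field F] {n : ℕ} (Q : QuadraticForm F (Fin n → F)) (u v : Fin n → F) (hu : Q u = 0) (hv : Q v = 0) (huv : QuadraticMap.polar ⇑Q u v = 0) : (∀ c x, Q ((Cfsg.siegelMatrix ⇑Q u v c).mulVec x) = Q x) ∧ (∀ c, (Cfsg.siegelMatrix ⇑Q u v c).mulVec u = u ∧ (Cfsg.siegelMatrix ⇑Q u v c).mulVec v = v) ∧ ∀ c d, Cfsg.siegelMatrix ⇑Q u v c * Cfsg.siegelMatrix ⇑Q u v d = Cfsg.siegelMatrix ⇑Q u v (c + d) := by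
  have hvu : QuadraticMap.polar ⇑Q v u = 0 := by rw [QuadraticMap.polar_comm]; exact huv
  have huu : QuadraticMap.polar ⇑Q u u = 0 := by rw [QuadraticMap.polar_self, hu]; simp
  have hvv : QuadraticMap.polar ⇑Q v v = 0 := by rw [QuadraticMap.polar_self, hv]; simp
  refine ⟨fun c x => ?_, fun c => ⟨?_, ?_⟩, fun c d => ?_⟩
  · rw [Class.Orth.Mat.siegelMatrix_mulVec, sub_eq_add_neg, ← neg_smul,
      Class.Orth.Mat.map_add_smul, Class.Orth.Mat.map_add_smul, hu, hv,
      QuadraticMap.polar_add_right, QuadraticMap.polar_smul_right, huv]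
    simp only [smul_eq_mul]; ring
  · rw [Class.Orth.Mat.siegelMatrix_mulVec, huu, hvu]; simp
  · rw [Class.Orth.Mat.siegelMatrix_mulVec, huv, hvv]; simp
  · apply Matrix.ext_of_mulVec_single
    intro i
    rw [← Matrix.mulVec_mulVec]
    simp only [Class.Orth.Mat.siegelMatrix_mulVec, QuadraticMap.polar_add_right,
      QuadraticMap.polar_sub_right, QuadraticMap.polar_smul_right, huv, hvu, huu, hvv]
    simp only [smul_eq_mul, mul_zero, add_zero, sub_zero, add_mul, add_smul]
    abel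

end Cfsg.Agent.S0793
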