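import Cfsg.Statements.S0795
import Mathlib
import Cfsg.Agent.Class.Orth.Simple
import Cfsg.Agent.S0794

set_option autoImplicit false
open Cfsg

namespace Cfsg.Agent.S0795

open Cfsg.Agent.Class.Orth QuadraticMap


/-- Generation of Ω by root elements: for q odd, n ≥ 5 and Q with non-degenerate polar form on F^n, the commutator subgroup of the isometry group equals the subgroup generated by the isometries whose matrices are Siegel transformations T_(u,v)(c) with u, v singular and orthogonal. -/
theorem result {F : Type*} [Field F] [Fintype F] (h2 : (2 : F) ≠ 0) {n : ℕ} (hn : 5 ≤ n) (Q : QuadraticForm F (Fin n → F)) (hQ : (QuadraticMap.polarBilin Q).Nondegenerate) : Cfsg.Omega F ⇑Q = Subgroup.closure {g : ↥(Cfsg.isometryGroup F ⇑Q) | ∃ (u v : Fin n → F) (c : F), Q u = 0 ∧ Q v = 0 ∧ QuadraticMap.polar ⇑Q u v = 0 ∧ ((g : Matrix.GeneralLinearGroup (Fin n) F) : Matrix (Fin n) (Fin n) F) = Cfsg.siegelMatrix ⇑Q u v c} := by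
  have hnd := (nd_iff Q).2 hQ
  let e := isoEquiv Q Q (fun _ => rfl)
  have h5 : 5 ≤ Module.finrank F (Fin n → F) := by simpa using hn
  apply le_antisymm
  · rw [← Subgroup.map_le_map_iff_of_injective (f := (e : _ →* OG Q)) e.injective, Omega,
      map_commutator_equiv e, hnd.commutator_eq_EG_of_five_le h5]
    refine hnd.EG_le_of_singular h5 _ fun u v hu hv huv => ⟨e.symm (eichler Q u v),
      Subgroup.subset_closure ⟨u, v, -1, hu, hv, huv, ?_⟩, by simp⟩
    refine (isoEquiv_eq_iff Q Q (fun _ => rfl) _ _ _ (siegelMatrix_mulVec Q hu hv huv (-1))).1 ?_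
    rw [neg_neg, one_smul]
    exact e.apply_symm_apply _
  · rw [Subgroup.closure_le]
    rintro g ⟨u, v, c, hu, hv, huv, hg⟩
    exact (S0794.result h2 hn Q hQ u v hu hv huv c g hg).2

end Cfsg.Agent.S0795
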