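import Cfsg.Statements.S0796
import Mathlib

set_option autoImplicit false
open Cfsg

namespace Cfsg.Agent.S0796

/-- If G is finite and acts faithfully and primitively on X, H is the stabiliser of a point, A is a normal subgroup of H whose normal closure in G is G, then for every non-trivial normal subgroup K of G the quotient G ⧸ K is isomorphic to A ⧸ B for some normal subgroup B of A. -/
theorem result {G X : Type*} [Group G] [Finite G] [MulAction G X] [FaithfulSMul G X] (hprim : MulAction.IsPreprimitive G X) (x : X) (A : Subgroup G) (hA : A ≤ MulAction.stabilizer G x) (hAn : (A.subgroupOf (MulAction.stabilizer G x)).Normal) (hgen : Subgroup.normalClosure (A : Set G) = ⊤) (K : Subgroup G) [K.Normal] (hK : K ≠ ⊥) : ∃ (B : Subgroup A) (_ : B.Normal), Nonempty (G ⧸ K ≃* A ⧸ B) := by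
  have hfix : MulAction.fixedPoints K X ≠ Set.univ := by
    intro h
    apply hK
    rw [eq_bot_iff]
    intro k hk
    rw [Subgroup.mem_bot]
    refine FaithfulSMul.eq_of_smul_eq_smul (α := X) fun y => ?_
    rw [one_smul]
    exact Set.eq_univ_iff_forall.mp h y ⟨k, hk⟩
  have htr := MulAction.IsQuasiPreprimitive.isPretransitive_of_normal hfix
  have hnorm : (K ⊔ A).Normal := by
    refine ⟨fun a ha g => ?_⟩
    have key : (K ⊔ A).map (MulAut.conj g).toMonoidHom ≤ K ⊔ A := by
      rw [Subgroup.map_sup, sup_le_iff]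
      constructor
      · rintro _ ⟨k, hk, rfl⟩
        exact Subgroup.mem_sup_left (Subgroup.Normal.conj_mem inferInstance k hk g)
      · rintro _ ⟨a, ha, rfl⟩
        obtain ⟨k, hk⟩ := MulAction.exists_smul_eq K x (g • x)
        have hs : (k : G)⁻¹ * g ∈ MulAction.stabilizer G x := by
          rw [MulAction.mem_stabilizer_iff, mul_smul, ← hk, Subgroup.smul_def, inv_smul_smul]
        have h1 := hAn.conj_mem ⟨a, hA ha⟩ ha ⟨_, hs⟩
        rw [Subgroup.mem_subgroupOf] at h1
        have h2 : (k : G) * ((k : G)⁻¹ * g * a * ((k : G)⁻¹ * g)⁻¹) * (k : G)⁻¹ ∈ K ⊔ A :=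
          Subgroup.mul_mem _ (Subgroup.mul_mem _ (Subgroup.mem_sup_left k.2)
            (Subgroup.mem_sup_right h1)) (Subgroup.mem_sup_left (K.inv_mem k.2))
        convert h2 using 1
        simp [mul_assoc]
    exact key ⟨a, ha, rfl⟩
  have htop : K ⊔ A = ⊤ := by
    rw [eq_top_iff, ← hgen]
    exact Subgroup.normalClosure_le_normal (fun a ha => Subgroup.mem_sup_right ha)
  have hsurj : Function.Surjective ((QuotientGroup.mk' K).comp A.subtype) := by
    intro y
    obtain ⟨g, rfl⟩ := QuotientGroup.mk'_surjective _ y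
    have hg : g ∈ (↑(K ⊔ A) : Set G) := by rw [htop]; trivial
    rw [Subgroup.normal_mul] at hg
    obtain ⟨a, ha, b, hb, rfl⟩ := hg
    refine ⟨⟨b, hb⟩, ?_⟩
    have : (QuotientGroup.mk' K) a = 1 := by simpa using ha
    simp only [MonoidHom.comp_apply, Subgroup.subtype_apply, map_mul, this, one_mul]
  exact ⟨_, inferInstance, ⟨(QuotientGroup.quotientKerEquivOfSurjective _ hsurj).symm⟩⟩

end Cfsg.Agent.S0796
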