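import Cfsg.Statements.S0798
import Cfsg.Agent.Class.Orth.IndexTwo

set_option autoImplicit false
open Cfsg

namespace Cfsg.Agent.S0798

/-- For q odd, n ≥ 2 even, Q with non-degenerate polar form (n, |F|) ≠ (4, 3), and a fixed c ≠ 0: the subgroup of the isometry group generated by the reflections r_v with Q(v) ∈ c·(F^×)² has index 2. -/
theorem result {F : Type*} [Field F] [Fintype F] (h2 : (2 : F) ≠ 0) {n : ℕ} (hn : 2 ≤ n) (heven : Even n) (Q : QuadraticForm F (Fin n → F)) (hQ : (QuadraticMap.polarBilin Q).Nondegenerate) (h43 : ¬ (n = 4 ∧ Fintype.card F = 3)) (c : F) (hc : c ≠ 0) : (Subgroup.closure {g : ↥(Cfsg.isometryGroup F ⇑Q) | ∃ (v : Fin n → F) (t : F), t ≠ 0 ∧ Q v = c * t ^ 2 ∧ ((g : Matrix.GeneralLinearGroup (Fin n) F) : Matrix (Fin n) (Fin n) F) = Cfsg.reflectionMatrix ⇑Q v}).index = 2 := by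
  let e := Class.Orth.isoEquiv Q ⇑Q fun _ => rfl
  rw [← Subgroup.index_map_equiv _ e, MonoidHom.map_closure]
  have := ((Class.Orth.nd_iff Q).2 hQ).index_reflClass h2
    (by obtain ⟨k, hk⟩ := heven; simp only [Module.finrank_fintype_fun_eq_card, Fintype.card_fin]; omega)
    (by simpa using h43) hc
  refine Eq.trans ?_ this
  rw [Class.Orth.reflClass]
  congr 2
  ext g
  constructor
  · rintro ⟨g, ⟨v, t, ht, hv, hg⟩, rfl⟩
    exact ⟨v, t, ht, hv, (Class.Orth.isoEquiv_eq_refl_iff Q g v).2 hg⟩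
  · rintro ⟨v, t, ht, hv, rfl⟩
    refine ⟨e.symm (Class.Orth.refl Q v), ⟨v, t, ht, hv, ?_⟩, e.apply_symm_apply _⟩
    exact (Class.Orth.isoEquiv_eq_refl_iff Q _ v).1 (e.apply_symm_apply _)

end Cfsg.Agent.S0798
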