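import Cfsg.Statements.S0800
import Cfsg.Agent.Class.PSL2Dickson

set_option autoImplicit false
open Cfsg

namespace Cfsg.Agent.S0800

/-- Tori of SL_2(q): if g ∈ SL_2(q) has order coprime to the characteristic p, then the order of g divides q − 1 or q + 1. -/
theorem result {F : Type*} [Field F] [Fintype F] {q : ℕ} (hF : Fintype.card F = q) (p : ℕ) [Fact p.Prime] [CharP F p] (g : Matrix.SpecialLinearGroup (Fin 2) F) (hg : Nat.Coprime (orderOf g) p) : orderOf g ∣ q - 1 ∨ orderOf g ∣ q + 1 := by
  subst hF
  have hq : 1 < Fintype.card F := Fintype.one_lt_card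
  have key : ∀ n : ℕ, (g : Matrix (Fin 2) (Fin 2) F) ^ n = 1 → orderOf g ∣ n := fun n hn =>
    orderOf_dvd_of_pow_eq_one (Subtype.ext (by simpa using hn))
  rcases Class.Dickson.pow_trichotomy p (g : Matrix (Fin 2) (Fin 2) F) (by simp) with
    ⟨c, h⟩ | h | h
  · have hd : c * c = 1 := by
      have := congrArg Matrix.det h
      simpa [sq] using this.symm
    rcases Nat.even_or_odd (Fintype.card F) with he | ho
    · have h2 : ringChar F = 2 := FiniteField.even_card_iff_char_two.2 (Nat.even_iff.1 he)
      have : CharP F 2 := ringChar.of_eq h2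
      have hc : c = 1 := by
        rcases mul_self_eq_one_iff.1 hd with h1 | h1
        · exact h1
        · rw [h1, CharTwo.neg_eq]
      rw [hc, one_smul] at h
      have h1 := Nat.Coprime.eq_one_of_dvd hg (key p h)
      exact Or.inl (by rw [h1]; exact one_dvd _)
    · have h1 : orderOf g ∣ p * 2 := key _ (by
        rw [pow_mul, h, sq, smul_mul_assoc, one_mul, smul_smul, hd, one_smul])
      have h2 : orderOf g ∣ 2 := hg.dvd_of_dvd_mul_left h1
      exact Or.inr (h2.trans (even_iff_two_dvd.1 ho.add_one))
  · exact Or.inl (key _ h)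
  · exact Or.inr (key _ (by simpa using h))

end Cfsg.Agent.S0800
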