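import Cfsg.Statements.S0808
import Cfsg.Agent.Class.SL2Quat
import Cfsg.Agent.S0276

set_option autoImplicit false
open Cfsg

namespace Cfsg.Agent.S0808

/-- Conjugacy classes of four-groups in PSL_2(q), q odd: if q ≡ 3 or 5 (mod 8) all Klein four-subgroups are conjugate; if q ≡ 1 or 7 (mod 8) there are two Klein four-subgroups which are not conjugate, and every Klein four-subgroup is conjugate to one of them. -/
theorem result {F : Type*} [Field F] [Fintype F] {q : ℕ} (hF : Fintype.card F = q) (hodd : Odd q) : ((q % 8 = 3 ∨ q % 8 = 5) → ∀ V W : Subgroup (Matrix.ProjectiveSpecialLinearGroup (Fin 2) F), IsKleinFour V → IsKleinFour W → ∃ g : Matrix.ProjectiveSpecialLinearGroup (Fin 2) F, W = V.map (MulAut.conj g).toMonoidHom) ∧ ((q % 8 = 1 ∨ q % 8 = 7) → ∃ V₁ V₂ : Subgroup (Matrix.ProjectiveSpecialLinearGroup (Fin 2) F), IsKleinFour V₁ ∧ IsKleinFour V₂ ∧ (¬ ∃ g : Matrix.ProjectiveSpecialLinearGroup (Fin 2) F, V₂ = V₁.map (MulAut.conj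 g).toMonoidHom) ∧ ∀ W : Subgroup (Matrix.ProjectiveSpecialLinearGroup (Fin 2) F), IsKleinFour W → (∃ g : Matrix.ProjectiveSpecialLinearGroup (Fin 2) F, W = V₁.map (MulAut.conj g).toMonoidHom) ∨ (∃ g : Matrix.ProjectiveSpecialLinearGroup (Fin 2) F, W = V₂.map (MulAut.conj g).toMonoidHom)) := by
  subst hF
  have h2 : (2 : F) ≠ 0 := Class.Dickson.two_ne_zero_of_odd_card hodd
  refine ⟨fun hq V W hV hW => ?_, fun hq => ?_⟩
  · obtain ⟨P, hP⟩ := (IsPGroup.of_card (p := 2) (n := 2) hV.card_four).exists_le_sylow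
    obtain ⟨Q, hQ⟩ := (IsPGroup.of_card (p := 2) (n := 2) hW.card_four).exists_le_sylow
    rw [Subgroup.eq_of_le_of_card_ge hP (by rw [S0276.card_sylow hq P, hV.card_four]),
      Subgroup.eq_of_le_of_card_ge hQ (by rw [S0276.card_sylow hq Q, hW.card_four])]
    obtain ⟨g, rfl⟩ := MulAction.exists_smul_eq (Matrix.ProjectiveSpecialLinearGroup (Fin 2) F) P Q
    exact ⟨g, rfl⟩
  have hs : IsSquare (2 : F) := FiniteField.isSquare_two_iff.2 (by omega)
  obtain ⟨g₁, w₁, g₂, w₂, h₁, h₂, hn, hall⟩ := Class.Dickson.exists_two_orbits h2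
  have key : ∀ {g w g' w' : Matrix.SpecialLinearGroup (Fin 2) F} (h : Class.Dickson.QuatPair g w)
      (h' : Class.Dickson.QuatPair g' w'),
      (∃ c : Matrix.SpecialLinearGroup (Fin 2) F, c * g * c⁻¹ = g' ∧ c * w * c⁻¹ = w') →
      ∃ c : Matrix.ProjectiveSpecialLinearGroup (Fin 2) F,
        h'.kleinPair.sub = h.kleinPair.sub.map (MulAut.conj c).toMonoidHom := by
    rintro g w _ _ h h' ⟨c, rfl, rfl⟩
    refine ⟨Class.Dickson.pslMk F c, ?_⟩
    rw [← Class.Dickson.KleinPair.sub_conj]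
    rfl
  refine ⟨h₁.kleinPair.sub, h₂.kleinPair.sub, h₁.kleinPair.isKleinFour, h₂.kleinPair.isKleinFour,
    ?_, fun W hW => ?_⟩
  · rintro ⟨c, hc⟩
    rw [← Class.Dickson.KleinPair.sub_conj] at hc
    obtain ⟨d, hd1, hd2⟩ := Class.Dickson.KleinPair.exists_conj_of_moves
      (fun x y h => h.exists_cycle h2) (fun x y h => h.exists_rot h2 hs) (h₁.kleinPair.conj c)
      h₂.kleinPair (hc ▸ Or.inr (Or.inl rfl)) (hc ▸ Or.inr (Or.inr (Or.inl rfl)))
    obtain ⟨c, rfl⟩ := Class.Dickson.pslMk_surjective c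
    obtain ⟨d, rfl⟩ := Class.Dickson.pslMk_surjective d
    obtain ⟨e, he1, he2⟩ := ((h₁.conj c).conj d).exists_conj_of_pslMk_eq (g' := g₂) (w' := w₂)
      hd1 hd2
    exact hn ⟨e * d * c, by rw [← he1]; group, by rw [← he2]; group⟩
  · obtain ⟨x, y, h, rfl⟩ := Class.Dickson.exists_kleinPair hW
    obtain ⟨g, w, hq, rfl, rfl⟩ := Class.Dickson.exists_quatPair_of_kleinPair h2 h
    exact (hall g w hq).imp (key h₁ hq) (key h₂ hq)

end Cfsg.Agent.S0808
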