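import Cfsg.Statements.S0818
import Mathlib
import Cfsg.Agent.KSG.AutOrth8

set_option autoImplicit false
open Cfsg

namespace Cfsg.Agent.S0818

open Cfsg.Agent.Class.Orth Cfsg.Agent.KSG QuadraticMap

/-- |Aut(PΩ⁻_2m(q))| for q = p^f, m ≥ 4 (form quadFormMinus (m−1) with anisotropic binary part): |PΩ⁻_2m(q)| times f, times 2 if p = 2, and times 4 or 8 if p is odd according as m(q−1)/2 is even or odd. -/
theorem result {F : Type*} [Field F] [Fintype F] (p f : ℕ) [Fact p.Prime] (hf : 1 ≤ f) (hF : Fintype.card F = p ^ f) (m : ℕ) (hm : 4 ≤ m) (a b : F) (hab : ∀ z₁ z₂ : F, z₁ ^ 2 + a * z₁ * z₂ + b * z₂ ^ 2 = 0 → z₁ = 0 ∧ z₂ = 0) : Nat.card (MulAut (Cfsg.POmega F (Cfsg.quadFormMinus (m - 1) F a b))) = (if p = 2 then 2 else (if Even (m * (p ^ f - 1) / 2) then 4 else 8)) * f * Nat.card (Cfsg.POmega F (Cfsg.quadFormMinus (m - 1) F a b)) := by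
  rw [(matRep _ (minusQF_apply (m - 1) F a b)).card_aut (nd_minusQF _ hab)
    (by rw [finrank_minus]; omega)]
  congr 1
  split_ifs with h1 h2
  · subst h1
    obtain ⟨e⟩ := out_minus_two hF (m := m - 1) (by omega) hab (two_eq_zero_of_card hF)
    rw [Nat.card_congr e.toEquiv, card_mult_zmod]
  all_goals
    have h3 := two_ne_zero_of_card hF h1
    have := out_minus_odd hF (m := m - 1) (by omega) hab h3
    rw [← hF, even_mul_div_iff (card_mod_two_of_two_ne_zero h3), Nat.odd_iff] at h2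
  · rw [if_neg (by rw [Nat.even_iff]; omega)] at this
    rw [Nat.card_congr this.some.toEquiv, card_mult_prod, Nat.card_zmod, Nat.card_zmod]; ring
  · rw [if_pos (by rw [Nat.even_iff]; omega)] at this
    rw [Nat.card_congr this.some.toEquiv, Nat.card_prod, card_mult_zmod, DihedralGroup.nat_card]

end Cfsg.Agent.S0818
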