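import Cfsg.Statements.S0823
import Mathlib
import Cfsg.Agent.Class.SmallIso2
import Cfsg.Agent.S0286
import Cfsg.Agent.Class.FormedSpU

set_option autoImplicit false
open Cfsg

namespace Cfsg.Agent.S0823

open Cfsg.Agent.Class

def ix : Unit ⊕ (Fin 1 ⊕ Fin 1) → Fin 3 := Sum.elim (fun _ => 0) (Sum.elim (fun _ => 1) fun _ => 2)

def tb : Fin 4 → Fin 4 → Fin 3 → ZMod 3 :=
  ![![![0, 0, 0], ![2, 0, 0], ![2, 0, 1], ![2, 0, 2]],
    ![![1, 0, 0], ![0, 0, 0], ![1, 1, 0], ![1, 2, 0]],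
    ![![1, 0, 2], ![2, 2, 0], ![0, 0, 0], ![0, 1, 1]],
    ![![1, 0, 1], ![2, 1, 0], ![0, 2, 2], ![0, 0, 0]]]

def f (a b : Fin 4) : Unit ⊕ (Fin 1 ⊕ Fin 1) → ZMod 3 := fun i => tb a b (ix i)

def M : Fin 3 → Matrix (Fin 3) (Fin 3) (ZMod 3) :=
  ![!![2, 0, 0; 0, 0, 1; 0, 1, 0], !![1, 1, 0; 0, 2, 0; 2, 1, 2], !![1, 0, 0; 0, 2, 0; 0, 0, 2]]

def R (k : Fin 3) : Matrix (Unit ⊕ (Fin 1 ⊕ Fin 1)) (Unit ⊕ (Fin 1 ⊕ Fin 1)) (ZMod 3) :=
  Matrix.of fun i j => M k (ix i) (ix j)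

theorem R_mul : ∀ k, R k * R k = 1 := by decide +kernel

theorem R_det : ∀ k, (R k).det = 1 := by decide +kernel

theorem R_Q : ∀ k v, quadFormOdd 1 (ZMod 3) ((R k).mulVec v) = quadFormOdd 1 (ZMod 3) v := by
  decide +kernel

theorem R_f : ∀ (k : Fin 3) (a b : Fin 4),
    f (Equiv.swap k.castSucc k.succ a) (Equiv.swap k.castSucc k.succ b) = (R k).mulVec (f a b) := by
  decide +kernel

theorem hker : ∀ a b a' b', a ≠ b → f a' b' = f a b → a' = a ∨ a' = b := by decide +kernel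

theorem card_le : Nat.card (Cfsg.specialIsometryGroup (ZMod 3) (Cfsg.quadFormOdd 1 (ZMod 3))) ≤ 24 := by
  have h := S0286.result (ZMod.card 3) (by decide) 1
  have h1 := (Cfsg.specialIsometryGroup (ZMod 3) (Cfsg.quadFormOdd 1 (ZMod 3))).card_mul_index
  have h2 : (Cfsg.specialIsometryGroup (ZMod 3) (Cfsg.quadFormOdd 1 (ZMod 3))).index ≠ 1 := by
    rw [Ne, Subgroup.index_eq_one]
    intro e
    have h3 : isomOfInvol (Cfsg.quadFormOdd 1 (ZMod 3)) (-1) (by simp) (by decide +kernel) ∈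
      Cfsg.specialIsometryGroup (ZMod 3) (Cfsg.quadFormOdd 1 (ZMod 3)) := e ▸ Subgroup.mem_top _
    have h4 : (-1 : Matrix (Unit ⊕ (Fin 1 ⊕ Fin 1)) (Unit ⊕ (Fin 1 ⊕ Fin 1)) (ZMod 3)).det = 1 :=
      congrArg Units.val h3
    revert h4
    decide +kernel
  rw [h] at h1
  generalize (Cfsg.specialIsometryGroup (ZMod 3) (Cfsg.quadFormOdd 1 (ZMod 3))).index = i at h1 h2
  generalize Nat.card (Cfsg.specialIsometryGroup (ZMod 3) (Cfsg.quadFormOdd 1 (ZMod 3))) = c at h1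
  norm_num at h1
  have : 2 ≤ i := by
    rcases i with _ | _ | i
    · simp at h1
    · simp at h2
    · omega
  nlinarith

theorem model : Nonempty (↥(Cfsg.specialIsometryGroup (ZMod 3) (Cfsg.quadFormOdd 1 (ZMod 3))) ≃*
    Equiv.Perm (Fin 4)) := by
  refine nonempty_mulEquiv_perm_of_table (n := 3) f
    (fun k => ⟨⟨isomOfInvol _ (R k) (R_mul k) (R_Q k), Units.ext (R_det k)⟩, R_f k⟩) (by norm_num)
    hker card_le

/-- SO_3(3) ≅ S_4: the determinant-one isometries of the form x_0² + x_1y_1 over the field with 3 elements form a group isomorphic to the symmetric group on 4 letters. -/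
theorem result {F : Type*} [Field F] [Fintype F] (hF : Fintype.card F = 3) : Nonempty (↥(Cfsg.specialIsometryGroup F (Cfsg.quadFormOdd 1 F)) ≃* Equiv.Perm (Fin 4)) := by
  obtain ⟨e⟩ := model
  refine ⟨(subgroupEquivOfMem
    (isometryGroupCongr (ringEquivZMod hF) _ _ (quadFormOdd_comp _ 1)) fun g => ?_).trans e⟩
  have h := (ringEquivZMod hF : F →+* ZMod 3).map_det g.1.1
  constructor
  · intro hg
    have h1 : g.1.1.det = 1 := congrArg Units.val hg
    rw [h1, map_one] at h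
    exact Units.ext h.symm
  · intro hg
    have h1 : _ = (1 : ZMod 3) := congrArg Units.val hg
    refine Units.ext ((ringEquivZMod hF).injective ?_)
    rw [Units.val_one, map_one, ← h1]
    exact h

end Cfsg.Agent.S0823
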