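import Cfsg.Statements.S0825
import Mathlib
import Cfsg.Agent.Class.SmallIso2
import Cfsg.Agent.S0287

set_option autoImplicit false
open Cfsg

namespace Cfsg.Agent.S0825

open Cfsg.Agent.Class

def u : Fin 8 → Fin 3 ⊕ Fin 3 → ZMod 2 :=
  ![Sum.elim ![0, 0, 0] ![0, 0, 0], Sum.elim ![0, 0, 1] ![0, 0, 1], Sum.elim ![0, 1, 1] ![0, 1, 0],
    Sum.elim ![0, 1, 0] ![1, 1, 1], Sum.elim ![1, 1, 0] ![0, 1, 1], Sum.elim ![1, 1, 1] ![1, 0, 0],
    Sum.elim ![1, 0, 1] ![1, 1, 0], Sum.elim ![1, 0, 0] ![1, 0, 1]]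

def f (a b : Fin 8) : Fin 3 ⊕ Fin 3 → ZMod 2 := u a + u b

def R (k : Fin 7) : Matrix (Fin 3 ⊕ Fin 3) (Fin 3 ⊕ Fin 3) (ZMod 2) :=
  Matrix.of fun i j => (if i = j then 1 else 0) + f k.castSucc k.succ i * f k.castSucc k.succ j.swap

theorem R_mul : ∀ k, R k * R k = 1 := by decide +kernel

theorem R_Q : ∀ k v, quadFormPlus 3 (ZMod 2) ((R k).mulVec v) = quadFormPlus 3 (ZMod 2) v := by
  decide +kernel

theorem R_f : ∀ (k : Fin 7) (a b : Fin 8),
    f (Equiv.swap k.castSucc k.succ a) (Equiv.swap k.castSucc k.succ b) = (R k).mulVec (f a b) := by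
  decide +kernel

theorem hker : ∀ a b a' b', a ≠ b → f a' b' = f a b → a' = a ∨ a' = b := by decide +kernel

theorem model : Nonempty (↥(Cfsg.isometryGroup (ZMod 2) (Cfsg.quadFormPlus 3 (ZMod 2))) ≃*
    Equiv.Perm (Fin 8)) := by
  refine nonempty_mulEquiv_perm_of_table (n := 7) f
    (fun k => ⟨isomOfInvol _ (R k) (R_mul k) (R_Q k), R_f k⟩) (by norm_num) hker ?_
  rw [S0287.result (ZMod.card 2) 3 (by norm_num)]
  decide +kernel

/-- O⁺_6(2) ≅ S_8: the isometry group of the hyperbolic form x_1y_1 + x_2y_2 + x_3y_3 over the field with 2 elements is isomorphic to the symmetric group on 8 letters. -/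
theorem result {F : Type*} [Field F] [Fintype F] (hF : Fintype.card F = 2) : Nonempty (↥(Cfsg.isometryGroup F (Cfsg.quadFormPlus 3 F)) ≃* Equiv.Perm (Fin 8)) := by
  obtain ⟨e⟩ := model
  exact ⟨(isometryGroupCongr (ringEquivZMod hF) _ _ (quadFormPlus_comp _ 3)).trans e⟩

end Cfsg.Agent.S0825
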