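import Cfsg.Statements.S0828
import Mathlib
import Cfsg.Agent.Class.Parabolic

set_option autoImplicit false
open Cfsg

namespace Cfsg.Agent.S0828

open Cfsg.Agent.Class Module

/-- The symplectic generalised quadrangle over a field with q elements: the number of 2-dimensional subspaces of F^4 on which the symplectic form vanishes is (q + 1)(q² + 1), and every non-zero vector lies in exactly q + 1 of them. -/
theorem result {F : Type*} [Field F] [Fintype F] {q : ℕ} (hF : Fintype.card F = q) : Nat.card {W : Submodule F (Fin 2 ⊕ Fin 2 → F) // Module.finrank F W = 2 ∧ ∀ u ∈ W, ∀ v ∈ W, Cfsg.sympForm 2 F u v = 0} = (q + 1) * (q ^ 2 + 1) ∧ ∀ v : Fin 2 ⊕ Fin 2 → F, v ≠ 0 → Nat.card {W : Submodule F (Fin 2 ⊕ Fin 2 → F) // Module.finrank F W = 2 ∧ v ∈ W ∧ ∀ u ∈ W, ∀ w ∈ W, Cfsg.sympForm 2 F u w = 0} = q + 1 := by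
  subst hF
  have h := isSympSpace_sympB 2 F
  have hq : 2 ≤ Fintype.card F := Fintype.one_lt_card
  have hdim : finrank F (Fin 2 ⊕ Fin 2 → F) = 2 * (2 + 0) := by simp
  constructor
  · let b : Fin 2 → (Fin 2 ⊕ Fin 2 → F) := fun i => Pi.single (Sum.inl i) 1
    have hb : LinearIndependent F b :=
      (Pi.linearIndependent_single_one (Fin 2 ⊕ Fin 2) F).comp _ Sum.inl_injective
    let W := Submodule.span F (Set.range b)
    have hk : finrank F W = 2 := by rw [finrank_span_eq_card hb]; simp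
    have hW : ∀ x ∈ W, ∀ y ∈ W, sympB 2 F x y = 0 := by
      have := (h.isometric_span 0 (Set.range b) (by
        rintro _ ⟨i, rfl⟩ _ ⟨j, rfl⟩
        simp [b, Sp.form_single_inl_left, Sp.form_zero_left]) (fun _ _ => rfl)).1
      intro x hx y hy
      rw [← this x hx y hy]; simp [Sp.form_zero_left]
    have h1 := h.card_totallySingular_mul_card_stabS hW (fun _ _ => rfl)
    rw [h.card_stabS hdim hk hW, h.card_isom hdim, hk] at h1
    simp only [implies_true, and_true, sympB_apply] at h1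
    generalize Nat.card _ = N at h1 ⊢
    obtain ⟨r, hr⟩ : ∃ r, Fintype.card F = r + 2 := ⟨Fintype.card F - 2, by omega⟩
    rw [hr] at h1 ⊢
    simp only [Finset.prod_range_succ, Fin.prod_univ_two] at h1
    norm_num at h1
    have e1 : (r + 2) ^ 2 - 1 = (r + 1) * (r + 3) := Nat.sub_eq_of_eq_add (by ring)
    have e2 : (r + 2) ^ 2 - (r + 2) = (r + 2) * (r + 1) := Nat.sub_eq_of_eq_add (by ring)
    have e3 : (r + 2) ^ 4 - 1 = (r + 1) * (r + 3) * ((r + 2) ^ 2 + 1) :=
      Nat.sub_eq_of_eq_add (by ring)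
    rw [e1, e2, e3] at h1
    apply Nat.eq_of_mul_eq_mul_right
      (m := (r + 2) ^ 3 * ((r + 1) * (r + 3) * ((r + 2) * (r + 1)))) (by positivity)
    rw [h1]; ring
  · intro v hv
    set L := {W : Submodule F (Fin 2 ⊕ Fin 2 → F) // Module.finrank F W = 2 ∧ v ∈ W ∧
      ∀ u ∈ W, ∀ w ∈ W, Cfsg.sympForm 2 F u w = 0}
    have hv1 : finrank F (F ∙ v) = 1 := finrank_span_singleton hv
    have hle : (F ∙ v) ≤ perp (sympB 2 F) (F ∙ v) := by
      intro x hx y hy
      obtain ⟨a, rfl⟩ := Submodule.mem_span_singleton.mp hx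
      obtain ⟨b, rfl⟩ := Submodule.mem_span_singleton.mp hy
      simp [Sp.form_self]
    have hp : finrank F (perp (sympB 2 F) (F ∙ v)) = 3 := by
      have := h.finrank_add_finrank_perp (F ∙ v)
      omega
    have c1 := card_mem_notMem hle
    rw [hp, hv1] at c1
    have huniq : ∀ (X : L) (w : Fin 2 ⊕ Fin 2 → F), w ∈ X.1 → w ∉ (F ∙ v) →
        (F ∙ v) ⊔ (F ∙ w) = X.1 := by
      intro X w h1 h2
      apply Submodule.eq_of_le_of_finrank_eq
      · exact sup_le ((Submodule.span_singleton_le_iff_mem _ _).mpr X.2.2.1)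
          ((Submodule.span_singleton_le_iff_mem _ _).mpr h1)
      · rw [Submodule.finrank_sup_span_singleton h2, hv1, X.2.1]
    let φ : (Σ X : L, {w // w ∈ X.1 ∧ w ∉ (F ∙ v)}) →
        {w // w ∈ perp (sympB 2 F) (F ∙ v) ∧ w ∉ (F ∙ v)} := fun x =>
      ⟨x.2.1, fun y hy => x.1.2.2.2 y ((Submodule.span_singleton_le_iff_mem _ _).mpr x.1.2.2.1 hy)
        _ x.2.2.1, x.2.2.2⟩
    have hφ : Function.Bijective φ := by
      constructor
      · rintro ⟨X, w, h1, h2⟩ ⟨X', w', h1', h2'⟩ e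
        obtain rfl : w = w' := congrArg Subtype.val e
        obtain rfl : X = X' := Subtype.ext ((huniq X w h1 h2).symm.trans (huniq X' w h1' h2'))
        rfl
      · rintro ⟨w, h1, h2⟩
        have hvw : sympForm 2 F v w = 0 := h1 v (Submodule.mem_span_singleton_self v)
        have hwv : sympForm 2 F w v = 0 := by rw [Sp.form_skew, hvw, neg_zero]
        refine ⟨⟨⟨(F ∙ v) ⊔ (F ∙ w), by rw [Submodule.finrank_sup_span_singleton h2, hv1],
          Submodule.mem_sup_left (Submodule.mem_span_singleton_self v), fun x hx y hy => ?_⟩,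
          ⟨w, Submodule.mem_sup_right (Submodule.mem_span_singleton_self w), h2⟩⟩, rfl⟩
        obtain ⟨_, hx1, _, hx2, rfl⟩ := Submodule.mem_sup.mp hx
        obtain ⟨_, hy1, _, hy2, rfl⟩ := Submodule.mem_sup.mp hy
        obtain ⟨a, rfl⟩ := Submodule.mem_span_singleton.mp hx1
        obtain ⟨b, rfl⟩ := Submodule.mem_span_singleton.mp hx2
        obtain ⟨c, rfl⟩ := Submodule.mem_span_singleton.mp hy1
        obtain ⟨d, rfl⟩ := Submodule.mem_span_singleton.mp hy2
        simp [Sp.form_add_left, Sp.form_add_right, Sp.form_smul_left, Sp.form_smul_right,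
          Sp.form_self, hvw, hwv]
    have := Fintype.ofFinite L
    have c2 : ∀ X : L, Nat.card {w // w ∈ X.1 ∧ w ∉ (F ∙ v)} = Nat.card F ^ 2 - Nat.card F ^ 1 :=
      fun X => by
        rw [card_mem_notMem ((Submodule.span_singleton_le_iff_mem _ _).mpr X.2.2.1), X.2.1, hv1]
    rw [← Nat.card_congr (Equiv.ofBijective φ hφ), Nat.card_sigma] at c1
    simp only [c2, Finset.sum_const, Finset.card_univ, smul_eq_mul, Nat.card_eq_fintype_card] at c1 ⊢
    obtain ⟨r, hr⟩ : ∃ r, Fintype.card F = r + 2 := ⟨Fintype.card F - 2, by omega⟩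
    rw [hr] at c1 ⊢
    have e2 : (r + 2) ^ 2 - (r + 2) ^ 1 = (r + 2) * (r + 1) := Nat.sub_eq_of_eq_add (by ring)
    have e3 : (r + 2) ^ 3 - (r + 2) ^ 1 = (r + 2 + 1) * ((r + 2) * (r + 1)) :=
      Nat.sub_eq_of_eq_add (by ring)
    rw [e2, e3] at c1
    exact Nat.eq_of_mul_eq_mul_right (by positivity) c1

end Cfsg.Agent.S0828
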