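import Cfsg.Statements.S0829
import Mathlib
import Cfsg.Agent.Class.Parabolic

set_option autoImplicit false
open Cfsg

namespace Cfsg.Agent.S0829

open Cfsg.Agent.Class Module

/-- existence of totally isotropic subspaces -/
theorem exists_ti {F : Type*} [Field F] {q : ℕ} [U.UF F q] (k l : ℕ) :
    ∃ W : Submodule F (Fin (2 * k + l) → F), finrank F W = k ∧
      ∀ x ∈ W, ∀ y ∈ W, hermB (2 * k + l) F q x y = 0 := by
  have h := isHermSpace_hermB (2 * k + l) F q
  obtain ⟨a, ha⟩ := U.exists_norm_eq (F := F) (q := q) (μ := -1) (by simp)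
  let i0 : Fin k → Fin (2 * k + l) := fun i => ⟨2 * i, by omega⟩
  let i1 : Fin k → Fin (2 * k + l) := fun i => ⟨2 * i + 1, by omega⟩
  have h00 : ∀ i j, i0 i = i0 j ↔ i = j := fun i j => by simp [i0, Fin.ext_iff]
  have h11 : ∀ i j, i1 i = i1 j ↔ i = j := fun i j => by simp [i1, Fin.ext_iff]
  have h01 : ∀ i j, i0 i ≠ i1 j := fun i j => by simp [i0, i1, Fin.ext_iff]; omega
  have h10 : ∀ i j, i1 i ≠ i0 j := fun i j => (h01 j i).symm
  let b : Fin k → (Fin (2 * k + l) → F) := fun i => Pi.single (i0 i) 1 + a • Pi.single (i1 i) 1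
  have hb : LinearIndependent F b := linearIndependent_of_dual (B := hermB (2 * k + l) F q)
    (e := fun i => Pi.single (i0 i) 1) fun i j => by
      simp only [b, map_add, map_smulₛₗ, hermB_apply,
        U.herm_single_single, h00, h10, if_false, smul_eq_mul, mul_zero, add_zero]
      simp [eq_comm, h01]
  refine ⟨Submodule.span F (Set.range b), by rw [finrank_span_eq_card hb]; simp, ?_⟩
  have hbb : ∀ i j, hermB (2 * k + l) F q (b i) (b j) = 0 := fun i j => by
    simp only [b, map_add, map_smulₛₗ, LinearMap.add_apply, LinearMap.smul_apply, hermB_apply,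
      U.herm_single_single, h00, h11, h01, h10, if_false, smul_eq_mul, RingHom.id_apply]
    by_cases hij : j = i
    · simp [hij, ha]
    · simp [hij, Ne.symm hij]
  have := (h.isometric_span 0 (Set.range b) (by
    rintro _ ⟨i, rfl⟩ _ ⟨j, rfl⟩
    rw [hbb]; simp only [LinearMap.zero_apply, map_zero]) (by
    rintro _ ⟨i, rfl⟩
    rw [hbb]; simp only [LinearMap.zero_apply, map_zero])).1
  intro x hx y hy
  rw [← this x hx y hy]; simp only [LinearMap.zero_apply, map_zero]

theorem card_ti_mul {F : Type*} [Field F] {q : ℕ} [U.UF F q] (k l : ℕ) :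
    Nat.card {W : Submodule F (Fin (2 * k + l) → F) // Module.finrank F W = k ∧
      ∀ u ∈ W, ∀ v ∈ W, Cfsg.hermForm (2 * k + l) F q u v = 0} * (q ^ (k * (k + 2 * l)) *
      (∏ i : Fin k, ((q ^ 2) ^ k - (q ^ 2) ^ (i : ℕ))) * (q ^ (l * (l - 1) / 2) *
      ∏ i ∈ Finset.range l, (if Even i then q ^ (i + 1) + 1 else q ^ (i + 1) - 1))) =
      q ^ ((2 * k + l) * (2 * k + l - 1) / 2) *
      ∏ i ∈ Finset.range (2 * k + l), (if Even i then q ^ (i + 1) + 1 else q ^ (i + 1) - 1) := by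
  have h := isHermSpace_hermB (2 * k + l) F q
  obtain ⟨W, hk, hW⟩ := exists_ti (F := F) (q := q) k l
  have h1 := h.card_totallySingular_mul_card_stabS hW (fun x hx => hW x hx x hx)
  rw [h.card_stabS (l := l) (by simp) hk hW, h.card_isom (n := 2 * k + l) (by simp), hk] at h1
  rw [← h1]
  congr 1
  exact Nat.card_congr (Equiv.subtypeEquivRight fun X => and_congr_right fun _ =>
    ⟨fun H => ⟨fun x hx y hy => H y hy x hx, fun x hx => H x hx x hx⟩,
      fun H x hx y hy => H.1 y hy x hx⟩)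

/-- The unitary quadrangle of PSU_4(q): with |F| = q², the number of 2-dimensional subspaces of F^4 on which the Hermitian form Σ x_i y_i^q vanishes is (q + 1)(q³ + 1). -/
theorem result {F : Type*} [Field F] [Fintype F] {q : ℕ} (hF : Fintype.card F = q ^ 2) : Nat.card {W : Submodule F (Fin 4 → F) // Module.finrank F W = 2 ∧ ∀ u ∈ W, ∀ v ∈ W, Cfsg.hermForm 4 F q u v = 0} = (q + 1) * (q ^ 3 + 1) := by
  have := U.UF.of_card hF
  have h1 := card_ti_mul (F := F) (q := q) 2 0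
  change Nat.card {W : Submodule F (Fin 4 → F) // Module.finrank F W = 2 ∧
      ∀ u ∈ W, ∀ v ∈ W, Cfsg.hermForm 4 F q u v = 0} * _ = _ at h1
  generalize Nat.card _ = N at h1 ⊢
  obtain ⟨r, rfl⟩ : ∃ r, q = r + 2 := ⟨q - 2, by have := U.two_le_q F q; omega⟩
  simp only [Finset.prod_range_succ, Fin.prod_univ_two] at h1
  norm_num [Nat.even_iff] at h1
  have e1 : (r + 2) ^ 2 - 1 = (r + 1) * (r + 3) := Nat.sub_eq_of_eq_add (by ring)
  have e2 : ((r + 2) ^ 2) ^ 2 - (r + 2) ^ 2 = (r + 2) ^ 2 * ((r + 1) * (r + 3)) :=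
    Nat.sub_eq_of_eq_add (by ring)
  have e3 : (r + 2) ^ 4 - 1 = (r + 1) * (r + 3) * ((r + 2) ^ 2 + 1) :=
    Nat.sub_eq_of_eq_add (by ring)
  have e4 : ((r + 2) ^ 2) ^ 2 - 1 = (r + 1) * (r + 3) * ((r + 2) ^ 2 + 1) :=
    Nat.sub_eq_of_eq_add (by ring)
  rw [e1, e2, e3, e4] at h1
  apply Nat.eq_of_mul_eq_mul_right (m := (r + 2) ^ 4 * ((r + 1) * (r + 3) * ((r + 2) ^ 2 + 1) *
    ((r + 2) ^ 2 * ((r + 1) * (r + 3))))) (by positivity)
  rw [h1]; ring

end Cfsg.Agent.S0829
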