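import Cfsg.Statements.S0830
import Mathlib
import Cfsg.Agent.S0829

set_option autoImplicit false
open Cfsg

namespace Cfsg.Agent.S0830

open Cfsg.Agent.Class Module

/-- The unitary quadrangle of PSU_5(q): with |F| = q², the number of 2-dimensional subspaces of F^5 on which the Hermitian form vanishes is (q³ + 1)(q⁵ + 1). -/
theorem result {F : Type*} [Field F] [Fintype F] {q : ℕ} (hF : Fintype.card F = q ^ 2) : Nat.card {W : Submodule F (Fin 5 → F) // Module.finrank F W = 2 ∧ ∀ u ∈ W, ∀ v ∈ W, Cfsg.hermForm 5 F q u v = 0} = (q ^ 3 + 1) * (q ^ 5 + 1) := by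
  have := U.UF.of_card hF
  have h1 := S0829.card_ti_mul (F := F) (q := q) 2 1
  change Nat.card {W : Submodule F (Fin 5 → F) // Module.finrank F W = 2 ∧
      ∀ u ∈ W, ∀ v ∈ W, Cfsg.hermForm 5 F q u v = 0} * _ = _ at h1
  generalize Nat.card _ = N at h1 ⊢
  obtain ⟨r, rfl⟩ : ∃ r, q = r + 2 := ⟨q - 2, by have := U.two_le_q F q; omega⟩
  simp only [Finset.prod_range_succ, Fin.prod_univ_two] at h1
  norm_num [Nat.even_iff] at h1
  have e1 : (r + 2) ^ 2 - 1 = (r + 1) * (r + 3) := Nat.sub_eq_of_eq_add (by ring)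
  have e2 : ((r + 2) ^ 2) ^ 2 - (r + 2) ^ 2 = (r + 2) ^ 2 * ((r + 1) * (r + 3)) :=
    Nat.sub_eq_of_eq_add (by ring)
  have e3 : (r + 2) ^ 4 - 1 = (r + 1) * (r + 3) * ((r + 2) ^ 2 + 1) :=
    Nat.sub_eq_of_eq_add (by ring)
  have e4 : ((r + 2) ^ 2) ^ 2 - 1 = (r + 1) * (r + 3) * ((r + 2) ^ 2 + 1) :=
    Nat.sub_eq_of_eq_add (by ring)
  rw [e1, e2, e3, e4] at h1
  apply Nat.eq_of_mul_eq_mul_right (m := (r + 2) ^ 8 * ((r + 1) * (r + 3) * ((r + 2) ^ 2 + 1) *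
    ((r + 2) ^ 2 * ((r + 1) * (r + 3)))) * (r + 2 + 1)) (by positivity)
  rw [h1]; ring

end Cfsg.Agent.S0830
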