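import Cfsg.Statements.S0831
import Cfsg.Agent.Class.Orth.MaxSingular
import Cfsg.Agent.Class.Orth.Std

set_option autoImplicit false
open Cfsg

namespace Cfsg.Agent.S0831

/-- The two families of maximal totally singular subspaces of the hyperbolic quadric: for the form Σ x_i y_i on F^(2m), m ≥ 1, and m-dimensional subspaces U, W, X on which it vanishes, the parities of m − dim(U ∩ W), m − dim(W ∩ X) and m − dim(U ∩ X) sum to an even number (so 'even codimension of the intersection' is an equivalence relation), and there exist two such subspaces meeting in codimension 1 (so there are exactly two classes). -/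
theorem result {F : Type*} [Field F] (m : ℕ) (hm : 1 ≤ m) : (∀ U W X : Submodule F (Fin m ⊕ Fin m → F), (Module.finrank F U = m ∧ ∀ w ∈ U, Cfsg.quadFormPlus m F w = 0) → (Module.finrank F W = m ∧ ∀ w ∈ W, Cfsg.quadFormPlus m F w = 0) → (Module.finrank F X = m ∧ ∀ w ∈ X, Cfsg.quadFormPlus m F w = 0) → Even ((m - Module.finrank F ↥(U ⊓ W)) + (m - Module.finrank F ↥(W ⊓ X)) + (m - Module.finrank F ↥(U ⊓ X)))) ∧ ∃ U W : Submodule F (Fin m ⊕ Fin m → F), (Module.finrank F U = m ∧ ∀ w ∈ U, Cfsg.quadFormPlus m F w = 0) ∧ (Module.finrank F W = m ∧ ∀ w ∈ W, Cfsg.quadFormPlus m F w = 0) ∧ Module.finrank F ↥(U ⊓ W) + 1 = m := by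
  have hV : Module.finrank F (Fin m ⊕ Fin m → F) = 2 * m := by simp [two_mul]
  have hQ := Class.Orth.nd_plusQF m F
  rw [← Class.Orth.coe_plusQF]
  refine ⟨fun U W X hU hW hX =>
    Class.Orth.even_codim_sum hQ hV hU.2 hW.2 hX.2 hU.1 hW.1 hX.1, ?_⟩
  obtain ⟨E, hE, dE⟩ := Class.Orth.exists_maxTS_plus m _ (Class.Orth.plusQF_apply m F)
  obtain ⟨U, hUE, dU⟩ := Class.Orth.exists_le_finrank_eq E (k := m - 1) (by omega)
  have h2 := Class.Orth.card_maxTS_containing hQ hV hE dE (hE.mono hUE) (by omega)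
  obtain ⟨⟨W₁, d₁, t₁, l₁⟩, ⟨W₂, d₂, t₂, l₂⟩, hne, -⟩ := Nat.card_eq_two_iff.1 h2
  refine ⟨W₁, W₂, ⟨d₁, t₁⟩, ⟨d₂, t₂⟩, ?_⟩
  have h3 : Module.finrank F U ≤ Module.finrank F ↥(W₁ ⊓ W₂) :=
    Submodule.finrank_mono (le_inf l₁ l₂)
  have h4 : Module.finrank F ↥(W₁ ⊓ W₂) < Module.finrank F W₁ :=
    Submodule.finrank_lt_finrank_of_lt (lt_of_le_of_ne inf_le_left fun h => hne (Subtype.ext
      (Submodule.eq_of_le_of_finrank_eq (inf_eq_left.1 h) (d₁.trans d₂.symm))))
  omega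

end Cfsg.Agent.S0831
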