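import Cfsg.Statements.S0833
import Cfsg.Agent.Class.Orth.SymmForm
import Cfsg.Agent.Class.FormBasis

set_option autoImplicit false
open Cfsg

namespace Cfsg.Agent.S0833

/-- If B₁, B₂ are non-degenerate alternating forms on U (dim 2k) and W (dim 2l), then B₁ ⊗ B₂ on U ⊗ W is symmetric, non-degenerate, and vanishes identically on some subspace of dimension 2kl (half of dim U ⊗ W). -/
theorem result {F U W : Type*} [Field F] [Fintype F] [AddCommGroup U] [Module F U] [FiniteDimensional F U] [AddCommGroup W] [Module F W] [FiniteDimensional F W] (B₁ : LinearMap.BilinForm F U) (B₂ : LinearMap.BilinForm F W) (h₁ : B₁.Nondegenerate) (h₂ : B₂.Nondegenerate) (hA₁ : B₁.IsAlt) (hA₂ : B₂.IsAlt) (k l : ℕ) (hU : Module.finrank F U = 2 * k) (hW : Module.finrank F W = 2 * l) : (B₁.tmul B₂).IsSymm ∧ (B₁.tmul B₂).Nondegenerate ∧ (∃ X : Submodule F (TensorProduct F U W), Module.finrank F X = 2 * k * l ∧ ∀ x ∈ X, ∀ y ∈ X, (B₁.tmul B₂) x y = 0) := by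
  refine ⟨?_, Class.Orth.nondegenerate_tmul h₁ h₂, ?_⟩
  · rw [LinearMap.isSymm_iff_eq_flip]
    ext x₁ x₂ y₁ y₂
    show B₂ x₂ y₂ • B₁ x₁ y₁ = B₂ y₂ x₂ • B₁ y₁ x₁
    rw [← hA₁.neg_eq x₁ y₁, ← hA₂.neg_eq x₂ y₂]; simp
  · obtain ⟨m, b, hm, -, hb, -⟩ := Class.exists_symplectic_basis B₁ hA₁ h₁.1
    obtain rfl : m = k := by omega
    let c := Module.finBasisOfFinrankEq F W hW
    let f : Fin m × Fin (2 * l) → (Fin m ⊕ Fin m) × Fin (2 * l) := fun p => (Sum.inl p.1, p.2)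
    have hf : Function.Injective f := fun p q h => by
      simpa [f, Prod.ext_iff] using h
    refine ⟨Submodule.span F (Set.range (b.tensorProduct c ∘ f)), ?_, ?_⟩
    · rw [finrank_span_eq_card ((b.tensorProduct c).linearIndependent.comp f hf)]
      simp; ring
    · apply Class.Orth.bilin_span_eq_zero
      rintro _ ⟨⟨i, j⟩, rfl⟩ _ ⟨⟨i', j'⟩, rfl⟩
      simp [f, Module.Basis.tensorProduct_apply, hb]

end Cfsg.Agent.S0833
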