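import Cfsg.Statements.S0834
import Cfsg.Agent.Class.Orth.SymmForm

set_option autoImplicit false
open Cfsg

namespace Cfsg.Agent.S0834

/-- Over a finite field with 2 ≠ 0: if B₁ on U (dim 2k, k ≥ 1) and B₂ on W (dim 2l, l ≥ 1) are non-degenerate symmetric forms admitting no totally isotropic subspaces of dimensions k, resp. l (minus type), then B₁ ⊗ B₂ admits a totally isotropic subspace of dimension 2kl (plus type). -/
theorem result {F U W : Type*} [Field F] [Fintype F] [AddCommGroup U] [Module F U] [FiniteDimensional F U] [AddCommGroup W] [Module F W] [FiniteDimensional F W] (h2 : (2 : F) ≠ 0) (B₁ : LinearMap.BilinForm F U) (B₂ : LinearMap.BilinForm F W) (h₁ : B₁.Nondegenerate) (h₂ : B₂.Nondegenerate) (hS₁ : B₁.IsSymm) (hS₂ : B₂.IsSymm) (k l : ℕ) (hk : 1 ≤ k) (hl : 1 ≤ l) (hU : Module.finrank F U = 2 * k) (hW : Module.finrank F W = 2 * l) (hm₁ : ¬ (∃ X : Submodule F (U), Module.finrank F X = k ∧ ∀ x ∈ X, ∀ y ∈ X, (B₁) x y = 0)) (hm₂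 : ¬ (∃ X : Submodule F (W), Module.finrank F X = l ∧ ∀ x ∈ X, ∀ y ∈ X, (B₂) x y = 0)) : (∃ X : Submodule F (TensorProduct F U W), Module.finrank F X = 2 * k * l ∧ ∀ x ∈ X, ∀ y ∈ X, (B₁.tmul B₂) x y = 0) := by
  let b := Module.finBasisOfFinrankEq F U hU
  let c := Module.finBasisOfFinrankEq F W hW
  refine (Class.Orth.exists_isotropic_iff_det (B := B₁.tmul B₂) h2
    (LinearMap.BilinForm.isSymm_iff.2 ((LinearMap.BilinForm.isSymm_iff.1 hS₁).tmul
      (LinearMap.BilinForm.isSymm_iff.1 hS₂))) (Class.Orth.nondegenerate_tmul h₁ h₂)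
    (by rw [Module.finrank_tensorProduct, hU, hW]; ring) (b.tensorProduct c)).2 ?_
  rw [Class.Orth.det_toMatrix_tmul, Fintype.card_fin, Fintype.card_fin]
  exact ⟨(-1) ^ (k * l) * ((LinearMap.BilinForm.toMatrix b B₁).det ^ l *
    (LinearMap.BilinForm.toMatrix c B₂).det ^ k), by ring⟩

end Cfsg.Agent.S0834
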