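import Cfsg.Statements.S0836
import Mathlib
import Cfsg.Agent.Class.LinearBasic

set_option autoImplicit false
open Cfsg

namespace Cfsg.Agent.S0836

open Matrix
open scoped commutatorElement

/-- For i ≠ j and any scalar c, the elementary transvection 1 + c E_ij is a commutator ⁅g, h⁆ of two elements of SL_n(F) provided n ≥ 3, or n = 2 and F contains x ≠ 0 with x² ≠ 1. -/
theorem result {F : Type*} [Field F] (n : ℕ) (hn : 3 ≤ n ∨ (n = 2 ∧ ∃ x : F, x ≠ 0 ∧ x ^ 2 ≠ 1)) (i j : Fin n) (hij : i ≠ j) (c : F) (t : Matrix.SpecialLinearGroup (Fin n) F) (ht : (t : Matrix (Fin n) (Fin n) F) = Matrix.transvection i j c) : t ∈ commutatorSet (Matrix.SpecialLinearGroup (Fin n) F) := by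
  have ht' : t = SpecialLinearGroup.transvection hij c := Subtype.ext ht
  subst ht'
  rcases hn with hn | ⟨rfl, x, hx, hx2⟩
  · obtain ⟨k, hk1, hk2⟩ : ∃ k : Fin n, k ≠ i ∧ k ≠ j := by
      by_contra hcon
      push Not at hcon
      have : (Finset.univ : Finset (Fin n)) ⊆ {i, j} := by
        intro x _
        by_cases hx : x = i
        · simp [hx]
        · simp [hcon x hx]
      have h2 := Finset.card_le_card this
      have h4 : ({i, j} : Finset (Fin n)).card ≤ 2 := Finset.card_le_two
      rw [Finset.card_univ, Fintype.card_fin] at h2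
      omega
    exact ⟨_, _, by rw [Class.commutator_transvection hk1.symm hk2 hij c 1, mul_one]⟩
  · have hx3 : x ^ 2 - 1 ≠ 0 := sub_ne_zero.2 hx2
    refine ⟨SpecialLinearGroup.diag2n hij x hx,
      SpecialLinearGroup.transvection hij (c / (x ^ 2 - 1)), ?_⟩
    have hinv : (SpecialLinearGroup.diag2n hij x hx)⁻¹ =
        SpecialLinearGroup.diag2n hij x⁻¹ (inv_ne_zero hx) := by
      apply inv_eq_of_mul_eq_one_right
      apply Subtype.ext
      ext k l
      fin_cases i <;> fin_cases j <;> fin_cases k <;> fin_cases l <;>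
        simp [SpecialLinearGroup.diag2n_coe, hx] at hij ⊢
    rw [commutatorElement_def, hinv, SpecialLinearGroup.transvection_inv]
    apply Subtype.ext
    ext k l
    fin_cases i <;> fin_cases j <;> fin_cases k <;> fin_cases l <;>
      simp [SpecialLinearGroup.diag2n_coe, SpecialLinearGroup.transvection_coe, Matrix.mul_apply,
        Fin.sum_univ_two, hx, Matrix.one_apply, Matrix.diagonal_apply, Matrix.single_apply] at hij ⊢ <;>
      field_simp <;> ring

end Cfsg.Agent.S0836
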