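import Cfsg.Statements.S0837
import Mathlib
import Cfsg.Agent.Class.Parabolic

set_option autoImplicit false
open Cfsg

namespace Cfsg.Agent.S0837

/-- If W ≤ F^n (|F| = q²) is a k-dimensional subspace on which the Hermitian form Σ x_i y_i^q is non-degenerate, then the stabiliser of W in GU_n(q) is isomorphic to GU_k(q) × GU_(n−k)(q). -/
theorem result {F : Type*} [Field F] [Fintype F] {q : ℕ} (hF : Fintype.card F = q ^ 2) (n k : ℕ) (hk : k ≤ n) (W : Submodule F (Fin n → F)) (hWk : Module.finrank F W = k) (hW : ∀ u ∈ W, (∀ v ∈ W, Cfsg.hermForm n F q u v = 0) → u = 0) : Nonempty (↥((Cfsg.stabilizing (Cfsg.glToMat (Fin n) F) (W : Set (Fin n → F))).subgroupOf (Cfsg.GU n F q)) ≃* ↥(Cfsg.GU k F q) × ↥(Cfsg.GU (n - k) F q)) := by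
  have := Class.U.UF.of_card hF
  have h := Class.isHermSpace_hermB n F q
  have h1 := h.inf_perp_eq_bot (W := W) fun u hu hv => hW u hu fun v hv' => h.refl (hv v hv')
  have h2 : Class.IsHermSpace q (Class.resB (Class.hermB n F q) W) := h.restrict h1
  have h3 : Class.IsHermSpace q (Class.resB (Class.hermB n F q) (Class.perp (Class.hermB n F q) W)) :=
    h.restrict (h.perp_inf_perp_perp h1)
  obtain ⟨e1⟩ := h2.nonempty_isom_equiv hWk
  obtain ⟨e2⟩ := h3.nonempty_isom_equiv (n := n - k) (by
    have := h.finrank_add_finrank_perp W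
    simp only [Module.finrank_fintype_fun_eq_card, Fintype.card_fin] at this
    omega)
  exact ⟨(Class.subgroupEquivOfMem (Class.guEquiv n F q) (Class.mem_stabilizing_gu_iff W)).trans
    ((h.stabSEquivProd h1).trans (e1.prodCongr e2))⟩

end Cfsg.Agent.S0837
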