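import Cfsg.Statements.S0838
import Cfsg.Agent.Class.Orth.SymmForm

set_option autoImplicit false
open Cfsg

namespace Cfsg.Agent.S0838

/-- Over a finite field with 2 ≠ 0 and n odd: two quadratic forms Q₁, Q₂ on F^n with non-degenerate polar forms are similar — there are an invertible linear map g and a scalar c ≠ 0 with Q₂ (g v) = c · Q₁ v for all v. -/
theorem result {F : Type*} [Field F] [Fintype F] (h2 : (2 : F) ≠ 0) {n : ℕ} (hn : Odd n) (Q₁ Q₂ : QuadraticForm F (Fin n → F)) (h₁ : (QuadraticMap.polarBilin Q₁).Nondegenerate) (h₂ : (QuadraticMap.polarBilin Q₂).Nondegenerate) : ∃ (g : (Fin n → F) ≃ₗ[F] (Fin n → F)) (c : F), c ≠ 0 ∧ ∀ v, Q₂ (g v) = c * Q₁ v := by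
  obtain ⟨m, hm⟩ := hn
  obtain ⟨c₁, g₁, hc₁, -, e₁⟩ := Class.QF.exists_equiv_odd h₁ (m := m) (by simp [hm])
  obtain ⟨c₂, g₂, hc₂, -, e₂⟩ := Class.QF.exists_equiv_odd h₂ (m := m) (by simp [hm])
  have hc : c₂ / c₁ ≠ 0 := div_ne_zero hc₂ hc₁
  let u : Unit ⊕ (Fin m ⊕ Fin m) → Fˣ :=
    Sum.elim (fun _ => 1) (Sum.elim (fun _ => Units.mk0 _ hc) (fun _ => 1))
  let s : (Unit ⊕ (Fin m ⊕ Fin m) → F) ≃ₗ[F] (Unit ⊕ (Fin m ⊕ Fin m) → F) :=
    LinearEquiv.piCongrRight fun i => LinearEquiv.smulOfUnit (u i)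
  have hs : ∀ x i, s x i = u i * x i := fun x i => rfl
  refine ⟨g₁ ≪≫ₗ s ≪≫ₗ g₂.symm, c₂ / c₁, hc, fun v => ?_⟩
  rw [e₂, e₁]
  simp only [LinearEquiv.trans_apply, LinearEquiv.apply_symm_apply, hs, u, Sum.elim_inl,
    Sum.elim_inr, Units.val_one, Units.val_mk0, one_mul, mul_add, Finset.mul_sum, mul_assoc]
  congr 1
  field_simp

end Cfsg.Agent.S0838
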