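import Mathlib
import Cfsg.Statements.S0841

set_option autoImplicit false
open Cfsg

namespace Cfsg.Agent.S0841

/-- If the commutator subgroup of G lies in the centre, then for all x, y in G and every natural number n one has (x * y) ^ n = x ^ n * y ^ n * c ^ (n * (n - 1) / 2) with c = y⁻¹ * x⁻¹ * y * x. -/
theorem result {G : Type*} [Group G] (hG : commutator G ≤ Subgroup.center G) (x y : G) (n : ℕ) : (x * y) ^ n = x ^ n * y ^ n * (y⁻¹ * x⁻¹ * y * x) ^ (n * (n - 1) / 2) := by
  set c := y⁻¹ * x⁻¹ * y * x with hc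
  have hcZ : c ∈ Subgroup.center G := by
    apply hG
    have := Subgroup.commutator_mem_commutator (Subgroup.mem_top y⁻¹) (Subgroup.mem_top x⁻¹)
    simpa [commutatorElement_def, hc, commutator_def] using this
  have hcomm : ∀ g : G, ∀ k : ℕ, g * c ^ k = c ^ k * g := fun g k =>
    Subgroup.mem_center_iff.mp (Subgroup.pow_mem _ hcZ k) g
  have h1 : y * x = x * y * c := by simp [hc, mul_assoc]
  have h2 : ∀ k : ℕ, y ^ k * x = x * y ^ k * c ^ k := by
    intro k
    induction k with
    | zero => simp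
    | succ k ih =>
      calc y ^ (k + 1) * x = y * (y ^ k * x) := by rw [pow_succ']; group
        _ = (y * x) * y ^ k * c ^ k := by rw [ih]; group
        _ = x * y * (c ^ 1 * y ^ k) * c ^ k := by rw [h1]; group
        _ = x * y * (y ^ k * c ^ 1) * c ^ k := by rw [hcomm (y ^ k) 1]
        _ = x * y ^ (k + 1) * c ^ (k + 1) := by rw [pow_succ' y, pow_succ' c]; group
  induction n with
  | zero => simp
  | succ n ih =>
    have h3 : (n + 1) * (n + 1 - 1) / 2 = n + n * (n - 1) / 2 := by
      have := Nat.triangle_succ n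
      rw [this]; ring
    rw [pow_succ, ih, h3]
    calc x ^ n * y ^ n * c ^ (n * (n - 1) / 2) * (x * y)
        = x ^ n * y ^ n * (c ^ (n * (n - 1) / 2) * (x * y)) := by group
      _ = x ^ n * y ^ n * ((x * y) * c ^ (n * (n - 1) / 2)) := by rw [hcomm (x * y)]
      _ = x ^ n * (y ^ n * x) * y * c ^ (n * (n - 1) / 2) := by group
      _ = x ^ n * x * y ^ n * (c ^ n * y) * c ^ (n * (n - 1) / 2) := by rw [h2]; group
      _ = x ^ n * x * y ^ n * (y * c ^ n) * c ^ (n * (n - 1) / 2) := by rw [hcomm y n]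
      _ = x ^ (n + 1) * y ^ (n + 1) * c ^ (n + n * (n - 1) / 2) := by
        rw [pow_succ x, pow_succ y, pow_add]; group

end Cfsg.Agent.S0841
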