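import Cfsg.Statements.S0847
import Cfsg.Agent.Char.BrauerSuzuki

set_option autoImplicit false
open Cfsg

namespace Cfsg.Agent.S0847


/-- The Brauer–Suzuki Theorem in the case of order at least 16: if a Sylow 2-subgroup S of the finite group G is generalized quaternion of order at least 16 and G has no nontrivial normal subgroup of odd order, then the centre of G has order 2. -/
theorem result {G : Type*} [Group G] [Finite G] (S : Sylow 2 G) (n : ℕ) (e : (S : Subgroup G) ≃* QuaternionGroup (2 ^ (n + 2))) (hO : ∀ N : Subgroup G, N.Normal → Odd (Nat.card N) → N = ⊥) : Nat.card (Subgroup.center G) = 2 := by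
  exact Char.BS.card_center_eq_two e hO

end Cfsg.Agent.S0847
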