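import Cfsg.Statements.S0849
import Cfsg.Agent.Char.ClassSum

set_option autoImplicit false
open Cfsg

namespace Cfsg.Agent.S0849


/-- Let H be a subgroup of a finite group G and S a subset of H that is mapped to itself under conjugation by H, is disjoint from its conjugate by any element outside H, and is closed under inverses. Let φ be a class function of H vanishing on H away from S, and let u, v be involutions of G. Then the sum of the induced function of φ over all products a * b with a conjugate to u and b conjugate to v equals the index of H times the sum of φ (a * b) over such pairs with a and b in H. -/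
theorem result {G : Type*} [Group G] [Fintype G] (H : Subgroup G) (S : Set G) (hSH : S ⊆ H) (hHS : ∀ h ∈ H, ∀ s ∈ S, h * s * h⁻¹ ∈ S) (hTI : ∀ g : G, g ∉ H → ∀ s ∈ S, g * s * g⁻¹ ∉ S) (hinv : ∀ s ∈ S, s⁻¹ ∈ S) (φ : H → ℂ) (hφ : Cfsg.IsClassFunction H φ) (hφS : ∀ x : H, (x : G) ∉ S → φ x = 0) (u v : G) (hu : orderOf u = 2) (hv : orderOf v = 2) : ∑ᶠ p ∈ {p : G × G | IsConj u p.1 ∧ IsConj v p.2}, Cfsg.indFun H φ (p.1 * p.2) = (H.index : ℂ) * ∑ᶠ p ∈ {p : H × H | IsConj u (p.1 : G) ∧ IsConj v (p.2 : G)}, φ (p.1 * p.2) := by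
  classical
  have hc : ∀ w g x : G, IsConj w (g⁻¹ * x * g) ↔ IsConj w x := fun w g x =>
    ⟨fun h => h.trans (isConj_iff.2 ⟨g, by group⟩), fun h => h.trans (isConj_iff.2 ⟨g⁻¹, by group⟩)⟩
  have h2 : ∀ w : G, orderOf w = 2 → ∀ x, IsConj w x → x * x = 1 := fun w hw x hx => by
    obtain ⟨c, rfl⟩ := isConj_iff.1 hx
    rw [← pow_two, conj_pow, ← hw, pow_orderOf_eq_one]; group
  rw [finsum_mem_eq_finite_toFinset_sum _ (Set.toFinite _),
    finsum_mem_eq_finite_toFinset_sum _ (Set.toFinite _)]
  convert Char.sum_indFun_mul_involutions H S hTI hinv φ hφS (IsConj u) (IsConj v) (hc u) (hc v)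
    (h2 u hu) (h2 v hv) using 3 <;> ext <;> simp

end Cfsg.Agent.S0849
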