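import Cfsg.Statements.S0850
import Cfsg.Agent.Char.TI
import Cfsg.Agent.Solv.Frobenius

set_option autoImplicit false
open Cfsg

namespace Cfsg.Agent.S0850


/-- Let K be a subgroup of the finite group G that meets each conjugate by an element outside its normalizer N trivially, is properly contained in N, and contains the centralizer of each of its non-identity elements (a T.I. subgroup with Frobenius normalizer). Then no element of N outside K is conjugate in G to an element of K, and for every class function ϑ of N that vanishes on N away from K and at the identity, the function induced from ϑ to G agrees with ϑ on all of N. -/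
theorem result {G : Type*} [Group G] [Fintype G] (K : Subgroup G) (hTI : ∀ g : G, g ∉ Subgroup.normalizer (K : Set G) → ∀ k ∈ K, g * k * g⁻¹ ∈ K → k = 1) (hlt : K < Subgroup.normalizer (K : Set G)) (hC : ∀ k ∈ K, k ≠ 1 → Subgroup.centralizer ({k} : Set G) ≤ K) : (∀ x ∈ Subgroup.normalizer (K : Set G), x ∉ K → ∀ g : G, g * x * g⁻¹ ∉ K) ∧ ∀ (ϑ : Subgroup.normalizer (K : Set G) → ℂ), Cfsg.IsClassFunction (Subgroup.normalizer (K : Set G)) ϑ → (∀ x : Subgroup.normalizer (K : Set G), (x : G) ∉ K → ϑ x = 0) → ϑ 1 = 0 → ∀ x : Subgroup.normalizer (K : Set G), Cfsg.indFun (Subgroup.normalizer (K : Set G)) ϑ x = ϑ x := by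
  have h1 : ∀ x ∈ Subgroup.normalizer (K : Set G), x ∉ K → ∀ g : G, g * x * g⁻¹ ∉ K := by
    intro x hx hxK g hg
    have hc : ∀ a k : G, k ∈ K → k ≠ 1 → a * k = k * a → a ∈ K := fun a k hk hk1 e =>
      hC k hk hk1 (Subgroup.mem_centralizer_singleton_iff.2 e)
    have h2 : (Nat.card (Subgroup.zpowers x)).Coprime (Nat.card K) := by
      refine Solv.Frob.coprime_card_of_fpf (Subgroup.zpowers_le.2 hx) (Solv.Frob.fpf_iff.2 ?_)
      rintro _ ⟨j, rfl⟩ k hk e
      by_contra h
      push Not at h
      exact hxK (hc x _ (hc _ k hk h.2 e) h.1 (Commute.self_zpow x j))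
    have h3 : orderOf x ∣ Nat.card K := by
      rw [← (MulAut.conj g).orderOf_eq x]
      exact K.orderOf_dvd_natCard hg
    rw [Nat.card_zpowers] at h2
    rw [orderOf_eq_one_iff.1 (Nat.Coprime.eq_one_of_dvd h2 h3)] at hxK
    exact hxK K.one_mem
  refine ⟨h1, fun ϑ hϑ h0 h1' x => ?_⟩
  by_cases hx : (x : G) ∈ K
  · by_cases hx1 : x = 1
    · subst hx1
      rw [OneMemClass.coe_one, Char.indFun_one, h1', mul_zero]
    · exact Char.indFun_eq_of_TI _ K hTI hϑ h0 x hx hx1
  · rw [h0 x hx]
    exact Char.indFun_eq_zero _ _ _ fun g hg => h0 _ (h1 x x.2 hx g)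

end Cfsg.Agent.S0850
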