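import Cfsg.Statements.S0851
import Cfsg.Agent.Char.Exceptional
import Cfsg.Agent.Char.BrauerPerm

set_option autoImplicit false
open Cfsg

namespace Cfsg.Agent.S0851

open Cfsg.Agent.Char in

/-- Let K be a subgroup of the finite group G that meets each conjugate by an element outside its normalizer N trivially, is properly contained in N, and contains the centralizer of each of its non-identity elements (a T.I. subgroup with Frobenius normalizer). Suppose K is abelian, let e be the index of K in N, and call an irreducible character of N relevant when it takes at some element of K a value different from its degree. Then either there is exactly one relevant character and K is an elementary abelian p-group of order e + 1 for some prime p, or there are a sign ε and an injective map f from the relevant characters to the irreducible characters of G such that inducing χ - ξ to G gives ε (f χ - f ξ) for all relevant χ and ξ. -/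
theorem result {G : Type*} [Group G] [Fintype G] (K : Subgroup G) (hTI : ∀ g : G, g ∉ Subgroup.normalizer (K : Set G) → ∀ k ∈ K, g * k * g⁻¹ ∈ K → k = 1) (hlt : K < Subgroup.normalizer (K : Set G)) (hC : ∀ k ∈ K, k ≠ 1 → Subgroup.centralizer ({k} : Set G) ≤ K) (hab : ∀ a ∈ K, ∀ b ∈ K, a * b = b * a) : (Nat.card {χ : Cfsg.IrrCharacter (Subgroup.normalizer (K : Set G)) // ∃ k : Subgroup.normalizer (K : Set G), (k : G) ∈ K ∧ (χ : ↥(Subgroup.normalizer (K : Set G)) → ℂ) k ≠ (χ : ↥(Subgroup.normalizer (K : Set G)) → ℂ) 1} = 1 ∧ ∃ p : ℕ, p.Prime ∧ Cfsg.IsElementaryAbelian p K ∧ Nat.card K = (K.subgroupOf (Subgroup.normalizer (K : Set G))).index + 1) ∨ ∃ (ε : ℂ) (f : {χ : Cfsg.IrrCharacter (Subgroup.normalizer (K : Set G)) // ∃ k : Subgroup.normalizer (K : Set G), (k : G) ∈ K ∧ (χ : ↥(Subgroup.normalizer (K : Set G)) → ℂ) k ≠ (χ : ↥(Subgroup.normalizer (K : Set G)) → ℂ) 1} → Cfsg.IrrCharacter G), (ε = 1 ∨ ε = -1) ∧ Function.Injective f ∧ ∀ χ ξ, Cfsg.indFun (Subgroup.normalizer (K :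 Set G)) ((χ.1 : ↥(Subgroup.normalizer (K : Set G)) → ℂ) - (ξ.1 : ↥(Subgroup.normalizer (K : Set G)) → ℂ)) = ε • ((f χ : G → ℂ) - (f ξ : G → ℂ)) := by
  right
  set N := Subgroup.normalizer (K : Set G) with hN
  have := Fintype.ofFinite N
  have hn : (K.subgroupOf N).Normal := Subgroup.normal_in_normalizer
  have hC' : ∀ k ∈ K.subgroupOf N, k ≠ 1 → Subgroup.centralizer ({k} : Set N) ≤ K.subgroupOf N := by
    intro k hk hk1 a ha
    refine hC k hk (fun h => hk1 (Subtype.ext h)) (Subgroup.mem_centralizer_singleton_iff.2 ?_)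
    exact congrArg Subtype.val (Subgroup.mem_centralizer_singleton_iff.1 ha)
  have key : ∀ χ : {χ : IrrCharacter N // ∃ k : N, (k : G) ∈ K ∧ (χ : N → ℂ) k ≠ (χ : N → ℂ) 1},
      (∀ x : N, (x : G) ∉ K → (χ.1 : N → ℂ) x = 0) ∧
        (χ.1 : N → ℂ) 1 = (K.subgroupOf N).index := by
    rintro ⟨χ, k, hk, hk'⟩
    obtain ⟨θ, hθ, -, e⟩ := exists_eq_indFun_of_centralizer_le (K.subgroupOf N) hC' χ.2 ⟨k, hk, hk'⟩
    refine ⟨fun x hx => ?_, ?_⟩
    · rw [e]; exact indFun_eq_zero_of_normal _ _ hx
    · rw [e, indFun_one, hθ.one_eq_one_of_comm, mul_one]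
      exact fun a b => Subtype.ext (Subtype.ext (hab _ a.2 _ b.2))
  rcases isEmpty_or_nonempty
    {χ : IrrCharacter N // ∃ k : N, (k : G) ∈ K ∧ (χ : N → ℂ) k ≠ (χ : N → ℂ) 1} with h | h
  · exact ⟨1, fun χ => h.elim χ, Or.inl rfl, fun χ => h.elim χ, fun χ => h.elim χ⟩
  · obtain ⟨ε, hε, θ, h1, h2, h3⟩ := exists_exceptional_of_TI N K hTI
      (fun χ : {χ : IrrCharacter N // ∃ k : N, (k : G) ∈ K ∧ (χ : N → ℂ) k ≠ (χ : N → ℂ) 1} =>
        (χ.1 : N → ℂ)) (fun χ => χ.1.2) (fun a b e => Subtype.ext (Subtype.ext e))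
      (fun a b x hx => ((key a).1 x hx).trans ((key b).1 x hx).symm)
      (fun a b => (key a).2.trans (key b).2.symm)
    exact ⟨ε, fun χ => ⟨θ χ, h1 χ⟩, hε, fun a b e => h2 (congrArg Subtype.val e),
      fun a b => by rw [indFun_sub, h3]⟩

end Cfsg.Agent.S0851
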