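import Mathlib
import Cfsg.Statements.S0853
import Cfsg.Agent.Char.TIFN
-- import your own Cfsg.Agent.* helpers here

set_option autoImplicit false
open Cfsg

namespace Cfsg.Agent.S0853

open Cfsg.Agent.Char.TIFN

theorem sit {G : Type*} [Group G] [Fintype G] (K : Subgroup G) (hTI : ∀ g : G, g ∉ Subgroup.normalizer (K : Set G) → ∀ k ∈ K, g * k * g⁻¹ ∈ K → k = 1) (hC : ∀ k ∈ K, k ≠ 1 → Subgroup.centralizer ({k} : Set G) ≤ K) [Fintype ↥(Subgroup.normalizer (K : Set G))] (star : (↥(Subgroup.normalizer (K : Set G)) → ℂ) → (G → ℂ)) (hstar : Cfsg.IsLinearIsometryOn (Cfsg.zspan (nker (K.subgroupOf (Subgroup.normalizer (K : Set G))))) star) (hext : ∀ α ∈ Cfsg.zspanOn (nker (K.subgroupOf (Subgroup.normalizer (K : Set G)))) ({1}ᶜ : Set ↥(Subgroup.normalizer (K : Set G))), star α = Cfsg.indFun (Subgroup.normalizer (K : Set G)) α) : Sit K (Subgroup.normalizer (K : Set G)) star :=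
  ⟨⟨Subgroup.le_normalizer, inferInstance, hTI, hC⟩, hstar, hext⟩


/-- Let K be a subgroup of the finite group G that meets each conjugate by an element outside its normalizer N trivially, is properly contained in N, and contains the centralizer of each of its non-identity elements (a T.I. subgroup with Frobenius normalizer). Let S be the set of irreducible characters of N taking at some element of K a value different from their degree, suppose S has at least two members, and let star be a linear isometry on the integer span of S into the generalized characters of G that agrees with induction on the members vanishing at the identity (so S is coherent, with star as the extending isometry). Then there is a single integer m such that star χ k - χ k = m * χ 1 / e for every χ in S and every non-identity element k of K, where e is the index of K in N. -/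
theorem result {G : Type*} [Group G] [Fintype G] (K : Subgroup G) (hTI : ∀ g : G, g ∉ Subgroup.normalizer (K : Set G) → ∀ k ∈ K, g * k * g⁻¹ ∈ K → k = 1) (hlt : K < Subgroup.normalizer (K : Set G)) (hC : ∀ k ∈ K, k ≠ 1 → Subgroup.centralizer ({k} : Set G) ≤ K) [Fintype ↥(Subgroup.normalizer (K : Set G))] (S : Set (↥(Subgroup.normalizer (K : Set G)) → ℂ)) (hS : S = {χ : ↥(Subgroup.normalizer (K : Set G)) → ℂ | Cfsg.IsIrrCharacter ↥(Subgroup.normalizer (K : Set G)) χ ∧ ∃ k : ↥(Subgroup.normalizer (K : Set G)), (k : G) ∈ K ∧ χ k ≠ χ 1}) (htwo : ∃ χ ∈ S, ∃ ξ ∈ S, χ ≠ ξ) (star : (↥(Subgroup.normalizer (K : Set G)) → ℂ) → (G → ℂ)) (hstar : Cfsg.IsLinearIsometryOn (Cfsg.zspan S) star) (hext : ∀ α ∈ Cfsg.zspanOn S ({1}ᶜ : Set ↥(Subgroup.normalizer (K : Set G))), star α = Cfsg.indFun (Subgroup.normalizer (K : Set G)) α) : ∃ m : ℤ, ∀ χ ∈ S, ∀ k : ↥(Subgroup.normalizer (K : Set G)), (k : G) ∈ K → k ≠ 1 → star χ k - χ k = (m : ℂ) * χ 1 / ((K.subgroupOf (Subgroup.normalizer (K : Set G))).index : ℂ) := by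
  subst hS
  have h := sit K hTI hC star hstar hext
  have h1 : K.subgroupOf (Subgroup.normalizer (K : Set G)) ≠ ⊥ := by
    obtain ⟨χ, ⟨-, k, hk, hne⟩, -⟩ := htwo
    intro e
    have hk' : k ∈ K.subgroupOf (Subgroup.normalizer (K : Set G)) := hk
    rw [e, Subgroup.mem_bot] at hk'
    exact hne (by rw [hk'])
  have h2 : K.subgroupOf (Subgroup.normalizer (K : Set G)) ≠ ⊤ := by
    rw [Ne, Subgroup.subgroupOf_eq_top]
    exact fun h => hlt.not_ge h
  obtain ⟨lam, -, h3, h4⟩ := exists_one_eq_index h.toTI.cent' h1 h2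
  exact h.exists_int h3 h4

end Cfsg.Agent.S0853
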