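import Cfsg.Statements.S0855
import Cfsg.Agent.Char.ExtraspecialChar
import Cfsg.Agent.Char.Ito
import Cfsg.Agent.Char.Triple
import Cfsg.Agent.Transfer.PCompl

set_option autoImplicit false
open Cfsg

namespace Cfsg.Agent.S0855

open Cfsg.Agent.Char commutatorElement in

/-- For a finite group G and a prime p: every irreducible character of G has degree a power of p if and only if G has an abelian normal subgroup whose order is prime to p and whose index is a power of p. -/
theorem result {G : Type*} [Group G] [Finite G] (p : ℕ) (hp : p.Prime) : (∀ χ : Cfsg.IrrCharacter G, ∃ k : ℕ, (χ : G → ℂ) 1 = (p : ℂ) ^ k) ↔ ∃ A : Subgroup G, A.Normal ∧ (∀ a ∈ A, ∀ b ∈ A, a * b = b * a) ∧ Nat.Coprime (Nat.card A) p ∧ ∃ k : ℕ, A.index = p ^ k := by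
  have := Fact.mk hp
  classical
  constructor
  · intro h
    have := Fintype.ofFinite G
    set K := pResidual p G with hK
    have := Fintype.ofFinite K
    have h1 : ∀ θ : IrrCharacter K, θ.1 1 ≠ 1 → ∃ d : ℕ, p ∣ d ∧ θ.1 1 = d := by
      intro θ hθ
      obtain ⟨χ, hχ, h2⟩ := exists_irr_over K θ.2
      obtain ⟨e, he, -⟩ := exists_deg_eq_mul_dvd_index K θ.2 hχ h2
      obtain ⟨k, hk⟩ := h ⟨χ, hχ⟩
      obtain ⟨d, hd⟩ := θ.2.isCharacter.exists_nat_one
      have h3 : p ^ k = e * d := by
        have : ((p ^ k : ℕ) : ℂ) = (e * d : ℕ) := by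
          push_cast
          rw [← hk, ← hd, ← he]
        exact_mod_cast this
      obtain ⟨j, -, rfl⟩ := (Nat.dvd_prime_pow hp).1 (Dvd.intro_left _ h3.symm)
      refine ⟨_, dvd_pow_self p ?_, hd⟩
      rintro rfl
      exact hθ (by simpa using hd)
    have h2 : ¬ p ∣ (commutator K).index := by
      intro hd
      have h3 := Transfer.map_pResidual_of_surjective (p := p) (Abelianization.of (G := K))
        (QuotientGroup.mk'_surjective _)
      have h4 : pResidual p (Abelianization K) = ⊤ := by
        rw [← h3, Transfer.pResidual_pResidual, ← MonoidHom.range_eq_map, MonoidHom.range_eq_top]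
        exact QuotientGroup.mk'_surjective _
      have h5 : HasNormalPComplement p (Abelianization K) :=
        Transfer.hasNormalPComplement_iff_mul.2 fun x y hx hy =>
          Nat.Coprime.coprime_dvd_left (Commute.all x y).orderOf_mul_dvd_mul_orderOf
            (Nat.Coprime.mul_left hx hy)
      have h6 := Transfer.hasNormalPComplement_iff_coprime.1 h5
      rw [h4, Subgroup.card_top] at h6
      exact (Nat.Prime.coprime_iff_not_dvd hp).1 h6.symm hd
    have h3 : ¬ p ∣ Nat.card K := by
      intro hd
      apply h2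
      have h4 := card_eq_index_commutator_add_sum (G := K)
      choose! d hd1 hd2 using h1
      rw [Finset.sum_congr rfl (g := fun θ => ((d θ ^ 2 : ℕ) : ℂ))
        (fun θ hθ => by rw [hd2 θ (Finset.mem_filter.1 hθ).2, Nat.cast_pow])] at h4
      have h5 : Nat.card K = (commutator K).index +
        ∑ θ ∈ Finset.univ.filter (fun χ : IrrCharacter K => ¬ χ.1 1 = 1), d θ ^ 2 := by
        exact_mod_cast h4
      rw [h5] at hd
      exact (Nat.dvd_add_left (Finset.dvd_sum fun θ hθ =>
        dvd_pow (hd1 θ (Finset.mem_filter.1 hθ).2) two_ne_zero)).1 hd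
    have h4 : ∀ θ : IrrCharacter K, θ.1 1 = 1 := fun θ => by
      by_contra hθ
      obtain ⟨d, hd1, hd2⟩ := h1 θ hθ
      exact h3 (hd1.trans (θ.2.deg_dvd_card hd2))
    have h5 : (commutator K).index = Nat.card K := by
      have h6 := card_eq_index_commutator_add_sum (G := K)
      simp only [h4, not_true, Finset.filter_false, Finset.sum_empty, add_zero] at h6
      exact_mod_cast h6.symm
    replace h5 : commutator K = ⊥ := by
      have h6 := (commutator K).card_mul_index
      rw [h5] at h6
      exact Subgroup.card_eq_one.1 ((Nat.mul_eq_right Nat.card_pos.ne').1 h6)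
    refine ⟨K, inferInstance, fun a ha b hb => ?_,
      ((Nat.Prime.coprime_iff_not_dvd hp).2 h3).symm, Transfer.index_pResidual⟩
    have h6 : ⁅(⟨a, ha⟩ : K), ⟨b, hb⟩⁆ ∈ commutator K :=
      Subgroup.commutator_mem_commutator (Subgroup.mem_top _) (Subgroup.mem_top _)
    rw [h5, Subgroup.mem_bot, commutatorElement_eq_one_iff_mul_comm] at h6
    exact congrArg Subtype.val h6
  · rintro ⟨A, hA, hab, -, k, hk⟩ χ
    obtain ⟨d, hd⟩ := χ.2.isCharacter.exists_nat_one
    obtain ⟨j, -, rfl⟩ := (Nat.dvd_prime_pow hp).1 (hk ▸ χ.2.deg_dvd_index_of_comm hd A hab)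
    exact ⟨j, by rw [hd, Nat.cast_pow]⟩

end Cfsg.Agent.S0855
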