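import Mathlib
import Cfsg.Statements.S0858
import Cfsg.Agent.Char.GoingDown
import Cfsg.Agent.Char.Berger

set_option autoImplicit false
open Cfsg

namespace Cfsg.Agent.S0858
open Cfsg.Agent.Char

theorem step {G : Type*} [Group G] [Fintype G] (N : Subgroup G) [hN : N.Normal]
    (hsolv : Group.IsSolvable (G ⧸ N))
    (hchief : ∀ K L : Subgroup G, K.Normal → L.Normal → N ≤ L → L < K →
      (∀ M : Subgroup G, M.Normal → L ≤ M → M ≤ K → M = L ∨ M = K) → ¬ IsSquare (L.relIndex K))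
    (χ : G → ℂ) (hχ : IsIrrCharacter G χ)
    (hmin : ∀ (T : Subgroup G) (ψ : T → ℂ), N ≤ T → IsCharacter T ψ → indFun T ψ = χ → T = ⊤) :
    IsIrrCharacter N (fun n : N => χ n) := by
  by_contra hcon
  obtain ⟨L, ⟨hL, hNL, hLχ⟩, hmax⟩ := Set.Finite.exists_maximal (Set.toFinite
    {L : Subgroup G | L.Normal ∧ N ≤ L ∧ ¬ IsIrrCharacter L (fun n : L => χ n)})
    ⟨N, hN, le_rfl, hcon⟩
  obtain ⟨p, K, -, hK, hLK, hc, -, -, hch⟩ := exists_chief_factor_above L (by
    rintro rfl
    exact hLχ (hχ.comp_mulEquiv Subgroup.topEquiv)) (isSolvable_quotient_of_le hNL hsolv)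
  have hKχ : IsIrrCharacter K (fun n : K => χ n) := by
    by_contra h
    exact hLK.not_ge (hmax ⟨hK, hNL.trans hLK.le, h⟩ hLK.le)
  rcases going_down K L hLK hch (Subgroup.commutator_le.2 hc) _ hKχ
    (fun g n => hχ.isClassFunction n g) with h | ⟨-, ⟨φ, e, -, -, h⟩ | ⟨φ, h1, h2, -, h3⟩⟩
  · exact hLχ h
  · exact hchief K L hK hL hNL hLK hch ⟨e, by rw [← h, sq]⟩
  · obtain ⟨T, ψ, h4, h5, h6, h7⟩ := exists_indFun_eq_of_not_homogeneous L hχ (by
      rintro ⟨θ, e, hθ, he⟩
      have := Fintype.ofFinite L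
      have hirr : ∀ ψ ∈ conjugates L φ, IsIrrCharacter L ψ := fun ψ hψ => by
        obtain ⟨g, rfl⟩ := (mem_conjugates L).1 hψ
        exact h1.conjChar g
      have key : ∀ ψ ∈ conjugates L φ, θ = ψ := fun ψ hψ => by
        have h8 := (classInner_sum_irr_finset _ hirr (hirr ψ hψ)).1 hψ
        rw [← h3, he, classInner_smul_left] at h8
        exact hθ.eq_of_inner_ne_zero (hirr ψ hψ) (right_ne_zero_of_mul (h8 ▸ one_ne_zero))
      refine hLK.not_ge (h2 ▸ le_inf le_rfl fun g _ => (mem_inertia L).2 ?_)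
      exact (key _ ((mem_conjugates L).2 ⟨g, rfl⟩)).symm.trans (key _ (self_mem_conjugates L φ)))
    exact h4 (hmin T ψ (hNL.trans h5) h6.isCharacter h7)

/-- Let N be a normal subgroup of the finite group G with G / N solvable, and suppose that for every subgroup H containing N and all subgroups L < K between N and H that are normal in H with no subgroup normal in H strictly between them, the index of L in K is not a perfect square. Then every irreducible character χ of G is induced from an irreducible character ψ of some subgroup H containing N such that the restriction of ψ to N is irreducible. -/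
theorem result {G : Type*} [Group G] [Fintype G] (N : Subgroup G) [N.Normal] (hsolv : Group.IsSolvable (G ⧸ N)) (hchief : ∀ (H K L : Subgroup G), N ≤ L → L < K → K ≤ H → (∀ h ∈ H, ∀ k ∈ K, h * k * h⁻¹ ∈ K) → (∀ h ∈ H, ∀ l ∈ L, h * l * h⁻¹ ∈ L) → (∀ M : Subgroup G, L ≤ M → M ≤ K → (∀ h ∈ H, ∀ m ∈ M, h * m * h⁻¹ ∈ M) → M = L ∨ M = K) → ¬ IsSquare (L.relIndex K)) (χ : G → ℂ) (hχ : Cfsg.IsIrrCharacter G χ) : ∃ (H : Subgroup G) (hNH : N ≤ H) (ψ : H → ℂ), Cfsg.IsIrrCharacter H ψ ∧ Cfsg.indFun H ψ = χ ∧ Cfsg.IsIrrCharacter N (fun n : N => ψ ⟨(n : G), hNH n.2⟩) := by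
  obtain ⟨H, _, ψ, hNH, hψ, hψχ, hmin⟩ := exists_minimal_inducing N hχ
  refine ⟨H, hNH, ψ, hψ, hψχ, ?_⟩
  have hs : Group.IsSolvable (H ⧸ N.subgroupOf H) :=
    Group.isSolvable_of_isSolvable_injective
      (f := QuotientGroup.map (N.subgroupOf H) N H.subtype le_rfl) (by
        rw [injective_iff_map_eq_one]
        intro q hq
        obtain ⟨x, rfl⟩ := QuotientGroup.mk_surjective q
        exact (QuotientGroup.eq_one_iff x).2 ((QuotientGroup.eq_one_iff (N := N) (x : G)).1 hq))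
  have h1 := step (N.subgroupOf H) hs (fun K L hK hL h1 h2 h3 => ?_) ψ hψ hmin
  · exact h1.comp_mulEquiv (Subgroup.subgroupOfEquivOfLe hNH).symm
  · rw [← Subgroup.relIndex_map_map_of_injective L K H.subtype_injective]
    refine hchief H _ _ (fun x hx => ⟨⟨x, hNH hx⟩, h1 hx, rfl⟩)
      ((Subgroup.map_lt_map_iff_of_injective H.subtype_injective).2 h2)
      (Subgroup.map_subtype_le K) ?_ ?_ fun M h4 h5 h6 => ?_
    · rintro h hh _ ⟨k, hk, rfl⟩
      exact ⟨_, hK.conj_mem k hk ⟨h, hh⟩, rfl⟩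
    · rintro h hh _ ⟨k, hk, rfl⟩
      exact ⟨_, hL.conj_mem k hk ⟨h, hh⟩, rfl⟩
    · have h7 : (M.subgroupOf H).map H.subtype = M :=
        Subgroup.map_subgroupOf_eq_of_le (h5.trans (Subgroup.map_subtype_le K))
      rcases h3 (M.subgroupOf H) ⟨fun m hm h => h6 h h.2 m hm⟩ (Subgroup.map_le_iff_le_comap.1 h4)
        (fun x hx => by
          obtain ⟨y, hy, e⟩ := h5 hx
          exact Subtype.ext e ▸ hy) with h | h
      · left; rw [← h, h7]
      · right; rw [← h, h7]

end Cfsg.Agent.S0858
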