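import Mathlib
import Cfsg.Statements.S0859
import Cfsg.Agent.Char.GoingDown
import Cfsg.Agent.Char.Berger
import Cfsg.Agent.Grp.Fitting

set_option autoImplicit false
open Cfsg

namespace Cfsg.Agent.S0859
open Cfsg.Agent.Char

theorem sylow_inj {X Y : Type*} [Group X] [Group Y] (f : X →* Y) (hf : Function.Injective f)
    (h : ∀ (p : ℕ) [Fact p.Prime] (P : Sylow p Y), ∀ a ∈ P, ∀ b ∈ P, a * b = b * a) :
    ∀ (p : ℕ) [Fact p.Prime] (P : Sylow p X), ∀ a ∈ P, ∀ b ∈ P, a * b = b * a := by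
  intro p _ P a ha b hb
  obtain ⟨Q, hQ⟩ := P.exists_comap_eq_of_injective hf
  apply hf
  rw [map_mul, map_mul]
  exact h p Q _ (hQ.ge ha) _ (hQ.ge hb)

theorem sylow_surj {X Y : Type*} [Group X] [Group Y] [Finite X] (f : X →* Y)
    (hf : Function.Surjective f)
    (h : ∀ (p : ℕ) [Fact p.Prime] (P : Sylow p X), ∀ a ∈ P, ∀ b ∈ P, a * b = b * a) :
    ∀ (p : ℕ) [Fact p.Prime] (P : Sylow p Y), ∀ a ∈ P, ∀ b ∈ P, a * b = b * a := by
  intro p _ P
  obtain ⟨Q, rfl⟩ := Sylow.mapSurjective_surjective hf p P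
  rintro _ ⟨a, ha, rfl⟩ _ ⟨b, hb, rfl⟩
  rw [← map_mul, ← map_mul, h p Q a ha b hb]

theorem comm_of_sylow {Q : Type*} [Group Q] [Finite Q] [Group.IsSolvable Q] (M : Subgroup Q)
    [M.Normal] (h : ∀ (p : ℕ) [Fact p.Prime] (P : Sylow p M), ∀ a ∈ P, ∀ b ∈ P, a * b = b * a)
    (hc : ∀ A : Subgroup Q, A.Normal → (∀ a ∈ A, ∀ b ∈ A, a * b = b * a) →
      A ≤ Subgroup.center Q) (a b : M) : a * b = b * a := by
  have h1 : fittingSubgroup M ≤ Subgroup.center M := by
    rw [Grp.fitting_eq_iSup_pCore]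
    refine iSup_le fun p x hx => ?_
    have := Fact.mk p.2
    have h2 := hc ((pCore p M).map M.subtype) (Grp.normal_map_subtype_of_characteristic _ _) (by
      rintro _ ⟨a, ha, rfl⟩ _ ⟨b, hb, rfl⟩
      obtain ⟨P⟩ : Nonempty (Sylow p M) := inferInstance
      rw [← map_mul, ← map_mul, h p P a (Grp.pCore_le_sylow P ha) b (Grp.pCore_le_sylow P hb)])
      ⟨x, hx, rfl⟩
    exact Subgroup.mem_center_iff.2 fun y => Subtype.ext (Subgroup.mem_center_iff.1 h2 y)
  have h2 : b ∈ fittingSubgroup M := Grp.centralizer_fitting_le M fun x hx =>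
    (Subgroup.mem_center_iff.1 (h1 hx) b).symm
  exact Subgroup.mem_center_iff.1 (h1 h2) a

/-- Let G be a finite solvable group and N a normal subgroup such that for every prime p every Sylow p-subgroup of N is abelian. Suppose every irreducible character of G is induced from an irreducible character of some subgroup containing N whose restriction to N is irreducible. Then every irreducible character of G is induced from a character of degree 1 of some subgroup. -/
theorem result {G : Type*} [Group G] [Fintype G] [Group.IsSolvable G] (N : Subgroup G) [N.Normal] (hab : ∀ (p : ℕ) [Fact p.Prime] (P : Sylow p N), ∀ a ∈ P, ∀ b ∈ P, a * b = b * a) (hrel : ∀ χ : G → ℂ, Cfsg.IsIrrCharacter G χ → ∃ (H : Subgroup G) (hNH : N ≤ H) (ψ : H → ℂ), Cfsg.IsIrrCharacter H ψ ∧ Cfsg.indFun H ψ = χ ∧ Cfsg.IsIrrCharacter N (fun n : N => ψ ⟨(n : G), hNH n.2⟩)) (χ : G → ℂ) (hχ : Cfsg.IsIrrCharacter G χ) : ∃ (U : Subgroup G) (lam : U → ℂ), Cfsg.IsCharacter U lam ∧ lam 1 = 1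 ∧ Cfsg.indFun U lam = χ := by
  obtain ⟨H, hNH, ψ, hψ, hψχ, hψN⟩ := hrel χ hχ
  have := Fintype.ofFinite H
  obtain ⟨U, _, ϑ, -, hϑ, hϑψ, hmin⟩ := exists_minimal_inducing ⊥ hψ
  have hψN' : IsIrrCharacter (N.subgroupOf H) (fun x => ψ x) :=
    hψN.comp_mulEquiv (Subgroup.subgroupOfEquivOfLe hNH)
  have := Fintype.ofFinite (N.subgroupOf H)
  have := Fintype.ofFinite (N.subgroupOf H ⊔ U : Subgroup H)
  have hsup : N.subgroupOf H ⊔ U = ⊤ :=
    eq_top_of_isIrr_restrict_indFun _ (Subgroup.inclusion le_sup_left)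
      (isCharacter_indFun (U.subgroupOf (N.subgroupOf H ⊔ U))
        (hϑ.isCharacter.comp (subgroupOfToLeft U _))) (by
        have h1 := indFun_indFun U (N.subgroupOf H ⊔ U) le_sup_right ϑ
        rw [hϑψ] at h1
        exact h1.symm ▸ hψN')
  have h1 := restrict_indFun_of_mul U (N.subgroupOf H) (exists_mul_of_sup_eq_top hsup)
    hϑ.isClassFunction
  rw [hϑψ] at h1
  have h2 := isIrr_of_isIrr_indFun _ (hϑ.isCharacter.comp (subgroupOfToLeft U (N.subgroupOf H)))
    (h1 ▸ hψN')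
  obtain ⟨⟨ϑ', hϑ'⟩, h3, h4⟩ := exists_faithful_deflation ⟨ϑ, hϑ⟩
  have hn := charKer_normal hϑ.isClassFunction
  simp only at h3 h4
  have := Fintype.ofFinite (U ⧸ charKer ϑ)
  set f := (QuotientGroup.mk' (charKer ϑ)).comp (subgroupOfToLeft U (N.subgroupOf H)) with hf
  have hfn : f.range.Normal := by
    have h5 : (subgroupOfToLeft U (N.subgroupOf H)).range = (N.subgroupOf H).subgroupOf U := by
      ext x
      exact ⟨by rintro ⟨y, rfl⟩; exact (y : N.subgroupOf H).2, fun hx => ⟨⟨⟨x, hx⟩, x.2⟩, rfl⟩⟩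
    rw [hf, MonoidHom.range_comp, h5]
    exact Subgroup.Normal.map inferInstance _ (QuotientGroup.mk'_surjective _)
  have h5 := comm_of_sylow f.range (sylow_surj f.rangeRestrict f.rangeRestrict_surjective
    (sylow_inj ((Subgroup.subgroupOfEquivOfLe hNH).toMonoidHom.comp (Subgroup.subtype _))
      ((Subgroup.subgroupOfEquivOfLe hNH).injective.comp (Subgroup.subtype_injective _)) hab))
    fun A hA hAc => by
      by_contra hcon
      obtain ⟨T, ω, h6, -, h7, h8⟩ := exists_indFun_eq_of_not_homogeneous A hϑ' fun ⟨θ, e, h6, h7⟩ =>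
        hcon (le_center_of_homogeneous hϑ'.isCharacter h4 A hAc h6 h7)
      have h9 := hmin (T.comap (QuotientGroup.mk' _)) _ (by simp)
        (h7.isCharacter.comp ((QuotientGroup.mk' _).subgroupComap T)) (by
          refine (indFun_comap_surjective _ (QuotientGroup.mk'_surjective _) T ω).trans ?_
          rw [h8]; exact funext h3)
      exact h6 (Subgroup.comap_injective (QuotientGroup.mk'_surjective _) h9)
  have h6 := (isIrr_range_of_comp f hϑ'.isCharacter (by
    convert h2 using 2 with x; exact h3 _)).one_eq_one_of_comm h5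
  have h7 : ϑ 1 = 1 := (h3 1).symm.trans h6
  refine ⟨U.map H.subtype, _,
    hϑ.isCharacter.comp (U.equivMapOfInjective H.subtype H.subtype_injective).symm.toMonoidHom,
    by simpa using h7, ?_⟩
  rw [← hψχ, ← hϑψ]
  exact (indFun_indFun_map H U ϑ).symm

end Cfsg.Agent.S0859
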