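import Cfsg.Statements.S0860
import Cfsg.Agent.Char.BrauerPerm

set_option autoImplicit false
open Cfsg

namespace Cfsg.Agent.S0860

open Cfsg.Agent.Char in

/-- Let a group A act on the set of irreducible characters and on the set of conjugacy classes of a finite group G in such a way that (a • χ) evaluated on the class a • C equals χ evaluated on C, for all a, χ and C. Then every element of A fixes exactly as many irreducible characters as it fixes conjugacy classes. -/
theorem result {G : Type*} [Group G] [Finite G] {A : Type*} [Group A] [MulAction A (Cfsg.IrrCharacter G)] [MulAction A (ConjClasses G)] (hcompat : ∀ (a : A) (χ : Cfsg.IrrCharacter G) (g g' : G), ConjClasses.mk g' = a • ConjClasses.mk g → ((a • χ : Cfsg.IrrCharacter G) : G → ℂ) g' = (χ : G → ℂ) g) (a : A) : Nat.card {χ : Cfsg.IrrCharacter G // a • χ = χ} = Nat.card {C : ConjClasses G // a • C = C} := by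
  have hex : ∀ g : G, ∃ g' : G, ConjClasses.mk g' = a • ConjClasses.mk g := fun g =>
    (ConjClasses.exists_rep _).imp fun _ h => h
  choose f hf using hex
  have h1 : ∀ χ : IrrCharacter G, (fun g => (χ : G → ℂ) (f g)) = ((a⁻¹ • χ : IrrCharacter G) : G → ℂ) := by
    intro χ
    funext g
    rw [← hcompat a (a⁻¹ • χ) g (f g) (hf g), smul_inv_smul]
  have h := brauer_permutation f fun χ hχ => by
    rw [show (fun g => χ (f g)) = _ from h1 ⟨χ, hχ⟩]
    exact (a⁻¹ • (⟨χ, hχ⟩ : IrrCharacter G)).2
  symm
  convert h using 4 with C χ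
  · constructor
    · rintro hC g rfl
      rw [← ConjClasses.mk_eq_mk_iff_isConj, hf, hC]
    · intro hC
      obtain ⟨g, rfl⟩ := ConjClasses.exists_rep C
      rw [← hf, eq_comm, ConjClasses.mk_eq_mk_iff_isConj]
      exact hC g rfl
  · rw [h1, ← Subtype.ext_iff, inv_smul_eq_iff, eq_comm]

end Cfsg.Agent.S0860
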