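import Cfsg.Statements.S0861
import Cfsg.Agent.Char.Zeros
import Cfsg.Agent.Char.Ito
import Cfsg.Agent.Char.Quot

set_option autoImplicit false
open Cfsg

namespace Cfsg.Agent.S0861

open Cfsg.Agent.Char in

/-- Let P be a normal abelian Sylow p-subgroup of the finite group G and suppose some element g of P has centralizer exactly P. Then the number of irreducible characters of G is at most the order of P, and if equality holds then G / P is abelian (the commutator subgroup lies in P). -/
theorem result {G : Type*} [Group G] [Finite G] (p : ℕ) [Fact p.Prime] (P : Sylow p G) [(P : Subgroup G).Normal] (hab : ∀ a ∈ P, ∀ b ∈ P, a * b = b * a) (g : G) (hg : g ∈ P) (hC : Subgroup.centralizer ({g} : Set G) = P) : Nat.card (Cfsg.IrrCharacter G) ≤ Nat.card P ∧ (Nat.card (Cfsg.IrrCharacter G) = Nat.card P → commutator G ≤ P) := by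
  classical
  have hp : p.Prime := Fact.out
  have h0 : ∀ χ : IrrCharacter G, χ.1 g ≠ 0 := fun χ => by
    obtain ⟨d, hd⟩ := χ.2.isCharacter.exists_nat_one
    obtain ⟨k, hk⟩ := P.isPGroup' ⟨g, hg⟩
    exact χ.2.isCharacter.ne_zero_of_not_dvd hp hd
      (fun h => P.not_dvd_index (h.trans (χ.2.deg_dvd_index_of_comm hd P hab)))
      (k := k) (congrArg Subtype.val hk)
  have h1 := sum_irr_norm_sq g
  rw [hC] at h1
  have h2 := card_le_sum_irr_norm_sq Finset.univ (fun _ _ _ => Finset.mem_univ _) g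
    fun χ _ => h0 χ
  rw [h1, Finset.card_univ, ← Nat.card_eq_fintype_card] at h2
  refine ⟨by exact_mod_cast h2, fun h x hx => ?_⟩
  let Q : IrrCharacter G → Prop := fun χ => ∀ y ∈ P, χ.1 y = χ.1 1
  have h3 := card_le_sum_irr_norm_sq (Finset.univ.filter fun χ => ¬ Q χ)
    (fun σ χ hχ => by
      simp only [Q, Finset.mem_filter, Finset.mem_univ, true_and, galIrr_apply,
        σ.injective.eq_iff] at hχ ⊢
      exact hχ) g fun χ _ => h0 χ
  have h4 := Finset.card_filter_add_card_filter_not (s := Finset.univ) Q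
  rw [Finset.card_univ, ← Nat.card_eq_fintype_card, h] at h4
  rw [← Finset.sum_filter_add_sum_filter_not Finset.univ Q] at h1
  have h5 : ∀ χ ∈ Finset.univ.filter Q, (1 : ℝ) ≤ ‖χ.1 g‖ ^ 2 := fun χ hχ => by
    obtain ⟨d, hd0, hd⟩ := χ.2.exists_nat_one
    rw [(Finset.mem_filter.1 hχ).2 g hg, hd, Complex.norm_natCast]
    exact_mod_cast Nat.one_le_pow _ _ hd0
  have h6 : ∑ χ ∈ Finset.univ.filter Q, (1 : ℝ) = ∑ χ ∈ Finset.univ.filter Q, ‖χ.1 g‖ ^ 2 := by
    refine le_antisymm (Finset.sum_le_sum h5) ?_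
    have : ((Finset.univ.filter Q).card : ℝ) + (Finset.univ.filter fun χ => ¬ Q χ).card =
      Nat.card (P : Subgroup G) := by exact_mod_cast h4
    rw [Finset.sum_const, nsmul_eq_mul, mul_one]
    linarith
  rw [Finset.sum_eq_sum_iff_of_le h5] at h6
  have h7 : ∀ χ : IrrCharacter G, Q χ → χ.1 1 = 1 := fun χ hχ => by
    obtain ⟨d, hd0, hd⟩ := χ.2.exists_nat_one
    have h8 := h6 χ (Finset.mem_filter.2 ⟨Finset.mem_univ _, hχ⟩)
    rw [hχ g hg, hd, Complex.norm_natCast] at h8
    have h9 : d ^ 2 = 1 := by exact_mod_cast h8.symm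
    rw [hd, (pow_eq_one_iff_left two_ne_zero).1 h9, Nat.cast_one]
  rw [← QuotientGroup.eq_one_iff, ← isConj_one_left, isConj_iff_irr]
  intro ψ
  let χ := inflateIrr (QuotientGroup.mk' (P : Subgroup G)) (QuotientGroup.mk'_surjective _) ψ
  have h8 : Q χ := fun y hy => by
    simp only [χ, inflateIrr_apply, QuotientGroup.mk'_apply, (QuotientGroup.eq_one_iff y).2 hy,
      QuotientGroup.mk_one]
  exact (mem_charKer_iff χ.2.isCharacter).1
    (commutator_le_charKer_of_one χ.2.isCharacter (h7 χ h8) hx)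

end Cfsg.Agent.S0861
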