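import Mathlib
import Cfsg.Statements.S0870
import Cfsg.Agent.Char.PermChar
-- import your own Cfsg.Agent.* helpers here

set_option autoImplicit false
open Cfsg

namespace Cfsg.Agent.S0870

/-- For subgroups H and K of a finite group G, the pointwise product of the functions induced from the constant function 1 on H and on K is a sum, over subgroups U of H with natural-number coefficients, of the functions induced from the constant function 1 on U. -/
theorem result {G : Type*} [Group G] [Fintype G] (H K : Subgroup G) : ∃ a : Subgroup G → ℕ, (∀ U, a U ≠ 0 → U ≤ H) ∧ Cfsg.indFun H (fun _ => 1) * Cfsg.indFun K (fun _ => 1) = ∑ U : Subgroup G, (a U : ℂ) • Cfsg.indFun U (fun _ => 1) := by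
  classical
  let X := (G ⧸ H) × (G ⧸ K)
  have hr : ∀ ω : MulAction.orbitRel.Quotient G X, ∃ x : X, x.1 = ((1 : G) : G ⧸ H) ∧
      (Quotient.mk'' x : MulAction.orbitRel.Quotient G X) = ω := by
    intro ω
    induction ω using Quotient.inductionOn' with
    | h x =>
      obtain ⟨g, hg⟩ := MulAction.exists_smul_eq G x.1 ((1 : G) : G ⧸ H)
      exact ⟨g • x, hg, Quotient.sound' (MulAction.mem_orbit x g)⟩
  choose r hr1 hr2 using hr
  have := Fintype.ofFinite (MulAction.orbitRel.Quotient G X)
  refine ⟨fun U => (Finset.univ.filter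
    fun ω : MulAction.orbitRel.Quotient G X => MulAction.stabilizer G (r ω) = U).card, ?_, ?_⟩
  · intro U hU
    obtain ⟨ω, hω⟩ := Finset.card_ne_zero.mp hU
    rw [← (Finset.mem_filter.mp hω).2]
    intro g hg
    have h1 : g • (r ω).1 = (r ω).1 := congrArg Prod.fst (MulAction.mem_stabilizer_iff.mp hg)
    rw [hr1] at h1
    rw [← MulAction.stabilizer_quotient H]
    exact h1
  · funext g
    rw [Pi.mul_apply, Char.PermChar.indFun_one_eq_card_fixedBy,
      Char.PermChar.indFun_one_eq_card_fixedBy, ← Nat.cast_mul, ← Nat.card_prod]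
    have h1 : Nat.card (MulAction.fixedBy (G ⧸ H) g × MulAction.fixedBy (G ⧸ K) g) =
        Nat.card (MulAction.fixedBy X g) := by
      refine Nat.card_congr ((Equiv.Set.prod _ _).symm.trans (Equiv.setCongr ?_))
      ext ⟨a, b⟩
      simp only [Set.mem_prod, MulAction.mem_fixedBy]
      exact (Prod.ext_iff (x := g • ((a, b) : X)) (y := (a, b))).symm
    rw [h1, Char.PermChar.card_fixedBy_eq_sum_orbits r hr2 g, Finset.sum_apply,
      ← Finset.sum_fiberwise Finset.univ (fun ω => MulAction.stabilizer G (r ω))]
    refine Finset.sum_congr (by congr!) fun U _ => ?_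
    rw [Finset.sum_congr rfl (g := fun _ => Cfsg.indFun U (fun _ => 1) g)]
    · simp
    · intro ω hω
      have := (Finset.mem_filter.mp hω).2
      subst this
      rfl

end Cfsg.Agent.S0870
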