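import Mathlib
import Cfsg.Statements.S0871
import Cfsg.Agent.Char.PermChar
-- import your own Cfsg.Agent.* helpers here

set_option autoImplicit false
open Cfsg

namespace Cfsg.Agent.S0871

/-- Let x be an element of the finite group G and p a prime. Then there is a subgroup H having a cyclic normal subgroup C of order prime to p and p-power index in H, such that the value at x of the function induced from the constant function 1 on H is a natural number not divisible by p. -/
theorem result {G : Type*} [Group G] [Fintype G] (x : G) (p : ℕ) (hp : p.Prime) : ∃ H : Subgroup G, (∃ C : Subgroup G, C ≤ H ∧ H ≤ Subgroup.normalizer (C : Set G) ∧ IsCyclic C ∧ Nat.Coprime (Nat.card C) p ∧ ∃ k : ℕ, C.relIndex H = p ^ k) ∧ ∃ n : ℕ, Cfsg.indFun H (fun _ => 1) x = (n : ℂ) ∧ ¬ p ∣ n := by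
  classical
  have : Fact p.Prime := ⟨hp⟩
  have hx0 : orderOf x ≠ 0 := (orderOf_pos x).ne'
  obtain ⟨k, m, hm, hkm⟩ := Nat.exists_eq_pow_mul_and_not_dvd hx0 p hp.one_lt.ne'
  set c := x ^ p ^ k with hc
  have hoc : orderOf c = m := by
    rw [hc, orderOf_pow_of_dvd (pow_pos hp.pos k).ne' (hkm ▸ Dvd.intro m rfl), hkm,
      Nat.mul_div_cancel_left _ (pow_pos hp.pos k)]
  set C := Subgroup.zpowers c with hC
  have hCcard : Nat.card C = m := by rw [hC, Nat.card_zpowers, hoc]
  set N := Subgroup.normalizer (C : Set G) with hN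
  have hCN : C ≤ N := Subgroup.le_normalizer
  let C' := C.subgroupOf N
  have : C'.Normal := Subgroup.normal_in_normalizer
  obtain ⟨Q⟩ : Nonempty (Sylow p (N ⧸ C')) := inferInstance
  let H' : Subgroup N := (Q : Subgroup (N ⧸ C')).comap (QuotientGroup.mk' C')
  have hC'H' : C' ≤ H' := by
    intro y hy
    show QuotientGroup.mk' C' y ∈ (Q : Subgroup (N ⧸ C'))
    rw [(QuotientGroup.eq_one_iff y).mpr hy |> fun h => show QuotientGroup.mk' C' y = 1 from h]
    exact one_mem _
  let H : Subgroup G := H'.map N.subtype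
  have hHN : H ≤ N := Subgroup.map_subtype_le _
  have hH' : H.subgroupOf N = H' := by
    simp only [H, Subgroup.subgroupOf]
    exact Subgroup.comap_map_eq_self_of_injective N.subtype_injective _
  have hCH : C ≤ H := by
    intro y hy
    exact ⟨⟨y, hCN hy⟩, hC'H' hy, rfl⟩
  refine ⟨H, ⟨C, hCH, hHN, inferInstance, ?_, ?_⟩, Nat.card (MulAction.fixedBy (G ⧸ H) x),
    Char.PermChar.indFun_one_eq_card_fixedBy H x, ?_⟩
  · rw [hCcard]
    exact ((Nat.Prime.coprime_iff_not_dvd hp).mpr hm).symm
  · obtain ⟨j, hj⟩ := IsPGroup.iff_card.mp Q.isPGroup'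
    refine ⟨j, ?_⟩
    rw [← Subgroup.relIndex_subgroupOf hHN, hH', ← hj]
    have h1 := Subgroup.relIndex_ker H' (QuotientGroup.mk' C')
    rw [QuotientGroup.ker_mk', Subgroup.map_comap_eq_self_of_surjective
      (QuotientGroup.mk'_surjective C')] at h1
    exact h1
  · intro hdvd
    have h1 := Char.PermChar.card_fixedBy_pow_modEq (X := G ⧸ H) hp k x
    have h2 : p ∣ Nat.card (MulAction.fixedBy (G ⧸ H) c) :=
      (Nat.modEq_zero_iff_dvd.mp (h1.trans (Nat.modEq_zero_iff_dvd.mpr hdvd)))
    have h3 := Char.PermChar.card_mul_card_fixedBy_quotient H c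
    have h4 : Nat.card {y : G // y⁻¹ * c * y ∈ H} = Nat.card N := by
      refine Nat.card_congr (Equiv.subtypeEquivRight fun y => ⟨fun hy => ?_, fun hy => ?_⟩)
      · obtain ⟨d, hd, hdy⟩ := hy
        have hdQ : QuotientGroup.mk' C' d ∈ (Q : Subgroup (N ⧸ C')) := hd
        obtain ⟨j, hj⟩ := Q.isPGroup' ⟨_, hdQ⟩
        have hj' : (QuotientGroup.mk' C' d) ^ p ^ j = 1 := congrArg Subtype.val hj
        have hdm : d ^ m = 1 := by
          apply Subtype.ext
          have : (d : G) = y⁻¹ * c * y⁻¹⁻¹ := by rw [inv_inv]; exact hdy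
          rw [Subgroup.coe_pow, this, conj_pow, ← hoc, pow_orderOf_eq_one]
          simp
        have hdm' : (QuotientGroup.mk' C' d) ^ m = 1 := by rw [← map_pow, hdm, map_one]
        have hd1 : QuotientGroup.mk' C' d = 1 := by
          rw [← orderOf_eq_one_iff]
          exact Nat.eq_one_of_dvd_coprimes
            (((Nat.Prime.coprime_iff_not_dvd hp).mpr hm).pow_left j)
            (orderOf_dvd_of_pow_eq_one hj') (orderOf_dvd_of_pow_eq_one hdm')
        have hdC : y⁻¹ * c * y ∈ C := by
          have : d ∈ C' := (QuotientGroup.eq_one_iff d).mp hd1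
          rw [← hdy]
          exact this
        have : y⁻¹ ∈ N := by
          apply Subgroup.mem_normalizer_fintype
          rintro n ⟨i, rfl⟩
          have := C.zpow_mem hdC i
          rwa [show y⁻¹ * c * y = y⁻¹ * c * y⁻¹⁻¹ by rw [inv_inv], conj_zpow] at this
        simpa using N.inv_mem this
      · apply hCH
        have := (Subgroup.mem_normalizer_iff''.mp hy c).mp (Subgroup.mem_zpowers c)
        exact this
    rw [h4] at h3
    have h5 : Nat.card H = Nat.card H' := Subgroup.card_map_of_injective N.subtype_injective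
    have h6 := H'.card_mul_index
    rw [h5, ← h6] at h3
    have h7 := Nat.eq_of_mul_eq_mul_left Nat.card_pos h3
    rw [h7, Subgroup.index_comap_of_surjective _ (QuotientGroup.mk'_surjective C')] at h2
    exact Q.not_dvd_index h2

end Cfsg.Agent.S0871
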