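import Mathlib
import Cfsg.Statements.S0872
import Cfsg.Agent.Char.PermChar
import Cfsg.Agent.S0869
import Cfsg.Agent.S0870
import Cfsg.Agent.S0871
-- import your own Cfsg.Agent.* helpers here

set_option autoImplicit false
open Cfsg

namespace Cfsg.Agent.S0872

/-- `H` has a cyclic normal subgroup of order prime to `p` and `p`-power index. -/
def QE {G : Type*} [Group G] (p : ℕ) (H : Subgroup G) : Prop :=
  ∃ C : Subgroup G, C ≤ H ∧ H ≤ Subgroup.normalizer (C : Set G) ∧ IsCyclic C ∧
    Nat.Coprime (Nat.card C) p ∧ ∃ k : ℕ, C.relIndex H = p ^ k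

theorem QE.mono {G : Type*} [Group G] [Finite G] {p : ℕ} (hp : p.Prime) {H U : Subgroup G}
    (hH : QE p H) (hU : U ≤ H) : QE p U := by
  obtain ⟨C, hCH, hHN, hcyc, hcop, k, hk⟩ := hH
  refine ⟨C ⊓ U, inf_le_right, ?_, Subgroup.isCyclic_of_le (inf_le_left : C ⊓ U ≤ C), ?_, ?_⟩
  · exact (le_inf (hU.trans hHN) Subgroup.le_normalizer).trans
      Subgroup.inf_normalizer_le_normalizer_inf
  · exact hcop.coprime_dvd_left (Subgroup.card_dvd_of_le inf_le_left)
  · have : (C.subgroupOf H).Normal := (Subgroup.normal_subgroupOf_iff_le_normalizer hCH).mpr hHN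
    have h1 := Subgroup.relIndex_dvd_index_of_normal (C.subgroupOf H) (U.subgroupOf H)
    rw [Subgroup.relIndex_subgroupOf hU] at h1
    have h2 : (C.subgroupOf H).index = p ^ k := hk
    rw [h2] at h1
    obtain ⟨j, -, hj⟩ := (Nat.dvd_prime_pow hp).mp h1
    exact ⟨j, by rw [Subgroup.inf_relIndex_right, hj]⟩

/-- For a finite group G and a prime p there are an integer m not divisible by p and a ℤ-linear combination of functions induced from the constant function 1 on subgroups H, each having a cyclic normal subgroup of order prime to p and p-power index in H, that equals the constant function m. -/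
theorem result {G : Type*} [Group G] [Fintype G] (p : ℕ) (hp : p.Prime) : ∃ (m : ℤ) (a : Subgroup G → ℤ), ¬ (p : ℤ) ∣ m ∧ (∀ H, a H ≠ 0 → (∃ C : Subgroup G, C ≤ H ∧ H ≤ Subgroup.normalizer (C : Set G) ∧ IsCyclic C ∧ Nat.Coprime (Nat.card C) p ∧ ∃ k : ℕ, C.relIndex H = p ^ k)) ∧ (fun _ : G => (m : ℂ)) = ∑ H : Subgroup G, (a H : ℂ) • Cfsg.indFun H (fun _ => 1) := by
  classical
  let π : Subgroup G → G → ℤ := fun H g => (Nat.card (MulAction.fixedBy (G ⧸ H) g) : ℤ)
  have hπ : ∀ H g, ((π H g : ℤ) : ℂ) = Cfsg.indFun H (fun _ => 1) g := by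
    intro H g
    rw [Char.PermChar.indFun_one_eq_card_fixedBy]
    simp [π]
  let S : Set (G → ℤ) := insert (p : G → ℤ) {f | ∃ H, QE p H ∧ f = π H}
  let R : Submodule ℤ (G → ℤ) := Submodule.span ℤ S
  have hgen : ∀ f ∈ S, ∀ g ∈ S, f * g ∈ R := by
    have hp' : ∀ g ∈ S, (p : G → ℤ) * g ∈ R := by
      intro g hg
      have := R.smul_mem (p : ℤ) (Submodule.subset_span hg)
      convert this using 1
      simp
    rintro f (rfl | ⟨H, hH, rfl⟩) g hg
    · exact hp' g hg
    · rcases hg with rfl | ⟨K, -, rfl⟩
      · rw [mul_comm]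
        exact hp' _ (Or.inr ⟨H, hH, rfl⟩)
      · obtain ⟨a, ha, hprod⟩ := S0870.result H K
        have : π H * π K = ∑ U : Subgroup G, (a U : ℤ) • π U := by
          funext g
          apply Int.cast_injective (α := ℂ)
          have := congrFun hprod g
          simp only [Pi.mul_apply, Finset.sum_apply, Pi.smul_apply, smul_eq_mul] at this ⊢
          push_cast
          simp only [hπ]
          convert this
        rw [this]
        refine R.sum_mem fun U _ => ?_
        by_cases hU : a U = 0
        · simp [hU]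
        · exact R.smul_mem _ (Submodule.subset_span (Or.inr ⟨U, hH.mono hp (ha U hU), rfl⟩))
  have hmul : ∀ f ∈ R, ∀ g ∈ R, f * g ∈ R := by
    intro f hf g hg
    have : R * R ≤ R := by
      rw [Submodule.span_mul_span, Submodule.span_le]
      rintro _ ⟨f, hf, g, hg, rfl⟩
      exact hgen f hf g hg
    exact this (Submodule.mul_mem_mul hf hg)
  have h1 : (1 : G → ℤ) ∈ R := by
    by_contra h1
    obtain ⟨x, q, hq, hx⟩ := S0869.result R.toAddSubgroup hmul h1
    have hqp : q = p := by
      have := hx (p : G → ℤ) (Submodule.subset_span (Or.inl rfl))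
      simp only [Pi.natCast_apply, Int.natCast_dvd_natCast] at this
      exact (Nat.prime_dvd_prime_iff_eq hq hp).mp this
    subst hqp
    obtain ⟨H, hH, n, hn, hpn⟩ := S0871.result x q hq
    have h2 := hx (π H) (Submodule.subset_span (Or.inr ⟨H, hH, rfl⟩))
    have h3 : π H x = n := by
      apply Int.cast_injective (α := ℂ)
      rw [hπ, hn]
      simp
    rw [h3] at h2
    exact hpn (Int.natCast_dvd_natCast.mp h2)
  have key : ∀ f ∈ R, ∃ (k : ℤ) (a : Subgroup G → ℤ), (∀ H, a H ≠ 0 → QE p H) ∧
      f = k • (p : G → ℤ) + ∑ H : Subgroup G, a H • π H := by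
    intro f hf
    induction hf using Submodule.span_induction with
    | mem f hf =>
      rcases hf with rfl | ⟨H, hH, rfl⟩
      · exact ⟨1, 0, by simp, by simp⟩
      · refine ⟨0, Pi.single H 1, ?_, ?_⟩
        · intro K hK
          by_cases h : K = H
          · exact h ▸ hH
          · exact absurd (Pi.single_eq_of_ne h _) hK
        · rw [Finset.sum_eq_single H]
          · simp
          · intro K _ hK
            simp [Pi.single_eq_of_ne hK]
          · simp
    | zero => exact ⟨0, 0, by simp, by simp⟩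
    | add f g _ _ hf hg =>
      obtain ⟨k, a, ha, rfl⟩ := hf
      obtain ⟨l, b, hb, rfl⟩ := hg
      refine ⟨k + l, a + b, ?_, ?_⟩
      · intro H hH
        by_cases h : a H = 0
        · exact hb H (by simpa [h] using hH)
        · exact ha H h
      · simp only [Pi.add_apply, add_smul, Finset.sum_add_distrib]
        abel
    | smul c f _ hf =>
      obtain ⟨k, a, ha, rfl⟩ := hf
      refine ⟨c * k, c • a, ?_, ?_⟩
      · intro H hH
        exact ha H (by rintro h; simp [h] at hH)
      · simp only [smul_add, Finset.smul_sum, mul_smul, Pi.smul_apply, smul_eq_mul]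
  obtain ⟨k, a, ha, hk⟩ := key 1 h1
  refine ⟨1 - k * p, a, ?_, ha, ?_⟩
  · intro h
    have : (p : ℤ) ∣ 1 := by
      have := dvd_add h (Dvd.intro_left k rfl)
      simpa using this
    exact hp.one_lt.ne' (by exact_mod_cast Int.eq_one_of_dvd_one (by positivity) this)
  · funext g
    have := congrFun hk g
    simp only [Pi.one_apply, Pi.add_apply, Pi.smul_apply, Pi.natCast_apply, smul_eq_mul,
      Finset.sum_apply] at this ⊢
    have h2 : (1 - k * p : ℤ) = ∑ H : Subgroup G, a H * π H g := by linarith
    rw [h2]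
    push_cast
    simp only [hπ]

end Cfsg.Agent.S0872
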