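import Mathlib
import Cfsg.Statements.S0873
import Cfsg.Agent.Char.Basic
import Cfsg.Agent.Solv.Coprime
-- import your own Cfsg.Agent.* helpers here

set_option autoImplicit false
open Cfsg

namespace Cfsg.Agent.S0873

/-- Let C be a normal subgroup of the finite group G of order prime to p and P a p-subgroup with C ⊔ P = G. Let λ be a character of C of degree 1 invariant under conjugation by G and equal to 1 at every element of C centralized by P. Then λ is identically 1. -/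
theorem result {G : Type*} [Group G] [Finite G] (p : ℕ) [Fact p.Prime] (C P : Subgroup G) [hC : C.Normal] (hP : IsPGroup p P) (hcop : Nat.Coprime (Nat.card C) p) (hCP : C ⊔ P = ⊤) (lam : C → ℂ) (hlam : Cfsg.IsCharacter C lam ∧ lam 1 = 1) (hinv : ∀ (g : G) (c : C), lam ⟨g * c * g⁻¹, hC.conj_mem (c : G) c.2 g⟩ = lam c) (hker : ∀ c : C, (c : G) ∈ Subgroup.centralizer (P : Set G) → lam c = 1) : lam = fun _ => 1 := by
  obtain ⟨μ, rfl⟩ := Char.Cfsg.IsCharacter.exists_linear hlam.1 hlam.2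
  have hcop' : (Nat.card P).Coprime (Nat.card C) := by
    obtain ⟨n, hn⟩ := IsPGroup.iff_card.mp hP
    rw [hn]
    exact (hcop.symm).pow_left n
  have hsolv : Group.IsSolvable P := by
    have := hP.isNilpotent
    infer_instance
  have hcomm : ⁅C, P⁆ ≤ μ.ker.map C.subtype := by
    rw [Subgroup.commutator_le]
    intro k hk a _
    refine ⟨⟨k, hk⟩ * ⟨a * k⁻¹ * a⁻¹, hC.conj_mem _ (C.inv_mem hk) a⟩, ?_, ?_⟩
    · have h1 := hinv a (⟨k, hk⟩ : C)⁻¹
      have h2 : μ ⟨a * k⁻¹ * a⁻¹, hC.conj_mem _ (C.inv_mem hk) a⟩ = μ (⟨k, hk⟩ : C)⁻¹ :=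
        Units.ext h1
      show μ _ = 1
      rw [map_mul, h2, ← map_mul, mul_inv_cancel, map_one]
    · simp [commutatorElement_def, mul_assoc]
  funext k
  obtain ⟨c, hc, d, hd, hk⟩ := Solv.coprime_exists_centralizer_mul_commutator P C
    (by rw [Subgroup.normalizer_eq_top]; exact le_top) hcop' (Or.inl hsolv) k k.2
  obtain ⟨d', hd', rfl⟩ := hcomm hd
  have hk' : k = ⟨c, hc.1⟩ * d' := Subtype.ext hk
  have h1 : (μ ⟨c, hc.1⟩ : ℂ) = 1 := hker ⟨c, hc.1⟩ hc.2
  have h2 : μ d' = 1 := hd'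
  rw [hk', map_mul, h2, mul_one, h1]

end Cfsg.Agent.S0873
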