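import Cfsg.Statements.S0875
import Mathlib
import Cfsg.Agent.Char.Brauer
import Cfsg.Agent.Char.Irr
import Cfsg.Agent.FGS.NilpPi

set_option autoImplicit false
open Cfsg

namespace Cfsg.Agent.S0875

open Cfsg.Agent.Char Cfsg.Agent.FGS
open scoped ComplexConjugate

theorem inner_int {E : Type*} [Group E] [Fintype E] [Group.IsNilpotent E] {m n t : ℕ}
    (hcop : n.Coprime m) (hE : Nat.card E ∣ n * m) (ha : t ≡ 1 [MOD n]) (hb : m ∣ t)
    (θ : E → ℂ) (h1 : ∀ e, θ (e ^ t) = θ e) (h2 : ∀ e, θ e = n ∨ θ e = 0) (lam : E →* ℂˣ) :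
    IsIntegral ℤ (classInner θ (fun e => (lam e : ℂ))) := by
  classical
  have hG : ∀ x : E, x ^ (n * m) = 1 := fun x =>
    orderOf_dvd_iff_pow_eq_one.1 ((orderOf_dvd_natCard x).trans hE)
  let π : E →* E := MonoidHom.mk' (fun x => x ^ t) (mul_pow_part_of_isNilpotent hcop hG ha hb)
  have hπ : ∀ x, π x = x ^ t := fun _ => rfl
  have hππ : ∀ x, π (π x) = π x := fun x => pow_part_eq_self (part_pow_left (hG x) hb) ha
  by_cases hl : ∀ b, π b = 1 → lam b = 1
  · have e1 : ∀ x, lam (π x) = lam x := fun x => by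
      have := hl ((π x)⁻¹ * x) (by rw [map_mul, map_inv, hππ, inv_mul_cancel])
      rw [map_mul, map_inv, inv_mul_eq_one] at this
      exact this
    have e2 := classInner_comp_surjective π.rangeRestrict π.rangeRestrict_surjective
      (fun c => θ c) (fun c => (lam c : ℂ))
    simp only [MonoidHom.coe_rangeRestrict, e1] at e2
    simp only [hπ, h1] at e2
    rw [e2]
    have hC : Nat.card π.range ∣ n := by
      refine Nat.Coprime.dvd_of_dvd_mul_right (Nat.coprime_of_dvd fun p hp hpC hpm => ?_)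
        ((Subgroup.card_subgroup_dvd_card _).trans hE)
      have := Fact.mk hp
      obtain ⟨y, hy⟩ := exists_prime_orderOf_dvd_card' p hpC
      obtain ⟨x, hx⟩ := y.2
      rw [← Subgroup.orderOf_coe, ← hx] at hy
      have : p ∣ n := hy ▸ orderOf_dvd_of_pow_eq_one (part_pow_left (hG x) hb)
      exact hp.one_lt.ne' (Nat.eq_one_of_dvd_coprimes hcop this hpm)
    obtain ⟨k, hk⟩ := hC
    rw [classInner, Finset.mul_sum]
    refine IsIntegral.sum _ fun c _ => ?_
    rcases h2 c with h | h
    · rw [h, hk, Nat.cast_mul, ← mul_assoc, ← mul_assoc, inv_mul_cancel₀ (card_ne_zero _), one_mul]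
      refine (isIntegral_natCast k).mul ?_
      exact (isIrrCharacter_linear lam).isGen.conj.isIntegral (c : E)
    · rw [h, zero_mul, mul_zero]; exact isIntegral_zero
  · push Not at hl
    obtain ⟨b, hb1, hb2⟩ := hl
    have e1 : ∑ e, θ e * conj (lam e : ℂ) = conj (lam b : ℂ) * ∑ e, θ e * conj (lam e : ℂ) := by
      conv_lhs => rw [← Equiv.sum_comp (Equiv.mulRight b)]
      rw [Finset.mul_sum]
      refine Finset.sum_congr rfl fun e _ => ?_
      rw [Equiv.coe_mulRight, ← h1 (e * b), ← hπ, map_mul, hb1, mul_one, hπ, h1, map_mul,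
        Units.val_mul, map_mul]
      ring
    have e2 : ∑ e, θ e * conj (lam e : ℂ) = 0 := by
      by_contra h
      apply hb2
      have := mul_right_cancel₀ h ((one_mul _).trans e1)
      have h3 := congrArg conj this
      rw [map_one, Complex.conj_conj] at h3
      exact Units.ext h3.symm
    rw [classInner, e2, mul_zero]
    exact isIntegral_zero


/-- Let G be a finite group of order m * n with m and n coprime, and g an element whose order is coprime to m. Every x in G factors uniquely as x = u * v with u, v commuting, the order of u coprime to n and the order of v coprime to m; let ϑ be the function on G equal to n at those x whose factor v is conjugate to g and equal to 0 elsewhere. Then ϑ is a linear combination of the irreducible characters of G with algebraic-integer coefficients. -/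
theorem result {G : Type*} [Group G] [Fintype G] (m n : ℕ) (hmn : Nat.card G = m * n) (hcop : Nat.Coprime m n) (g : G) (hg : Nat.Coprime (orderOf g) m) (ϑ : G → ℂ) (hϑ1 : ∀ x : G, (∃ v : G, IsConj v g ∧ (∃ u : G, x = u * v ∧ Commute u v ∧ Nat.Coprime (orderOf u) n ∧ Nat.Coprime (orderOf v) m)) → ϑ x = n) (hϑ0 : ∀ x : G, (¬ ∃ v : G, IsConj v g ∧ (∃ u : G, x = u * v ∧ Commute u v ∧ Nat.Coprime (orderOf u) n ∧ Nat.Coprime (orderOf v) m)) → ϑ x = 0) : ∃ c : Cfsg.IrrCharacter G → ℂ, (∀ χ, c χ ∈ Cfsg.AlgInt) ∧ ϑ = ∑ᶠ χ : Cfsg.IrrCharacter G, c χ • (χ : G → ℂ) := by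
  classical
  obtain ⟨t, ha, hb⟩ := exists_part_exponent hcop.symm
  have hG : ∀ x : G, x ^ (n * m) = 1 := fun x => by rw [mul_comm, ← hmn]; exact pow_card_eq_one'
  have key : ∀ x : G, (∃ v : G, IsConj v g ∧ (∃ u : G, x = u * v ∧ Commute u v ∧
      Nat.Coprime (orderOf u) n ∧ Nat.Coprime (orderOf v) m)) ↔ IsConj (x ^ t) g := by
    intro x
    constructor
    · rintro ⟨v, hv, u, rfl, hc, hu, hv'⟩
      rwa [hc.mul_pow, pow_part_eq_one (orderOf_dvd_iff_pow_eq_one.1
        (hu.dvd_of_dvd_mul_left (orderOf_dvd_of_pow_eq_one (hG u)))) hb, one_mul,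
        pow_part_eq_self (orderOf_dvd_iff_pow_eq_one.1
        (hv'.dvd_of_dvd_mul_right (orderOf_dvd_of_pow_eq_one (hG v)))) ha]
    · intro h
      refine ⟨x ^ t, h, (x ^ t)⁻¹ * x, ?_, ?_, ?_, ?_⟩
      · rw [mul_assoc, ← pow_succ', pow_succ, inv_mul_cancel_left]
      · exact (Commute.refl _).inv_left.mul_left ((Commute.refl x).pow_right t)
      · exact hcop.coprime_dvd_left (orderOf_dvd_of_pow_eq_one (part_pow_right (hG x) ha))
      · exact hcop.symm.coprime_dvd_left (orderOf_dvd_of_pow_eq_one (part_pow_left (hG x) hb))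
  simp only [key] at hϑ1 hϑ0
  have hval : ∀ x, ϑ x = if IsConj (x ^ t) g then (n : ℂ) else 0 := fun x => by
    split_ifs with h
    exacts [hϑ1 x h, hϑ0 x h]
  have hcl : IsClassFunction G ϑ := fun x h => by
    rw [hval, hval, conj_pow]
    refine if_congr ⟨fun h' => IsConj.trans ?_ h', fun h' => IsConj.trans (IsConj.symm ?_) h'⟩ rfl rfl
    all_goals exact isConj_iff.2 ⟨h, rfl⟩
  refine ⟨fun χ => classInner ϑ χ, fun χ => ?_, ?_⟩
  · refine classInner_mem_of_elementary (AlgInt.toSubring.toAddSubgroup) hcl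
      (fun E _ p hp hE lam => ?_) χ.2.isGen
    have := isNilpotent_of_isElementary hp hE
    refine inner_int hcop.symm ?_ ha hb _ (fun e => ?_) (fun e => ?_) lam
    · rw [mul_comm, ← hmn]; exact Subgroup.card_subgroup_dvd_card _
    · rw [hval, hval, SubgroupClass.coe_pow, pow_part_eq_self (part_pow_left (hG _) hb) ha]
    · rw [hval]; split_ifs <;> simp
  · rw [finsum_eq_sum_of_fintype]
    exact hcl.eq_sum_irr

end Cfsg.Agent.S0875
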