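import Cfsg.Statements.S0876
import Cfsg.Agent.Block.IBrBlock
import Cfsg.Agent.Char.Zeros

set_option autoImplicit false
open Cfsg

namespace Cfsg.Agent.S0876

open Cfsg.Agent.Char Cfsg.Agent.Block ComplexConjugate in
theorem red_pReg {G : Type*} [Group G] [Finite G] {p : ℕ} [Fact p.Prime] {M : Ideal AlgInt}
    (hM : IsPModular p M) {χ : G → ℂ} (hχ : IsCharacter G χ) (x : G) :
    red M (χ (pReg p x)) = red M (χ x) := by
  have := charP_resField hM
  obtain ⟨k, hk⟩ := pow_pow_eq_one_of_orderOf (orderOf_pPart p x)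
  have h1 : ∀ g : G, red M (χ g) ^ p ^ k = red M (χ (g ^ p ^ k)) := fun g => by
    obtain ⟨γ, hγ, h⟩ := hχ.exists_pow_prime_pow_eq hM.1 k g
    rw [← red_pow (val_char_le_one hχ g), h, red_add (val_char_le_one hχ _)
      (val_mul_le_one (val_natCast_le_one p) (val_le_one_of_isIntegral hγ)),
      red_mul (val_natCast_le_one p) (val_le_one_of_isIntegral hγ), red_natCast,
      CharP.cast_eq_zero, zero_mul, add_zero]
  have h2 : x ^ p ^ k = pReg p x ^ p ^ k := by
    conv_lhs => rw [← pPart_mul_pReg p x, (commute_pPart_pReg p x).mul_pow, hk, one_mul]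
  rw [← sub_eq_zero, ← pow_eq_zero_iff (pow_pos hM.1.pos k).ne', sub_pow_char_pow, h1, h1, h2,
    sub_self]

open Cfsg.Agent.Char Cfsg.Agent.Block ComplexConjugate in
theorem isConj_of_red {G : Type*} [Group G] [Finite G] {p : ℕ} [Fact p.Prime] {M : Ideal AlgInt}
    (hM : IsPModular p M) {x y : G} (hx : ¬ p ∣ orderOf x) (hy : ¬ p ∣ orderOf y)
    (h : ∀ χ : IrrCharacter G, val M (χ.1 x - χ.1 y) < 1) : IsConj x y := by
  classical
  have := Fintype.ofFinite G
  by_contra hc
  have h1 : ∀ i : IBr M G, val M (brauer i x - brauer i y) < 1 := fun i => by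
    obtain ⟨a, -, ha⟩ := (isGen_brauer_pReg hM i).exists_coeff
    have e1 := congrFun ha x
    have e2 := congrFun ha y
    simp only [pReg_eq_self_iff.2 hx, pReg_eq_self_iff.2 hy, Finset.sum_apply, Pi.smul_apply,
      smul_eq_mul] at e1 e2
    rw [e1, e2, ← Finset.sum_sub_distrib]
    refine val_sum_lt_one fun χ _ => ?_
    rw [← mul_sub]
    exact val_mul_lt_one_right (val_intCast_le_one _) (h χ)
  have h2 : ∀ z : G, ¬ p ∣ orderOf z → ∑ χ : IrrCharacter G, χ.1 z * conj (χ.1 x) =
      ∑ i : IBr M G, brauer i z * pim i x⁻¹ := fun z hz => by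
    simp only [pim_apply, Finset.mul_sum]
    rw [Finset.sum_comm]
    refine Finset.sum_congr rfl fun χ _ => ?_
    rw [irr_eq_sum_dec hM χ hz, Finset.sum_mul, ← χ.2.map_inv]
    exact Finset.sum_congr rfl fun i _ => by ring
  choose c hc1 hc2 using fun i : IBr M G => pim_eq_card_mul i x⁻¹
  have h3 := h2 x hx
  have h4 := h2 y hy
  rw [sum_irr_mul_conj_of_isConj (IsConj.refl x)] at h3
  rw [sum_irr_mul_conj_of_not_isConj fun h => hc h.symm] at h4
  have h5 : Subgroup.centralizer ({x⁻¹} : Set G) = Subgroup.centralizer ({x} : Set G) := by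
    ext g
    simp only [Subgroup.mem_centralizer_singleton_iff]
    exact ⟨fun h => by simpa using (Commute.inv_right h).eq, fun h => (Commute.inv_right h).eq⟩
  have h6 : ∑ i : IBr M G, (brauer i x - brauer i y) * c i = 1 := by
    apply mul_left_cancel₀ (card_ne_zero (Subgroup.centralizer ({x} : Set G)))
    simp only [hc2, h5] at h3 h4
    rw [mul_one, Finset.mul_sum]
    refine Eq.trans ?_ ((congrArg₂ (· - ·) h3 h4).symm.trans (sub_zero _))
    rw [← Finset.sum_sub_distrib]
    exact Finset.sum_congr rfl fun i _ => by ring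
  have h7 : val M (∑ i : IBr M G, (brauer i x - brauer i y) * c i) < 1 :=
    val_sum_lt_one fun i _ => val_mul_lt_one_left (h1 i) (hc1 i)
  rw [h6, map_one] at h7
  exact lt_irrefl _ h7

open Cfsg.Agent.Char Cfsg.Agent.Block in

/-- Let G be a finite group, p a prime and M a maximal ideal of the ring of algebraic integers containing p. Let x, y be elements with p-parts a and b (so a⁻¹ * x and b⁻¹ * y are their p-regular parts). Then a⁻¹ * x and b⁻¹ * y are conjugate in G if and only if, for every irreducible character χ, the difference χ x - χ y lies in the local ideal at M. -/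
theorem result {G : Type*} [Group G] [Finite G] (p : ℕ) (M : Ideal Cfsg.AlgInt) (hM : Cfsg.IsPModular p M) (x y a b : G) (ha : Cfsg.IsPPart p x a) (hb : Cfsg.IsPPart p y b) : IsConj (a⁻¹ * x) (b⁻¹ * y) ↔ ∀ χ : Cfsg.IrrCharacter G, Cfsg.MemLocalIdeal M ((χ : G → ℂ) x - (χ : G → ℂ) y) := by
  have := Fact.mk hM.1
  rw [← pPart_eq_of_isPPart ha, ← pPart_eq_of_isPPart hb]
  change IsConj (pReg p x) (pReg p y) ↔ _
  have h1 : ∀ χ : IrrCharacter G, MemLocalIdeal M (χ.1 x - χ.1 y) ↔
      val M (χ.1 (pReg p x) - χ.1 (pReg p y)) < 1 := fun χ => by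
    rw [memLocalIdeal_sub_iff_red hM (memLocalRing_of_isIntegral hM (χ.2.isCharacter.isIntegral _))
      (memLocalRing_of_isIntegral hM (χ.2.isCharacter.isIntegral _)),
      ← red_eq_iff (val_irr_le_one χ _) (val_irr_le_one χ _), red_pReg hM χ.2.isCharacter,
      red_pReg hM χ.2.isCharacter]
  simp only [h1]
  refine ⟨fun h χ => ?_, isConj_of_red hM (not_dvd_orderOf_pReg p x) (not_dvd_orderOf_pReg p y)⟩
  rw [χ.2.isClassFunction.eq_of_isConj h, sub_self, map_zero]
  exact zero_lt_one

end Cfsg.Agent.S0876
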