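import Mathlib
import Cfsg.Statements.S0882
import Cfsg.Agent.Perm.ZassOdd
-- import your own Cfsg.Agent.* helpers here

set_option autoImplicit false
open Cfsg

namespace Cfsg.Agent.S0882

/-- Let G be a finite simple Zassenhaus group on Ω with n = h + 1 points whose two-point stabilizer E has odd order e with 2e < h - 1. Then any two involutions of G are conjugate, and the number of involutions is e * (h + 1) if h is even and e * h if h is odd. -/
theorem result {G Ω : Type*} [Group G] [Finite G] [MulAction G Ω] [Fintype Ω] (hZ : Cfsg.IsZassenhausGroup G Ω) {a b : Ω} (hab : a ≠ b) [IsSimpleGroup G] (h e : ℕ) (hh : Fintype.card Ω = h + 1) (he : Nat.card ↥(MulAction.stabilizer G a ⊓ MulAction.stabilizer G b : Subgroup G) = e) (hodd : Odd e) (hlt : 2 * e < h - 1) : (∀ x y : G, orderOf x = 2 → orderOf y = 2 → IsConj x y) ∧ Nat.card {x : G // orderOf x = 2} = (if Even h then e * (h + 1) else e * h) := by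
  rw [← he] at hodd
  refine ⟨fun x y hx hy => Perm.Zass.isConj_of_involutions hZ hab hodd hx hy, ?_⟩
  have h1 := Perm.Zass.card_involutions hZ hab hodd
  rw [he, Nat.card_eq_fintype_card (α := Ω), hh] at h1
  have h0 : 0 < h := by omega
  split_ifs with h2
  · rw [Nat.even_iff] at h2
    rw [show h + 1 - (h + 1) % 2 = h by omega, Nat.add_sub_cancel] at h1
    exact Nat.eq_of_mul_eq_mul_right h0 (by rw [h1]; ring)
  · rw [Nat.even_iff] at h2
    rw [show h + 1 - (h + 1) % 2 = h + 1 by omega, Nat.add_sub_cancel] at h1
    exact Nat.eq_of_mul_eq_mul_right (show 0 < h + 1 by omega) (by rw [h1]; ring)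

end Cfsg.Agent.S0882
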