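import Mathlib
import Cfsg.Statements.S0889
import Cfsg.Agent.Char.Berger
import Cfsg.Agent.Char.Inflate

set_option autoImplicit false
open Cfsg

namespace Cfsg.Agent.S0889
open Cfsg.Agent.Char

universe u

theorem exists_factorization {G : Type u} [Group G] [Finite G] (L K H : Subgroup G)
    [hL : L.Normal] [K.Normal] [Fintype L] (hLH : L ≤ H) (hLK : L ≤ K) (hinf : K ⊓ H ≤ L)
    (hsup : K ⊔ H = ⊤) {ϑ : H → ℂ} (hϑ : IsIrrCharacter H ϑ) {φ : L → ℂ}
    (hφ : IsIrrCharacter L φ) (hover : classInner (fun n : L => ϑ ⟨n, hLH n.2⟩) φ ≠ 0)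
    (hinv : ∀ g ∈ H, ∀ n : L, φ ⟨g * n * g⁻¹, hL.conj_mem n n.2 g⟩ = φ n) :
    ∃ (Γ : Type u) (_ : Group Γ) (_ : Finite Γ) (π : Γ →* G) (β : Γ → ℂ) (φ' : H.comap π → ℂ),
      Function.Surjective π ∧ IsCharacter Γ β ∧ (∀ x, π x ∈ L → β x ≠ 0) ∧
      IsCharacter (H.comap π) φ' ∧
      IsIrrCharacter (L.comap π) (fun x => φ' ⟨x, hLH x.2⟩) ∧
      ∀ x : H.comap π, ϑ ⟨π x, x.2⟩ = φ' x * β x := by
  have := Fintype.ofFinite (L.subgroupOf H)
  have hφ₁ := isIrr_subgroupOf hLH hφ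
  obtain ⟨Γ, _, _, π, s, θ', h⟩ := exists_isTripleLift (L.subgroupOf H) hφ₁
    fun g n => hinv g g.2 ⟨_, n.2⟩
  obtain ⟨β, hβ, hβs, hfac⟩ := h.exists_factor hφ₁ hϑ (by
    rw [← classInner_subgroupOf hLH] at hover; exact hover)
  have := h.normal_range
  obtain ⟨β', hβ', hβ'β⟩ := exists_deflation s.range hβ.isCharacter
    (by rintro _ ⟨n, rfl⟩; exact hβs n)
  let ρ : Γ ⧸ s.range →* G ⧸ K := QuotientGroup.lift s.range
    ((QuotientGroup.mk' K).comp (H.subtype.comp π)) (by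
      rintro _ ⟨n, rfl⟩
      rw [MonoidHom.mem_ker, MonoidHom.comp_apply, MonoidHom.comp_apply, h.sec]
      exact (QuotientGroup.eq_one_iff _).2 (hLK n.2))
  have hρ : ∀ γ : Γ, ρ γ = ((π γ : H) : G) := fun _ => rfl
  let P : Subgroup (G × (Γ ⧸ s.range)) :=
    MonoidHom.eqLocus ((QuotientGroup.mk' K).comp (MonoidHom.fst _ _)) (ρ.comp (MonoidHom.snd _ _))
  have hP : ∀ x : G × (Γ ⧸ s.range), x ∈ P ↔ (x.1 : G ⧸ K) = ρ x.2 := fun _ => Iff.rfl
  let p₁ : P →* G := (MonoidHom.fst _ _).comp P.subtype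
  let p₂ : P →* Γ ⧸ s.range := (MonoidHom.snd _ _).comp P.subtype
  have hp₁ : Function.Surjective p₁ := by
    intro g
    obtain ⟨k, hk, x, hx, rfl⟩ := exists_mul_of_sup_eq_top hsup g
    obtain ⟨γ, hγ⟩ := h.surj ⟨x, hx⟩
    refine ⟨⟨(k * x, γ), ?_⟩, rfl⟩
    rw [hP, hρ, hγ, QuotientGroup.mk_mul, (QuotientGroup.eq_one_iff k).2 hk, one_mul]
  let ι : Γ →* H.comap p₁ :=
    (((H.subtype.comp π).prod (QuotientGroup.mk' s.range)).codRestrict P fun _ => rfl).codRestrict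
      (H.comap p₁) fun γ => (π γ).2
  have hι : Function.Bijective ι := by
    constructor
    · rw [injective_iff_map_eq_one]
      intro γ hγ
      have h1 : ((π γ : H) : G) = 1 := congrArg (fun x : H.comap p₁ => p₁ x) hγ
      have h2 : (γ : Γ ⧸ s.range) = 1 := congrArg (fun x : H.comap p₁ => p₂ x) hγ
      have h3 : γ ∈ π.ker ⊓ s.range := ⟨Subtype.ext h1, (QuotientGroup.eq_one_iff γ).1 h2⟩
      rwa [h.disjoint] at h3
    · rintro ⟨⟨⟨x, q⟩, hxq⟩, hx⟩
      obtain ⟨γ, rfl⟩ := QuotientGroup.mk_surjective q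
      rw [hP, hρ, eq_comm, QuotientGroup.eq] at hxq
      have h1 : ((π γ : H) : G)⁻¹ * x ∈ L := hinf ⟨hxq, H.mul_mem (H.inv_mem (π γ).2) hx⟩
      refine ⟨γ * s ⟨(π γ)⁻¹ * ⟨x, hx⟩, h1⟩, Subtype.ext (Subtype.ext (Prod.ext ?_ ?_))⟩
      · change ((π (γ * s _) : H) : G) = x
        rw [map_mul, h.sec]
        simp
      · exact QuotientGroup.mk_mul_of_mem _ ⟨_, rfl⟩
  let e := MulEquiv.ofBijective ι hι
  have hc : IsCharacter (H.comap p₁) (fun x => θ' (e.symm x)) :=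
    h.irr.isCharacter.comp e.symm.toMonoidHom
  refine ⟨P, inferInstance, inferInstance, p₁, fun x => β' (p₂ x), fun x => θ' (e.symm x), hp₁,
    hβ'.comp p₂, fun x hx => ?_, hc, ?_, fun x => ?_⟩
  · obtain ⟨γ, hγ⟩ := hι.2 ⟨x, hLH hx⟩
    have h1 : x = ι γ := (congrArg Subtype.val hγ).symm
    subst h1
    change β' (γ : Γ ⧸ s.range) ≠ 0
    rw [hβ'β, ← norm_ne_zero_iff, h.norm_eq hβ hβs hx, norm_ne_zero_iff]
    exact hβ.one_ne_zero
  · refine isIrr_of_comp_isIrr (hc.comp (Subgroup.inclusion (Subgroup.comap_mono hLH)))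
      (((H.comap p₁).subtype.comp (ι.comp s)).codRestrict (L.comap p₁) fun n => ?_) ?_
    · change ((π (s n) : H) : G) ∈ L
      rw [h.sec]; exact n.2
    · convert hφ₁ using 2 with n
      change θ' (e.symm (e (s n))) = _
      rw [e.symm_apply_apply, h.apply_sec]
  · obtain ⟨γ, rfl⟩ := hι.2 x
    change ϑ (π γ) = θ' (e.symm (e γ)) * β' (γ : Γ ⧸ s.range)
    rw [e.symm_apply_apply, hβ'β, hfac, mul_comm]

/-- Let G be a finite solvable group and χ an irreducible character of G such that for every normal subgroup N the restriction of χ to N is a natural-number multiple of one irreducible character of N. Then χ is not induced from a character of any proper subgroup. -/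
theorem result {G : Type*} [Group G] [Fintype G] [Group.IsSolvable G] (χ : G → ℂ) (hχ : Cfsg.IsIrrCharacter G χ) (hqp : ∀ (N : Subgroup G), N.Normal → ∃ (ϑ : N → ℂ) (e : ℕ), Cfsg.IsIrrCharacter N ϑ ∧ (fun n : N => χ n) = (e : ℂ) • ϑ) (K : Subgroup G) (hK : K ≠ ⊤) (ψ : K → ℂ) (hψ : Cfsg.IsCharacter K ψ) : Cfsg.indFun K ψ ≠ χ := by
  intro hKψ
  -- a maximal subgroup inducing `χ` whose core is as large as possible
  obtain ⟨H₀, ⟨hH₀, ϑ₀, hϑ₀, hϑ₀χ⟩, hmax₀⟩ := Set.Finite.exists_maximalFor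
    (fun H : Subgroup G => H.normalCore)
    {H : Subgroup G | H ≠ ⊤ ∧ ∃ ϑ : H → ℂ, IsCharacter H ϑ ∧ indFun H ϑ = χ} (Set.toFinite _)
    ⟨K, hK, ψ, hψ, hKψ⟩
  obtain ⟨H, hH, hH₀H⟩ := (eq_top_or_exists_le_coatom H₀).resolve_left hH₀
  have := Fintype.ofFinite H
  set ϑ : H → ℂ := indFun (H₀.subgroupOf H) (fun x => ϑ₀ ⟨(x : H), x.2⟩) with hϑdef
  have hϑc : IsCharacter H ϑ := isCharacter_indFun _ (hϑ₀.comp (subgroupOfToLeft H₀ H))
  have hϑχ : indFun H ϑ = χ := (indFun_indFun H₀ H hH₀H ϑ₀).trans hϑ₀χ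
  clear_value ϑ
  have hmax : ∀ (T : Subgroup G) (ω : T → ℂ), T ≠ ⊤ → IsCharacter T ω → indFun T ω = χ →
      H.normalCore ≤ T → T.normalCore ≤ H.normalCore := fun T ω h1 h2 h3 h4 =>
    (hmax₀ ⟨h1, ω, h2, h3⟩ ((Subgroup.normalCore_mono hH₀H).trans
      (Subgroup.normal_le_normalCore.2 h4))).trans (Subgroup.normalCore_mono hH₀H)
  subst hϑχ
  have hϑ := isIrr_of_isIrr_indFun H hϑc hχ
  set L := H.normalCore with hL
  have hLH : L ≤ H := H.normalCore_le
  have hLn : L.Normal := inferInstance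
  have := Fintype.ofFinite L
  obtain ⟨φ, e, hφ, he⟩ := hqp L hLn
  have he0 : (e : ℂ) ≠ 0 := by
    intro h0
    have := congrFun he 1
    rw [h0, zero_smul] at this
    exact hχ.one_ne_zero this
  have hφinv : ∀ (g : G) (n : L), φ ⟨g * n * g⁻¹, hLn.conj_mem n n.2 g⟩ = φ n := by
    intro g n
    refine mul_left_cancel₀ he0 ?_
    exact (congrFun he ⟨_, hLn.conj_mem n n.2 g⟩).symm.trans
      ((hχ.isClassFunction n g).trans (congrFun he n))
  have hϑL : (fun n : L => ϑ ⟨n, hLH n.2⟩) = classInner (fun n : L => ϑ ⟨n, hLH n.2⟩) φ • φ :=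
    eq_inner_smul_of_add_eq_smul (hϑc.comp (Subgroup.inclusion hLH))
      (((hχ.isCharacter.restrict H).sub_irr hϑ (by
        rw [inner_restrict_indFun_eq_one H hχ]; exact one_ne_zero)).comp (Subgroup.inclusion hLH))
      hφ (c := e) (by rw [← he]; funext n; exact add_sub_cancel _ _)
  have hover : classInner (fun n : L => ϑ ⟨n, hLH n.2⟩) φ ≠ 0 := by
    intro h0
    rw [h0, zero_smul] at hϑL
    exact hϑ.one_ne_zero (congrFun hϑL 1)
  obtain ⟨p, K, hp, hK, hLK, -, hKp, -, -⟩ := exists_chief_factor_above L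
    (fun h => hH.1 (top_le_iff.1 (h ▸ hLH))) inferInstance
  have hKH : ¬ K ≤ H := fun h => hLK.not_ge (Subgroup.normal_le_normalCore.2 h)
  have hsup : K ⊔ H = ⊤ := hH.2 _ (lt_of_le_of_ne le_sup_right fun h => hKH (h ▸ le_sup_left))
  have hinf : K ⊓ H ≤ L := inf_le_normalCore_of_pow_mem hH hLK.le hKH hp
    fun m hm => ⟨1, by rw [pow_one]; exact hKp m hm⟩
  obtain ⟨Γ, _, _, π, β, φ', hπ, hβ, hβ0, hφ', hφ'L, hfac⟩ :=
    exists_factorization L K H hLH hLK.le hinf hsup hϑ hφ hover fun g _ n => hφinv g n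
  have := Fintype.ofFinite Γ
  have hχ' := hχ.comp_surjective π hπ
  have hprod : (fun x => indFun H ϑ (π x)) = indFun (H.comap π) φ' * β := by
    rw [← indFun_comap_surjective π hπ H ϑ, funext hfac,
      indFun_mul_restrict _ _ hβ.isClassFunction]
    rfl
  have hξ : IsIrrCharacter Γ (indFun (H.comap π) φ') :=
    isIrr_of_isIrr_mul (isCharacter_indFun _ hφ') hβ (hprod ▸ hχ')
  have hsolv : Group.IsSolvable (Γ ⧸ L.comap π) :=
    Group.isSolvable_of_isSolvable_injective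
      (f := QuotientGroup.map (L.comap π) L π le_rfl) (by
        rw [injective_iff_map_eq_one]
        intro q hq
        obtain ⟨x, rfl⟩ := QuotientGroup.mk_surjective q
        rw [QuotientGroup.map_mk, QuotientGroup.eq_one_iff] at hq
        exact (QuotientGroup.eq_one_iff x).2 hq)
  obtain ⟨M, hM, hLM, hnh⟩ := exists_normal_not_homogeneous (L.comap π) (H.comap π)
    (Subgroup.comap_mono hLH) (Subgroup.isCoatom_comap_of_surjective hπ hH) hsolv φ'
    (isIrr_of_isIrr_indFun _ hφ' hξ) hφ'L hξ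
  have := Fintype.ofFinite M
  apply hnh
  have hhom : ∀ η : M → ℂ, IsIrrCharacter M η →
      classInner (fun m : M => indFun (H.comap π) φ' m) η ≠ 0 → (∀ g, conjChar M η g = η) →
      ∃ (φ : M → ℂ) (e : ℕ), IsIrrCharacter M φ ∧
        (fun m : M => indFun (H.comap π) φ' m) = (e : ℂ) • φ := by
    intro η hη h1 h2
    obtain ⟨n, hn⟩ := (hξ.isCharacter.restrict M).exists_nat_inner hη.isCharacter
    exact ⟨η, n, hη, hn ▸ clifford_invariant M hξ hη h1 h2⟩
  by_cases hML : M = L.comap π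
  · subst hML
    have := Fintype.ofFinite (H.comap π)
    refine hhom _ hφ'L ?_ fun g => ?_
    · exact inner_comp_ne_zero_of_sub (Subgroup.inclusion (Subgroup.comap_mono hLH)) hφ'
        ((hξ.isCharacter.restrict _).sub_irr (isIrr_of_isIrr_indFun _ hφ' hξ) (by
          rw [inner_restrict_indFun_eq_one _ hξ]; exact one_ne_zero)) hφ'L.isCharacter (by
          change classInner (fun x : L.comap π => φ' ⟨x, hLH x.2⟩) _ ≠ 0
          rw [hφ'L.inner_self]; exact one_ne_zero)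
    · funext x
      rw [conjChar_apply]
      refine mul_right_cancel₀ (hβ0 x x.2) ?_
      have h1 := hfac ⟨x, hLH x.2⟩
      have h2 := hfac ⟨g * x * g⁻¹, hLH (hM.conj_mem _ x.2 g)⟩
      have h3 := congrFun hϑL ⟨π x, x.2⟩
      have h4 := congrFun hϑL ⟨π (g * x * g⁻¹), hM.conj_mem _ x.2 g⟩
      have h5 : φ ⟨π (g * x * g⁻¹), hM.conj_mem _ x.2 g⟩ = φ ⟨π x, x.2⟩ := by
        rw [← hφinv (π g) ⟨π x, x.2⟩]
        congr 1
        exact Subtype.ext (by simp)
      simp only [Pi.smul_apply] at h3 h4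
      rw [h5, ← h3] at h4
      simp only [hβ.isClassFunction (x : Γ) g] at h2
      exact h2.symm.trans (h4.trans h1)
  obtain ⟨η, hη, hηξ⟩ := exists_irr_inner_restrict_ne_zero M hξ
  by_cases hT : inertia M η = ⊤
  · exact hhom η hη hηξ fun g => (mem_inertia M).1 (hT ▸ Subgroup.mem_top g)
  exfalso
  have := Fintype.ofFinite (inertia M η)
  have hMT := le_inertia M hη.isClassFunction
  obtain ⟨ξ, hξ1, hξ2, -⟩ := exists_clifford_corr hMT hη le_rfl hξ hηξ
  have hker : π.ker ≤ M := fun z hz => hLM (by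
    rw [Subgroup.mem_comap, MonoidHom.mem_ker.1 hz]; exact L.one_mem)
  obtain ⟨ω, hω, hωχ, -⟩ := exists_indFun_map_eq π hπ (inertia M η) (hker.trans hMT)
    (hξ1.isCharacter.mul (hβ.restrict _)) hχ (by
      rw [hprod, ← hξ2]; exact indFun_mul_restrict _ _ hβ.isClassFunction)
  have hLM' : L ≤ M.map π := by
    rw [← Subgroup.map_comap_eq_self_of_surjective hπ L]
    exact Subgroup.map_mono hLM
  have h1 := hmax _ ω (fun h => hT (by
    rw [← sup_eq_left.2 (hker.trans hMT), ← Subgroup.comap_map_eq, h, Subgroup.comap_top]))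
    hω.isCharacter hωχ (hLM'.trans (Subgroup.map_mono hMT))
  have := hM.map π hπ
  exact hML (le_antisymm (Subgroup.map_le_iff_le_comap.1
    ((Subgroup.normal_le_normalCore.2 (Subgroup.map_mono hMT)).trans h1)) hLM)

end Cfsg.Agent.S0889
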