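import Cfsg.Statements.S0891
import Cfsg.Agent.Perm.AltCover

set_option autoImplicit false
open Cfsg

namespace Cfsg.Agent.S0891

open Cfsg.Agent.AltCover



/-- For every n ≥ 4 there are a finite group Γ and a central element z of Γ of order 2 lying in the commutator subgroup of Γ such that the quotient of Γ by the (normal) subgroup generated by z is isomorphic to the alternating group on n letters. -/
theorem result (n : ℕ) (hn : 4 ≤ n) : ∃ (Γ : Type) (_ : Group Γ) (_ : Finite Γ) (z : Γ) (hz : z ∈ Subgroup.center Γ), orderOf z = 2 ∧ z ∈ commutator Γ ∧ ∃ _ : (Subgroup.zpowers z).Normal, Nonempty (Γ ⧸ Subgroup.zpowers z ≃* alternatingGroup (Fin n)) := by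
  refine ⟨Cov (Fin n), inferInstance, inferInstance, zA _, zA_mem_center, orderOf_zA, ?_, ?_⟩
  · obtain ⟨x, y, h⟩ := exists_commutator_eq_zA (α := Fin n) (a := ⟨0, by omega⟩)
      (b := ⟨1, by omega⟩) (c := ⟨2, by omega⟩) (d := ⟨3, by omega⟩) (by simp) (by simp) (by simp)
      (by simp) (by simp) (by simp)
    rw [← h]
    exact Subgroup.commutator_mem_commutator (Subgroup.mem_top x) (Subgroup.mem_top y)
  · have hN : (Subgroup.zpowers (zA (Fin n))).Normal := ker_projA (α := Fin n) ▸ (projA _).normal_ker
    refine ⟨hN, ⟨?_⟩⟩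
    exact (QuotientGroup.quotientMulEquivOfEq ker_projA.symm).trans
      (QuotientGroup.quotientKerEquivOfSurjective _ projA_surjective)

end Cfsg.Agent.S0891
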