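import Cfsg.Statements.S0893
import Cfsg.Agent.Char.ExtraspecialChar

set_option autoImplicit false
open Cfsg

namespace Cfsg.Agent.S0893

open Cfsg.Agent.Char in

/-- Let P be an extraspecial p-group of order p ^ (2 * n + 1), A an abelian subgroup of order p ^ (n + 1), and λ a character of A of degree 1 that is not identically 1 on the elements of A lying in the centre of P. Then the function induced from λ to P is an irreducible character of P and vanishes at every element outside the centre. -/
theorem result {P : Type*} [Group P] [Fintype P] (p n : ℕ) [Fact p.Prime] (hP : Cfsg.IsExtraspecial p P) (hcard : Nat.card P = p ^ (2 * n + 1)) (A : Subgroup P) (hab : ∀ a ∈ A, ∀ b ∈ A, a * b = b * a) (hA : Nat.card A = p ^ (n + 1)) (lam : A → ℂ) (hlam : Cfsg.IsCharacter A lam ∧ lam 1 = 1) (hZ : ∃ a : A, (a : P) ∈ Subgroup.center P ∧ lam a ≠ 1) : Cfsg.IsIrrCharacter P (Cfsg.indFun A lam) ∧ ∀ x : P, x ∉ Subgroup.center P → Cfsg.indFun A lam x = 0 := by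
  have := Fintype.ofFinite A
  have hl := hlam.1.isIrr_of_one hlam.2
  obtain ⟨χ, hχ, h⟩ := exists_irr_over A hl
  obtain ⟨a, ha, ha'⟩ := hZ
  have hz : ∃ z ∈ Subgroup.center P, χ z ≠ χ 1 := by
    by_contra h1
    push Not at h1
    have h2 := extraspecial_irr_one_eq_one hP hχ h1
    have h3 := ((hχ.isCharacter.restrict A).isIrr_of_one h2).eq_of_inner_ne_zero hl h
    exact ha' (by rw [← congrFun h3 a, h1 a ha, h2])
  have hi : A.index = p ^ n := by
    have h1 := A.card_mul_index
    rw [hA, hcard, show 2 * n + 1 = n + 1 + n by ring, pow_add p (n + 1) n] at h1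
    exact Nat.eq_of_mul_eq_mul_left (pow_pos (Fact.out : p.Prime).pos _) h1
  have e : indFun A lam = χ := (isCharacter_indFun A hlam.1).eq_of_inner_ne_zero_of_one_eq hχ
    (by rwa [classInner_indFun_eq_restrict A hl.isGen hχ.isGen])
    (by rw [indFun_one, hlam.2, extraspecial_irr_one hP hcard hχ hz, hi, mul_one, Nat.cast_pow])
  rw [e]
  exact ⟨hχ, fun x => extraspecial_irr_vanish hP hχ hz⟩

end Cfsg.Agent.S0893
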