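import Cfsg.Statements.S0897
import Cfsg.Agent.Char.LocalExt

set_option autoImplicit false
open Cfsg

namespace Cfsg.Agent.S0897

open Cfsg.Agent.Char in

/-- Let N be a normal subgroup of the finite group G with the index of N a power of the prime p, and P a Sylow p-subgroup of G such that P ⊓ N lies in the centre of P and every character of degree 1 of P ⊓ N is the restriction of a character of degree 1 of P. Then every irreducible character of N invariant under conjugation by G is the restriction of an irreducible character of G. -/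
theorem result {G : Type*} [Group G] [Fintype G] (p : ℕ) [Fact p.Prime] (N : Subgroup G) [hN : N.Normal] (hind : ∃ k : ℕ, N.index = p ^ k) (P : Sylow p G) (hcent : ∀ x ∈ (P : Subgroup G) ⊓ N, ∀ y ∈ (P : Subgroup G), x * y = y * x) (hlin : ∀ lam : ↥((P : Subgroup G) ⊓ N) → ℂ, Cfsg.IsCharacter ↥((P : Subgroup G) ⊓ N) lam → lam 1 = 1 → ∃ μ : ↥(P : Subgroup G) → ℂ, Cfsg.IsCharacter ↥(P : Subgroup G) μ ∧ μ 1 = 1 ∧ ∀ x : ↥((P : Subgroup G) ⊓ N), μ ⟨(x : G), x.2.1⟩ = lam x) (ϑ : N → ℂ) (hϑ : Cfsg.IsIrrCharacter N ϑ) (hinv : ∀ (g : G) (n : N), ϑ ⟨g * n * g⁻¹, hN.conj_mem (n : G) n.2 g⟩ = ϑ n) : ∃ χ : G → ℂ, Cfsg.IsIrrCharacter G χ ∧ ∀ n : N, χ n = ϑ n := by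
  obtain ⟨k, hk⟩ := hind
  refine exists_extension_of_commutator_inf N hk P (fun y hy hyN => ?_) hϑ hinv
  have := Fintype.ofFinite ↥((P : Subgroup G) ⊓ N)
  have h1 : IsConj (⟨y, y.2, hyN⟩ : ↥((P : Subgroup G) ⊓ N)) 1 := by
    rw [isConj_iff_irr]
    intro lam
    have h2 := lam.2.one_eq_one_of_comm fun a b => Subtype.ext (hcent a a.2 b b.2.1)
    obtain ⟨μ, hμ, hμ1, hμ2⟩ := hlin lam.1 lam.2.isCharacter h2
    have h3 : μ y = μ 1 := (mem_charKer_iff hμ).1 (commutator_le_charKer_of_one hμ hμ1 hy)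
    rw [← hμ2, h2, ← hμ1, ← h3]
  exact Subtype.ext (congrArg (fun x : ↥((P : Subgroup G) ⊓ N) => (x : G)) (isConj_one_left.1 h1))

end Cfsg.Agent.S0897
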