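import Cfsg.Statements.S0900
import Cfsg.Agent.Char.Restrict
import Cfsg.Agent.Char.Monomial

set_option autoImplicit false
open Cfsg

namespace Cfsg.Agent.S0900

open Cfsg.Agent.Char in

/-- Let N be a normal subgroup of the finite group G, χ an irreducible character of G and ϑ an irreducible character of N having nonzero inner product with the restriction of χ. Consider: (a) the restriction of χ to N is e • ϑ for a natural number e with e ^ 2 equal to the index of N; (b) χ vanishes outside N and ϑ is invariant under conjugation by G; (c) ϑ is invariant and every irreducible character of G having nonzero inner product with the function induced from ϑ equals χ. Then (a) ↔ (b) and (a) ↔ (c). -/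
theorem result {G : Type*} [Group G] [Fintype G] (N : Subgroup G) [hN : N.Normal] [Fintype N] (χ : G → ℂ) (hχ : Cfsg.IsIrrCharacter G χ) (ϑ : N → ℂ) (hϑ : Cfsg.IsIrrCharacter N ϑ) (hcon : Cfsg.classInner (fun n : N => χ n) ϑ ≠ 0) : ((∃ e : ℕ, (fun n : N => χ n) = (e : ℂ) • ϑ ∧ e ^ 2 = N.index) ↔ ((∀ g : G, g ∉ N → χ g = 0) ∧ ∀ (g : G) (n : N), ϑ ⟨g * n * g⁻¹, hN.conj_mem (n : G) n.2 g⟩ = ϑ n)) ∧ ((∃ e : ℕ, (fun n : N => χ n) = (e : ℂ) • ϑ ∧ e ^ 2 = N.index) ↔ (∀ (g : G) (n : N), ϑ ⟨g * n * g⁻¹, hN.conj_mem (n : G) n.2 g⟩ = ϑ n ∧ ∀ ψ : G → ℂ, Cfsg.IsIrrCharacter G ψ → Cfsg.classInner (Cfsg.indFun N ϑ) ψ ≠ 0 → ψ = χ)) := by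
  obtain ⟨e, he⟩ := (hχ.isCharacter.restrict N).exists_nat_inner hϑ.isCharacter
  have he0 : (e : ℂ) ≠ 0 := he ▸ hcon
  have hI := isCharacter_indFun N hϑ.isCharacter
  have hIe : classInner (indFun N ϑ) χ = e := by
    rw [classInner_indFun_eq_restrict N hϑ.isGen hχ.isGen, he]
  have h1 : ∀ f : ℕ, (fun n : N => χ n) = (f : ℂ) • ϑ → f = e := fun f hf => by
    rw [hf, classInner_smul_left, hϑ.inner_self, mul_one] at he
    exact_mod_cast he
  have h2 : (fun n : N => χ n) = (e : ℂ) • ϑ →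
      ∀ (g : G) (n : N), ϑ ⟨g * n * g⁻¹, hN.conj_mem (n : G) n.2 g⟩ = ϑ n := fun hf g n => by
    apply mul_left_cancel₀ he0
    have e1 := congrFun hf n
    have e2 := congrFun hf ⟨g * n * g⁻¹, hN.conj_mem (n : G) n.2 g⟩
    simp only [Pi.smul_apply, smul_eq_mul] at e1 e2
    rw [← e1, ← e2, hχ.isClassFunction]
  have h3 : (∀ (g : G) (n : N), ϑ ⟨g * n * g⁻¹, hN.conj_mem (n : G) n.2 g⟩ = ϑ n) →
      (fun n : N => χ n) = (e : ℂ) • ϑ := fun h => by
    rw [← he]
    exact clifford_invariant N hχ hϑ hcon fun g => funext (h g)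
  have h4 : (fun n : N => χ n) = (e : ℂ) • ϑ → χ 1 = e * ϑ 1 := fun h => congrFun h 1
  constructor
  · constructor
    · rintro ⟨f, hf, hf2⟩
      obtain rfl := h1 f hf
      refine ⟨(vanish_off_iff_inner_restrict N χ).2 ?_, h2 hf⟩
      rw [classInner_self_of_eq_smul hϑ hf, hχ.inner_self, mul_one, ← hf2]
      push_cast; rfl
    · rintro ⟨hv, hinv⟩
      refine ⟨e, h3 hinv, ?_⟩
      rw [vanish_off_iff_inner_restrict, classInner_self_of_eq_smul hϑ (h3 hinv), hχ.inner_self,
        mul_one] at hv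
      exact_mod_cast hv
  · constructor
    · rintro ⟨f, hf, hf2⟩ g n
      obtain rfl := h1 f hf
      refine ⟨h2 hf g n, fun ψ hψ h => ?_⟩
      have h5 := eq_smul_of_inner_mul_one_eq hI hχ (by
        rw [hIe, h4 hf, indFun_one, ← hf2]; push_cast; ring)
      by_contra hne
      rw [h5, classInner_smul_left, hχ.inner_eq_zero hψ (Ne.symm hne), mul_zero] at h
      exact h rfl
    · intro h
      have hf := h3 fun g n => (h g n).1
      refine ⟨e, hf, ?_⟩
      have h5 := eq_inner_smul_of_inner_eq_zero hI hχ fun ξ hξ hne => by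
        by_contra h6
        exact hne ((h 1 1).2 ξ hξ h6)
      have h6 := congrFun h5 1
      rw [hIe, indFun_one, Pi.smul_apply, smul_eq_mul, h4 hf, ← mul_assoc] at h6
      have h7 := mul_right_cancel₀ hϑ.one_ne_zero h6
      rw [← pow_two] at h7
      exact_mod_cast h7.symm

end Cfsg.Agent.S0900
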