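import Mathlib
import Cfsg.Statements.S0901
import Cfsg.Agent.Block.Red

set_option autoImplicit false
open Cfsg

namespace Cfsg.Agent.S0901

open Block Polynomial

theorem exists_pow_eq_one_of_root (p : ℕ) [hp : Fact p.Prime] {k : Type*} [Field k] [CharP k p]
    (x : k) (hne : x ≠ 0) (f : ℤ[X]) (hf : f.Monic) (hx : f.eval₂ (Int.castRingHom k) x = 0) :
    ∃ m : ℕ, ¬ p ∣ m ∧ x ^ m = 1 := by
  let : Algebra (ZMod p) k := ZMod.algebra _ _
  have hint : IsIntegral ℤ x := ⟨f, hf, hx⟩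
  have hint' : IsIntegral (ZMod p) x := hint.tower_top
  let K := IntermediateField.adjoin (ZMod p) {x}
  have : FiniteDimensional (ZMod p) K := IntermediateField.adjoin.finiteDimensional hint'
  have : Finite K := Module.finite_of_finite (ZMod p)
  let : Fintype K := Fintype.ofFinite K
  have hxK : x ∈ K := IntermediateField.mem_adjoin_simple_self _ _
  have hx0 : (⟨x, hxK⟩ : K) ≠ 0 := fun h => hne (congrArg Subtype.val h)
  have h1 := FiniteField.pow_card_sub_one_eq_one (⟨x, hxK⟩ : K) hx0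
  refine ⟨Fintype.card K - 1, ?_, by simpa using congrArg Subtype.val h1⟩
  have : CharP K p := (Algebra.charP_iff (ZMod p) K p).1 inferInstance
  obtain ⟨n, -, hn⟩ := FiniteField.card K p
  intro hd
  have h2 : p ∣ Fintype.card K := by rw [hn]; exact dvd_pow_self _ n.ne_zero
  have h3 : 1 ≤ Fintype.card K := Fintype.card_pos
  have : p ∣ Fintype.card K - (Fintype.card K - 1) := Nat.dvd_sub h2 hd
  rw [Nat.sub_sub_self h3] at this
  exact hp.out.one_lt.ne' (Nat.dvd_one.1 this)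

/-- An algebraic integer outside `M` has a power, with exponent prime to `p`, congruent to one. -/
theorem exists_pow_sub_one (p : ℕ) [Fact p.Prime] (M : Ideal Cfsg.AlgInt)
    (hM : Cfsg.IsPModular p M) (a : Cfsg.AlgInt) (ha : a ∉ M) :
    ∃ m : ℕ, ¬ p ∣ m ∧ red M (a : ℂ) ^ m = 1 := by
  have hc := charP_resField hM
  have ha1 : val M (a : ℂ) = 1 := (val_eq_one_iff_notMem hM.2.1 a).2 ha
  have hne : red M (a : ℂ) ≠ 0 := (red_ne_zero_iff ha1.le).2 ha1
  have h1 : IsIntegral ℤ (⟨(a : ℂ), algInt_mem_valRing a⟩ : valRing M) := by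
    have : IsIntegral ℤ (a : ℂ) := a.2
    exact (isIntegral_algHom_iff (valRing M).subtype.toIntAlgHom
      (valRing M).subtype_injective).1 this
  obtain ⟨f, hf, hx⟩ := h1
  refine exists_pow_eq_one_of_root p _ hne f hf ?_
  have := congrArg (IsLocalRing.residue (valRing M)) hx
  rw [hom_eval₂, map_zero] at this
  rw [red_of_le ha1.le, ← this]
  congr 1

/-- Let M be a maximal ideal of the ring of algebraic integers containing the prime p, and let U be the set of complex roots of unity of order prime to p. Then reduction modulo M is injective on U, and every algebraic integer not in M is congruent modulo M to an element of U (so U maps bijectively onto the nonzero residues). -/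
theorem result (p : ℕ) [Fact p.Prime] (M : Ideal Cfsg.AlgInt) (hM : Cfsg.IsPModular p M) : (∀ ε₁ ε₂ : Cfsg.AlgInt, (∃ m : ℕ, ¬ p ∣ m ∧ (ε₁ : ℂ) ^ m = 1) → (∃ m : ℕ, ¬ p ∣ m ∧ (ε₂ : ℂ) ^ m = 1) → ε₁ - ε₂ ∈ M → ε₁ = ε₂) ∧ (∀ a : Cfsg.AlgInt, a ∉ M → ∃ ε : Cfsg.AlgInt, (∃ m : ℕ, ¬ p ∣ m ∧ (ε : ℂ) ^ m = 1) ∧ a - ε ∈ M) := by
  constructor
  · rintro ε₁ ε₂ ⟨m₁, hm₁, h₁⟩ ⟨m₂, hm₂, h₂⟩ h
    have hm20 : m₂ ≠ 0 := by rintro rfl; simp at hm₂
    have hv2 : val M (ε₂ : ℂ) = 1 := val_eq_one_of_pow_eq_one hm20 h₂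
    have h20 := ne_zero_of_val_eq_one hv2
    have hv : val M ((ε₁ : ℂ) - ε₂) < 1 := by
      have := val_lt_one_of_mem hM.2.1.ne_top h
      simpa using this
    have key : (ε₁ : ℂ) / ε₂ = 1 := by
      apply eq_one_of_pow_eq_one_of_val_sub_lt hM (m := m₁ * m₂)
      · exact fun hd => ((Nat.Prime.dvd_mul hM.1).1 hd).elim hm₁ hm₂
      · rw [div_pow, pow_mul, h₁, one_pow, mul_comm, pow_mul, h₂, one_pow, div_one]
      · have : (ε₁ : ℂ) / ε₂ - 1 = ((ε₁ : ℂ) - ε₂) / ε₂ := by field_simp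
        rw [this, map_div₀, hv2, div_one]; exact hv
    exact Subtype.ext ((div_eq_one_iff_eq h20).1 key)
  · intro a ha
    obtain ⟨m, hm, h⟩ := exists_pow_sub_one p M hM a ha
    have hm0 : m ≠ 0 := by rintro rfl; simp at hm
    have hζ := Complex.isPrimitiveRoot_exp m hm0
    have hprod := X_pow_sub_one_eq_prod (Nat.pos_of_ne_zero hm0) hζ
    have h1 : (a : ℂ) ^ m - 1 = ∏ ζ ∈ nthRootsFinset m (1 : ℂ), ((a : ℂ) - ζ) := by
      have := congrArg (eval (a : ℂ)) hprod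
      simpa [eval_prod] using this
    have hζ1 : ∀ ζ ∈ nthRootsFinset m (1 : ℂ), ζ ^ m = 1 := fun ζ hζ =>
      (mem_nthRootsFinset (Nat.pos_of_ne_zero hm0) _).1 hζ
    have h2 : red M ((a : ℂ) ^ m - 1) = 0 := by
      rw [red_sub (val_pow_le_one (val_algInt_le_one a) m) (by simp),
        red_pow (val_algInt_le_one a), h, red_one, sub_self]
    have hle : ∀ ζ ∈ nthRootsFinset m (1 : ℂ), val M ((a : ℂ) - ζ) ≤ 1 := fun ζ hζ =>
      val_sub_le_one (val_algInt_le_one a) (val_eq_one_of_pow_eq_one hm0 (hζ1 ζ hζ)).le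
    rw [h1, red_prod hle, Finset.prod_eq_zero_iff] at h2
    obtain ⟨ζ, hζ, h3⟩ := h2
    have hi : IsIntegral ℤ ζ := IsIntegral.of_pow (Nat.pos_of_ne_zero hm0)
      (by rw [hζ1 ζ hζ]; exact isIntegral_one)
    refine ⟨⟨ζ, hi⟩, ⟨m, hm, hζ1 ζ hζ⟩, ?_⟩
    rw [← val_lt_one_iff_mem hM.2.1]
    exact (red_eq_zero_iff (hle ζ hζ)).1 h3

end Cfsg.Agent.S0901
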