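import Cfsg.Statements.S0903
import Cfsg.Agent.Block.FixCount

set_option autoImplicit false
open Cfsg

namespace Cfsg.Agent.S0903

/-- Let P be a p-subgroup of the finite group G, let c centralize P and let g, h ∈ G. The number of pairs (x, y) with x conjugate to g, y conjugate to h and x * y = c is congruent modulo p to the number of such pairs in which x and y both centralize P. (This is why the Brauer map on class sums is multiplicative.) -/
theorem result {G : Type*} [Group G] [Finite G] (p : ℕ) [Fact p.Prime] (P : Subgroup G) (hP : IsPGroup p P) (c : G) (hc : c ∈ Subgroup.centralizer (P : Set G)) (g h : G) : Nat.card {xy : G × G // IsConj g xy.1 ∧ IsConj h xy.2 ∧ xy.1 * xy.2 = c} ≡ Nat.card {xy : G × G // IsConj g xy.1 ∧ IsConj h xy.2 ∧ xy.1 * xy.2 = c ∧ xy.1 ∈ Subgroup.centralizer (P : Set G) ∧ xy.2 ∈ Subgroup.centralizer (P : Set G)} [MOD p] := by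
  have h1 := Block.card_pairs_modEq_card_centralizer hP
    (fun xy : G × G => IsConj g xy.1 ∧ IsConj h xy.2 ∧ xy.1 * xy.2 = c) (by
      rintro u hu x y ⟨h1, h2, h3⟩
      refine ⟨h1.trans (isConj_iff.2 ⟨u, rfl⟩), h2.trans (isConj_iff.2 ⟨u, rfl⟩), ?_⟩
      have := (Subgroup.mem_centralizer_iff.1 hc) u hu
      dsimp only at h3 ⊢
      calc u * x * u⁻¹ * (u * y * u⁻¹) = u * (x * y) * u⁻¹ := by group
        _ = c := by rw [h3, this]; simp)
  refine h1.trans (congrArg (· % p) ?_)
  exact Nat.card_congr (Equiv.subtypeEquivRight fun x => by simp only [and_assoc])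

end Cfsg.Agent.S0903
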