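import Cfsg.Statements.S0905
import Cfsg.Agent.Block.NormalPNil

set_option autoImplicit false
open Cfsg

namespace Cfsg.Agent.S0905

/-- Let F be a field of characteristic p and let g be an element of the finite group G no conjugate of which centralizes O_p(G). Then the class sum of g is a nilpotent element of the group algebra F[G]. -/
theorem result {G : Type*} [Group G] [Finite G] (p : ℕ) [Fact p.Prime] (F : Type*) [Field F] [CharP F p] (g : G) (hg : ∀ x : G, IsConj g x → x ∉ Subgroup.centralizer (Cfsg.pCore p G : Set G)) : IsNilpotent (∑ᶠ x ∈ ConjClasses.carrier (ConjClasses.mk g), MonoidAlgebra.single x (1 : F) : MonoidAlgebra F G) := by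
  classical
  haveI : (Cfsg.pCore p G).Normal := Subgroup.sSup_normal _ (fun _ h => h.1)
  have hP : IsPGroup p (Cfsg.pCore p G) :=
    Sylow.sSup_of_normal _ (fun _ h => h.2) (fun _ h => h.1)
  have hcoeff : ∀ y : G, (∑ᶠ x ∈ ConjClasses.carrier (ConjClasses.mk g),
      MonoidAlgebra.single x (1 : F) : MonoidAlgebra F G).coeff y =
      if IsConj g y then 1 else 0 := by
    intro y
    rw [finsum_mem_eq_finite_toFinset_sum _ (Set.toFinite _), MonoidAlgebra.coeff_sum,
      Finsupp.finset_sum_apply]
    simp only [MonoidAlgebra.coeff_single, Finsupp.single_apply]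
    rw [Finset.sum_ite_eq']
    simp only [Set.Finite.mem_toFinset, ConjClasses.mem_carrier_iff_mk_eq,
      ConjClasses.mk_eq_mk_iff_isConj, isConj_comm]
  refine Block.isNilpotent_of_coeff_centralizer (Cfsg.pCore p G) hP _ ?_ ?_
  · intro u _ x
    rw [hcoeff, hcoeff]
    have : IsConj g (u * x * u⁻¹) ↔ IsConj g x :=
      ⟨fun h => h.trans (isConj_iff.2 ⟨u⁻¹, by group⟩), fun h => h.trans (isConj_iff.2 ⟨u, rfl⟩)⟩
    simp only [this]
  · intro x hx
    rw [hcoeff, if_neg fun h => hg x h hx]

end Cfsg.Agent.S0905
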