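import Mathlib
import Cfsg.Statements.S0915
import Cfsg.Agent.Block.Center
import Cfsg.Agent.PLocal.PSolv
import Cfsg.Agent.Grp.Cores

set_option autoImplicit false
open Cfsg

namespace Cfsg.Agent.S0915

open Cfsg.Agent.Block Cfsg.Agent.Char


/-- Let G be a finite p-solvable group with trivial largest normal subgroup of order prime to p. Then any two irreducible characters of G lie in the same block relative to every maximal ideal M of the algebraic integers containing p: G has a single p-block. -/
theorem result {G : Type*} [Group G] [Finite G] (p : ℕ) [Fact p.Prime] (M : Ideal Cfsg.AlgInt) (hM : Cfsg.IsPModular p M) (hsolv : Cfsg.IsPSolvable p G) (hcore : Cfsg.pPrimeCore p G = ⊥) (χ ψ : Cfsg.IrrCharacter G) : Cfsg.SameBlock M (χ : G → ℂ) (ψ : G → ℂ) := by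
  have hC := PLocal.centralizer_pCore_le_of_isPSolvable hsolv hcore
  have hi := eSet_mem_intAlg hM (isPBlock_blockOf (M := M) χ)
  have hsmall : ∀ x : G, x ≠ 1 → val M (blockCoeff (blockOf M (χ : G → ℂ)) x) < 1 := by
    intro x hx
    by_cases hxC : x ∈ Subgroup.centralizer (pCore p G : Set G)
    · rw [blockCoeff_eq_zero_of_val hM (val_blockCoeff_le_of_block hM (isPBlock_blockOf χ)),
        map_zero]
      · exact zero_lt_one
      · by_contra h
        exact hx (eq_one_of_orderOf_pow_of_not_dvd
          (orderOf_eq_pow_of_mem (Grp.pCore_isPGroup p G) (hC hxC)) h)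
    · exact val_blockCoeff_lt_one_of_normal hM (pCore p G) (Grp.pCore_isPGroup p G) hi hxC
  have key : ∀ η : IrrCharacter G, val M (om (η : G → ℂ) (eSet (blockOf M (χ : G → ℂ))) -
      blockCoeff (blockOf M (χ : G → ℂ)) 1) < 1 := by
    classical
    intro η
    have h1 := val_om_lt_one (M := M) η.2 (z := eSet (blockOf M (χ : G → ℂ)) -
      algebraMap ℂ _ (blockCoeff (blockOf M (χ : G → ℂ)) 1))
      (sub_mem (eSet_mem_ZA _) (Subalgebra.algebraMap_mem _ _)) (fun x => by
        rw [Algebra.algebraMap_eq_smul_one, MonoidAlgebra.coeff_sub, Finsupp.sub_apply,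
          MonoidAlgebra.coeff_smul_apply, coeff_one_apply,
          coeff_eSet]
        split_ifs with hx
        · simp [hx]
        · simpa using hsmall x hx)
    rwa [map_sub, om_algebraMap η.2.one_ne_zero] at h1
  have h1 := key χ
  rw [om_eSet_of_mem (self_mem_blockOf hM χ)] at h1
  exact mem_block_of_val_om_eSet (B := blockOf M (χ : G → ℂ))
    (val_sub_trans (key ψ) (by rwa [val_sub_comm]))

end Cfsg.Agent.S0915
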