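import Mathlib
import Cfsg.Statements.S0926
import Cfsg.Agent.S0924
import Cfsg.Agent.S0927
import Cfsg.Agent.S0911

set_option autoImplicit false
open Cfsg

namespace Cfsg.Agent.S0926

open Cfsg.Agent.Block Cfsg.Agent.Char Cfsg.Agent.PLocal


/-- Let B be a block of the finite group G with defect group D (relative to a maximal ideal M of the algebraic integers containing p), let χ ∈ B have height zero, and let x be a p-element. Then some conjugate of x lies in D if and only if χ does not vanish on the whole p-section of x (the elements whose p-part is conjugate to x). -/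
theorem result {G : Type*} [Group G] [Finite G] (p : ℕ) [Fact p.Prime] (M : Ideal Cfsg.AlgInt) (hM : Cfsg.IsPModular p M) (B : Set (Cfsg.IrrCharacter G)) (hB : Cfsg.IsPBlock M B) (D : Subgroup G) (hD : Cfsg.IsDefectGroup p M B D) (χ : Cfsg.IrrCharacter G) (hχ : χ ∈ B) (h0 : Cfsg.blockHeight p B (χ : G → ℂ) = 0) (x : G) (hx : ∃ k : ℕ, orderOf x = p ^ k) : (∃ g : G, g * x * g⁻¹ ∈ D) ↔ ∃ u : G, (∃ z : G, Cfsg.IsPPart p u z ∧ IsConj x z) ∧ (χ : G → ℂ) u ≠ 0 := by
  obtain ⟨y, hy, P, rfl⟩ := hD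
  constructor
  · rintro ⟨g, w, hw, hwg⟩
    have h1 := (S0927.result p M hM B hB y hy P w hw).1 χ hχ h0
    refine ⟨(w : G) * y, ⟨w, ?_, isConj_iff.2 ⟨g, hwg.symm⟩⟩, fun h => h1 ?_⟩
    · exact isPPart_of_mul (Subgroup.mem_centralizer_singleton_iff.1 w.2)
        (by simpa using orderOf_eq_pow_of_mem P.isPGroup' hw)
        (not_dvd_orderOf_of_defectClass hM hB hy)
    · rw [h]; exact memLocalIdeal_zero hM
  · rintro ⟨u, ⟨z, hz, hxz⟩, hu⟩
    by_contra hcon
    apply hu
    refine S0924.result p M hM χ u z hz fun E hE hzE => hcon ?_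
    rw [← eq_blockOf_of_mem hM hB hχ] at hE
    obtain ⟨y', hy', P', rfl⟩ := hE
    obtain ⟨a, Q, hQ⟩ := (S0911.result p M hM B hB y' hy' P' y).2 ⟨χ, hχ, hy.2.2 χ hχ⟩
    obtain ⟨t, -, ht⟩ := (isSylowIn_map Q).exists_conj_eq (isSylowIn_map P)
    obtain ⟨c, rfl⟩ := isConj_iff.1 hxz
    refine ⟨t * a * c, ?_⟩
    rw [← ht]
    have := conj_mem_map_conj t (hQ (conj_mem_map_conj a hzE))
    simpa [mul_assoc] using this

end Cfsg.Agent.S0926
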