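import Mathlib
import Cfsg.Statements.S0933
import Cfsg.Agent.Block.Induce

set_option autoImplicit false
open Cfsg

namespace Cfsg.Agent.S0933

open Cfsg.Agent.Block Cfsg.Agent.Char


/-- Let H be a subgroup of the finite group G and ξ an irreducible character of H such that the induced function ξ^G is an irreducible character of G. Then, relative to any maximal ideal M of the algebraic integers containing the prime p, the block of ξ induces the block of ξ^G. -/
theorem result {G : Type*} [Group G] [Fintype G] (p : ℕ) [Fact p.Prime] (M : Ideal Cfsg.AlgInt) (hM : Cfsg.IsPModular p M) (H : Subgroup G) (ξ : Cfsg.IrrCharacter H) (hind : Cfsg.IsIrrCharacter G (Cfsg.indFun H (ξ : H → ℂ))) : Cfsg.IsInducedBlock M H (Cfsg.blockOf M (ξ : H → ℂ)) (Cfsg.blockOf M (Cfsg.indFun H (ξ : H → ℂ))) := by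
  refine isInducedBlock_of_val hM (isPBlock_blockOf ξ) (isPBlock_blockOf ⟨_, hind⟩)
    (self_mem_blockOf hM ξ) (self_mem_blockOf hM ⟨_, hind⟩) fun g => ?_
  rw [inducedCentralChar_eq_centralChar_indFun, sub_self, map_zero]
  exact zero_lt_one

end Cfsg.Agent.S0933
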