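import Mathlib
import Cfsg.Statements.S0937
import Cfsg.Agent.Block.Height

set_option autoImplicit false
open Cfsg

namespace Cfsg.Agent.S0937

open Cfsg.Agent.Block Cfsg.Agent.Char


/-- Let H be a subgroup of the finite group G and fix a maximal ideal M of the algebraic integers containing the prime p. If the block b of H induces the block B of G and χ ∈ B has height zero, then there is ξ ∈ b of height zero whose multiplicity in the restriction of χ to H is a natural number not divisible by p. -/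
theorem result {G : Type*} [Group G] [Fintype G] (p : ℕ) [Fact p.Prime] (M : Ideal Cfsg.AlgInt) (hM : Cfsg.IsPModular p M) (H : Subgroup G) [Fintype H] (b : Set (Cfsg.IrrCharacter H)) (B : Set (Cfsg.IrrCharacter G)) (hind : Cfsg.IsInducedBlock M H b B) (χ : Cfsg.IrrCharacter G) (hχ : χ ∈ B) (h0 : Cfsg.blockHeight p B (χ : G → ℂ) = 0) : ∃ ξ ∈ b, Cfsg.blockHeight p b (ξ : H → ℂ) = 0 ∧ ∃ n : ℕ, Cfsg.classInner (fun h : H => (χ : G → ℂ) h) (ξ : H → ℂ) = (n : ℂ) ∧ ¬ p ∣ n := by
  classical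
  obtain ⟨η, hη⟩ := block_nonempty hM hind.1
  have h1 := val_om_res_sub_om_lt_of_induced hM hind hη hχ (regElt_mem_ZA χ.2.isClassFunction)
    (regElt_mem_intAlg (p := p) χ.2.isGen)
  have h2 := val_eq_one_of_sub_lt ((val_om_regElt_eq_one_iff hM hind.2.1 hχ χ).2 ⟨hχ, h0⟩) h1
  obtain ⟨c, hc, hsum⟩ := Cfsg.IsCharacter.exists_coeff (χ.2.isCharacter.restrict H)
  rw [res_regElt, hsum, regElt_sum_smul, map_sum] at h2
  obtain ⟨ξ, -, h3⟩ := exists_one_le_val_of_sum (M := M) (by rw [h2]; exact lt_irrefl _)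
  rw [map_smul, smul_eq_mul, map_natCast] at h3
  have h4 : val M (om (η : H → ℂ) (regElt p (ξ : H → ℂ))) = 1 := by
    rw [val_eq_one_iff_not_lt (val_om_regElt_le η.2 ξ.2.isGen)]
    exact fun h => h3 (val_mul_lt_one_right (val_natCast_le_one _) h)
  obtain ⟨h5, h6⟩ := (val_om_regElt_eq_one_iff hM hind.1 hη ξ).1 h4
  refine ⟨ξ, h5, h6, c ξ, hc ξ, fun hd => h3 ?_⟩
  exact val_mul_lt_one_left ((val_natCast_lt_one_iff hM _).2 hd) h4.le

end Cfsg.Agent.S0937
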