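import Cfsg.Statements.S0938
import Mathlib
import Cfsg.Agent.Block.Cover
import Cfsg.Agent.Grp.Cores

set_option autoImplicit false
open Cfsg

set_option linter.style.haveILetI false
set_option linter.unusedVariables false

namespace Cfsg.Agent.S0938

open Block Cfsg.Agent.Char

/-- Let B be a block of the finite group G relative to a maximal ideal M of the algebraic integers containing the prime p, and let χ ∈ B. Then the kernel of B (the set of g with ψ g = ψ 1 for all ψ ∈ B) is a normal subgroup of order prime to p contained in the kernel of χ, and it contains every normal subgroup of order prime to p on which χ takes the value χ(1); that is, it is O_p' of the kernel of χ. -/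
theorem result {G : Type*} [Group G] [Finite G] (p : ℕ) [Fact p.Prime] (M : Ideal Cfsg.AlgInt) (hM : Cfsg.IsPModular p M) (B : Set (Cfsg.IrrCharacter G)) (hB : Cfsg.IsPBlock M B) (χ : Cfsg.IrrCharacter G) (hχ : χ ∈ B) : ∃ K : Subgroup G, K.Normal ∧ (K : Set G) = Cfsg.blockKer B ∧ ¬ p ∣ Nat.card K ∧ (∀ g ∈ K, (χ : G → ℂ) g = (χ : G → ℂ) 1) ∧ ∀ N : Subgroup G, N.Normal → ¬ p ∣ Nat.card N → (∀ g ∈ N, (χ : G → ℂ) g = (χ : G → ℂ) 1) → N ≤ K := by
  have hK : ∀ g : G, g ∈ (⨅ ψ ∈ B, charKer (ψ : G → ℂ)) ↔ g ∈ blockKer B := fun g => by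
    simp only [Subgroup.mem_iInf, mem_charKer_irr]
    rfl
  refine ⟨⨅ ψ ∈ B, charKer (ψ : G → ℂ), ?_, Set.ext hK, ?_, fun g hg => (hK g).1 hg χ hχ, ?_⟩
  · exact Subgroup.normal_iInf_normal fun ψ => Subgroup.normal_iInf_normal fun _ => inferInstance
  · intro h
    obtain ⟨x, hx⟩ := exists_prime_orderOf_dvd_card' p h
    refine not_dvd_orderOf_of_mem_blockKer hM hB ((hK x).1 x.2) ?_
    rw [Subgroup.orderOf_coe, hx]
  · intro N hN hp h g hg
    exact (hK g).2 fun ψ hψ =>
      apply_eq_of_sameBlock_of_not_dvd hM hp (sameBlock_of_mem hM hB hχ hψ) h g hg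

end Cfsg.Agent.S0938
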