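import Mathlib
import Cfsg.Statements.S0940
import Cfsg.Agent.Block.PElt

set_option autoImplicit false
open Cfsg

namespace Cfsg.Agent.S0940

open Cfsg.Agent.Block Cfsg.Agent.Char


/-- Let G be a finite group and M a maximal ideal of the algebraic integers containing the prime p. For every p-regular g, the idempotent coefficient of the principal block at g (the inverse of the group order times the sum over χ in the principal block of χ 1 * conj (χ g)) is congruent modulo the local ideal at M to N / R, where N is the number of pairs (x, y) with x of p-power order, y of order prime to p and x * y = g, and R is the number of elements of G of order prime to p. -/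
theorem result {G : Type*} [Group G] [Finite G] (p : ℕ) [Fact p.Prime] (M : Ideal Cfsg.AlgInt) (hM : Cfsg.IsPModular p M) (g : G) (hg : ¬ p ∣ orderOf g) : Cfsg.MemLocalIdeal M (Cfsg.blockCoeff (Cfsg.principalBlock M G) g - (Nat.card {xy : G × G // (∃ k : ℕ, orderOf xy.1 = p ^ k) ∧ ¬ p ∣ orderOf xy.2 ∧ xy.1 * xy.2 = g} : ℂ) / (Nat.card {y : G // ¬ p ∣ orderOf y} : ℂ)) := by
  have h := val_coeff_pElements_mul_sub_lt hM hg
  rw [coeff_setSum_mul_setSum] at h
  have hv := (val_natCast_eq_one_iff hM _).2 (not_dvd_card_pRegular p G)
  have h0 := ne_zero_of_val_eq_one hv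
  rw [memLocalIdeal_iff_val hM ((isAlgebraic_blockCoeff _ g).sub
    (isAlgebraic_div (Block.isAlgebraic_natCast _) (Block.isAlgebraic_natCast _))), val_sub_comm]
  convert val_mul_lt_one_left h (val_inv_of_eq_one hv).le using 2
  simp only [Set.mem_ofPred_eq]
  field_simp

end Cfsg.Agent.S0940
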