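import Cfsg.Statements.S0953
import Cfsg.Agent.Block.Count

set_option autoImplicit false
open Cfsg

namespace Cfsg.Agent.S0953

/-- Let P be a Sylow p-subgroup of the finite group G with normalizer N, and fix a maximal ideal M of the algebraic integers containing p. The number of blocks of G having P as a defect group equals the number of conjugacy classes of N consisting of elements of order prime to p that centralize P. -/
theorem result {G : Type*} [Group G] [Finite G] (p : ℕ) [Fact p.Prime] (M : Ideal Cfsg.AlgInt) (hM : Cfsg.IsPModular p M) (P : Sylow p G) : Nat.card {B : Set (Cfsg.IrrCharacter G) // Cfsg.IsPBlock M B ∧ Cfsg.IsDefectGroup p M B (P : Subgroup G)} = Nat.card {C : ConjClasses (Subgroup.normalizer ((P : Subgroup G) : Set G)) // ∀ n : Subgroup.normalizer ((P : Subgroup G) : Set G), ConjClasses.mk n = C → ¬ p ∣ orderOf n ∧ (n : G) ∈ Subgroup.centralizer ((P : Subgroup G) : Set G)} := by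
  have h1 : Nat.card {B : Set (Cfsg.IrrCharacter G) //
      Cfsg.IsPBlock M B ∧ Cfsg.IsDefectGroup p M B (P : Subgroup G)} =
      Nat.card {B : Set (IrrCharacter G) //
        IsPBlock M B ∧ (Nat.card G).factorization p ≤ blockDefect p B} :=
    Nat.card_congr (Equiv.subtypeEquivRight fun B => and_congr_right fun hB =>
      Block.isDefectGroup_sylow_iff hM hB P)
  rw [h1, Block.card_blocks_full_defect hM]
  have hS : ∀ g ∈ Subgroup.centralizer ((P : Subgroup G) : Set G),
      PLocal.IsSylowIn p (P : Subgroup G) (Subgroup.centralizer {g}) := fun g hg =>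
    PLocal.isSylowIn_of_le P ((Block.le_centralizer_singleton_iff' _ g).2 hg)
  symm
  refine Nat.card_congr (Equiv.ofBijective (fun C => ⟨ConjClasses.map
    (Subgroup.normalizer ((P : Subgroup G) : Set G)).subtype C.1, ?_⟩) ⟨?_, ?_⟩)
  · obtain ⟨C, hC⟩ := C
    obtain ⟨n, rfl⟩ := ConjClasses.mk_surjective C
    obtain ⟨h2, h3⟩ := hC n rfl
    refine ⟨n, rfl, by rwa [IsPRegular, Subgroup.orderOf_coe], ?_⟩
    have := (hS n h3).card_eq
    rw [P.card_eq_multiplicity] at this
    exact (Nat.pow_right_injective hM.1.two_le this).le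
  · rintro ⟨C, hC⟩ ⟨C', hC'⟩ e
    obtain ⟨n, rfl⟩ := ConjClasses.mk_surjective C
    obtain ⟨n', rfl⟩ := ConjClasses.mk_surjective C'
    have e' : IsConj (n : G) n' := ConjClasses.mk_eq_mk_iff_isConj.1 (congrArg Subtype.val e)
    obtain ⟨t, ht, e2⟩ := S0916.exists_normalizer_conj (hS n (hC n rfl).2) e' (hC' n' rfl).2
    exact Subtype.ext (ConjClasses.mk_eq_mk_iff_isConj.2
      (isConj_iff.2 ⟨⟨t, ht⟩, Subtype.ext e2⟩))
  · rintro ⟨C, g, rfl, h2, h3⟩
    obtain ⟨Q, hQ⟩ := PLocal.exists_isSylowIn p (Subgroup.centralizer ({g} : Set G))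
    obtain ⟨t, -, ht⟩ := (PLocal.isSylowIn_top P).exists_conj_le hQ.isPGroup le_top
    have e := Subgroup.eq_of_le_of_card_ge ht (by
      rw [PLocal.card_map_conj, hQ.card_eq, P.card_eq_multiplicity]
      exact Nat.pow_le_pow_right hM.1.pos h3)
    have h4 := Block.isSylowIn_centralizer_conj hQ t
    rw [e] at h4
    have h5 := (Block.le_centralizer_singleton_iff' _ _).1 h4.le
    refine ⟨⟨ConjClasses.mk ⟨t * g * t⁻¹, Subgroup.centralizer_le_normalizer _ h5⟩, fun n hn => ?_⟩,
      Subtype.ext (ConjClasses.mk_eq_mk_iff_isConj.2 (isConj_iff.2 ⟨t, rfl⟩).symm)⟩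
    obtain ⟨s, rfl⟩ := isConj_iff.1 (ConjClasses.mk_eq_mk_iff_isConj.1 hn.symm)
    refine ⟨?_, Block.Alg.conj_mem_centralizer s.2 h5⟩
    rw [Block.orderOf_conj_eq, ← Subgroup.orderOf_coe, Block.orderOf_conj_eq]
    exact h2

end Cfsg.Agent.S0953
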