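import Cfsg.Statements.S0954
import Mathlib
import Cfsg.Agent.Block.Cover
import Cfsg.Agent.Grp.Cores

set_option autoImplicit false
open Cfsg

set_option linter.style.haveILetI false
set_option linter.unusedVariables false

namespace Cfsg.Agent.S0954

open Block

/-- Let N be a normal subgroup of the finite group G of order prime to p and of p-power index (a normal p-complement), and fix a maximal ideal M of the algebraic integers containing p. Then two irreducible characters χ, ψ of G lie in the same block if and only if some irreducible character of N has nonzero inner product with both the restriction of χ and the restriction of ψ. -/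
theorem result {G : Type*} [Group G] [Fintype G] (p : ℕ) [Fact p.Prime] (M : Ideal Cfsg.AlgInt) (hM : Cfsg.IsPModular p M) (N : Subgroup G) [N.Normal] [Fintype N] (hN : ¬ p ∣ Nat.card N) (hidx : ∃ k : ℕ, N.index = p ^ k) (χ ψ : Cfsg.IrrCharacter G) : Cfsg.SameBlock M (χ : G → ℂ) (ψ : G → ℂ) ↔ ∃ θ : Cfsg.IrrCharacter N, Cfsg.classInner (fun n : N => (χ : G → ℂ) n) (θ : N → ℂ) ≠ 0 ∧ Cfsg.classInner (fun n : N => (ψ : G → ℂ) n) (θ : N → ℂ) ≠ 0 := by
  constructor
  · intro h
    obtain ⟨θ, hθ⟩ := exists_irr_under N χ
    exact ⟨θ, hθ, over_of_sameBlock hM hN h hθ⟩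
  · rintro ⟨θ, h1, h2⟩
    exact sameBlock_of_over_of_index hM hidx h1 h2

end Cfsg.Agent.S0954
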