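import Cfsg.Statements.S0957
import Cfsg.Agent.PLocal.SylowIn

set_option autoImplicit false
open Cfsg

namespace Cfsg.Agent.S0957

open PLocal

/-- If `d` divides the index of every point stabilizer then it divides the number of points. -/
theorem dvd_card_of_forall_dvd_index_stabilizer {Γ X : Type*} [Group Γ] [MulAction Γ X] [Finite X]
    (d : ℕ) (h : ∀ x : X, d ∣ (MulAction.stabilizer Γ x).index) : d ∣ Nat.card X := by
  classical
  have := Fintype.ofFinite (MulAction.orbitRel.Quotient Γ X)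
  have hf : ∀ ω : MulAction.orbitRel.Quotient Γ X, Finite (Γ ⧸ MulAction.stabilizer Γ ω.out) :=
    fun ω => Finite.of_equiv _ (MulAction.orbitEquivQuotientStabilizer Γ ω.out)
  rw [Nat.card_congr (MulAction.selfEquivSigmaOrbitsQuotientStabilizer Γ X), Nat.card_sigma]
  exact Finset.dvd_sum fun ω _ => h _

theorem dvd_card_of_invariant {Γ Δ X : Type*} [Group Γ] [Monoid Δ] [MulAction Δ X] (φ : Γ →* Δ)
    (S : X → Prop) [Finite {x // S x}] (hS : ∀ (γ : Γ) (x : X), S x → S (φ γ • x)) (d : ℕ)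
    (h : ∀ x : X, S x → ∀ K : Subgroup Γ, (∀ γ ∈ K, φ γ • x = x) → d ∣ K.index) :
    d ∣ Nat.card {x // S x} := by
  let _ : MulAction Γ X := MulAction.compHom X φ
  let T : SubMulAction Γ X := ⟨{x | S x}, fun γ {x} hx => hS γ x hx⟩
  have : Finite T := inferInstanceAs (Finite {x // S x})
  exact dvd_card_of_forall_dvd_index_stabilizer (Γ := Γ) (X := T) d fun x =>
    h x.1 x.2 _ fun γ hγ => congrArg Subtype.val hγ

/-- Let P be a Sylow p-subgroup of the finite group G, let g, h ∈ G and let p ^ d be the order of a Sylow p-subgroup of the centralizer of g. Then the number of pairs (y, z) with y conjugate to g, z conjugate to h and z * y⁻¹ ∈ P is divisible by the order of P divided by p ^ d. -/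
theorem result {G : Type*} [Group G] [Finite G] (p : ℕ) [Fact p.Prime] (P : Sylow p G) (g h : G) (S : Sylow p (Subgroup.centralizer ({g} : Set G))) : Nat.card P / Nat.card S ∣ Nat.card {yz : G × G // IsConj g yz.1 ∧ IsConj h yz.2 ∧ yz.2 * yz.1⁻¹ ∈ (P : Subgroup G)} := by
  refine dvd_card_of_invariant ((MulAut.conj (G := G)).comp (P : Subgroup G).subtype)
    (fun yz : G × G => IsConj g yz.1 ∧ IsConj h yz.2 ∧ yz.2 * yz.1⁻¹ ∈ (P : Subgroup G)) ?_ _ ?_
  · rintro u ⟨y, z⟩ ⟨h1, h2, h3⟩
    refine ⟨h1.trans (isConj_iff.2 ⟨u, rfl⟩), h2.trans (isConj_iff.2 ⟨u, rfl⟩), ?_⟩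
    have : (u : G) * (z * y⁻¹) * (u : G)⁻¹ ∈ (P : Subgroup G) :=
      mul_mem (mul_mem u.2 h3) (inv_mem u.2)
    convert this using 1
    show (u : G) * z * (u : G)⁻¹ * ((u : G) * y * (u : G)⁻¹)⁻¹ = _
    group
  · rintro ⟨y, z⟩ ⟨h1, -, -⟩ K hK
    obtain ⟨x, rfl⟩ := isConj_iff.1 h1
    have hKp : IsPGroup p K := P.isPGroup'.to_subgroup K
    have hle : (K.map (P : Subgroup G).subtype).map (MulAut.conj x⁻¹).toMonoidHom ≤
        Subgroup.centralizer ({g} : Set G) := by
      rintro _ ⟨_, ⟨u, hu, rfl⟩, rfl⟩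
      have := congrArg Prod.fst (hK u hu)
      change (u : G) * (x * g * x⁻¹) * (u : G)⁻¹ = x * g * x⁻¹ at this
      rw [Subgroup.mem_centralizer_singleton_iff]
      change x⁻¹ * (u : G) * x⁻¹⁻¹ * g = g * (x⁻¹ * (u : G) * x⁻¹⁻¹)
      calc x⁻¹ * (u : G) * x⁻¹⁻¹ * g = x⁻¹ * ((u : G) * (x * g * x⁻¹) * (u : G)⁻¹) * u * x := by
            group
        _ = _ := by rw [this]; group
    have hc := (isSylowIn_map S).card_le ((hKp.map _).map _) hle
    rw [card_map_conj, Subgroup.card_map_of_injective (Subgroup.subtype_injective _),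
      Subgroup.card_map_of_injective (Subgroup.subtype_injective _)] at hc
    obtain ⟨a, ha⟩ := IsPGroup.iff_card.1 hKp
    obtain ⟨b, hb⟩ := IsPGroup.iff_card.1 S.isPGroup'
    have hp : p.Prime := Fact.out
    have hdvd : Nat.card K ∣ Nat.card S := by
      change Nat.card K ∣ Nat.card (S : Subgroup (Subgroup.centralizer ({g} : Set G)))
      rw [ha, hb] at hc ⊢
      exact pow_dvd_pow p ((Nat.pow_le_pow_iff_right hp.one_lt).1 hc)
    have hidx : K.index = Nat.card P / Nat.card K := by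
      have := K.card_mul_index
      change _ = Nat.card (P : Subgroup G) / _
      rw [← this, Nat.mul_div_cancel_left _ Nat.card_pos]
    rw [hidx]
    refine Nat.div_dvd_div_left ?_ hdvd
    have := (isSylowIn_top P).card_le (isSylowIn_map S).isPGroup le_top
    rw [Subgroup.card_map_of_injective (Subgroup.subtype_injective _)] at this
    obtain ⟨c, hc⟩ := IsPGroup.iff_card.1 P.isPGroup'
    change Nat.card (S : Subgroup (Subgroup.centralizer ({g} : Set G))) ∣ Nat.card (P : Subgroup G)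
    rw [hc, hb] at this ⊢
    exact pow_dvd_pow p ((Nat.pow_le_pow_iff_right hp.one_lt).1 this)

end Cfsg.Agent.S0957
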