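import Cfsg.Statements.S0970
import Mathlib
import Cfsg.Agent.Block.CoverBridge

set_option autoImplicit false
open Cfsg

set_option linter.style.haveILetI false
set_option linter.unusedVariables false

namespace Cfsg.Agent.S0970

open Block Cfsg.Agent.Char

/-- Let N be a normal subgroup of the finite group G and fix a maximal ideal M of the algebraic integers containing the prime p. Let b be a block of N that is invariant under conjugation by G, and B a block of G covering b (some χ ∈ B has a constituent in b) whose defect is at least that of every block covering b. If P is a defect group of B, then p does not divide the index of P ⊔ N, the subgroup P ∩ N of N is a defect group of b, and the defect of B equals the defect of b plus the exponent of p in the index of N. -/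
theorem result {G : Type*} [Group G] [Fintype G] (p : ℕ) [Fact p.Prime] (M : Ideal Cfsg.AlgInt) (hM : Cfsg.IsPModular p M) (N : Subgroup G) [hN : N.Normal] [Fintype N] (b : Set (Cfsg.IrrCharacter N)) (hb : Cfsg.IsPBlock M b) (hinv : ∀ g : G, ∀ θ ∈ b, ∀ θ' : Cfsg.IrrCharacter N, (∀ n : N, (θ' : N → ℂ) n = (θ : N → ℂ) ⟨g * n * g⁻¹, hN.conj_mem n n.2 g⟩) → θ' ∈ b) (B : Set (Cfsg.IrrCharacter G)) (hB : Cfsg.IsPBlock M B) (hcov : ∃ χ ∈ B, ∃ θ ∈ b, Cfsg.classInner (fun n : N => (χ : G → ℂ) n) (θ : N → ℂ) ≠ 0) (hmax : ∀ B' : Set (Cfsg.IrrCharacter G), Cfsg.IsPBlock M B' → (∃ χ ∈ B', ∃ θ ∈ b, Cfsg.classInner (fun n : N => (χ : G → ℂ) n) (θ : N → ℂ) ≠ 0) → Cfsg.blockDefect p B' ≤ Cfsg.blockDefect p B) (P : Subgroup G) (hP : Cfsg.IsDefectGroup p M B P) : ¬ p ∣ (P ⊔ N).index ∧ Cfsg.IsDefectGroup p M b ((P ⊓ N).subgroupOf N) ∧ Cfsg.blockDefect p B = Cfsg.blockDefect p b + N.index.factorization p := by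
  classical
  haveI := charP_resField hM
  have hp : p.Prime := Fact.out
  have hT : blockStab N b = ⊤ :=
    eq_top_iff.2 fun x _ => (mem_blockStab_iff' hM hb).2 (hinv x)
  have hNt := top_le_normalizer_of_normal N
  have he := isPrim_bar_subtype hM hb
  have hi : Alg.Inv ⊤ (sbar M N b) := (inv_sbar_iff hM hb).2 hT.ge
  have heZ : sbar M N b ∈ Alg.Z (resField M) (⊤ : Subgroup G) :=
    Alg.mem_fix.2 ⟨Alg.supp_top _, hi⟩
  obtain ⟨P₀, hP₀⟩ := Alg.exists_isDef p le_top hNt (he.isPrim_fix le_top hi)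
  obtain ⟨B', hB', h1, h2⟩ := Alg.exists_isPrim_le_br_ne_zero heZ he.idem hP₀.ne_zero
  obtain ⟨B', hB'', rfl⟩ := exists_block_of_isPrim_top hM hB'
  have hcov' : gbar M B' * sbar M N b ≠ 0 := by
    rw [Alg.isComm_Z ⊤ _ hB'.mem _ heZ, h1]
    exact hB'.ne_zero
  obtain ⟨D', hD'⟩ := exists_isDefectGroup hM hB''
  have hD'' := (isDef_top_iff hM hB'').2 hD'
  have hle : Nat.card P₀ ≤ Nat.card P := by
    refine (hD''.card_le le_top hP₀.pgroup h2).trans ?_
    rw [card_defectGroup hM hB'' hD', card_defectGroup hM hB hP]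
    exact Nat.pow_le_pow_right hp.pos
      (hmax B' hB'' ((gbar_mul_sbar_ne_zero_iff hM N hB'' hb).1 hcov'))
  have hB1 := isPrim_redAlg_eSet hM hB
  have hPd := (isDef_top_iff hM hB).2 hP
  have h3 : sbar M N b * gbar M B = gbar M B := by
    refine hB1.mul_eq_of_ne_zero heZ he.idem ?_
    rw [Alg.isComm_Z ⊤ _ heZ _ hB1.mem]
    exact (gbar_mul_sbar_ne_zero_iff hM N hB hb).2 hcov
  have h4 : Alg.br P (sbar M N b) ≠ 0 := by
    intro h0
    apply hPd.ne_zero
    change Alg.br P (gbar M B) = 0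
    rw [← h3, Alg.br_mul hPd.pgroup (hi.mono le_top) (hB1.mem.2.mono le_top), h0, zero_mul]
  have h5 := hP₀.of_card_le hi le_top hPd.pgroup h4 hle
  obtain ⟨h6, h7⟩ := h5.of_stable le_top hNt he hi
  rw [Subgroup.relIndex_top_right] at h7
  refine ⟨by rwa [sup_comm], isDefectGroup_of_isDef_sbar hM hb h6, ?_⟩
  have c1 := card_defectGroup hM hB hP
  have c2 := card_eq_of_isDef_sbar hM hb h6
  have c3 : N.relIndex (N ⊔ P) * (N ⊔ P).index = N.index :=
    Subgroup.relIndex_mul_index le_sup_left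
  have c4 : N.relIndex (N ⊔ P) = N.relIndex P := Subgroup.relIndex_sup_left P N
  have c5 : Nat.card (P ⊓ N : Subgroup G) * N.relIndex P = Nat.card P := by
    rw [← Subgroup.inf_relIndex_right N P, inf_comm N P, Subgroup.relIndex,
      ← Nat.card_congr (Subgroup.subgroupOfEquivOfLe (inf_le_left : P ⊓ N ≤ P)).toEquiv,
      Subgroup.card_mul_index]
  have n1 : N.relIndex P ≠ 0 := Subgroup.index_ne_zero_of_finite
  have n2 : (N ⊔ P).index ≠ 0 := Subgroup.index_ne_zero_of_finite
  have f1 := congrArg (fun n => n.factorization p) c5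
  simp only [c1, c2] at f1
  rw [Nat.factorization_mul (pow_ne_zero _ hp.ne_zero) n1, Finsupp.add_apply,
    hp.factorization_pow, hp.factorization_pow, Finsupp.single_eq_same,
    Finsupp.single_eq_same] at f1
  rw [← c3, c4, Nat.factorization_mul n1 n2, Finsupp.add_apply,
    Nat.factorization_eq_zero_of_not_dvd h7, add_zero, f1]

end Cfsg.Agent.S0970
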