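import Cfsg.Statements.S0987
import Mathlib
import Cfsg.Agent.Small.Tools

set_option autoImplicit false
open Cfsg

namespace Cfsg.Agent.S0987

open Subgroup in
/-- group of order `q * r`, `q < r` prime: Sylow `r` is normal -/
theorem aux {G : Type*} [Group G] [Finite G] (q r : ℕ) [hr : Fact r.Prime] (hq : 0 < q)
    (hqr : q < r) (hG : Nat.card G = q * r) (R : Sylow r G) : (R : Subgroup G).Normal := by
  have hnd : ¬ r ∣ q := fun h => absurd (Nat.le_of_dvd hq h) (by omega)
  have h1 : Nat.card (Sylow r G) ∣ q :=
    Small.card_sylow_dvd (k := 1) (by rw [hG, pow_one, mul_comm]) hnd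
  have h2 := card_sylow_modEq_one r G
  have h3 : Nat.card (Sylow r G) = 1 := by
    have := Nat.le_of_dvd hq h1
    have h4 : Nat.card (Sylow r G) < r := by omega
    rw [Nat.ModEq, Nat.mod_eq_of_lt h4, Nat.mod_eq_of_lt hr.out.one_lt] at h2
    exact h2
  have : Subsingleton (Sylow r G) := (Nat.card_eq_one_iff_unique.mp h3).1
  exact R.normal_of_subsingleton

/-- If a finite group has order pqr for primes p < q < r, then its Sylow r-subgroups are normal. -/
theorem result {G : Type*} [Group G] [Finite G] (p q r : ℕ) (hp : p.Prime) (hq : q.Prime) [Fact r.Prime] (hpq : p < q) (hqr : q < r) (hG : Nat.card G = p * q * r) (R : Sylow r G) : (R : Subgroup G).Normal := by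
  have hr : r.Prime := Fact.out
  have : Fact p.Prime := ⟨hp⟩
  have hmin : (Nat.card G).minFac = p := by
    rw [hG]
    apply le_antisymm (Nat.minFac_le_of_dvd hp.two_le (Dvd.intro _ (mul_assoc p q r).symm))
    have hne : p * q * r ≠ 1 := by
      have := hp.two_le; have := hq.two_le; have := hr.two_le
      nlinarith [Nat.mul_le_mul hp.two_le hq.two_le]
    have h := Nat.minFac_dvd (p * q * r)
    have hm := Nat.minFac_prime hne
    rcases (hm.dvd_mul).mp h with h | h
    · rcases (hm.dvd_mul).mp h with h | h
      · exact ((Nat.prime_dvd_prime_iff_eq hm hp).mp h).ge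
      · rw [(Nat.prime_dvd_prime_iff_eq hm hq).mp h]; omega
    · rw [(Nat.prime_dvd_prime_iff_eq hm hr).mp h]; omega
  obtain ⟨P⟩ := (inferInstance : Nonempty (Sylow p G))
  have hnd : ¬ p ∣ q * r := by
    intro h
    rcases (hp.dvd_mul).mp h with h | h
    · have := (Nat.prime_dvd_prime_iff_eq hp hq).mp h; omega
    · have := (Nat.prime_dvd_prime_iff_eq hp hr).mp h; omega
  have hP : Nat.card (P : Subgroup G) = p ^ 1 :=
    Small.card_sylow_subgroup (m := q * r) (by rw [hG]; ring) hnd P
  have hcyc : IsCyclic (P : Subgroup G) := isCyclic_of_prime_card (p := p) (by rw [hP, pow_one])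
  have hc := hcyc.isComplement' hmin
  set N := (MonoidHom.transferSylow P (hcyc.normalizer_le_centralizer hmin)).ker with hN
  have hNc : Nat.card N = q * r := by
    have := hc.card_mul
    rw [hP, hG, pow_one] at this
    apply Nat.eq_of_mul_eq_mul_right hp.pos
    rw [this]; ring
  obtain ⟨S⟩ := (inferInstance : Nonempty (Sylow r N))
  have hS := aux q r hq.pos hqr hNc S
  have hchar := S.characteristic_of_normal hS
  have hnorm : ((S : Subgroup N).map N.subtype).Normal := inferInstance
  have hndr : ¬ r ∣ p * q := by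
    intro h
    rcases (hr.dvd_mul).mp h with h | h
    · have := (Nat.prime_dvd_prime_iff_eq hr hp).mp h; omega
    · have := (Nat.prime_dvd_prime_iff_eq hr hq).mp h; omega
  have hle := (S.2.map N.subtype).le_sylow_of_normal R
  have hSc : Nat.card (S : Subgroup N) = r ^ 1 :=
    Small.card_sylow_subgroup (m := q) (by rw [hNc]; ring)
      (fun h => absurd (Nat.le_of_dvd hq.pos h) (by omega)) S
  have hRc : Nat.card (R : Subgroup G) = r ^ 1 :=
    Small.card_sylow_subgroup (m := p * q) (by rw [hG]; ring) hndr R
  have : (S : Subgroup N).map N.subtype = R := by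
    apply Subgroup.eq_of_le_of_card_ge hle
    rw [Subgroup.card_map_of_injective N.subtype_injective, hSc, hRc]
  rw [← this]; exact hnorm

end Cfsg.Agent.S0987
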