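import Cfsg.Statements.S0988
import Mathlib
import Cfsg.Agent.Small.SieveBase
import Cfsg.Agent.Small.PrimeSylow
import Cfsg.Agent.S0205

set_option autoImplicit false
open Cfsg

namespace Cfsg.Agent.S0988

open Cfsg.Agent.Small in
theorem aux {G : Type*} [Group G] [Finite G] [IsSimpleGroup G] (hG : ¬ IsMulCommutative G) {r : ℕ}
    (hr : r.Prime) (h2 : r ≠ 2) (h3 : r ≠ 3) (h : Nat.card G = r * 12) : Nat.card G = 60 := by
  have := Fact.mk hr
  obtain ⟨P⟩ : Nonempty (Sylow r G) := inferInstance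
  have hr12 : ¬ r ∣ 12 := by
    intro h4
    have := Nat.le_of_dvd (by norm_num) h4
    interval_cases r <;> simp_all (config := {decide := true})
  obtain ⟨n, e, c, h4, h5, h6, h7, -⟩ := prime_sylow_data hG h hr12 P
  have hc : 0 < c := Nat.pos_of_ne_zero (by rintro rfl; simp at h4)
  have h8 : n ≤ 6 := by nlinarith [Nat.mul_le_mul h7 hc]
  have h9 : r ≤ 5 := by
    by_contra h9
    have : r ≠ 6 := by rintro rfl; norm_num at hr
    rw [Nat.mod_eq_of_lt (by omega)] at h5
    omega
  have h10 : r ≠ 4 := by rintro rfl; norm_num at hr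
  have := hr.two_le
  omega

/-- If a finite simple group has order p^2 * q * r with p, q and r prime, then its order is 60. -/
theorem result {G : Type*} [Group G] [Finite G] [IsSimpleGroup G] (p q r : ℕ) (hp : p.Prime) (hq : q.Prime) (hr : r.Prime) (hG : Nat.card G = p ^ 2 * q * r) : Nat.card G = 60 := by
  open Cfsg.Agent.Small in
  have hc : ¬ IsMulCommutative G := not_comm_of_card (by
    rw [hG]
    exact Nat.not_prime_mul (Nat.one_lt_mul_iff.2 ⟨pow_pos hp.pos 2, hq.pos, Or.inr hq.one_lt⟩).ne'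
      hr.ne_one)
  have hs := not_isSolvable hc
  have hpq : p ≠ q := by
    rintro rfl; exact hs (S0144.result p r 3 1 hp hr (by rw [hG]; ring))
  have hpr : p ≠ r := by
    rintro rfl; exact hs (S0144.result p q 3 1 hp hq (by rw [hG]; ring))
  have hqr : q ≠ r := by
    rintro rfl; exact hs (S0144.result p q 2 2 hp hq (by rw [hG]; ring))
  have h1 := twelve_sixteen_fiftysix hc (even_iff_two_dvd.1 (by
    by_contra h
    exact hs (S0205.result (Nat.not_even_iff_odd.1 h))))
  have hp2 : p = 2 := by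
    by_contra h2
    have h4 : 2 * 2 ∣ p ^ 2 * (q * r) := by rw [← mul_assoc, ← hG]; omega
    have h5 : Nat.Coprime (2 * 2) (p ^ 2) :=
      Nat.Coprime.pow (2 : ℕ) 2 ((Nat.coprime_primes Nat.prime_two hp).2 (Ne.symm h2))
    have h6 := h5.dvd_of_dvd_mul_left h4
    rcases hq.eq_two_or_odd' with rfl | h7
    · exact hqr ((Nat.prime_dvd_prime_iff_eq Nat.prime_two hr).1
        (Nat.dvd_of_mul_dvd_mul_left two_pos h6))
    · have h8 : Nat.Coprime (2 * 2) q := Nat.Coprime.pow_left 2 (Nat.coprime_two_left.2 h7)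
      have h9 := h8.dvd_of_dvd_mul_left h6
      rcases (Nat.dvd_prime hr).1 h9 with h | h
      · omega
      · rw [← h] at hr; norm_num at hr
  subst hp2
  have hodd : q * r % 2 = 1 :=
    Nat.odd_iff.1 ((hq.odd_of_ne_two hpq.symm).mul (hr.odd_of_ne_two hpr.symm))
  have h3 : 3 ∣ q * r := by rw [mul_assoc] at hG; omega
  rcases (Nat.Prime.dvd_mul Nat.prime_three).1 h3 with h4 | h4
  · obtain rfl := (Nat.prime_dvd_prime_iff_eq Nat.prime_three hq).1 h4
    exact aux hc hr hpr.symm hqr.symm (by omega)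
  · obtain rfl := (Nat.prime_dvd_prime_iff_eq Nat.prime_three hr).1 h4
    exact aux hc hq hpq.symm hqr (by omega)

end Cfsg.Agent.S0988
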