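import Cfsg.Statements.S0990
import Mathlib
import Cfsg.Agent.Small.SymNorm

set_option autoImplicit false
open Cfsg

namespace Cfsg.Agent.S0990



/-- Let p be an odd prime and P a Sylow p-subgroup of the symmetric group on a finite set with at least two elements. Then P is contained in the alternating group, and twice the order of the normalizer of P inside the alternating group equals the order of the normalizer of P in the symmetric group. -/
theorem result {α : Type*} [Fintype α] [DecidableEq α] (hα : 2 ≤ Fintype.card α) (p : ℕ) [Fact p.Prime] (hp : p ≠ 2) (P : Sylow p (Equiv.Perm α)) : (P : Subgroup (Equiv.Perm α)) ≤ alternatingGroup α ∧ 2 * Nat.card ↥(Subgroup.normalizer ((((P : Subgroup (Equiv.Perm α)).subgroupOf (alternatingGroup α) : Subgroup ↥(alternatingGroup α)) : Set ↥(alternatingGroup α)))) = Nat.card ↥(Subgroup.normalizer ((P : Subgroup (Equiv.Perm α)) : Set (Equiv.Perm α))) := by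
  have : Nontrivial α := Fintype.one_lt_card_iff_nontrivial.mp hα
  refine ⟨Small.sylow_le_alternating hp P, ?_⟩
  rw [← Small.two_mul_card_inf_normalizer_alt hp P,
    ← Subgroup.subgroupOf_normalizer_eq (Small.sylow_le_alternating hp P), inf_comm,
    ← Subgroup.subgroupOf_map_subtype,
    Subgroup.card_map_of_injective (alternatingGroup α).subtype_injective]

end Cfsg.Agent.S0990
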