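import Cfsg.Statements.S0992
import Mathlib
import Cfsg.Agent.Small.Tools

set_option autoImplicit false
open Cfsg

namespace Cfsg.Agent.S0992

theorem card_mulAut_klein {T : Type*} [Group T] [IsKleinFour T] : Nat.card (MulAut T) = 6 := by
  obtain ⟨e⟩ : Nonempty (T ≃* Multiplicative (ZMod 2 × ZMod 2)) := IsKleinFour.nonempty_mulEquiv
  rw [Nat.card_congr (MulAut.congr e).toEquiv]
  have e2 : MulAut (Multiplicative (ZMod 2 × ZMod 2)) ≃
      {σ : Equiv.Perm (Multiplicative (ZMod 2 × ZMod 2)) // ∀ a b, σ (a * b) = σ a * σ b} :=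
    ⟨fun f => ⟨f.toEquiv, f.map_mul⟩, fun σ => ⟨σ.1, σ.2⟩, fun _ => rfl, fun _ => rfl⟩
  rw [Nat.card_congr e2, Nat.card_eq_fintype_card]
  decide +kernel

/-- Let G be a non-abelian finite simple group of even order not divisible by 8, and T a Sylow 2-subgroup. Then T is a Klein four-group and the centralizer of T has index 3 in the normalizer of T. -/
theorem result {G : Type*} [Group G] [Finite G] [IsSimpleGroup G] (hG : ¬ IsMulCommutative G) (h2 : Even (Nat.card G)) (h8 : ¬ 8 ∣ Nat.card G) (T : Sylow 2 G) : IsKleinFour ↥(T : Subgroup G) ∧ (Subgroup.centralizer ((T : Subgroup G) : Set G)).relIndex (Subgroup.normalizer ((T : Subgroup G) : Set G)) = 3 := by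
  have hmin : (Nat.card G).minFac = 2 := (Nat.minFac_eq_two_iff _).mpr h2.two_dvd
  have hnc : ¬ IsCyclic (T : Subgroup G) := fun hc =>
    Small.not_normalizer_le_centralizer hG T h2.two_dvd (hc.normalizer_le_centralizer hmin)
  obtain ⟨k, hk⟩ := T.2.exists_card_eq
  have hk3 : k < 3 := by
    by_contra h
    apply h8
    have h1 : 2 ^ 3 ∣ 2 ^ k := pow_dvd_pow 2 (by omega)
    rw [← hk] at h1
    exact h1.trans (Subgroup.card_subgroup_dvd_card _)
  have hk2 : k = 2 := by
    by_contra h
    apply hnc
    have : k = 0 ∨ k = 1 := by omega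
    rcases this with rfl | rfl
    · have : Subsingleton (T : Subgroup G) := (Nat.card_eq_one_iff_unique.mp (by simpa using hk)).1
      infer_instance
    · exact isCyclic_of_prime_card (p := 2) (by simpa using hk)
  subst hk2
  have hK : IsKleinFour (T : Subgroup G) := by
    have hc : Nat.card (T : Subgroup G) = 4 := hk
    have : Nontrivial (T : Subgroup G) := Finite.one_lt_card_iff_nontrivial.mp (by omega)
    refine ⟨hc, ?_⟩
    exact (not_isCyclic_iff_exponent_eq_prime Nat.prime_two hk).mp hnc
  refine ⟨hK, ?_⟩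
  have h1 := Small.relIndex_centralizer_dvd_card_mulAut (T : Subgroup G)
  rw [card_mulAut_klein] at h1
  have h3 : (Subgroup.centralizer ((T : Subgroup G) : Set G)).relIndex
      (Subgroup.normalizer ((T : Subgroup G) : Set G)) ≠ 1 := by
    rw [Ne, Subgroup.relIndex_eq_one]
    exact Small.not_normalizer_le_centralizer hG T h2.two_dvd
  have h4 : ¬ 2 ∣ (Subgroup.centralizer ((T : Subgroup G) : Set G)).relIndex
      (Subgroup.normalizer ((T : Subgroup G) : Set G)) := by
    intro h
    apply T.not_dvd_index
    have : IsMulCommutative (T : Subgroup G) := IsKleinFour.isMulCommutative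
    exact (h.trans (Subgroup.relIndex_dvd_of_le_left _ (T : Subgroup G).le_centralizer)).trans
      (Subgroup.relIndex_dvd_index_of_le Subgroup.le_normalizer)
  have h5 := Nat.le_of_dvd (by norm_num) h1
  generalize (Subgroup.centralizer ((T : Subgroup G) : Set G)).relIndex
      (Subgroup.normalizer ((T : Subgroup G) : Set G)) = e at *
  interval_cases e <;> simp_all

end Cfsg.Agent.S0992
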