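import Cfsg.Statements.S0995
import Mathlib
import Cfsg.Agent.Small.Count

set_option autoImplicit false
open Cfsg
open scoped Pointwise

namespace Cfsg.Agent.S0995

theorem orderOf_eq_of_isConj {G : Type*} [Group G] {x y : G} (h : IsConj x y) :
    orderOf x = orderOf y := by
  obtain ⟨c, hc⟩ := h
  exact SemiconjBy.orderOf_eq _ hc



/-- Let G be a finite perfect group containing an element z of prime order p whose centralizer is the cyclic group it generates. Let t be the number of conjugacy classes of elements of order p. Then t divides p - 1, the number of Sylow p-subgroups has the form 1 + n * p, and |G| * t = (p - 1) * p * (1 + n * p). -/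
theorem result {G : Type*} [Group G] [Finite G] (hperf : commutator G = ⊤) (p : ℕ) [Fact p.Prime] (z : G) (hz : orderOf z = p) (hC : Subgroup.centralizer ({z} : Set G) = Subgroup.zpowers z) : ∃ n t : ℕ, t = Nat.card {c : ConjClasses G // ∃ g : G, ConjClasses.mk g = c ∧ orderOf g = p} ∧ t ∣ p - 1 ∧ Nat.card (Sylow p G) = 1 + n * p ∧ Nat.card G * t = (p - 1) * p * (1 + n * p) := by
  classical
  have hp : p.Prime := Fact.out
  have hz1 : z ≠ 1 := by
    rintro rfl
    rw [orderOf_one] at hz
    exact hp.one_lt.ne hz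
  obtain ⟨P, hP⟩ := Small.exists_mem_sylow_of_pow (p := p) (g := z) (k := 1)
    (by rw [pow_one, ← hz, pow_orderOf_eq_one])
  have hzc : Nat.card (Subgroup.zpowers z) = p := by rw [Nat.card_zpowers, hz]
  -- P = <z>
  have hPz : (P : Subgroup G) = Subgroup.zpowers z := by
    have : Nontrivial (P : Subgroup G) := ⟨⟨⟨z, hP⟩, 1, fun h => hz1 (congrArg Subtype.val h)⟩⟩
    have := P.2.center_nontrivial
    obtain ⟨⟨c, hc⟩, hc1⟩ := exists_ne (1 : Subgroup.center (P : Subgroup G))
    have hc1' : (c : G) ≠ 1 := fun h => hc1 (Subtype.ext (Subtype.ext h))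
    have hcz : (c : G) ∈ Subgroup.zpowers z := by
      rw [← hC, Subgroup.mem_centralizer_singleton_iff]
      exact (congrArg Subtype.val (Subgroup.mem_center_iff.mp hc ⟨z, hP⟩)).symm
    have ho : orderOf (c : G) = p := by
      have : orderOf (c : G) ∣ p := by
        have := (Subgroup.zpowers z).orderOf_dvd_natCard hcz
        rwa [hzc] at this
      exact ((Nat.dvd_prime hp).mp this).resolve_left (fun h => hc1' (orderOf_eq_one_iff.mp h))
    have heq : Subgroup.zpowers (c : G) = Subgroup.zpowers z :=
      Subgroup.eq_of_le_of_card_ge (Subgroup.zpowers_le.mpr hcz) (by rw [hzc, Nat.card_zpowers, ho])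
    refine le_antisymm ?_ (Subgroup.zpowers_le.mpr hP)
    intro x hx
    rw [← hC, ← Small.centralizer_zpowers, ← heq, Small.centralizer_zpowers,
      Subgroup.mem_centralizer_singleton_iff]
    exact congrArg Subtype.val (Subgroup.mem_center_iff.mp hc ⟨x, hx⟩)
  have hPc : Nat.card (P : Subgroup G) = p := by rw [hPz, hzc]
  -- all elements of order p have centralizer of order p
  have hcent : ∀ g : G, orderOf g = p → Nat.card (Subgroup.centralizer ({g} : Set G)) = p := by
    intro g hg
    obtain ⟨Q, hQ⟩ := Small.exists_mem_sylow_of_pow (p := p) (g := g) (k := 1)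
      (by rw [pow_one, ← hg, pow_orderOf_eq_one])
    obtain ⟨c, rfl⟩ := MulAction.exists_smul_eq G P Q
    have h1 : c⁻¹ * g * c ∈ (P : Subgroup G) := by
      have : g ∈ MulAut.conj c • (P : Subgroup G) := hQ
      rw [Subgroup.mem_pointwise_smul_iff_inv_smul_mem] at this
      simpa using this
    have h2 : orderOf (c⁻¹ * g * c) = p := by
      rw [← hg]; exact orderOf_eq_of_isConj (isConj_iff.mpr ⟨c, by group⟩)
    have h3 : Subgroup.zpowers (c⁻¹ * g * c) = Subgroup.zpowers z :=
      Subgroup.eq_of_le_of_card_ge (Subgroup.zpowers_le.mpr (by rw [← hPz]; exact h1))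
        (by rw [hzc, Nat.card_zpowers, h2])
    have h4 : Nat.card (Subgroup.centralizer ({c⁻¹ * g * c} : Set G)) = p := by
      rw [← Small.centralizer_zpowers, h3, Small.centralizer_zpowers, hC, hzc]
    have h5 := Small.card_isConj_mul_card_centralizer g
    have h6 := Small.card_isConj_mul_card_centralizer (c⁻¹ * g * c)
    have h7 : Nat.card {y : G // IsConj (c⁻¹ * g * c) y} = Nat.card {y : G // IsConj g y} := by
      have : IsConj (c⁻¹ * g * c) g := isConj_iff.mpr ⟨c, by group⟩
      exact Nat.card_congr (Equiv.subtypeEquivRight fun y =>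
        ⟨fun h => this.symm.trans h, fun h => this.trans h⟩)
    rw [h7, h4, ← h5] at h6
    have : 0 < Nat.card {y : G // IsConj g y} := by
      have : Nonempty {y : G // IsConj g y} := ⟨⟨g, IsConj.refl g⟩⟩
      exact Nat.card_pos
    exact (Nat.eq_of_mul_eq_mul_left this h6).symm
  set T := {c : ConjClasses G // ∃ g : G, ConjClasses.mk g = c ∧ orderOf g = p} with hT
  have : Fintype T := Fintype.ofFinite T
  have hcount : Nat.card {g : G // orderOf g = p} * p = Nat.card T * Nat.card G := by
    let f : {g : G // orderOf g = p} → T := fun g => ⟨ConjClasses.mk g.1, g.1, rfl, g.2⟩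
    rw [← Nat.card_congr (Equiv.sigmaFiberEquiv f), Nat.card_sigma, Finset.sum_mul,
      Nat.card_eq_fintype_card (α := T), ← smul_eq_mul (Fintype.card T), ← Finset.card_univ,
      ← Finset.sum_const]
    refine Finset.sum_congr rfl fun c _ => ?_
    obtain ⟨_, g, rfl, hg⟩ := c
    rw [← Small.card_isConj_mul_card_centralizer g, hcent g hg]
    congr 1
    refine Nat.card_congr ⟨fun x => ⟨x.1.1, ?_⟩, fun y => ⟨⟨y.1, ?_⟩, ?_⟩, fun _ => rfl, fun _ => rfl⟩
    · exact (ConjClasses.mk_eq_mk_iff_isConj.mp (congrArg Subtype.val x.2)).symm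
    · rw [← orderOf_eq_of_isConj y.2, hg]
    · exact Subtype.ext (ConjClasses.mk_eq_mk_iff_isConj.mpr y.2.symm)
  rw [Small.card_orderOf_eq_prime P hPc] at hcount
  obtain ⟨n, hn⟩ : ∃ n, Nat.card (Sylow p G) = 1 + n * p := by
    have h := card_sylow_modEq_one p G
    refine ⟨Nat.card (Sylow p G) / p, ?_⟩
    rw [Nat.ModEq, Nat.mod_eq_of_lt hp.one_lt] at h
    have := Nat.mod_add_div (Nat.card (Sylow p G)) p
    rw [h] at this
    rw [mul_comm]; exact this.symm
  refine ⟨n, Nat.card T, rfl, ?_, hn, ?_⟩
  · have h1 := Small.card_sylow_mul_card_normalizer P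
    obtain ⟨e, he⟩ : p ∣ Nat.card (Subgroup.normalizer ((P : Subgroup G) : Set G)) := by
      have := Subgroup.card_dvd_of_le (Subgroup.le_normalizer (H := (P : Subgroup G)))
      rwa [hPc] at this
    refine ⟨e, ?_⟩
    rw [← h1, he] at hcount
    have h2 : 0 < Nat.card (Sylow p G) * p := Nat.mul_pos Nat.card_pos hp.pos
    apply Nat.eq_of_mul_eq_mul_left h2
    linarith
  · rw [← hn]; linarith

end Cfsg.Agent.S0995
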