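import Cfsg.Statements.S1002
import Mathlib
import Cfsg.Agent.Small.Tools
import Cfsg.Agent.S0205

set_option autoImplicit false
open Cfsg

namespace Cfsg.Agent.S1002



/-- No finite simple group has order 1004913 = 3^3 * 7 * 13 * 409. -/
theorem result {G : Type*} [Group G] [Finite G] [IsSimpleGroup G] : Nat.card G ≠ 1004913 := by
  intro h
  exact Small.not_isSolvable (Small.not_comm_of_card (G := G) (by rw [h]; norm_num))
    (S0205.result (by rw [h]; decide))

end Cfsg.Agent.S1002
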