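import Cfsg.Statements.S1009
import Mathlib
import Cfsg.Agent.Small.Tools

set_option autoImplicit false
open Cfsg
open scoped Pointwise

namespace Cfsg.Agent.S1009



/-- Brodkey's Theorem: if a finite group has abelian Sylow p-subgroups, then there are two Sylow p-subgroups whose intersection equals the intersection of all Sylow p-subgroups. -/
theorem result {G : Type*} [Group G] [Finite G] (p : ℕ) [Fact p.Prime] (hab : ∀ P : Sylow p G, IsMulCommutative ↥(P : Subgroup G)) : ∃ P Q : Sylow p G, (P : Subgroup G) ⊓ (Q : Subgroup G) = ⨅ R : Sylow p G, (R : Subgroup G) := by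
  classical
  obtain ⟨⟨P, Q⟩, hmin⟩ := Finite.exists_min
    (fun t : Sylow p G × Sylow p G => Nat.card ↥((t.1 : Subgroup G) ⊓ (t.2 : Subgroup G)))
  refine ⟨P, Q, le_antisymm (le_iInf fun R => ?_) (le_inf (iInf_le _ P) (iInf_le _ Q))⟩
  set D : Subgroup G := (P : Subgroup G) ⊓ (Q : Subgroup G) with hD
  set N := Subgroup.normalizer (D : Set G) with hN
  have hle : ∀ S : Sylow p G, D ≤ S → (S : Subgroup G) ≤ N := by
    intro S hS
    have := hab S
    exact ((S : Subgroup G).le_centralizer.trans (Subgroup.centralizer_le hS)).trans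
      (Subgroup.centralizer_le_normalizer _)
  have hP := hle P inf_le_left
  have hQ := hle Q inf_le_right
  have hDp : IsPGroup p (D.subgroupOf N) := (P.2.to_inf_left (K := Q)).comap_subtype
  -- move R to Q by conjugation
  obtain ⟨g, hg⟩ := MulAction.exists_smul_eq G R Q
  -- it suffices to show that D lies in every conjugate of ... take S = g⁻¹-conjugates
  suffices h : ∀ R : Sylow p G, D ≤ R by exact h R
  intro R
  obtain ⟨S, hS⟩ := (R.2.comap_subtype (K := N)).exists_le_sylow
  obtain ⟨n, hn⟩ := MulAction.exists_smul_eq N S (P.subtype hP)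
  -- (n • R) ⊓ N ≤ P
  have h1 : ((n • R : Sylow p G) : Subgroup G) ⊓ Q ≤ D := by
    refine le_inf ?_ inf_le_right
    rintro x ⟨hx1, hx2⟩
    have hxN : x ∈ N := hQ hx2
    have h2 : (n : G)⁻¹ * x * n ∈ (R : Subgroup G) := by
      have : x ∈ MulAut.conj (n : G) • (R : Subgroup G) := hx1
      rw [Subgroup.mem_pointwise_smul_iff_inv_smul_mem] at this
      simpa using this
    have h3 : n⁻¹ * ⟨x, hxN⟩ * n ∈ (S : Subgroup N) := hS h2
    have h4 : (⟨x, hxN⟩ : N) ∈ ((n • S : Sylow p N) : Subgroup N) := by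
      show _ ∈ MulAut.conj n • (S : Subgroup N)
      rw [Subgroup.mem_pointwise_smul_iff_inv_smul_mem]
      simpa using h3
    rw [hn] at h4
    exact h4
  have h5 : ((n • R : Sylow p G) : Subgroup G) ⊓ Q = D :=
    Subgroup.eq_of_le_of_card_ge h1 (hmin (n • R, Q))
  intro x hx
  have h6 : (n : G) * x * (n : G)⁻¹ ∈ D := (Subgroup.mem_normalizer_iff.mp n.2 x).mp hx
  rw [← h5] at h6
  have : (n : G) * x * (n : G)⁻¹ ∈ MulAut.conj (n : G) • (R : Subgroup G) := h6.1
  rw [Subgroup.mem_pointwise_smul_iff_inv_smul_mem] at this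
  simpa [mul_assoc] using this

end Cfsg.Agent.S1009
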