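import Cfsg.Statements.S1010
import Mathlib
import Cfsg.Agent.Small.FewSylow
import Cfsg.Agent.Small.Sieve
import Cfsg.Agent.S0496
import Cfsg.Agent.S4303

set_option autoImplicit false
open Cfsg

namespace Cfsg.Agent.S1010

open Cfsg.Agent.Small Cfsg.Agent.Small.Sieve Subgroup in
theorem simple_case {G : Type*} [Group G] [Finite G] [IsSimpleGroup G] :
    Nat.card (Sylow 5 G) ≠ 21 := by
  intro h
  have : Fact (Nat.Prime 5) := ⟨by norm_num⟩
  obtain ⟨P⟩ : Nonempty (Sylow 5 G) := inferInstance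
  have hP := card_sylow_eq_prime_of_simple (by rw [h]; norm_num) (by rw [h]; norm_num) P
  have h1 := card_sylow_mul_card_normalizer P
  have hG : ¬ IsMulCommutative G := not_comm_of_card (by
    rw [← h1, h, show 21 = 3 * 7 by norm_num, mul_assoc]
    exact Nat.not_prime_mul (by norm_num) (by omega))
  have h2 := (P : Subgroup G).card_mul_index
  rw [hP] at h2
  obtain ⟨k, e, c, e1, -, -, e4, e5, e6, e7, -, e9, e10, e11⟩ :=
    prime_sylow_data hG h2.symm P.not_dvd_index P
  obtain rfl : k = 21 := e6.symm.trans h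
  have he : e = 2 ∨ e = 4 := by
    have h6 : e ≤ 4 := Nat.le_of_dvd (by norm_num) e5
    interval_cases e <;> simp_all
  by_cases hc : c = 1
  · subst hc
    rcases he with rfl | rfl <;> have := S0496.result hG (by omega) <;> omega
  obtain ⟨L, hL⟩ := exists_degSol hG (by norm_num) P e7 e9
    (fun h => P.not_dvd_index (e1 ▸ h.mul_left _)) e10 e11 (admits_A0 hG)
  have key : ∀ d, good 5 (21 * e) c d = true → d = 12 ∨ d = 28 ∨ d = 42 ∨ d % 7 = 0 := by
    intro d hd
    obtain ⟨-, h3, h4⟩ := good_iff.1 hd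
    have h5 : d ∈ Nat.divisors 84 := Nat.mem_divisors.2
      ⟨h3.trans (by rcases he with rfl | rfl <;> norm_num), by norm_num⟩
    have h6 : ∀ d ∈ Nat.divisors 84, 10 ≤ d → d = 12 ∨ d = 28 ∨ d = 42 ∨ d % 7 = 0 := by decide
    exact h6 d h5 (by omega)
  have h3 : (7 : ℤ) ∣ L.sum := Multiset.dvd_sum fun v hv => by
    have := key _ (hL.goodX v hv)
    have := hL.modX v hv
    omega
  have := key _ hL.goodY
  omega

/-- No finite group has exactly twenty-one Sylow 5-subgroups. -/
theorem result {G : Type*} [Group G] [Finite G] : Nat.card (Sylow 5 G) ≠ 21 := by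
  intro h
  have : Fact (Nat.Prime 5) := ⟨by norm_num⟩
  obtain ⟨l, h1, h2⟩ := S4303.result (G := G) 5
  rw [h] at h1
  have h3 : ∀ m ∈ l, m = 1 := by
    intro m hm
    have h4 : m ∈ Nat.divisors 21 := Nat.mem_divisors.2 ⟨h1 ▸ List.dvd_prod hm, by norm_num⟩
    have h5 : ∀ m ∈ Nat.divisors 21, m % 5 = 1 → m = 1 ∨ m = 21 := by decide
    rcases h2 m hm with ⟨h6, h7⟩ | ⟨S, _, _, _, h6⟩
    · rcases h5 m h4 h7 with h8 | rfl
      · exact h8
      · exact absurd h6 (by decide +kernel)
    · rcases h5 m h4 (h6 ▸ card_sylow_modEq_one 5 S) with h8 | rfl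
      · exact h8
      · exact absurd h6.symm simple_case
  rw [List.prod_eq_one h3] at h1
  omega

end Cfsg.Agent.S1010
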