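import Cfsg.Statements.S1015
import Mathlib
import Cfsg.Agent.Small.AbSylow

set_option autoImplicit false
open Cfsg

namespace Cfsg.Agent.S1015



/-- No finite simple group has order 1200 = 2^4 * 3 * 5^2. -/
theorem result {G : Type*} [Group G] [Finite G] [IsSimpleGroup G] : Nat.card G ≠ 1200 := by
  intro h
  have hG := Small.not_comm_of_card (G := G) (by rw [h]; norm_num)
  have : Fact (Nat.Prime 5) := ⟨by norm_num⟩
  have h' : Nat.card G = 5 ^ 2 * 48 := by rw [h]; norm_num
  have h1 := Small.card_sylow_dvd h' (by norm_num)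
  have h2 := Small.two_mul_card_dvd_factorial_sylow (p := 5) hG (by rw [h]; norm_num)
  have h3 := Small.card_sylow_ne_one (p := 5) hG (by rw [h]; norm_num)
  have h4 : ¬ Nat.card (Sylow 5 G) ≡ 1 [MOD 5 ^ 2] := by
    have h5 := Nat.le_of_dvd (by norm_num) h1
    unfold Nat.ModEq
    generalize Nat.card (Sylow 5 G) = n at *
    interval_cases n <;> simp_all
  obtain ⟨D, -, hD, n, h5, h6, -, h7⟩ := Small.exists_proper_of_sq hG h' (by norm_num) h4
  have h8 := Small.two_mul_card_dvd_factorial hG _ hD
  have h9 := h7.trans (Subgroup.card_dvd_of_le (Subgroup.centralizer_le_normalizer _))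
  have h10 := (Subgroup.normalizer (D : Set G)).index_mul_card
  have h11 := Nat.le_of_dvd Nat.card_pos h9
  rw [h] at h8 h10
  have h12 : (Subgroup.normalizer (D : Set G)).index ≤ 8 := by
    have : 6 ≤ n := by omega
    nlinarith
  have h13 := h8.trans (Nat.factorial_dvd_factorial h12)
  revert h13
  decide

end Cfsg.Agent.S1015
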