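import Cfsg.Statements.S1016
import Mathlib
import Cfsg.Agent.Small.PrimeSylow

set_option autoImplicit false
open Cfsg

namespace Cfsg.Agent.S1016



/-- No finite simple group has order 1440 = 2^5 * 3^2 * 5. -/
theorem result {G : Type*} [Group G] [Finite G] [IsSimpleGroup G] : Nat.card G ≠ 1440 := by
  intro h
  have hG := Small.not_comm_of_card (G := G) (by rw [h]; norm_num)
  have : Fact (Nat.Prime 5) := ⟨by norm_num⟩
  obtain ⟨n, e, h1, h2, h3, h4, h5, h6⟩ := Small.three_prime_data (p := 5) (q := 2) (a := 5)
    (r := 3) (b := 2) hG (by norm_num) (by norm_num) (by norm_num) (by norm_num) (by norm_num)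
    (by rw [h]; norm_num)
  obtain ⟨P⟩ := (inferInstance : Nonempty (Sylow 5 G))
  obtain ⟨h7, h8, -⟩ := h6 P
  have h9 := Small.two_mul_card_normalizer_sylow_dvd (p := 5) hG (by norm_num) _
    (Small.sylow_normalizer_ne_top hG P (by rw [h]; norm_num))
  have h10 : (Subgroup.normalizer ((P : Subgroup G) : Set G)).index = n := by
    rw [← h5]; exact P.card_eq_index_normalizer.symm
  rw [h10] at h9
  have h11 := Nat.le_of_dvd (by norm_num) h4
  norm_num at h1 h4 h11
  interval_cases e <;> first
    | omega
    | (obtain rfl : n = 6 := by omega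
       have := h9 (by norm_num) P h7
       rw [h8] at this
       revert this
       decide)

end Cfsg.Agent.S1016
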