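import Cfsg.Statements.S1018
import Mathlib
import Cfsg.Agent.Small.Count

set_option autoImplicit false
open Cfsg
open scoped Pointwise

namespace Cfsg.Agent.S1018



/-- Let P be a Sylow p-subgroup of order p of a finite group G, and consider the action of G on the left cosets of the normalizer N of P. Then every element of order p fixes exactly one coset, and an element of N that does not centralize P fixes at most as many cosets as there are orbits of P. -/
theorem result {G : Type*} [Group G] [Finite G] (p : ℕ) [Fact p.Prime] (P : Sylow p G) (hP : Nat.card ↥(P : Subgroup G) = p) : (∀ y : G, orderOf y = p → Nat.card (MulAction.fixedBy (G ⧸ Subgroup.normalizer ((P : Subgroup G) : Set G)) y) = 1) ∧ ∀ x : G, x ∈ Subgroup.normalizer ((P : Subgroup G) : Set G) → x ∉ Subgroup.centralizer ((P : Subgroup G) : Set G) → Nat.card (MulAction.fixedBy (G ⧸ Subgroup.normalizer ((P : Subgroup G) : Set G)) x) ≤ Nat.card (MulAction.orbitRel.Quotient ↥(P : Subgroup G) (G ⧸ Subgroup.normalizer ((P : Subgroup G)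 : Set G))) := by
  classical
  have hp : p.Prime := Fact.out
  set N := Subgroup.normalizer ((P : Subgroup G) : Set G) with hN
  have hfix : ∀ (y g : G), (g : G ⧸ N) ∈ MulAction.fixedBy (G ⧸ N) y ↔ g⁻¹ * y * g ∈ N := by
    intro y g
    simp only [MulAction.mem_fixedBy, MulAction.Quotient.smul_mk, smul_eq_mul]
    rw [eq_comm, QuotientGroup.eq, mul_assoc]
  have hinP : ∀ u : G, u ∈ N → orderOf u = p → u ∈ (P : Subgroup G) := by
    intro u hu ho
    have h1 : IsPGroup p (Subgroup.zpowers u) :=
      IsPGroup.of_card (n := 1) (by rw [Nat.card_zpowers, ho, pow_one])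
    have h2 := h1.inf_normalizer_sylow P
    have : u ∈ Subgroup.zpowers u ⊓ Subgroup.normalizer (P : Set G) := ⟨Subgroup.mem_zpowers u, hu⟩
    rw [h2] at this
    exact this.2
  have hoc : ∀ u g : G, orderOf (g⁻¹ * u * g) = orderOf u := fun u g =>
    SemiconjBy.orderOf_eq g (by unfold SemiconjBy; group)
  have hgen : ∀ u : G, u ∈ (P : Subgroup G) → orderOf u = p → Subgroup.zpowers u = P :=
    fun u hu ho => Subgroup.eq_of_le_of_card_ge (Subgroup.zpowers_le.mpr hu)
      (by rw [hP, Nat.card_zpowers, ho])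
  have huniq : ∀ y : G, orderOf y = p → ∀ a ∈ MulAction.fixedBy (G ⧸ N) y,
      ∀ b ∈ MulAction.fixedBy (G ⧸ N) y, a = b := by
    intro y hy a ha b hb
    induction a using QuotientGroup.induction_on with | H g => ?_
    induction b using QuotientGroup.induction_on with | H h => ?_
    rw [hfix] at ha hb
    have h1 := hinP _ ha (by rw [hoc, hy])
    have h2 := hinP _ hb (by rw [hoc, hy])
    rw [QuotientGroup.eq, hN, ← hgen _ h2 (by rw [hoc, hy]), Small.mem_normalizer_zpowers_iff,
      hgen _ h2 (by rw [hoc, hy])]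
    convert h1 using 1
    group
  refine ⟨fun y hy => ?_, fun x hxN hxC => ?_⟩
  · rw [Nat.card_eq_one_iff_unique]
    refine ⟨⟨fun a b => Subtype.ext (huniq y hy _ a.2 _ b.2)⟩, ?_⟩
    obtain ⟨Q, hQ⟩ := Small.exists_mem_sylow_of_pow (p := p) (g := y) (k := 1)
      (by rw [pow_one, ← hy, pow_orderOf_eq_one])
    obtain ⟨c, rfl⟩ := MulAction.exists_smul_eq G P Q
    refine ⟨⟨(c : G ⧸ N), (hfix y c).mpr (Subgroup.le_normalizer ?_)⟩⟩
    have : y ∈ MulAut.conj c • (P : Subgroup G) := hQ
    rw [Subgroup.mem_pointwise_smul_iff_inv_smul_mem] at this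
    simpa using this
  · apply Nat.card_le_card_of_injective
      (fun a => (Quotient.mk'' a.1 : MulAction.orbitRel.Quotient (P : Subgroup G) (G ⧸ N)))
    rintro ⟨a, ha⟩ ⟨b, hb⟩ hab
    apply Subtype.ext
    obtain ⟨u, hu⟩ : a ∈ MulAction.orbit (P : Subgroup G) b := Quotient.exact' hab
    have hu' : (u : G) • b = a := hu
    by_cases hu1 : (u : G) = 1
    · rw [hu1, one_smul] at hu'; exact hu'.symm
    have hou := Small.orderOf_eq_of_mem_sylow_prime P hP u.2 hu1
    have hw : (u : G)⁻¹ * (x * u * x⁻¹) ∈ (P : Subgroup G) :=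
      (P : Subgroup G).mul_mem (inv_mem u.2) ((Subgroup.mem_normalizer_iff.mp hxN u).mp u.2)
    have hw1 : (u : G)⁻¹ * (x * u * x⁻¹) ≠ 1 := by
      intro h
      apply hxC
      rw [← hgen _ u.2 hou, Small.centralizer_zpowers, Subgroup.mem_centralizer_singleton_iff]
      calc x * u = u * ((u : G)⁻¹ * (x * u * x⁻¹)) * x := by group
        _ = u * x := by rw [h, mul_one]
    have how := Small.orderOf_eq_of_mem_sylow_prime P hP hw hw1
    have hxb : x • b = b := hb
    have hxa : x • a = a := ha
    have hxb' : x⁻¹ • b = b := by rw [inv_smul_eq_iff, hxb]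
    have hwb : b ∈ MulAction.fixedBy (G ⧸ N) ((u : G)⁻¹ * (x * u * x⁻¹)) := by
      rw [MulAction.mem_fixedBy, mul_smul, mul_smul, mul_smul, hxb', hu', hxa, ← hu', inv_smul_smul]
    have h1 : ((1 : G) : G ⧸ N) ∈ MulAction.fixedBy (G ⧸ N) ((u : G)⁻¹ * (x * u * x⁻¹)) := by
      rw [hfix, inv_one, one_mul, mul_one]; exact Subgroup.le_normalizer hw
    have hb1 := huniq _ how _ hwb _ h1
    have h2 : ((1 : G) : G ⧸ N) ∈ MulAction.fixedBy (G ⧸ N) (u : G) := by
      rw [hfix, inv_one, one_mul, mul_one]; exact Subgroup.le_normalizer u.2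
    show a = b
    rw [← hu', hb1]
    exact h2

end Cfsg.Agent.S1018
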