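import Cfsg.Statements.S1019
import Mathlib


set_option autoImplicit false
open Cfsg

namespace Cfsg.Agent.S1019



/-- Let H be a subgroup of a finite group G and x an element of H. In the action of G on the left cosets of H, the number of cosets fixed by x, multiplied by the size of the conjugacy class of x, equals the index of H multiplied by the number of conjugates of x that lie in H. -/
theorem result {G : Type*} [Group G] [Finite G] (H : Subgroup G) (x : G) (hx : x ∈ H) : Nat.card (MulAction.fixedBy (G ⧸ H) x) * Nat.card {g : G // IsConj x g} = H.index * Nat.card {g : G // IsConj x g ∧ g ∈ H} := by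
  classical
  -- count pairs (g, ...) : the set of g with g⁻¹ x g ∈ H
  let C := Subgroup.centralizer ({x} : Set G)
  let T := {g : G // g⁻¹ * x * g ∈ H}
  -- T fibres over fixed cosets with fibre H
  have h1 : Nat.card T = Nat.card (MulAction.fixedBy (G ⧸ H) x) * Nat.card H := by
    have e : T ≃ (QuotientGroup.mk ⁻¹' (MulAction.fixedBy (G ⧸ H) x) : Set G) :=
      Equiv.subtypeEquivRight (fun g => by
        simp only [Set.mem_preimage, MulAction.mem_fixedBy, MulAction.Quotient.smul_mk, smul_eq_mul]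
        rw [eq_comm, QuotientGroup.eq, mul_assoc])
    rw [Nat.card_congr e, QuotientGroup.card_preimage_mk, mul_comm]
  have h2 : Nat.card T = Nat.card {g : G // IsConj x g ∧ g ∈ H} * Nat.card C := by
    let f : T → {g : G // IsConj x g ∧ g ∈ H} := fun t =>
      ⟨t.1⁻¹ * x * t.1, isConj_iff.mpr ⟨t.1⁻¹, by rw [inv_inv]⟩, t.2⟩
    rw [← Nat.card_prod]
    refine Nat.card_congr ((Equiv.sigmaFiberEquiv f).symm.trans (Equiv.sigmaEquivProdOfEquiv ?_))
    intro y
    have hy := isConj_iff.mp y.2.1
    let c := hy.choose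
    have hc : c * x * c⁻¹ = y.1 := hy.choose_spec
    refine ⟨fun t => ⟨t.1.1 * c, ?_⟩, fun z => ⟨⟨z.1 * c⁻¹, ?_⟩, ?_⟩, ?_, ?_⟩
    · rw [Subgroup.mem_centralizer_singleton_iff]
      have := congrArg Subtype.val t.2
      simp only [f] at this
      rw [← hc] at this
      calc t.1.1 * c * x = t.1.1 * (c * x * c⁻¹) * c := by group
        _ = x * (t.1.1 * c) := by rw [← this]; group
    · have hz := Subgroup.mem_centralizer_singleton_iff.mp z.2
      have : (z.1 * c⁻¹)⁻¹ * x * (z.1 * c⁻¹) = y.1 := by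
        rw [← hc]
        calc (z.1 * c⁻¹)⁻¹ * x * (z.1 * c⁻¹) = c * z.1⁻¹ * (x * z.1) * c⁻¹ := by group
          _ = c * x * c⁻¹ := by rw [← hz]; group
      rw [this]; exact y.2.2
    · apply Subtype.ext
      have hz := Subgroup.mem_centralizer_singleton_iff.mp z.2
      show (z.1 * c⁻¹)⁻¹ * x * (z.1 * c⁻¹) = y.1
      rw [← hc]
      calc (z.1 * c⁻¹)⁻¹ * x * (z.1 * c⁻¹) = c * z.1⁻¹ * (x * z.1) * c⁻¹ := by group
        _ = c * x * c⁻¹ := by rw [← hz]; group
    · intro t; apply Subtype.ext; apply Subtype.ext; simp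
    · intro z; apply Subtype.ext; simp
  have h3 : Nat.card {g : G // IsConj x g} * Nat.card C = Nat.card G := by
    let f : G → {g : G // IsConj x g} := fun t =>
      ⟨t⁻¹ * x * t, isConj_iff.mpr ⟨t⁻¹, by rw [inv_inv]⟩⟩
    rw [← Nat.card_prod]
    refine (Nat.card_congr ((Equiv.sigmaFiberEquiv f).symm.trans (Equiv.sigmaEquivProdOfEquiv ?_))).symm
    intro y
    have hy := isConj_iff.mp y.2
    let c := hy.choose
    have hc : c * x * c⁻¹ = y.1 := hy.choose_spec
    refine ⟨fun t => ⟨t.1 * c, ?_⟩, fun z => ⟨z.1 * c⁻¹, ?_⟩, ?_, ?_⟩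
    · rw [Subgroup.mem_centralizer_singleton_iff]
      have := congrArg Subtype.val t.2
      simp only [f] at this
      rw [← hc] at this
      calc t.1 * c * x = t.1 * (c * x * c⁻¹) * c := by group
        _ = x * (t.1 * c) := by rw [← this]; group
    · apply Subtype.ext
      have hz := Subgroup.mem_centralizer_singleton_iff.mp z.2
      show (z.1 * c⁻¹)⁻¹ * x * (z.1 * c⁻¹) = y.1
      rw [← hc]
      calc (z.1 * c⁻¹)⁻¹ * x * (z.1 * c⁻¹) = c * z.1⁻¹ * (x * z.1) * c⁻¹ := by group
        _ = c * x * c⁻¹ := by rw [← hz]; group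
    · intro t; apply Subtype.ext; simp
    · intro z; apply Subtype.ext; simp
  have hCpos : 0 < Nat.card C := Nat.card_pos
  have hHpos : 0 < Nat.card H := Nat.card_pos
  have h4 := H.card_mul_index
  apply Nat.eq_of_mul_eq_mul_right (Nat.mul_pos hCpos hHpos)
  calc _ = (Nat.card (MulAction.fixedBy (G ⧸ H) x) * Nat.card H) *
        (Nat.card {g : G // IsConj x g} * Nat.card C) := by ring
    _ = Nat.card T * Nat.card G := by rw [h3, h1]
    _ = _ := by rw [h2, ← h4]; ring

end Cfsg.Agent.S1019
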