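import Cfsg.Statements.S1022
import Mathlib
import Cfsg.Agent.Small.DegMod

set_option autoImplicit false
open Cfsg

namespace Cfsg.Agent.S1022

open Cfsg.Agent.Small.Sieve in
theorem chk7 : primeKill 678 459648 7 A0 [] (fun _ e _ => !(e == 2)) = true := by decide +kernel

open Cfsg.Agent.Small.Sieve in
theorem chk19 : primeKill 678 459648 19
    (fun q b d => A0 q b d && (!(q == 7) || (!(d % 7 == 2) && !(d % 7 == 5)))) [(7, 1)]
    (fun _ _ _ => false) = true := by decide +kernel

/-- No finite simple group has order 459648 = 2^7 * 3^3 * 7 * 19. -/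
theorem result {G : Type*} [Group G] [Finite G] [IsSimpleGroup G] : Nat.card G ≠ 459648 := by
  open Cfsg.Agent.Small Cfsg.Agent.Small.Sieve in
  intro hn
  have hG : ¬ IsMulCommutative G := not_comm_of_card (by rw [hn]; norm_num)
  have : Fact (Nat.Prime 7) := ⟨by norm_num⟩
  have : Fact (Nat.Prime 19) := ⟨by norm_num⟩
  obtain ⟨P⟩ : Nonempty (Sylow 7 G) := inferInstance
  obtain ⟨Q⟩ : Nonempty (Sylow 19 G) := inferInstance
  obtain ⟨k, e, c, h1, -, -, -, -, h2, h3, -, h4, -, -, -, h5⟩ :=
    primeKill_sound hG (admits_A0 hG) (hn ▸ chk7) P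
  have he : e = 3 ∨ e = 6 := by
    have h6 : e ≤ 6 := Nat.le_of_dvd (by norm_num) h3
    interval_cases e <;> simp_all
  have hA := (admits_A0 hG).refine 7 (fun d => !(d % 7 == 2) && !(d % 7 == 5))
    fun M hM χ hχ _ => by
      have := deg_mod_of_principal (by norm_num) P h4 h5 hM hχ
      simp only [Bool.and_eq_true, Bool.not_eq_true', beq_eq_false_iff_ne, Int.ModEq] at this ⊢
      rcases he with rfl | rfl <;> omega
  obtain ⟨k, e, c, h1, -⟩ := primeKill_sound hG hA (hn ▸ chk19) Q
  exact absurd h1 (by simp)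

end Cfsg.Agent.S1022
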