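import Cfsg.Statements.S1024
import Cfsg.Agent.Chev.StChev

set_option autoImplicit false
open Cfsg

namespace Cfsg.Agent.S1024

/-- `x_r(0) = 1`, and `x_r(t) = 1` forces `t = 0`: the map `t ↦ x_r(t)` is injective. -/
theorem result {F : Type*} [Field F] (D : Cfsg.Lie.ChevalleyDatum) (hD : D ∈ [Cfsg.Lie.chevG2, Cfsg.Lie.chevB2, Cfsg.Lie.chevD4, Cfsg.Lie.chevF4, Cfsg.Lie.chevE6, Cfsg.Lie.chevE7, Cfsg.Lie.chevE8]) (r : ℕ) (hr : r < D.nroots) (t : F) :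
    D.x F r t = 1 ↔ t = 0 := by
  obtain ⟨G⟩ := Chev.good_of_mem hD
  obtain ⟨T⟩ := Chev.exists_rootTable hD
  have h := Chev.isSt_xG (D := D) (F := F)
  have hn := Chev.isND_xG (F := F) T
  refine ⟨fun e => hn.eq_zero_of_x_eq_one (T.lt_iff.mp hr) (Units.ext e), ?_⟩
  rintro rfl
  exact Chev.x_zero r

end Cfsg.Agent.S1024
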