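import Cfsg.Statements.S1026
import Cfsg.Agent.Chev.StChev

set_option autoImplicit false
open Cfsg

namespace Cfsg.Agent.S1026

/-- Every element of `U` has a unique expression `∏_{r ∈ Φ⁺} x_r(t_r)`, the product over the positive roots in increasing index order (the coefficient family `t`, supported on the positive roots, exists and is unique); and conversely every such ordered product is the matrix of an element of `U`. -/
theorem result {F : Type*} [Field F] (D : Cfsg.Lie.ChevalleyDatum) (hD : D ∈ [Cfsg.Lie.chevG2, Cfsg.Lie.chevB2, Cfsg.Lie.chevD4, Cfsg.Lie.chevF4, Cfsg.Lie.chevE6, Cfsg.Lie.chevE7, Cfsg.Lie.chevE8]) :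
    (∀ g : GL D.Idx F, g ∈ D.posUnipotent F →
      ∃! t : ℕ → F, (∀ r, ¬ D.IsPosRoot r → t r = 0) ∧
        (g : Matrix D.Idx D.Idx F) = D.wordMat F (D.posRoots.map fun r => (r, t r))) ∧
    (∀ t : ℕ → F, ∃ g : GL D.Idx F, g ∈ D.posUnipotent F ∧
      (g : Matrix D.Idx D.Idx F) = D.wordMat F (D.posRoots.map fun r => (r, t r))) := by
  obtain ⟨G⟩ := Chev.good_of_mem hD
  obtain ⟨T⟩ := Chev.exists_rootTable hD
  have h := Chev.isSt_xG (D := D) (F := F)
  have hn := Chev.isND_xG (F := F) T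
  have hl : D.posRoots.Nodup := List.nodup_range.filter _
  have hlS : ∀ r, r ∈ D.posRoots ↔ r ∈ {r | D.IsPosRoot r} := fun r => by
    simp only [Cfsg.Lie.ChevalleyDatum.posRoots, List.mem_filter, List.mem_range, decide_eq_true_eq,
      Set.mem_ofPred_eq]
    exact ⟨fun h => h.2, fun h => ⟨h.1, h⟩⟩
  rw [Chev.posUnipotent_eq]
  simp only [← Chev.coe_oprod, Units.val_inj]
  refine ⟨fun g hg => ?_, fun t => ⟨_, Chev.oprod_mem_XS (fun r hr => (hlS r).mp hr) t, rfl⟩⟩
  obtain ⟨t, rfl⟩ := h.toIsSt0.exists_oprod T.nil_pos hl hlS hg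
  refine ⟨fun r => if D.IsPosRoot r then t r else 0, ⟨fun r hr => if_neg hr,
    Chev.oprod_congr fun r hr => (if_pos ((hlS r).mp hr)).symm⟩, ?_⟩
  rintro t' ⟨h1, h2⟩
  funext r
  by_cases hr : D.IsPosRoot r
  · rw [if_pos hr]
    exact (hn.oprod_inj h.toIsSt0 T.nil_pos hl (fun r hr => (hlS r).mp hr) h2 r
      ((hlS r).mpr hr)).symm
  · rw [if_neg hr, h1 r hr]

end Cfsg.Agent.S1026
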