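import Cfsg.Statements.S1028
import Cfsg.Agent.Chev.StChev

set_option autoImplicit false
open Cfsg

namespace Cfsg.Agent.S1028

/-- Elements of `U` (the subgroup generated by the root elements of the positive roots) are unipotent linear maps: `(u - 1)^n = 0` with `n = rank + nroots` the dimension of the module. -/
theorem result {F : Type*} [Field F] (D : Cfsg.Lie.ChevalleyDatum) (hD : D ∈ [Cfsg.Lie.chevG2, Cfsg.Lie.chevB2, Cfsg.Lie.chevD4, Cfsg.Lie.chevF4, Cfsg.Lie.chevE6, Cfsg.Lie.chevE7, Cfsg.Lie.chevE8]) (g : GL D.Idx F) (hg : g ∈ D.posUnipotent F) :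
    ((g : Matrix D.Idx D.Idx F) - 1) ^ (D.rank + D.nroots) = 0 := by
  obtain ⟨G⟩ := Chev.good_of_mem hD
  obtain ⟨T⟩ := Chev.exists_rootTable hD
  have h := Chev.isSt_xG (D := D) (F := F)
  have hn := Chev.isND_xG (F := F) T
  rw [Chev.posUnipotent_eq] at hg
  have h1 := Chev.isNilpotent_of_mem_XS T.nil_pos hg
  have h2 := Matrix.aeval_self_charpoly ((g : Matrix D.Idx D.Idx F) - 1)
  have h3 := (Matrix.isNilpotent_charpoly_sub_pow_of_isNilpotent h1).eq_zero
  rw [sub_eq_zero.mp h3, map_pow, Polynomial.aeval_X] at h2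
  simpa using h2

end Cfsg.Agent.S1028
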