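import Cfsg.Statements.S1029
import Cfsg.Agent.Chev.StChev

set_option autoImplicit false
open Cfsg

namespace Cfsg.Agent.S1029

/-- `U` is a nilpotent group (the subgroups generated by root subgroups of height at least `m` form a central series). -/
theorem result {F : Type*} [Field F] (D : Cfsg.Lie.ChevalleyDatum) (hD : D ∈ [Cfsg.Lie.chevG2, Cfsg.Lie.chevB2, Cfsg.Lie.chevD4, Cfsg.Lie.chevF4, Cfsg.Lie.chevE6, Cfsg.Lie.chevE7, Cfsg.Lie.chevE8]) : Group.IsNilpotent (D.posUnipotent F) := by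
  obtain ⟨G⟩ := Chev.good_of_mem hD
  obtain ⟨T⟩ := Chev.exists_rootTable hD
  have h := Chev.isSt_xG (D := D) (F := F)
  have hn := Chev.isND_xG (F := F) T
  rw [Chev.posUnipotent_eq]
  exact h.toIsSt0.isNilpotent_XS T.nil_pos

end Cfsg.Agent.S1029
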