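import Cfsg.Statements.S1034
import Cfsg.Agent.Chev.StChev

set_option autoImplicit false
open Cfsg

namespace Cfsg.Agent.S1034

/-- Every element of `H` is a product `h_{p_1}(c_1) ⋯ h_{p_l}(c_l)` over the fundamental roots, with non-zero `c_i`. -/
theorem result {F : Type*} [Field F] (D : Cfsg.Lie.ChevalleyDatum) (hD : D ∈ [Cfsg.Lie.chevG2, Cfsg.Lie.chevB2, Cfsg.Lie.chevD4, Cfsg.Lie.chevF4, Cfsg.Lie.chevE6, Cfsg.Lie.chevE7, Cfsg.Lie.chevE8]) (g : GL D.Idx F) (hg : g ∈ D.diagonalSubgroup F) :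
    ∃ c : ℕ → F, (∀ i < D.rank, c i ≠ 0) ∧
      (g : Matrix D.Idx D.Idx F) = D.wordMat F ((List.range D.rank).flatMap fun i => D.hWord (D.simple i) (c i)) := by
  obtain ⟨G⟩ := Chev.good_of_mem hD
  obtain ⟨T⟩ := Chev.exists_rootTable hD
  have h := Chev.isSt_xG (D := D) (F := F)
  have hn := Chev.isND_xG (F := F) T
  rw [Chev.diagonalSubgroup_eq, Chev.mem_Hs_iff] at hg
  obtain ⟨c, rfl⟩ := hg
  refine ⟨fun i => if hi : i < D.rank then c ⟨i, hi⟩ else 1, fun i hi => by simp [hi], ?_⟩
  rw [Chev.eq_word_iff]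
  have key : ∀ m ≤ D.rank, Chev.tor D F (fun i => if (i : ℕ) < m then c i else 1) =
      Chev.word (Chev.xG D F) ((List.range m).flatMap fun i =>
        D.hWord (D.simple i) (if hi : i < D.rank then c ⟨i, hi⟩ else 1)) := by
    intro m hm
    induction m with
    | zero => simp only [Nat.not_lt_zero, if_false]; exact map_one (Chev.tor D F)
    | succ m ih =>
      rw [List.range_succ, List.flatMap_append, Chev.word_append, ← ih (by omega),
        List.flatMap_singleton, Chev.word_hWord, dif_pos (show m < D.rank by omega),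
        Chev.hh_simple_eq_tor ⟨m, hm⟩, ← map_mul]
      congr 1
      funext i
      by_cases h1 : i = ⟨m, hm⟩
      · subst h1; simp
      · have h2 : (i : ℕ) ≠ m := fun e => h1 (Fin.ext e)
        have h3 : (i : ℕ) < m + 1 ↔ (i : ℕ) < m := by omega
        simp [h1, h3]
  simpa using key D.rank le_rfl

end Cfsg.Agent.S1034
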