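import Cfsg.Statements.S1045
import Cfsg.Agent.Chev.StChev

set_option autoImplicit false
open Cfsg

namespace Cfsg.Agent.S1045

/-- For a fundamental root `p`, the subgroup `U_p` generated by the `X_s`, `s` positive and `s ≠ p`, is normalised by `X_p` and `X_{-p}`, and `U = U_p ⊔ X_p`. -/
theorem result {F : Type*} [Field F] (D : Cfsg.Lie.ChevalleyDatum) (hD : D ∈ [Cfsg.Lie.chevG2, Cfsg.Lie.chevB2, Cfsg.Lie.chevD4, Cfsg.Lie.chevF4, Cfsg.Lie.chevE6, Cfsg.Lie.chevE7, Cfsg.Lie.chevE8]) (i : ℕ) (hi : i < D.rank) :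
    D.rootSubgroup F (D.simple i) ⊔ D.rootSubgroup F (D.neg (D.simple i)) ≤
        Subgroup.normalizer (Subgroup.closure {g : GL D.Idx F | ∃ (s : ℕ) (t : F), D.IsPosRoot s ∧ s ≠ D.simple i ∧
          (g : Matrix D.Idx D.Idx F) = D.x F s t} : Set (GL D.Idx F)) ∧
      Subgroup.closure {g : GL D.Idx F | ∃ (s : ℕ) (t : F), D.IsPosRoot s ∧ s ≠ D.simple i ∧
          (g : Matrix D.Idx D.Idx F) = D.x F s t} ⊔ D.rootSubgroup F (D.simple i) = D.posUnipotent F := by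
  obtain ⟨G⟩ := Chev.good_of_mem hD
  obtain ⟨T⟩ := Chev.exists_rootTable hD
  have h := Chev.isSt_xG (D := D) (F := F)
  have hn := Chev.isND_xG (F := F) T
  rw [Chev.rootSubgroup_eq, Chev.rootSubgroup_eq, Chev.closure_eq_XS', Chev.posUnipotent_eq,
    ← Chev.XS_union, ← Chev.XS_union]
  constructor
  · rw [← T.setUJ_singleton ⟨i, hi⟩]
    refine le_trans (Chev.XS_le.mpr ?_) (h.Ps_le_normalizer T {i})
    have h1 : D.InRootSub {i} (D.simple i) := (T.inRootSub_simple (i := ⟨i, hi⟩)).mpr rfl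
    rintro r (rfl | rfl) t
    · exact h.x_mem_Ps T h1 t
    · exact h.x_mem_Ps T (T.inRootSub_neg h1) t
  · rw [Chev.Us]
    congr 1
    ext r
    have h1 : D.IsPosRoot (D.simple i) :=
      (T.pos_iff _).mpr ⟨T.N_le_simple ⟨i, hi⟩, T.simple_lt ⟨i, hi⟩⟩
    simp only [Set.mem_union, Set.mem_ofPred_eq, Set.mem_singleton_iff]
    by_cases hr : r = D.simple i <;> simp [hr, h1]

end Cfsg.Agent.S1045
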