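import Cfsg.Statements.S1049
import Cfsg.Agent.Chev.StChev

set_option autoImplicit false
open Cfsg

namespace Cfsg.Agent.S1049

/-- `N_G(U_J) = P_J`: the normaliser of `U_J` inside the Chevalley group is the standard parabolic subgroup. -/
theorem result {F : Type*} [Field F] (D : Cfsg.Lie.ChevalleyDatum) (hD : D ∈ [Cfsg.Lie.chevG2, Cfsg.Lie.chevB2, Cfsg.Lie.chevD4, Cfsg.Lie.chevF4, Cfsg.Lie.chevE6, Cfsg.Lie.chevE7, Cfsg.Lie.chevE8]) (J : Set ℕ) (hJ : ∀ j ∈ J, j < D.rank) :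
    Subgroup.normalizer (D.unipotentRadical F J : Set (GL D.Idx F)) ⊓ D.group F = D.parabolicSubgroup F J := by
  obtain ⟨G⟩ := Chev.good_of_mem hD
  obtain ⟨T⟩ := Chev.exists_rootTable hD
  have h := Chev.isSt_xG (D := D) (F := F)
  have hn := Chev.isND_xG (F := F) T
  rw [Chev.parabolicSubgroup_eq, Chev.unipotentRadical_eq]
  refine le_antisymm ?_ (le_inf (h.Ps_le_normalizer T J) (by rw [Chev.group_eq]; exact T.Ps_le_Gs J))
  intro g hg
  obtain ⟨h1, h2⟩ := Subgroup.mem_inf.mp hg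
  have h3 := (Chev.isND_xC (F := F) T).normalizer_UJ Chev.isSt_xC Chev.Gs_xC J
  rw [Chev.Ps_xC, Chev.UJ_xC] at h3
  have h4 : (⟨g, h2⟩ : D.group F) ∈ (Chev.Ps D (Chev.xG D F) J).subgroupOf (D.group F) := by
    rw [← h3, Subgroup.mem_normalizer_iff]
    exact fun a => Subgroup.mem_normalizer_iff.mp h1 a
  exact h4

end Cfsg.Agent.S1049
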