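import Cfsg.Statements.S1058
import Mathlib
import Cfsg.Agent.Chev.RepTwo
import Cfsg.Agent.S1060

set_option autoImplicit false
open Cfsg

namespace Cfsg.Agent.S1058

open Equiv Cfsg.Agent.Chev Cfsg.Lie

/-- The images of the root elements. -/
def sg (r : ℕ) : Perm (Fin 6) :=
  nthL [swap 4 5, swap 0 1 * swap 2 3 * swap 4 5, swap 0 2 * swap 1 3 * swap 4 5, swap 2 3, swap 1 3,
    swap 0 4 * swap 1 5 * swap 2 3, swap 0 4 * swap 1 3 * swap 2 5, swap 0 4] 1 r

theorem sg_sq : ∀ r < chevB2.nroots, sg r * sg r = 1 := by decide +kernel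

theorem sg_comm : ∀ r < chevB2.nroots, ∀ s < chevB2.nroots, s ≠ r → s ≠ chevB2.neg r →
    sg s * sg r = sg r * sg s * ((oddW chevB2 r s).map sg).prod := by decide +kernel

theorem sg_gen : ∀ i : Fin 5, ∃ w ∈ [[0, 1, 3], [3, 4, 3], [3], [1, 2, 7, 1, 2], [0]],
    (∀ r ∈ w, r < chevB2.nroots) ∧ (w.map sg).prod = swap i.castSucc i.succ := by decide +kernel

/-- B₂(2) ≅ S₆. -/
theorem result {F : Type*} [Field F] [Fintype F] (hF : Fintype.card F = 2) :
    Nonempty (↥(Cfsg.Lie.chevB2.group F) ≃* Equiv.Perm (Fin 6)) := by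
  obtain ⟨_⟩ := good_of_mem (D := chevB2) (by simp)
  obtain ⟨θ, hθ⟩ := exists_hom_two (D := chevB2) (by simp) (eq_zero_or_one_of_card hF) sg sg_sq sg_comm
  have hs : Function.Surjective θ := by
    intro g
    have h1 : g ∈ Submonoid.closure (Set.range fun i : Fin 5 => swap i.castSucc i.succ) := by
      rw [Perm.mclosure_swap_castSucc_succ]; trivial
    refine (Submonoid.closure_le (S := θ.range.toSubmonoid)).2 ?_ h1
    rintro _ ⟨i, rfl⟩
    obtain ⟨w, -, h2, h3⟩ := sg_gen i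
    simp only [← h3]
    refine θ.range.list_prod_mem fun g hg => ?_
    obtain ⟨r, hr, rfl⟩ := List.mem_map.1 hg
    exact ⟨_, hθ r (h2 r hr)⟩
  have hc := Cfsg.Agent.S1060.result hF
  norm_num at hc
  have : Finite (chevB2.group F) := Nat.finite_of_card_ne_zero (by omega)
  exact ⟨MulEquiv.ofBijective θ (hs.bijective_of_nat_card_le (by
    rw [hc, Nat.card_eq_fintype_card, Fintype.card_perm]; decide))⟩

end Cfsg.Agent.S1058
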