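import Cfsg.Statements.S1079
import Cfsg.Agent.Lang.SC

set_option autoImplicit false
open Cfsg Cfsg.Lie Cfsg.Agent.Chev

namespace Cfsg.Agent.S1079

/-- `|Z(Ḡ)| = gcd(3, q-1)` for E₆ and `gcd(2, q-1)` for E₇ over a field with `q` elements (the centre is dual to the weight lattice modulo the root lattice). -/
theorem result {K : Type*} [Field K] [Fintype K] {q : ℕ} (hq : Fintype.card K = q)
    (p : Cfsg.Lie.ChevalleyDatum × ℕ) (hp : p ∈ [(Cfsg.Lie.chevE6, 3), (Cfsg.Lie.chevE7, 2)]) :
    Nat.card (Subgroup.center (p.1.SteinbergGroup K)) = Nat.gcd p.2 (q - 1) := by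
  have key : ∀ {D : ChevalleyDatum} (hD : D ∈ [chevG2, chevB2, chevD4, chevF4, chevE6, chevE7, chevE8]),
      Nat.card (Subgroup.center (D.SteinbergGroup K)) =
        Nat.card {c : Fin D.rank → Kˣ // ∀ j, ∏ i, c i ^ cm D i j = 1} := by
    intro D hD
    obtain ⟨_⟩ := good_of_mem hD
    obtain ⟨T⟩ := exists_rootTable hD
    have hS := (isSt0_stGen (D := D) (F := K)).isSt hD
    obtain ⟨θ, hθ⟩ := (isSt_xC (D := D) (F := K)).toIsSt0.exists_lift3 isR3_xC T
    rw [isR3_stGen.center_eq T θ hθ hS Gs_stGen,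
      Subgroup.card_map_of_injective (Lang.torY_stGen_injective hD T hS)]
    exact Nat.card_congr (Equiv.subtypeEquivRight fun c => tor_eq_one_iff)
  simp only [List.mem_cons, List.not_mem_nil, or_false] at hp
  rcases hp with rfl | rfl
  · exact (key (by simp)).trans (card_ker_tor hq (p := (chevE6, Nat.gcd 3 (q - 1))) (by simp))
  · exact (key (by simp)).trans (card_ker_tor hq (p := (chevE7, Nat.gcd 2 (q - 1))) (by simp))

end Cfsg.Agent.S1079
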