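import Mathlib
import Cfsg.Statements.S1081
import Cfsg.Agent.Chev.TwistAut
import Cfsg.Agent.Chev.TwistPres
-- import your own Cfsg.Agent.* helpers here

set_option autoImplicit false
open Cfsg

namespace Cfsg.Agent.S1081

open Cfsg.Lie Cfsg.Agent.Chev in
theorem aux {F : Type*} [Field F] {D : ChevalleyDatum} [Good D]
    (hD : D ∈ [chevG2, chevB2, chevD4, chevF4, chevE6, chevE7, chevE8]) {ρ : ℕ → ℕ} {ε : ℕ → ℤ}
    (H : IsTwist D ρ ε (fun _ => 1) 0) (n : ℕ)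
    (hc : ∀ r < D.nroots, ρ^[n + 1] r = r ∧ ((List.range (n + 1)).map fun i => ε (ρ^[i] r)).prod = 1)
    (l : List ℕ) (hl : ∀ i < D.rank, D.simple i < D.nroots ∧ D.neg (D.simple i) < D.nroots ∧
      ρ (D.simple i) = D.simple (l.getD i 0) ∧ ε (D.simple i) = 1) :
    ∃ α : D.group F ≃* D.group F, ∀ (g : D.group F) (i : ℕ) (t : F), i < D.rank →
      (((g : GL D.Idx F) : Matrix D.Idx D.Idx F) = D.x F (D.simple i) t →
        ((α g : GL D.Idx F) : Matrix D.Idx D.Idx F) = D.x F (D.simple (l.getD i 0)) t) ∧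
      (((g : GL D.Idx F) : Matrix D.Idx D.Idx F) = D.x F (D.neg (D.simple i)) t →
        ((α g : GL D.Idx F) : Matrix D.Idx D.Idx F) = D.x F (D.neg (D.simple (l.getD i 0))) t) := by
  obtain ⟨α, hα⟩ := (stPres_of_mem F hD).exists_graph H n hc
  refine ⟨α, fun g i t hi => ?_⟩
  obtain ⟨h1, h2, h3, h4⟩ := hl i hi
  simp only [eq_xC_iff]
  constructor <;> rintro rfl
  · rw [hα _ h1, h3, h4, Int.cast_one, one_mul]
  · rw [hα _ h2, (H.spec h1).2.1, (H.spec h1).2.2.2.1, h3, h4, Int.cast_one, one_mul]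


/-- Graph automorphisms: for E₆ with ρ = (p₁ p₆)(p₃ p₅) and for D₄ with ρ the 3-cycle on the outer nodes there is a group automorphism sending `x_p(t) ↦ x_{ρ(p)}(t)` and `x_{-p}(t) ↦ x_{-ρ(p)}(t)` for every fundamental root `p`. -/
theorem result {F : Type*} [Field F] (p : Cfsg.Lie.ChevalleyDatum × List ℕ)
    (hp : p ∈ [(Cfsg.Lie.chevE6, [5, 1, 4, 3, 2, 0]), (Cfsg.Lie.chevD4, [2, 1, 3, 0]), (Cfsg.Lie.chevD4, [3, 1, 0, 2])]) :
    ∃ α : ↥(p.1.group F) ≃* ↥(p.1.group F), ∀ (g : ↥(p.1.group F)) (i : ℕ) (t : F), i < p.1.rank →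
      (((g : GL p.1.Idx F) : Matrix p.1.Idx p.1.Idx F) = p.1.x F (p.1.simple i) t →
        ((α g : GL p.1.Idx F) : Matrix p.1.Idx p.1.Idx F) = p.1.x F (p.1.simple (p.2.getD i 0)) t) ∧
      (((g : GL p.1.Idx F) : Matrix p.1.Idx p.1.Idx F) = p.1.x F (p.1.neg (p.1.simple i)) t →
        ((α g : GL p.1.Idx F) : Matrix p.1.Idx p.1.Idx F) = p.1.x F (p.1.neg (p.1.simple (p.2.getD i 0))) t) := by
  simp only [List.mem_cons, List.not_mem_nil, or_false] at hp
  rcases hp with rfl | rfl | rfl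
  · exact aux (by simp) Chev.isTwistE6 1 (by decide +kernel) _ (by decide +kernel)
  · exact aux (by simp) Chev.isTwistD4 2 (by decide +kernel) _ (by decide +kernel)
  · exact aux (by simp) Chev.isTwistD4i 2 (by decide +kernel) _ (by decide +kernel)

end Cfsg.Agent.S1081
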