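import Cfsg.Statements.S1084
import Mathlib
import Cfsg.Agent.Chev.IsoE6

set_option autoImplicit false
open Cfsg

namespace Cfsg.Agent.S1084

/-- E₆ via the 27-dimensional cubic form: for a finite field with at least three elements, (isometries of the cubic form) / centre ≅ the Chevalley group E₆(F). -/
theorem result {F : Type*} [Field F] [Fintype F] (hF : 3 ≤ Fintype.card F) : Nonempty (Cfsg.Lie.E6 F ≃* ↥(Cfsg.Lie.chevE6.group F)) := by
  exact Cfsg.Agent.Chev.E6R.nonempty_E6_equiv
    (Cfsg.Agent.Class.Orth.exists_ne_zero_ne_one_of_card (by omega))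

end Cfsg.Agent.S1084
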