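import Mathlib
import Cfsg.Statements.S1086
import Cfsg.Agent.Chev.TwistE6F
-- import your own Cfsg.Agent.* helpers here

set_option autoImplicit false
open Cfsg

namespace Cfsg.Agent.S1086

/-- |U¹| = |G¹ ∩ U| = q ^ 36 for ²E₆(q). -/
theorem result {K : Type*} [Field K] [Fintype K] {q : ℕ} (hq : IsPrimePow q) (hK : Fintype.card K = q ^ 2) :
    Nat.card ↥(Cfsg.Lie.chevE6.posUnipotent K ⊓ Cfsg.Lie.twistedE6 K q) = q ^ 36 := by
  obtain ⟨S, φ, hφ, h, hT⟩ := Chev.E6.exists_data hq hK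
  rw [(Chev.E6.tw S φ hφ).data.out_card Chev.E6.le_group hT S.U_conc, (Chev.E6.tw S φ hφ).data.U_inf_T]
  exact Chev.E6.card_U S φ hφ h hK hq.one_lt.le

end Cfsg.Agent.S1086
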