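import Mathlib
import Cfsg.Statements.S1101
import Cfsg.Agent.Chev.TwistG2F
-- import your own Cfsg.Agent.* helpers here

set_option autoImplicit false
open Cfsg

namespace Cfsg.Agent.S1101

/-- For ²G₂ over `K` with `|K| = 3^(2m+1)`, `θ = 3^m`: `U¹ = G¹ ∩ U` consists exactly of the elements `x_a(t^θ) x_b(t) x_{a+b}(t^{θ+1}+u^θ) x_{2a+b}(t^{2θ+1}+v^θ) x_{3a+b}(u) x_{3a+2b}(v)`, `t, u, v ∈ K`, and it has `|K|³` elements. -/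
theorem result {K : Type*} [Field K] [Fintype K] {m : ℕ} (hK : Fintype.card K = 3 ^ (2 * m + 1)) :
    (∀ g : GL Cfsg.Lie.chevG2.Idx K, g ∈ Cfsg.Lie.chevG2.posUnipotent K ⊓ Cfsg.Lie.twistedG2 K (3 ^ m) ↔
      ∃ t u v : K, (g : Matrix Cfsg.Lie.chevG2.Idx Cfsg.Lie.chevG2.Idx K) = Cfsg.Lie.chevG2.wordMat K (Cfsg.Lie.reeWordU (3 ^ m) t u v)) ∧
    Nat.card ↥(Cfsg.Lie.chevG2.posUnipotent K ⊓ Cfsg.Lie.twistedG2 K (3 ^ m)) = (3 ^ (2 * m + 1)) ^ 3 := by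
  obtain ⟨_, S, θ, hθ, he, hT⟩ := Chev.G2.exists_data hK
  refine ⟨fun g => ?_, by rw [(Chev.G2.tw S θ hθ).data.out_card Chev.G2.le_group hT S.U_conc, (Chev.G2.tw S θ hθ).data.U_inf_T,
    Chev.G2.card_U, hK]⟩
  have key := Chev.G2.mem_U_inf_T S θ hθ
  simp only [S.U_conc, ← hT, ← Chev.G2.word_reeWordU θ he] at key
  simp only [Chev.eq_word_iff, ← Chev.coe_word_xC]
  refine ⟨fun h => ?_, ?_⟩
  · obtain ⟨t, u, v, e⟩ := (key ⟨g, Chev.G2.le_group h.2⟩).1 h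
    exact ⟨t, u, v, congrArg Subtype.val e⟩
  · rintro ⟨t, u, v, rfl⟩
    exact (key _).2 ⟨t, u, v, rfl⟩

end Cfsg.Agent.S1101
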