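import Mathlib
import Cfsg.Statements.S1108
import Cfsg.Agent.Chev.TwistD4F
-- import your own Cfsg.Agent.* helpers here

set_option autoImplicit false
open Cfsg

namespace Cfsg.Agent.S1108

/-- ³D₄(q) equals its derived subgroup. -/
theorem result {K : Type*} [Field K] [Fintype K] {q : ℕ} (hq : IsPrimePow q) (hK : Fintype.card K = q ^ 3) : commutator ↥(Cfsg.Lie.twistedD4 K q) = ⊤ := by
  obtain ⟨S, φ, hφ, h, hT⟩ := Chev.D4.exists_data hq hK
  exact Chev.D4.commutator_eq_top S φ hφ (Chev.D4.three_lt hq hK) (Subgroup.inclusion Chev.D4.le_group) (Subgroup.inclusion_injective _)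
    ((Chev.D4.tw S φ hφ).data.range_inclusion _ hT)

end Cfsg.Agent.S1108
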