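import Mathlib
import Cfsg.Statements.S1109
import Cfsg.Agent.Chev.TwistD4F
-- import your own Cfsg.Agent.* helpers here

set_option autoImplicit false
open Cfsg

namespace Cfsg.Agent.S1109

/-- The normal core of `B¹ = G¹ ∩ B` in ³D₄(q) is trivial. -/
theorem result {K : Type*} [Field K] [Fintype K] {q : ℕ} (hq : IsPrimePow q) (hK : Fintype.card K = q ^ 3) :
    ((Cfsg.Lie.chevD4.borelSubgroup K ⊓ Cfsg.Lie.twistedD4 K q).subgroupOf (Cfsg.Lie.twistedD4 K q)).normalCore = ⊥ := by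
  obtain ⟨S, φ, hφ, h, hT⟩ := Chev.D4.exists_data hq hK
  exact (Chev.D4.tw S φ hφ).data.out_core Chev.D4.le_group hT S.Bor_conc (Chev.D4.core_cond S φ hφ)

end Cfsg.Agent.S1109
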