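import Mathlib
import Cfsg.Statements.S1112
import Cfsg.Agent.Chev.TwistF4F
-- import your own Cfsg.Agent.* helpers here

set_option autoImplicit false
open Cfsg

namespace Cfsg.Agent.S1112

/-- ²F₄(2^(2m+1)) (m ≥ 1) equals its derived subgroup. -/
theorem result {K : Type*} [Field K] [Fintype K] {m : ℕ} (hK : Fintype.card K = 2 ^ (2 * m + 1)) (hm : 1 ≤ m) : commutator ↥(Cfsg.Lie.twistedF4 K (2 ^ m)) = ⊤ := by
  obtain ⟨_, S, θ, hθ, -, hT⟩ := Chev.F4.exists_data hK
  exact Chev.F4.commutator_eq_top S θ hθ (Chev.F4.two_lt hm hK) (Subgroup.inclusion Chev.F4.le_group) (Subgroup.inclusion_injective _)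
    ((Chev.F4.tw S θ hθ).data.range_inclusion _ hT)

end Cfsg.Agent.S1112
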