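import Mathlib
import Cfsg.Statements.S1124
import Cfsg.Agent.RankOne.Inverted
-- import your own Cfsg.Agent.* helpers here

set_option autoImplicit false
open scoped Pointwise
open Cfsg

namespace Cfsg.Agent.S1124

open RankOne

/-- Let `t` be an element of order 2 of a finite group normalising a subgroup `X` of odd order, `Y = C_X(t)` and `Z` the set of elements of `X` inverted by `t`. Then `(y, z) ↦ y z` is a bijection `Y × Z → X`, so `|X| = |Y| |Z|`, and the subgroup generated by `Z` is normal in `X`. -/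
theorem result {M : Type*} [Group M] [Finite M]
    (t : M) (ht : orderOf t = 2) (X : Subgroup M) (hodd : Odd (Nat.card X))
    (hnorm : ∀ x ∈ X, t * x * t⁻¹ ∈ X) :
    (∀ x ∈ X, ∃! p : M × M, p.1 ∈ X ⊓ Subgroup.centralizer {t} ∧ p.2 ∈ Cfsg.invertedBy X t ∧ x = p.1 * p.2) ∧
      Nat.card X = Nat.card ↥(X ⊓ Subgroup.centralizer {t}) * Nat.card (Cfsg.invertedBy X t) ∧
      ∀ x ∈ X, MulAut.conj x • Subgroup.closure (Cfsg.invertedBy X t) = Subgroup.closure (Cfsg.invertedBy X t) := by
  have ht2 : t * t = 1 := by rw [← pow_two, ← ht, pow_orderOf_eq_one]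
  refine ⟨?_, card_eq_cent_mul_inverted ht2 hodd hnorm, ?_⟩
  · intro x hx
    obtain ⟨y, hy, hyt, z, hz, rfl⟩ := exists_cent_mul_inverted ht2 hodd hnorm hx
    refine ⟨(y, z), ⟨⟨hy, Subgroup.mem_centralizer_singleton_iff.mpr hyt⟩, hz, rfl⟩, ?_⟩
    rintro ⟨y', z'⟩ ⟨hy', hz', h⟩
    obtain ⟨h1, h2⟩ := cent_mul_inverted_unique hodd hyt hz
      (Subgroup.mem_centralizer_singleton_iff.mp hy'.2) hz' h
    exact Prod.ext h1.symm h2.symm
  · intro x hx
    ext w
    rw [Subgroup.mem_pointwise_smul_iff_inv_smul_mem, ← map_inv, MulAut.smul_def, MulAut.conj_apply]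
    refine ⟨fun h => ?_, fun h => conj_mem_closure_invertedBy ht2 hodd hnorm (inv_mem hx) h⟩
    simpa [mul_assoc] using conj_mem_closure_invertedBy ht2 hodd hnorm hx h

end Cfsg.Agent.S1124
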