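import Mathlib
import Cfsg.Statements.S1127
import Cfsg.Agent.RankOne.Inverted
-- import your own Cfsg.Agent.* helpers here

set_option autoImplicit false
open Cfsg

namespace Cfsg.Agent.S1127

open MulAction RankOne

/-- In the rank-one set-up (`G` finite and doubly transitive on `Ω`, `t` an involution moving `a`, `Q` normal in `G_a` with `G_a = Q D`, `Q ⊓ D = 1` for the two-point stabiliser `D = G_a ⊓ G_{t • a}`, `|Q|` even, `|D|` odd): if `s` is an involution of `G_a` and `r ∈ Q` satisfy `t s t = r⁻¹ t r`, then `C_D(t) = C_D(s)`; moreover `C_D(t) ⊓ C_D(K) = C_D(I ∩ G_a)`, where `K` is the set of elements of `D` inverted by `t` and `I ∩ G_a` the set of involutions of `G_a`. -/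
theorem result {G Ω : Type*} [Group G] [Finite G] [MulAction G Ω] {a : Ω} {t : G} {Q : Subgroup G}
    (hS : Cfsg.IsRankOneSetup G Ω a t Q) :
    (∀ s r : G, s ∈ Cfsg.involutionsIn (MulAction.stabilizer G a : Set G) → r ∈ Q → t * s * t = r⁻¹ * t * r →
        (MulAction.stabilizer G a ⊓ MulAction.stabilizer G (t • a)) ⊓ Subgroup.centralizer {t} = (MulAction.stabilizer G a ⊓ MulAction.stabilizer G (t • a)) ⊓ Subgroup.centralizer {s}) ∧
      (MulAction.stabilizer G a ⊓ MulAction.stabilizer G (t • a)) ⊓ Subgroup.centralizer {t} ⊓ Subgroup.centralizer (Cfsg.invertedBy (MulAction.stabilizer G a ⊓ MulAction.stabilizer G (t • a)) t) =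
        (MulAction.stabilizer G a ⊓ MulAction.stabilizer G (t • a)) ⊓ Subgroup.centralizer (Cfsg.involutionsIn (MulAction.stabilizer G a : Set G)) := by
  constructor
  · intro s r hs hr h
    ext d
    simp only [Subgroup.mem_inf, Subgroup.mem_centralizer_singleton_iff]
    exact ⟨fun hd => ⟨hd.1, (V_commute_struct hS hs hr h hd.1.1 hd.2).1⟩,
      fun hd => ⟨hd.1, commute_t_of_commute_struct hS hs hr h hd.1 hd.2⟩⟩
  · ext w
    simp only [Subgroup.mem_inf, Subgroup.mem_centralizer_singleton_iff]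
    exact ⟨fun hw => ⟨hw.1.1, fun s hs => commute_HI_of_W hS hw.1.1.1 hw.1.2 hw.2 hs⟩,
      fun hw => ⟨⟨hw.1, (W_of_commute_HI hS hw.1 hw.2).1⟩, (W_of_commute_HI hS hw.1 hw.2).2⟩⟩

end Cfsg.Agent.S1127
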