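import Mathlib
import Cfsg.Statements.S1134
import Cfsg.Agent.RankOne.Inverted
-- import your own Cfsg.Agent.* helpers here

set_option autoImplicit false
open Cfsg

namespace Cfsg.Agent.S1134

open MulAction RankOne

/-- In the rank-one set-up (`G` finite and doubly transitive on `Ω`, `t` an involution moving `a`, `Q` normal in `G_a` with `G_a = Q D`, `Q ⊓ D = 1` for the two-point stabiliser `D = G_a ⊓ G_{t • a}`, `|Q|` even, `|D|` odd), with the action faithful and `G` containing two distinct commuting involutions, with `V = C_D(t)`: subsets of `V` conjugate in `G` are conjugate in `V`. -/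
theorem result {G Ω : Type*} [Group G] [Finite G] [MulAction G Ω] [FaithfulSMul G Ω] {a : Ω} {t : G} {Q : Subgroup G}
    (hS : Cfsg.IsRankOneSetup G Ω a t Q)
    (h2 : ∃ x y : G, x ≠ 1 ∧ y ≠ 1 ∧ x ≠ y ∧ x * x = 1 ∧ y * y = 1 ∧ x * y = y * x)
    (X : Set G) (hX : X ⊆ (((MulAction.stabilizer G a ⊓ MulAction.stabilizer G (t • a)) ⊓ Subgroup.centralizer {t} : Subgroup G) : Set G)) (g : G)
    (hY : (fun x => g * x * g⁻¹) '' X ⊆ (((MulAction.stabilizer G a ⊓ MulAction.stabilizer G (t • a)) ⊓ Subgroup.centralizer {t} : Subgroup G) : Set G)) :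
    ∃ v ∈ (MulAction.stabilizer G a ⊓ MulAction.stabilizer G (t • a)) ⊓ Subgroup.centralizer {t}, (fun x => v * x * v⁻¹) '' X = (fun x => g * x * g⁻¹) '' X := by
  obtain ⟨c, hca, hcb, -, hc⟩ := three_fix_of_V hS
  have hXt : ∀ x ∈ X, x * t = t * x := fun x hx =>
    Subgroup.mem_centralizer_singleton_iff.mp (hX hx).2
  have h3 : ∃ b c d : Ω, b ≠ c ∧ b ≠ d ∧ c ≠ d ∧ ∀ x ∈ X, x • b = b ∧ x • c = c ∧ x • d = d :=
    ⟨a, t • a, c, (ta_ne hS).symm, hca.symm, hcb.symm,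
      fun x hx => ⟨(hX hx).1.1, (hX hx).1.2, hc x (hXt x hx)⟩⟩
  have hfix : ∀ p : Ω, (∀ x ∈ X, (g * x * g⁻¹) • p = p) → ∀ x ∈ X, x • g⁻¹ • p = g⁻¹ • p := by
    intro p hp x hx
    rw [eq_inv_smul_iff, ← mul_smul, ← mul_smul, hp x hx]
  obtain ⟨y, hy, h1, h2⟩ := cent_two_trans hS h3 (fun x hx => (hX hx).1.1) (fun x hx => (hX hx).1.2)
    (hfix a fun x hx => (hY ⟨x, hx, rfl⟩).1.1) (hfix (t • a) fun x hx => (hY ⟨x, hx, rfl⟩).1.2)
    (ta_ne hS).symm (fun h => ta_ne hS (smul_left_cancel _ h).symm)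
  have hd : g * y ∈ D a t := ⟨by
    change (g * y) • a = a
    rw [mul_smul, h1, smul_inv_smul], by
    change (g * y) • t • a = t • a
    rw [mul_smul, h2, smul_inv_smul]⟩
  obtain ⟨v, hv, hvt, k, hk, hvk⟩ := exists_cent_mul_inverted hS.mul_self hS.odd_card (D_norm hS) hd
  refine ⟨v, ⟨hv, Subgroup.mem_centralizer_singleton_iff.mpr hvt⟩, Set.image_congr ?_⟩
  intro x hx
  have e1 : g * x * g⁻¹ = v * (k * x * k⁻¹) * v⁻¹ := by
    calc g * x * g⁻¹ = g * (x * y) * y⁻¹ * g⁻¹ := by group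
      _ = (g * y) * x * (g * y)⁻¹ := by rw [hy x hx]; group
      _ = _ := by rw [hvk]; group
  have e2 : (g * x * g⁻¹) * t = t * (g * x * g⁻¹) :=
    Subgroup.mem_centralizer_singleton_iff.mp (hY ⟨x, hx, rfl⟩).2
  have e3 : (k * x * k⁻¹) * t = t * (k * x * k⁻¹) := by
    rw [e1] at e2
    have e4 : v⁻¹ * t = t * v⁻¹ := by
      calc v⁻¹ * t = v⁻¹ * (t * v) * v⁻¹ := by group
        _ = _ := by rw [← hvt]; group
    apply mul_left_cancel (a := v)
    apply mul_right_cancel (b := v⁻¹)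
    calc v * (k * x * k⁻¹ * t) * v⁻¹ = v * (k * x * k⁻¹) * (t * v⁻¹) := by group
      _ = v * (k * x * k⁻¹) * v⁻¹ * t := by rw [← e4]; group
      _ = (t * v) * (k * x * k⁻¹) * v⁻¹ := by rw [e2]; group
      _ = _ := by rw [← hvt]; group
  have e5 : x * (k * k) = (k * k) * x := by
    have e6 : t * (k * x * k⁻¹) = (k⁻¹ * x * k) * t := by
      calc t * (k * x * k⁻¹) = (t * k) * x * k⁻¹ := by group
        _ = k⁻¹ * (t * x) * k⁻¹ := by rw [K_t' hS hk]; group
        _ = k⁻¹ * x * (t * k⁻¹) := by rw [← hXt x hx]; group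
        _ = _ := by rw [K_t'' hS hk]; group
    have e7 := mul_right_cancel (e3.trans e6)
    calc x * (k * k) = k * (k⁻¹ * x * k) * k := by group
      _ = _ := by rw [← e7]; group
  have e8 := commute_of_odd_of_sq (odd_orderOf_of_mem_D hS hk.1) e5
  rw [e1, ← e8]
  group

end Cfsg.Agent.S1134
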