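import Cfsg.Statements.S1139
import Mathlib
import Cfsg.Agent.Suz.HigSetup
-- import your own Cfsg.Agent.* helpers here

set_option autoImplicit false
open Cfsg

namespace Cfsg.Agent.S1139
open Cfsg.Agent.Suz.Hig
open scoped commutatorElement

/-- A Suzuki 2-group `P` with `|P| = |Z(P)|²` is of type A: for some finite field `F` with `|F| = |Z(P)|` and some field automorphism `φ ≠ 1` of odd order, `P` is isomorphic to the group of lower unitriangular matrices with rows `(1,0,0)`, `(x,1,0)`, `(y, φ x, 1)`. -/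
theorem result {P : Type*} [Group P] (hP : Cfsg.IsSuzukiTwoGroup P)
    (hcard : Nat.card P = Nat.card (Subgroup.center P) ^ 2) :
    ∃ (F : Type) (_ : Field F) (_ : Fintype F) (φ : F ≃+* F), Fintype.card F = Nat.card (Subgroup.center P) ∧
      φ ≠ RingEquiv.refl F ∧ Odd (orderOf φ) ∧ Nonempty (P ≃* Cfsg.suzukiTypeA F (φ : F →+* F)) := by
  obtain ⟨_, hna, F, _, _, _, ξ, hS⟩ := exists_setup_of_isSuzuki hP
  have : Nontrivial P := by
    by_contra h
    rw [not_nontrivial_iff_subsingleton] at h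
    exact hna fun _ _ _ _ => Subsingleton.elim _ _
  rw [(hS.center_eq_and hna).1, hS.card_Z0] at *
  obtain ⟨χ, ψ, l, θ, -, -, h3, h4, -, h5⟩ := hS.exists_typeA hna hcard
  exact ⟨F, _, _, θ, rfl, h3, h4, h5⟩

end Cfsg.Agent.S1139
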