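import Cfsg.Statements.S1143
import Mathlib
import Cfsg.Agent.BNP.RecC
import Cfsg.Agent.BNP.SimplyA
import Cfsg.Agent.BNP.CoxClass
import Cfsg.Agent.BNP.Edge
import Cfsg.Agent.UL.Blocks

set_option autoImplicit false
open Cfsg

namespace Cfsg.Agent.S1143

open Cfsg.Agent.St Cfsg.Agent.BNP Cfsg.Agent.Chev

theorem eh {G ι W : Type*} [Group G] [Group W] [Finite W] [Finite G] {T : Tits G ι W}
    (M : MH T) : EH T :=
  ⟨fun _ _ h => by
    obtain ⟨F, _, _, ⟨P⟩⟩ := exists_planeSys h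
    exact ⟨F, _, inferInstance, exists_edgeSys M h P⟩,
  fun _ _ _ h h' _ _ _ _ _ _ E E' => EdgeSys.next M h h' E E'⟩


/-- Tits: a finite simple group with an irreducible (B,N)-pair of rank at least `3` is of Lie type: it satisfies one of the classical predicates or is one of the exceptional groups. -/
theorem result {G : Type*} [Group G] [Finite G] [IsSimpleGroup G]
    (P : Cfsg.BNPair G) (h3 : 3 ≤ P.rank) (hirr : P.Irreducible) :
    Cfsg.IsPSL G ∨ Cfsg.IsPSp G ∨ Cfsg.IsPSU G ∨ Cfsg.IsPOmegaOdd G ∨ Cfsg.IsPOmegaPlus G ∨ Cfsg.IsPOmegaMinus G ∨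
      Cfsg.IsExceptionalLieType G := by
  let T := Tits.ofBN P id Function.bijective_id (MulEquiv.refl _)
  haveI : Finite (BN.W P) := T.finite_W
  rcases cox_classify T.cox h3 (UL.irred_ofBN P _ _ _ hirr) (fun i j => feit_higman_tits T) with
    ⟨n, e, hn, h⟩ | ⟨e, h⟩
  · let S := Tits.ofBN P e e.bijective (MulEquiv.refl _)
    haveI : Nonempty (Fin n) := ⟨⟨0, by omega⟩⟩
    have hf := faith_of_simple S
    rcases h with h | h | ⟨h4, h⟩ | ⟨h6, h⟩
    · exact Or.inl ((eh (mh_A hf hn h)).recog_A (mh_A hf hn h) hn h)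
    · have := recog_C S hn h
      tauto
    · have := (eh (mh_D hf h4 h)).recog_D (mh_D hf h4 h) h4 h
      tauto
    · have := (eh (mh_E hf h6 h)).recog_E (mh_E hf h6 h) h6 h
      tauto
  · have := recog_F (Tits.ofBN P e e.bijective (MulEquiv.refl _)) h
    unfold IsExceptionalLieType
    tauto

end Cfsg.Agent.S1143
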