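import Cfsg.Statements.S1151
import Cfsg.Agent.Ree.Conc
import Cfsg.Agent.Ree.Thm

set_option autoImplicit false
open Cfsg

namespace Cfsg.Agent.S1151

/-- In the small Ree group ²G₂(q), q = 3^(2m+1), realised as G¹ inside the Chevalley group G₂ over the field with q elements (θ the 3^m-th power map), with H¹ = G¹ ∩ H and U¹ = G¹ ∩ U the intersections with the ambient diagonal and positive unipotent subgroups: `H¹` has exactly `(q - 1)/2` elements of odd order, and each non-identity one centralises no non-identity element of `U¹`. -/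
theorem result {K : Type*} [Field K] [Fintype K] {m : ℕ} (hK : Fintype.card K = 3 ^ (2 * m + 1)) :
    2 * Nat.card {h : ↥(Cfsg.Lie.chevG2.diagonalSubgroup K ⊓ Cfsg.Lie.twistedG2 K (3 ^ m)) // Odd (orderOf h)} = 3 ^ (2 * m + 1) - 1 ∧
      ∀ h ∈ (Cfsg.Lie.chevG2.diagonalSubgroup K ⊓ Cfsg.Lie.twistedG2 K (3 ^ m)), h ≠ 1 → Odd (orderOf h) →
        (Cfsg.Lie.chevG2.posUnipotent K ⊓ Cfsg.Lie.twistedG2 K (3 ^ m)) ⊓ Subgroup.centralizer {h} = ⊥ := by
  obtain ⟨R, hU, hH, -⟩ := Ree.exists_sys hK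
  refine ⟨(congrArg _ (Ree.card_subtype_congr (Ree.equivInf hH) Odd)).trans R.card_odd_H,
    fun h hh h1 h2 => eq_bot_iff.2 fun u hu => ?_⟩
  have := R.eq_one_of_comm_odd (h := ⟨h, hh.2⟩) (u := ⟨u, hu.1.2⟩) ((hH _).2 hh.1)
    (fun e => h1 (congrArg Subtype.val e)) (by rwa [← Subgroup.orderOf_coe]) ((hU _).2 hu.1.1)
    (Subtype.ext (Subgroup.mem_centralizer_singleton_iff.1 hu.2))
  exact congrArg Subtype.val this

end Cfsg.Agent.S1151
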