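import Cfsg.Statements.S1168
import Mathlib
import Cfsg.Agent.Suz.FieldMaps
-- import your own Cfsg.Agent.* helpers here

set_option autoImplicit false
open Cfsg

namespace Cfsg.Agent.S1168
open Cfsg.Agent.Suz.FM

/-- For a finite field `F` of characteristic 2: if `q : F → F` is quadratic over the prime field, i.e. `(x, y) ↦ q (x + y) + q x + q y` is additive in each variable, then `q x = Σ c_{σ,τ} σ(x) τ(x)` for some coefficients indexed by pairs of field automorphisms. -/
theorem result {F : Type*} [Field F] [Fintype F] [CharP F 2]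
    (q : F → F)
    (hq : ∀ x y z : F, q (x + y + z) + q (x + y) + q (x + z) + q (y + z) + q x + q y + q z = 0) :
    ∃ (s : Finset ((F ≃+* F) × (F ≃+* F))) (c : (F ≃+* F) × (F ≃+* F) → F),
      ∀ x : F, q x = ∑ p ∈ s, c p * (p.1 x * p.2 x) := by
  have h0 : q 0 = 0 := by
    have := hq 0 0 0
    simp only [add_zero] at this
    linear_combination this - 3 * (CharTwo.add_self_eq_zero (q 0))
  have hs : ∀ a b : F, a = b ↔ a + b = 0 := fun a b => by
    rw [← sub_eq_zero, CharTwo.sub_eq_add]
  let b : F →+ F →+ F := AddMonoidHom.mk' (fun x => AddMonoidHom.mk'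
    (fun y => q (x + y) + q x + q y) (by
      intro y z
      rw [← add_assoc]
      linear_combination hq x y z - CharTwo.add_self_eq_zero (q (x + y)) -
        CharTwo.add_self_eq_zero (q (x + z)) - CharTwo.add_self_eq_zero (q x) -
        CharTwo.add_self_eq_zero (q y) - CharTwo.add_self_eq_zero (q z))) (by
      intro x y
      ext z
      simp only [AddMonoidHom.mk'_apply, AddMonoidHom.add_apply]
      linear_combination hq x y z - CharTwo.add_self_eq_zero (q (x + z)) -
        CharTwo.add_self_eq_zero (q (y + z)) - CharTwo.add_self_eq_zero (q x) -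
        CharTwo.add_self_eq_zero (q y) - CharTwo.add_self_eq_zero (q z))
  obtain ⟨B, hB⟩ := exists_biadd_diag (V := F) (W := F) CharTwo.add_self_eq_zero
    CharTwo.add_self_eq_zero q b (by
      intro x y
      simp only [b, AddMonoidHom.mk'_apply]
      linear_combination - CharTwo.add_self_eq_zero (q x) - CharTwo.add_self_eq_zero (q y))
  obtain ⟨c, hc⟩ := exists_comb₂ B
  exact ⟨Finset.univ, c, fun x => by rw [hB, hc]⟩

end Cfsg.Agent.S1168
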