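import Cfsg.Statements.S1176
import Mathlib
import Cfsg.Agent.Inv.Isolated
import Cfsg.Agent.Inv.Basic

set_option autoImplicit false
open Cfsg

namespace Cfsg.Agent.S1176


/-- Let x₀ be an involution of the finite group G and D its conjugacy class. Assume (a) for each x ∈ D the subgroup W(x) generated by the members of D commuting with x is a 2-group of nilpotency class at most 2, and (b) the product of two distinct commuting members of D again lies in D. Then for all x, y ∈ D, if xy has even order greater than 2, its order is 4. -/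
theorem result {G : Type*} [Group G] [Finite G] (x₀ : G) (hx₀ : orderOf x₀ = 2) (ha : ∀ x : G, IsConj x₀ x → IsPGroup 2 ↥(Subgroup.closure {y : G | IsConj x₀ y ∧ Commute y x}) ∧ ⁅⁅Subgroup.closure {y : G | IsConj x₀ y ∧ Commute y x}, Subgroup.closure {y : G | IsConj x₀ y ∧ Commute y x}⁆, Subgroup.closure {y : G | IsConj x₀ y ∧ Commute y x}⁆ = ⊥) (hb : ∀ x y : G, IsConj x₀ x → IsConj x₀ y → x ≠ y → Commute x y → IsConj x₀ (x * y)) (x y : G) (hx : IsConj x₀ x) (hy : IsConj x₀ y) (heven : Even (orderOf (x * y))) (hgt : 2 < orderOf (x * y)) : orderOf (x * y) = 4 := by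
  have hx2 : x * x = 1 := Inv.mul_self_of_orderOf_eq_two (by rw [← Inv.orderOf_eq_of_isConj hx, hx₀])
  have hy2 : y * y = 1 := Inv.mul_self_of_orderOf_eq_two (by rw [← Inv.orderOf_eq_of_isConj hy, hx₀])
  obtain ⟨m, hm⟩ := heven
  obtain ⟨h1, h2, h3, h4⟩ := Inv.half_pow_facts hx2 hy2 (m := m) (by omega) (by omega)
  have hD : IsConj x₀ ((x * y) ^ m * x) := by
    rcases Nat.even_or_odd' m with ⟨k, hk | hk⟩
    · rw [hk, ← Inv.invol_pow_conj_left hx2 hy2]
      exact hx.trans (isConj_iff.2 ⟨_, rfl⟩)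
    · rw [hk, ← Inv.invol_pow_conj_odd_left hx2 hy2]
      exact hy.trans (isConj_iff.2 ⟨_, rfl⟩)
  set z := (x * y) ^ m with hz
  have hzD : IsConj x₀ z := by
    have := hb (z * x) x hD hx (by simpa using h1) (h3.mul_left (Commute.refl x))
    rwa [mul_assoc, hx2, mul_one] at this
  obtain ⟨-, hW⟩ := ha z hzD
  set W := Subgroup.closure {y : G | IsConj x₀ y ∧ Commute y z}
  have hxW : x ∈ W := Subgroup.subset_closure ⟨hx, h3.symm⟩
  have hyW : y ∈ W := Subgroup.subset_closure ⟨hy, h4.symm⟩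
  have h5 := Subgroup.commutator_mem_commutator (Subgroup.commutator_mem_commutator hxW hyW) hxW
  rw [hW, Subgroup.mem_bot, commutatorElement_eq_one_iff_commute] at h5
  have h6 : x * y * x⁻¹ * y⁻¹ = (x * y) ^ 2 := by
    rw [inv_eq_of_mul_eq_one_right hx2, inv_eq_of_mul_eq_one_right hy2, pow_two]; group
  rw [commutatorElement_def, h6] at h5
  have h7 := Inv.conj_pow_of_inverts (Inv.invol_conj_mul hx2 hy2) 2
  rw [← h5.eq, mul_assoc, mul_inv_cancel, mul_one] at h7
  have h8 : (x * y) ^ 4 = 1 := by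
    calc (x * y) ^ 4 = (x * y) ^ 2 * (x * y) ^ 2 := by rw [← pow_add]
      _ = 1 := by nth_rewrite 1 [h7]; exact inv_mul_cancel _
  have h9 : orderOf (x * y) ∣ 4 := orderOf_dvd_of_pow_eq_one h8
  have h10 : orderOf (x * y) ≤ 4 := Nat.le_of_dvd (by norm_num) h9
  omega

end Cfsg.Agent.S1176
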