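import Cfsg.Statements.S1177
import Mathlib
import Cfsg.Agent.FGS.Conj

set_option autoImplicit false
open Cfsg

namespace Cfsg.Agent.S1177


/-- Let A be a nontrivial elementary abelian 2-subgroup of a finite group G which is a T.I. set (each conjugate of A meets A trivially or equals A) and which does not commute elementwise with any conjugate of A other than A itself. Then for every a ∈ A, a ≠ 1, every conjugate of A contained in C_G(a) is equal to A (A is weakly closed in C_G(a)). -/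
theorem result {G : Type*} [Group G] [Finite G] (A : Subgroup G) (hA : Cfsg.IsElementaryAbelian 2 A) (hA1 : A ≠ ⊥) (hTI : ∀ g : G, A.map (MulAut.conj g).toMonoidHom ⊓ A = ⊥ ∨ A.map (MulAut.conj g).toMonoidHom = A) (hb : ∀ g : G, (∀ a ∈ A, ∀ b ∈ A.map (MulAut.conj g).toMonoidHom, a * b = b * a) → A.map (MulAut.conj g).toMonoidHom = A) (a : G) (ha : a ∈ A) (ha1 : a ≠ 1) (g : G) (hg : A.map (MulAut.conj g).toMonoidHom ≤ Subgroup.centralizer ({a} : Set G)) : A.map (MulAut.conj g).toMonoidHom = A := by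
  have TI : ∀ h : G, ∀ x ∈ A, x ≠ 1 → h * x * h⁻¹ ∈ A → h ∈ Subgroup.normalizer (A : Set G) := by
    intro h x hx hx1 hhx
    rcases hTI h with h1 | h1
    · exfalso
      have : h * x * h⁻¹ ∈ A.map (MulAut.conj h).toMonoidHom ⊓ A :=
        ⟨FGS.conj_mem_mapConj h hx, hhx⟩
      rw [h1, Subgroup.mem_bot] at this
      apply hx1
      simpa using this
    · exact FGS.mapConj_eq_self_iff.1 h1
  rcases hTI g with hdisj | h
  swap
  · exact h
  set B := A.map (MulAut.conj g).toMonoidHom with hB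
  have hBN : ∀ b ∈ B, b ∈ Subgroup.normalizer (A : Set G) := by
    intro b hb
    have h1 := hg hb
    rw [Subgroup.mem_centralizer_singleton_iff] at h1
    apply TI b a ha ha1
    rw [h1]; simpa using ha
  apply hb g
  intro x hx b₀ hb₀
  by_contra hne
  have hx1 : x ≠ 1 := by
    rintro rfl
    simp at hne
  have hcard : Nat.card B = Nat.card A := FGS.card_mapConj A g
  let f : B → A := fun b => ⟨b * x * (b : G)⁻¹, (Subgroup.mem_normalizer_iff.1 (hBN b b.2) x).1 hx⟩
  have hfi : ¬ Function.Injective f := by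
    intro hi
    have hbij : Function.Bijective f := hi.bijective_of_nat_card_le hcard.ge
    obtain ⟨b, hb⟩ := hbij.2 1
    have := congrArg Subtype.val hb
    simp [f] at this
    exact hx1 this
  rw [Function.not_injective_iff] at hfi
  obtain ⟨b, b', h1, h2⟩ := hfi
  have h3 : (b : G) * x * (b : G)⁻¹ = b' * x * (b' : G)⁻¹ := congrArg Subtype.val h1
  have hc : (b' : G)⁻¹ * b ∈ B := B.mul_mem (B.inv_mem b'.2) b.2
  have hc1 : (b' : G)⁻¹ * b ≠ 1 := by
    intro h
    apply h2
    apply Subtype.ext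
    rw [inv_mul_eq_one] at h
    exact h.symm
  set c := (b' : G)⁻¹ * b with hcdef
  have hcx : x * c * x⁻¹ = c := by
    have : c * x * c⁻¹ = x := by
      calc c * x * c⁻¹ = (b' : G)⁻¹ * ((b : G) * x * (b : G)⁻¹) * b' := by rw [hcdef]; group
        _ = x := by rw [h3]; group
    calc x * c * x⁻¹ = c * x * c⁻¹ * c * x⁻¹ := by rw [this]
      _ = c := by group
  have hxN : g⁻¹ * x * g ∈ Subgroup.normalizer (A : Set G) := by
    apply TI _ (g⁻¹ * c * g) (FGS.mem_mapConj.1 hc)
    · intro h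
      apply hc1
      have : c = g * (g⁻¹ * c * g) * g⁻¹ := by group
      rw [this, h]; group
    · have : g⁻¹ * x * g * (g⁻¹ * c * g) * (g⁻¹ * x * g)⁻¹ = g⁻¹ * (x * c * x⁻¹) * g := by group
      rw [this, hcx]
      exact FGS.mem_mapConj.1 hc
  have hxN' : x ∈ Subgroup.normalizer (B : Set G) := by
    rw [hB, FGS.normalizer_mapConj, FGS.mem_mapConj]
    exact hxN
  have h5 : x * b₀ * x⁻¹ * b₀⁻¹ ∈ B ⊓ A := by
    constructor
    · exact B.mul_mem ((Subgroup.mem_normalizer_iff.1 hxN' b₀).1 hb₀) (B.inv_mem hb₀)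
    · have := A.mul_mem hx ((Subgroup.mem_normalizer_iff.1 (hBN b₀ hb₀) x⁻¹).1 (A.inv_mem hx))
      have e : x * b₀ * x⁻¹ * b₀⁻¹ = x * (b₀ * x⁻¹ * b₀⁻¹) := by group
      rw [e]
      exact this
  rw [hdisj, Subgroup.mem_bot] at h5
  apply hne
  calc x * b₀ = x * b₀ * x⁻¹ * b₀⁻¹ * (b₀ * x) := by group
    _ = b₀ * x := by rw [h5, one_mul]

end Cfsg.Agent.S1177
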