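import Cfsg.Statements.S1178
import Mathlib
import Cfsg.Agent.FGS.Conj
import Cfsg.Agent.PLocal.RelSylow

set_option autoImplicit false
open Cfsg

namespace Cfsg.Agent.S1178


/-- Let A be a subgroup of a Sylow 2-subgroup S of the finite group G which is weakly closed in S. If a conjugate g A g⁻¹ commutes elementwise with A, then g A g⁻¹ = A. -/
theorem result {G : Type*} [Group G] [Finite G] (S : Sylow 2 G) (A : Subgroup G) (hW : Cfsg.IsWeaklyClosed A (S : Subgroup G)) (g : G) (hc : ∀ a ∈ A, ∀ b ∈ A.map (MulAut.conj g).toMonoidHom, a * b = b * a) : A.map (MulAut.conj g).toMonoidHom = A := by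
  have hA : IsPGroup 2 A := S.isPGroup'.to_le hW.1
  have hB : IsPGroup 2 (A.map (MulAut.conj g).toMonoidHom) := FGS.isPGroup_mapConj hA g
  have hn : A ≤ Subgroup.normalizer ((A.map (MulAut.conj g).toMonoidHom : Subgroup G) : Set G) := by
    refine le_trans ?_ (Subgroup.centralizer_le_normalizer _)
    intro a ha
    rw [Subgroup.mem_centralizer_iff]
    intro b hb
    exact (hc a ha b hb).symm
  have hP := IsPGroup.to_sup_of_normal_right' hA hB hn
  obtain ⟨h, hh⟩ := PLocal.RelSylow.exists_conj_mem_sylow' S hP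
  have h1 : A.map (MulAut.conj h).toMonoidHom = A :=
    hW.2 h (FGS.mapConj_le_iff'.2 fun x hx => hh x (Subgroup.mem_sup_left hx))
  have h2 : A.map (MulAut.conj (h * g)).toMonoidHom = A := by
    apply hW.2
    rw [FGS.mapConj_mul]
    exact FGS.mapConj_le_iff'.2 fun x hx => hh x (Subgroup.mem_sup_right hx)
  rw [FGS.mapConj_eq_self_iff] at h1 h2 ⊢
  have := Subgroup.mul_mem _ (Subgroup.inv_mem _ h1) h2
  simpa using this

end Cfsg.Agent.S1178
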