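import Cfsg.Statements.S1181
import Mathlib
import Cfsg.Agent.Inv.Isolated

set_option autoImplicit false
open Cfsg

namespace Cfsg.Agent.S1181


/-- Let z be an isolated involution of the finite group G and N a normal subgroup with z ∉ N. Then the centralizer of zN in G/N is the image of C_G(z), and zN is an isolated involution of G/N. -/
theorem result {G : Type*} [Group G] [Finite G] (z : G) (hz : Cfsg.IsIsolatedInvolution z) (N : Subgroup G) [N.Normal] (hzN : z ∉ N) : Subgroup.centralizer ({(QuotientGroup.mk z : G ⧸ N)} : Set (G ⧸ N)) = (Subgroup.centralizer ({z} : Set G)).map (QuotientGroup.mk' N) ∧ Cfsg.IsIsolatedInvolution (QuotientGroup.mk z : G ⧸ N) := by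
  have hz2 := Inv.isolated_mul_self hz
  have hzq : (QuotientGroup.mk z : G ⧸ N) * QuotientGroup.mk z = 1 := by
    rw [← QuotientGroup.mk_mul, hz2, QuotientGroup.mk_one]
  refine ⟨?_, ?_, ?_⟩
  · apply le_antisymm
    · intro x hx
      obtain ⟨g, rfl⟩ := QuotientGroup.mk_surjective x
      rw [Subgroup.mem_centralizer_singleton_iff] at hx
      have ht : IsConj z (g * z * g⁻¹) := isConj_iff.2 ⟨g, rfl⟩
      obtain ⟨k, hk⟩ := Inv.isolated_exists_pow_conj hz (IsConj.refl z) ht
      have hmem : z * (g * z * g⁻¹) ∈ N := by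
        rw [← QuotientGroup.eq_one_iff]
        simp only [QuotientGroup.mk_mul, QuotientGroup.mk_inv]
        rw [hx, mul_assoc, mul_inv_cancel, mul_one, hzq]
      have huN := N.pow_mem hmem k
      set u := (z * (g * z * g⁻¹)) ^ k
      refine ⟨u⁻¹ * g, ?_, ?_⟩
      · rw [SetLike.mem_coe, Subgroup.mem_centralizer_singleton_iff]
        calc u⁻¹ * g * z = u⁻¹ * (g * z * g⁻¹) * g := by group
          _ = z * (u⁻¹ * g) := by rw [← hk]; group
      · simp only [QuotientGroup.mk'_apply, QuotientGroup.mk_mul, QuotientGroup.mk_inv]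
        rw [(QuotientGroup.eq_one_iff u).2 huN, inv_one, one_mul]
    · rintro _ ⟨c, hc, rfl⟩
      rw [SetLike.mem_coe, Subgroup.mem_centralizer_singleton_iff] at hc
      rw [Subgroup.mem_centralizer_singleton_iff]
      simp only [QuotientGroup.mk'_apply, ← QuotientGroup.mk_mul, hc]
  · exact Inv.orderOf_eq_two_of_mul_self (by rwa [Ne, QuotientGroup.eq_one_iff]) hzq
  · intro x hx
    obtain ⟨g, rfl⟩ := QuotientGroup.mk_surjective x
    have hodd := Inv.isolated_odd_orderOf_mul_conj hz g
    have h1 : Odd (orderOf ((QuotientGroup.mk z : G ⧸ N) *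
        (QuotientGroup.mk g * QuotientGroup.mk z * (QuotientGroup.mk g)⁻¹))) :=
      hodd.of_dvd_nat (orderOf_map_dvd (QuotientGroup.mk' N) _)
    have h2 := Inv.conj_mul_self hzq (QuotientGroup.mk g)
    set t : G ⧸ N := QuotientGroup.mk g * QuotientGroup.mk z * (QuotientGroup.mk g)⁻¹
    set w : G ⧸ N := QuotientGroup.mk z
    have h3 : w * t * (w * t) = 1 := by
      calc w * t * (w * t) = w * (t * w) * t := by group
        _ = (w * w) * (t * t) := by rw [← hx.eq]; group
        _ = 1 := by rw [hzq, h2, one_mul]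
    have h4 := Inv.eq_one_of_mul_self_of_odd h3 h1
    calc t = w * (w * t) := by rw [← mul_assoc, hzq, one_mul]
      _ = w := by rw [h4, mul_one]

end Cfsg.Agent.S1181
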