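import Cfsg.Statements.S1182
import Mathlib
import Cfsg.Agent.Inv.Isolated

set_option autoImplicit false
open Cfsg

namespace Cfsg.Agent.S1182


/-- Let z be an isolated involution of the finite group G and H a subgroup normalized by z. If x, y ∈ H both commute with z and y = h x h⁻¹ for some h ∈ H, then y = c x c⁻¹ for some c ∈ H commuting with z. -/
theorem result {G : Type*} [Group G] [Finite G] (z : G) (hz : Cfsg.IsIsolatedInvolution z) (H : Subgroup G) (hzH : z ∈ Subgroup.normalizer (H : Set G)) (x y : G) (hx : x ∈ H) (hy : y ∈ H) (hxz : Commute x z) (hyz : Commute y z) (h : G) (hh : h ∈ H) (hconj : h * x * h⁻¹ = y) : ∃ c ∈ H, Commute c z ∧ c * x * c⁻¹ = y := by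
  have hz2 := Inv.isolated_mul_self hz
  have ht : IsConj z (h⁻¹ * z * h⁻¹⁻¹) := isConj_iff.2 ⟨h⁻¹, rfl⟩
  obtain ⟨k, hk⟩ := Inv.isolated_exists_pow_conj hz (IsConj.refl z) ht
  have hmem : z * (h⁻¹ * z * h⁻¹⁻¹) ∈ H := by
    have h1 : z * h⁻¹ * z⁻¹ ∈ H := (Subgroup.mem_normalizer_iff.1 hzH h⁻¹).1 (H.inv_mem hh)
    have h2 := H.mul_mem h1 hh
    rw [Inv.isolated_inv hz] at h2
    convert h2 using 1
    group
  have hcx : Commute (h⁻¹ * z * h⁻¹⁻¹) x := by
    rw [← hconj] at hyz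
    have := hyz.map (MulAut.conj h⁻¹)
    simp only [MulAut.conj_apply] at this
    convert this.symm using 1
    group
  have hux : Commute ((z * (h⁻¹ * z * h⁻¹⁻¹)) ^ k) x := (hxz.symm.mul_left hcx).pow_left k
  have huH := H.pow_mem hmem k
  set u := (z * (h⁻¹ * z * h⁻¹⁻¹)) ^ k
  refine ⟨h * u, H.mul_mem hh huH, ?_, ?_⟩
  · rw [Commute, SemiconjBy]
    calc h * u * z = h * (u * z * u⁻¹) * u := by group
      _ = z * (h * u) := by rw [hk]; group
  · calc h * u * x * (h * u)⁻¹ = h * (u * x) * u⁻¹ * h⁻¹ := by group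
      _ = h * x * h⁻¹ := by rw [hux.eq]; group
      _ = y := hconj

end Cfsg.Agent.S1182
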