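import Cfsg.Statements.S1183
import Mathlib
import Cfsg.Agent.Transfer.Control
import Cfsg.Agent.S1182
import Cfsg.Agent.Inv.IsolatedIff

set_option autoImplicit false
open Cfsg

namespace Cfsg.Agent.S1183

/-- Let z be an isolated involution of the finite group G and C = C_G(z). Then the subgroup of G generated by its elements of odd order is all of G if and only if the subgroup of C generated by its elements of odd order is all of C. -/
theorem result {G : Type*} [Group G] [Finite G] (z : G) (hz : Cfsg.IsIsolatedInvolution z) : Cfsg.pResidual 2 G = ⊤ ↔ Cfsg.pResidual 2 ↥(Subgroup.centralizer ({z} : Set G)) = ⊤ := by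
  obtain ⟨P, hP⟩ := (Inv.isPGroup_zpowers_of_orderOf_two hz.1).exists_le_sylow
  have hzP : z ∈ (P : Subgroup G) := hP (Subgroup.mem_zpowers z)
  have hc : ∀ x ∈ (P : Subgroup G), Commute x z := fun x hx =>
    Inv.commute_of_isolated hz P.isPGroup' hzP hx
  have hPC : (P : Subgroup G) ≤ Subgroup.centralizer {z} := fun x hx =>
    Subgroup.mem_centralizer_singleton_iff.2 (hc x hx)
  have h1 := Transfer.sylow_inf_pResidual_eq_of_controls P hPC fun x hx g hg => by
    obtain ⟨c, -, h1, h2⟩ := S1182.result z hz ⊤ (Subgroup.le_normalizer trivial) x _ trivial trivial (hc x hx) (hc _ hg)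
      g trivial rfl
    exact ⟨c, Subgroup.mem_centralizer_singleton_iff.2 h1, h2⟩
  constructor
  · intro h
    rw [h, inf_top_eq] at h1
    rw [eq_top_iff, ← Transfer.pResidual_sup_sylow (P.subtype hPC)]
    refine sup_le le_rfl fun x hx => ?_
    obtain ⟨y, hy, e⟩ := (h1.le hx).2
    exact Subtype.ext e ▸ hy
  · intro h
    rw [eq_top_iff, ← Transfer.pResidual_sup_sylow P]
    refine sup_le le_rfl fun x hx => ?_
    exact Transfer.map_pResidual_le (Subgroup.centralizer {z}).subtype ⟨⟨x, hPC hx⟩, h ▸ trivial, rfl⟩

end Cfsg.Agent.S1183
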