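import Cfsg.Statements.S1184
import Mathlib
import Cfsg.Agent.Inv.Isolated

set_option autoImplicit false
open Cfsg

namespace Cfsg.Agent.S1184


/-- Let z be an isolated involution of the finite group G. If s and t are distinct conjugates of z, then st does not commute with z. -/
theorem result {G : Type*} [Group G] [Finite G] (z : G) (hz : Cfsg.IsIsolatedInvolution z) (g h : G) (hne : g * z * g⁻¹ ≠ h * z * h⁻¹) : ¬ Commute (g * z * g⁻¹ * (h * z * h⁻¹)) z := by
  intro hc
  have hs : IsConj z (g * z * g⁻¹) := isConj_iff.2 ⟨g, rfl⟩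
  have ht : IsConj z (h * z * h⁻¹) := isConj_iff.2 ⟨h, rfl⟩
  set s := g * z * g⁻¹ with hsdef
  set t := h * z * h⁻¹ with htdef
  have hs2 : s * s = 1 := Inv.isolated_mul_self (Inv.isolated_of_isConj hz hs)
  have ht2 : t * t = 1 := Inv.isolated_mul_self (Inv.isolated_of_isConj hz ht)
  have h1 := Inv.invol_conj_mul hs2 ht2
  have h2 : (z * s) * (s * t) * (z * s)⁻¹ = (s * t)⁻¹ := by
    calc (z * s) * (s * t) * (z * s)⁻¹ = z * (s * (s * t) * s⁻¹) * z⁻¹ := by group
      _ = z * (s * t)⁻¹ * z⁻¹ := by rw [h1]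
      _ = (s * t)⁻¹ := by rw [← hc.inv_left.eq]; group
  have h3 := Inv.mul_self_of_inverted_by_odd h2
    (Inv.isolated_odd_orderOf_mul hz (IsConj.refl z) hs)
  have h4 := Inv.eq_one_of_mul_self_of_odd h3 (Inv.isolated_odd_orderOf_mul hz hs ht)
  apply hne
  calc s = s * t * t := by rw [mul_assoc, ht2, mul_one]
    _ = t := by rw [h4, one_mul]

end Cfsg.Agent.S1184
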