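import Cfsg.Statements.S1185
import Mathlib
import Cfsg.Agent.Inv.Isolated

set_option autoImplicit false
open Cfsg

namespace Cfsg.Agent.S1185


/-- Let z be an isolated involution of the finite group G with centralizer C. Then for every g ∈ G there is exactly one element k in the coset gC that has odd order and is inverted by z. -/
theorem result {G : Type*} [Group G] [Finite G] (z : G) (hz : Cfsg.IsIsolatedInvolution z) (g : G) : ∃! k : G, (Odd (orderOf k) ∧ z * k * z⁻¹ = k⁻¹) ∧ g⁻¹ * k ∈ Subgroup.centralizer ({z} : Set G) := by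
  have hz2 := Inv.isolated_mul_self hz
  have ht : IsConj z (g * z * g⁻¹) := isConj_iff.2 ⟨g, rfl⟩
  have key : ∀ k : G, z * k * z⁻¹ = k⁻¹ → g⁻¹ * k ∈ Subgroup.centralizer ({z} : Set G) →
      k ^ 2 = g * z * g⁻¹ * z⁻¹ := by
    intro k h1 h2
    rw [Subgroup.mem_centralizer_singleton_iff] at h2
    have h3 := Inv.pow_conj_of_inverts h1 1
    simp only [pow_one, mul_one] at h3
    have h4 : k * z * k⁻¹ = g * z * g⁻¹ := by
      calc k * z * k⁻¹ = g * (g⁻¹ * k * z) * k⁻¹ := by group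
        _ = g * (z * (g⁻¹ * k)) * k⁻¹ := by rw [h2]
        _ = _ := by group
    rw [← h4, h3]; group
  obtain ⟨k, hk⟩ := Inv.isolated_exists_pow_conj hz (IsConj.refl z) ht
  refine ⟨(z * (g * z * g⁻¹)) ^ k, ⟨⟨?_, ?_⟩, ?_⟩, ?_⟩
  · exact Inv.odd_orderOf_pow (Inv.isolated_odd_orderOf_mul_conj hz g) k
  · exact Inv.conj_pow_of_inverts (Inv.invol_conj_mul hz2 (Inv.conj_mul_self hz2 g)) k
  · rw [Subgroup.mem_centralizer_singleton_iff]
    set u := (z * (g * z * g⁻¹)) ^ k
    calc g⁻¹ * u * z = g⁻¹ * (u * z * u⁻¹) * u := by group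
      _ = z * (g⁻¹ * u) := by rw [hk]; group
  · rintro y ⟨⟨hy1, hy2⟩, hy3⟩
    apply Inv.eq_of_sq_eq_of_odd hy1
      (Inv.odd_orderOf_pow (Inv.isolated_odd_orderOf_mul_conj hz g) k)
    rw [key y hy2 hy3]
    have h5 := Inv.invol_pow_conj_left hz2 (Inv.conj_mul_self hz2 g) k
    rw [hk] at h5
    rw [← pow_mul, mul_comm k 2]
    nth_rewrite 1 [h5]
    group

end Cfsg.Agent.S1185
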