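import Cfsg.Statements.S1186
import Mathlib
import Cfsg.Agent.Inv.IsolatedCount
import Cfsg.Agent.Inv.Count

set_option autoImplicit false
open Cfsg

namespace Cfsg.Agent.S1186


/-- Let z be an isolated involution of the finite group G, C = C_G(z), K the set of elements of odd order inverted by z, and s an involution of C. Then |G| = |C| · |C_K(sz)| · |C_K(s)|. -/
theorem result {G : Type*} [Group G] [Finite G] (z : G) (hz : Cfsg.IsIsolatedInvolution z) (s : G) (hs : orderOf s = 2) (hsz : Commute s z) : Nat.card G = Nat.card (Subgroup.centralizer ({z} : Set G)) * Nat.card {k : G // Odd (orderOf k) ∧ z * k * z⁻¹ = k⁻¹ ∧ Commute k (s * z)} * Nat.card {k : G // Odd (orderOf k) ∧ z * k * z⁻¹ = k⁻¹ ∧ Commute k s} := by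
  have hs2 := Inv.mul_self_of_orderOf_eq_two hs
  have key : ∀ w : G, Commute w z →
      Nat.card {k : G // Odd (orderOf k) ∧ z * k * z⁻¹ = k⁻¹ ∧ Commute k w} =
        Nat.card {t : G // IsConj z t ∧ t ∈ Subgroup.centralizer ({w} : Set G)} := by
    intro w hw
    rw [← Inv.isolated_card_inverted_eq hz (Subgroup.mem_centralizer_singleton_iff.2 hw.symm)]
    simp only [Subgroup.mem_centralizer_singleton_iff]
    rfl
  rw [key _ (hsz.mul_left (Commute.refl z)), key _ hsz, mul_assoc,
    ← Inv.isolated_card_conj_eq_mul hz hs2 hsz, mul_comm,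
    Inv.Count.card_isConj_mul_card_centralizer]

end Cfsg.Agent.S1186
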