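import Cfsg.Statements.S1228
import Mathlib
import Cfsg.Agent.Inv.ElemCent
-- import your own Cfsg.Agent.* helpers here

set_option autoImplicit false
open Cfsg

namespace Cfsg.Agent.S1228
open Cfsg.Agent.Inv Cfsg.Agent.Inv.EC

/-- Let G be a finite group with a Sylow 2-subgroup T that is neither cyclic nor normal, such that the centralizer of every involution is an elementary abelian 2-group; put H = N_G(T), let u be an involution outside H and D = H ∩ uHu⁻¹. Then N_G(D) = D ⊔ ⟨u⟩, and a coset gH is fixed by every element of D exactly when gH = H or gH = uH. -/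
theorem result {G : Type*} [Group G] [Finite G] (T : Sylow 2 G) (hnc : ¬ IsCyclic (T : Subgroup G)) (hnn : ¬ (T : Subgroup G).Normal) (hC : ∀ t : G, orderOf t = 2 → IsMulCommutative (Subgroup.centralizer ({t} : Set G)) ∧ ∀ c ∈ Subgroup.centralizer ({t} : Set G), c ^ 2 = 1) (u : G) (hu : orderOf u = 2) (huH : u ∉ Subgroup.normalizer ((T : Subgroup G) : Set G)) : Subgroup.normalizer ((Subgroup.normalizer ((T : Subgroup G) : Set G) ⊓ (Subgroup.normalizer ((T : Subgroup G) : Set G)).map (MulAut.conj u).toMonoidHom : Subgroup G) : Set G) = (Subgroup.normalizer ((T : Subgroup G) : Set G) ⊓ (Subgroup.normalizer ((T : Subgroup G) : Set G)).map (MulAut.conj u).toMonoidHom) ⊔ Subgroup.zpowers u ∧ ∀ g : G, ((∀ d ∈ Subgroup.normalizer ((T : Subgroup G) : Set G) ⊓ (Subgroup.normalizer ((T : Subgroup G) : Set G)).map (MulAut.conj u).toMonoidHom, d • (QuotientGroup.mk g : G ⧸ Subgroup.normalizer ((T : Subgroup G) : Set G)) = QuotientGroup.mk g) ↔ (QuotientGroup.mk g : G ⧸ Subgroup.normalizer ((T : Subgroup G) : Set G)) = QuotientGroup.mk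 1 ∨ (QuotientGroup.mk g : G ⧸ Subgroup.normalizer ((T : Subgroup G) : Set G)) = QuotientGroup.mk u) := by
  have h := Hyp.mk hnc hnn hC
  have hy : (QuotientGroup.mk u : G ⧸ NT T) ≠ x₀ T := (SEC.mk_ne_one_iff u).2 huH
  rw [← DD_mk]
  set y : G ⧸ NT T := QuotientGroup.mk u with hydef
  have hux : u • x₀ T = y := SEC.smul_mk_one u
  have huy : u • y = x₀ T := SEC.smul_swap hu hux
  obtain ⟨d, hd, hd1⟩ : ∃ d ∈ DD y, d ≠ 1 := by
    have h1 := h.card_DD hy
    have h2 := h.three_le_card
    have : Nontrivial (DD y) := Finite.one_lt_card_iff_nontrivial.1 (by omega)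
    obtain ⟨d, hd⟩ := exists_ne (1 : DD y)
    exact ⟨d.1, d.2, fun h3 => hd (Subtype.ext h3)⟩
  have hfix : ∀ z : G ⧸ NT T, d • z = z → z = x₀ T ∨ z = y := by
    intro z hz
    by_contra hne
    push Not at hne
    exact hd1 (h.eq_one_of_fixed_three hy.symm hne.1.symm hne.2.symm
      ((SEC.smul_mk_one_iff d).2 hd.1) hd.2 hz)
  constructor
  · apply le_antisymm
    · intro g hg
      have h1 : g⁻¹ * d * g ∈ DD y := (Subgroup.mem_normalizer_iff''.1 hg d).1 hd
      have h2 : ∀ z : G ⧸ NT T, (g⁻¹ * d * g) • z = z → d • g • z = g • z := by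
        intro z hz
        rwa [mul_smul, mul_smul, inv_smul_eq_iff] at hz
      have h3 := hfix _ (h2 _ ((SEC.smul_mk_one_iff _).2 h1.1))
      have h4 := hfix _ (h2 _ h1.2)
      have h5 : g • x₀ T ≠ g • y := fun h6 => hy (smul_left_cancel g h6).symm
      rcases h3 with h3 | h3
      · have h6 : g • y = y := by
          rcases h4 with h4 | h4
          · exact absurd (h3.trans h4.symm) h5
          · exact h4
        exact Subgroup.mem_sup_left ⟨(SEC.smul_mk_one_iff _).1 h3, h6⟩
      · have h6 : g • y = x₀ T := by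
          rcases h4 with h4 | h4
          · exact h4
          · exact absurd (h3.trans h4.symm) h5
        have h7 : g * u ∈ DD y := by
          refine ⟨(SEC.smul_mk_one_iff _).1 ?_, ?_⟩
          · show (g * u) • x₀ T = x₀ T
            rw [mul_smul, hux, h6]
          · show (g * u) • y = y
            rw [mul_smul, huy]; exact h3
        have h8 := Subgroup.mul_mem _ (Subgroup.mem_sup_left (T := Subgroup.zpowers u) h7)
          (Subgroup.mem_sup_right (Subgroup.inv_mem _ (Subgroup.mem_zpowers u)))
        rwa [mul_inv_cancel_right] at h8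
    · refine sup_le Subgroup.le_normalizer ?_
      rw [Subgroup.zpowers_le]
      apply Subgroup.mem_normalizer_fintype
      intro e he
      rw [h.inverts_of_swap hu hy.symm hux ((SEC.smul_mk_one_iff e).2 he.1) he.2]
      exact inv_mem he
  · intro g
    constructor
    · intro h1
      exact hfix _ (h1 d hd)
    · rintro (h1 | h1) e he
      · rw [h1]; exact (SEC.smul_mk_one_iff e).2 he.1
      · rw [h1]; exact he.2

end Cfsg.Agent.S1228
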