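import Cfsg.Statements.S1231
import Mathlib
import Cfsg.Agent.PLocal.Alperin
import Cfsg.Agent.FT.PRank

set_option autoImplicit false
open Cfsg

namespace Cfsg.Agent.S1231

/-- Let H be a subgroup of the finite group G, p a prime, k ≥ 1, and P a Sylow p-subgroup of H whose p-rank is at least k. Then N_G(X) ≤ H for every subgroup X of P of p-rank at least k if and only if H ∩ gHg⁻¹ has p-rank less than k for every g ∉ H. -/
theorem result {G : Type*} [Group G] [Finite G] {p : ℕ} [Fact p.Prime] (k : ℕ) (hk : 1 ≤ k) (H : Subgroup G) (P : Sylow p ↥H) (hP : ¬ Cfsg.PRankLE p (k - 1) ↥(P : Subgroup ↥H)) : (∀ X : Subgroup G, X ≤ (P : Subgroup ↥H).map H.subtype → ¬ Cfsg.PRankLE p (k - 1) ↥X → Subgroup.normalizer (X : Set G) ≤ H) ↔ (∀ g : G, g ∉ H → Cfsg.PRankLE p (k - 1) ↥(H ⊓ H.map (MulAut.conj g).toMonoidHom)) := by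
  constructor
  · intro h g hg
    by_contra hr
    obtain ⟨E, hE, hEa, hEc⟩ := Misc.not_pRankLE_iff.1 hr
    have hPs : PLocal.CF.Syl p ((P : Subgroup H).map H.subtype) H := by
      have := (PLocal.CF.syl_top P).map H.subtype
      rwa [← MonoidHom.range_eq_map, Subgroup.range_subtype] at this
    have key : ∀ D : Subgroup G, IsPGroup p D → D ≤ H → ¬ PRankLE p (k - 1) D →
        Subgroup.normalizer (D : Set G) ≤ H := fun D hD hDH hDr => by
      obtain ⟨x, hx, h1⟩ := hPs.exists_cj_le hD hDH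
      have := h _ h1 (by rwa [FT.R2.pRankLE_map_iff (MulAut.conj x).injective])
      rwa [FGS.normalizer_mapConj, FGS.mapConj_le_iff, FGS.mapConj_of_mem (H.inv_mem hx)] at this
    obtain ⟨D, hED, hD⟩ := PLocal.CF.exists_syl (Misc.isPGroup_of_isElementaryAbelian hEa) hE
    have hDr : ¬ PRankLE p (k - 1) D := Misc.not_pRankLE_iff.2 ⟨E, hED, hEa, hEc⟩
    have h1 := key D hD.pg (hD.le.trans inf_le_left) hDr
    have hDg : D.map (MulAut.conj g⁻¹).toMonoidHom ≤ H := by
      rw [FGS.mapConj_le_iff, inv_inv]; exact hD.le.trans inf_le_right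
    have h2 := key _ (hD.pg.map _) hDg
      (by rwa [FT.R2.pRankLE_map_iff (MulAut.conj g⁻¹).injective])
    rw [FGS.normalizer_mapConj, FGS.mapConj_le_iff, inv_inv] at h2
    obtain ⟨T, hDT, hT⟩ := PLocal.CF.exists_syl hD.pg (le_top (a := D))
    have h3 : D = T := by
      by_contra hne
      have h4 := PLocal.CF.lt_inf_nm hT.pg (lt_of_le_of_ne hDT hne)
      exact h4.ne' (hD.eq_of_le (hT.pg.to_le inf_le_left) h4.le
        (inf_le_right.trans (le_inf h1 h2)))
    subst h3
    obtain ⟨x, hx, e⟩ := (hT.of_le (hD.le.trans inf_le_left) le_top).exists_cj_eq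
      (((hT.cj_of_mem (g := g⁻¹) trivial)).of_le hDg le_top)
    rw [PLocal.CF.cj_cj, FGS.mapConj_eq_self_iff] at e
    exact hg (by simpa using H.mul_mem (H.inv_mem (h1 e)) hx)
  · intro h X hX hXr g hg
    by_contra hgH
    refine hXr (FT.R2.pRankLE_of_le (le_inf ?_ ?_) (h g hgH))
    · exact hX.trans (Subgroup.map_subtype_le _)
    · rw [← FGS.mapConj_of_mem_normalizer hg]
      exact Subgroup.map_mono (hX.trans (Subgroup.map_subtype_le _))

end Cfsg.Agent.S1231
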