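import Cfsg.Statements.S1234
import Mathlib
import Cfsg.Agent.MacW.HarD

set_option autoImplicit false
open Cfsg

namespace Cfsg.Agent.S1234

/-- Let S be a finite 2-group and Q ≤ S a subgroup of order 32 having an elementary abelian subgroup E of order 16 and an involution s ∉ E whose centralizer in E has order 4 (so Q ≅ (Z₂ × Z₂) ≀ Z₂). If C_S(Z(Q)) = Q, then every section of S has 2-rank at most 4. -/
theorem result {S : Type*} [Group S] [Finite S] (hS : IsPGroup 2 S) (Q E : Subgroup S) (hEQ : E ≤ Q) (hE : Cfsg.IsElementaryAbelian 2 E) (hE16 : Nat.card E = 16) (hQ32 : Nat.card Q = 32) (s : S) (hsQ : s ∈ Q) (hsE : s ∉ E) (hs : orderOf s = 2) (hfix : Nat.card ↥(E ⊓ Subgroup.centralizer ({s} : Set S)) = 4) (hC : Subgroup.centralizer (((Subgroup.center Q).map Q.subtype : Subgroup S) : Set S) = Q) : Cfsg.SectionalPRankLE 2 4 S := by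
  have hEc : ∀ a ∈ E, ∀ b ∈ E, a * b = b * a := fun a ha b hb =>
    congrArg Subtype.val (hE.1.is_comm.comm (⟨a, ha⟩ : E) ⟨b, hb⟩)
  have hs2 : s ^ 2 = 1 := hs ▸ pow_orderOf_eq_one s
  have hss : s * s = 1 := by rw [← sq, hs2]
  have hQ : ∀ x ∈ Q, x ∈ E ∨ x * s ∈ E := fun x hx =>
    MacW.mem_or_of_card hEQ (by rw [hQ32, hE16]) hsQ hsE hx
  set Z := E ⊓ Subgroup.centralizer ({s} : Set S) with hZ
  have hZc : ∀ x ∈ Z, Commute x s := fun x hx => Subgroup.mem_centralizer_singleton_iff.1 hx.2
  let A : Subgroup S :=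
    { carrier := {x | x ∈ Z ∨ x * s ∈ Z}
      one_mem' := Or.inl (one_mem _)
      mul_mem' := by
        rintro x y (hx | hx) (hy | hy)
        · exact Or.inl (mul_mem hx hy)
        · exact Or.inr (by rw [mul_assoc]; exact mul_mem hx hy)
        · refine Or.inr ?_
          have := mul_mem hx hy
          rwa [mul_assoc, ← (hZc y hy).eq, ← mul_assoc] at this
        · refine Or.inl ?_
          have := mul_mem hx hy
          rwa [mul_assoc, ← (hZc _ hy).eq, mul_assoc y, hss, mul_one] at this
      inv_mem' := by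
        rintro x (hx | hx)
        · exact Or.inl (inv_mem hx)
        · refine Or.inr ?_
          have := inv_mem hx
          have e : (x * s)⁻¹ * s * s = s * ((x * s)⁻¹ * s) := by
            rw [← mul_assoc, (hZc _ this).eq]
          rw [mul_assoc, hss, mul_one] at e
          convert this using 1
          have e2 : s * (x * s)⁻¹ * s = (x * s)⁻¹ := by rw [mul_assoc, ← e]
          rw [← e2]; group }
  have hAs : ∀ x ∈ A, Commute x s := by
    rintro x (hx | hx)
    · exact hZc x hx
    · have := (hZc _ hx).mul_left (Commute.refl s)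
      rwa [mul_assoc, hss, mul_one] at this
  have hZA : Z ≤ A := fun x hx => Or.inl hx
  have hsA : s ∈ A := Or.inr (by rw [hss]; exact one_mem _)
  refine Cfsg.Agent.MacW.HB.harada hS (A := A) ?_ ?_ fun t ht => ?_
  · rintro x hx
    have hc := hAs x hx
    rcases hx with hx | hx
    · exact hE.2 x hx.1
    · have := hE.2 _ hx.1
      rwa [hc.mul_pow, hs2, mul_one] at this
  · have h1 : Z.relIndex A = 2 := by
      rw [Subgroup.relIndex, Subgroup.index_eq_two_iff]
      refine ⟨⟨s, hsA⟩, fun b => ?_⟩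
      simp only [Subgroup.mem_subgroupOf, Subgroup.coe_mul]
      have hn : ¬ ((b : S) * s ∈ Z ∧ (b : S) ∈ Z) := fun h => hsE (by
        simpa using (mul_mem (inv_mem h.2) h.1).1)
      rcases b.2 with h | h
      · exact Or.inr ⟨h, fun h' => hn ⟨h', h⟩⟩
      · exact Or.inl ⟨h, fun h' => hn ⟨h, h'⟩⟩
    have := Grp.card_mul_relIndex hZA
    rw [h1, hfix] at this
    exact this.symm
  · have htQ : t ∈ Q := by
      rw [← hC]
      rintro _ ⟨x, hx, rfl⟩
      have hx' := fun g hg => congrArg Subtype.val (Subgroup.mem_center_iff.1 hx ⟨g, hg⟩)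
      refine (ht _ ?_).symm
      have hxs : Commute (x : S) s := (hx' s hsQ).symm
      rcases hQ x x.2 with h | h
      · exact Or.inl ⟨h, Subgroup.mem_centralizer_singleton_iff.2 hxs⟩
      · exact Or.inr ⟨h, Subgroup.mem_centralizer_singleton_iff.2 (hxs.mul_left (Commute.refl s))⟩
    have hts : Commute t s := ht s hsA
    rcases hQ t htQ with h | h
    · exact Or.inl ⟨h, Subgroup.mem_centralizer_singleton_iff.2 hts⟩
    · exact Or.inr ⟨h, Subgroup.mem_centralizer_singleton_iff.2 (hts.mul_left (Commute.refl s))⟩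

end Cfsg.Agent.S1234
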