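import Cfsg.Statements.S1236
import Mathlib
import Cfsg.Agent.Inv.DihFusion
import Cfsg.Agent.Grp.MinNormal

set_option autoImplicit false
open Cfsg

namespace Cfsg.Agent.S1236

theorem dih {G : Type*} [Group G] [Finite G] {m : ℕ} (c : Inv.CycExt (⊤ : Subgroup G) m (-1) 0)
    {U : Subgroup G} (hU : IsKleinFour U) {g : G} (hg : g ∈ Subgroup.centralizer (U : Set G)) :
    g ∈ U := by
  have h1 : ∃ a, c.s a ∈ U := by
    by_contra h
    push Not at h
    refine IsKleinFour.not_isCyclic (G := U)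
      (Subgroup.isCyclic_of_le (H' := Subgroup.zpowers (c.r 1)) fun x hx => ?_)
    rcases c.cases (Subgroup.mem_top x) with h1 | ⟨a, rfl⟩
    · exact c.mem_zpowers_r_one.2 h1
    · exact absurd hx (h a)
  obtain ⟨a, ha⟩ := h1
  obtain ⟨b, hb, hb1, hab, -⟩ := Misc.exists_eq_closure_pair_of_isKleinFour hU ha (c.s_ne_one a)
  have h2 : ∃ j, c.r j ∈ U ∧ c.r j ≠ 1 := by
    rcases c.cases (Subgroup.mem_top b) with ⟨j, rfl⟩ | ⟨j, rfl⟩
    · exact ⟨j, hb, hb1⟩
    · exact ⟨_, c.s_mul_s a j ▸ mul_mem ha hb, c.s_mul_s a j ▸ Inv.Klein.mul_ne_one hU hb hab⟩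
  obtain ⟨j, hj, hj1⟩ := h2
  have key : ∀ i, c.s a * c.r i = c.r i * c.s a → c.r i ∈ U := fun i hi => by
    by_cases h1 : c.r i = 1
    · exact h1 ▸ one_mem _
    rw [c.s_mul_r, c.r_mul_s, c.s_inj] at hi
    have h2 : orderOf (c.r i) = 2 := Inv.orderOf_two_of_mul_self
      (by rw [c.r_mul_r, c.r_eq_one]; linear_combination -hi) h1
    rwa [Inv.eq_of_orderOf_two_of_mem_cyclic (H := Subgroup.zpowers (c.r 1)) inferInstance
      (c.mem_zpowers_r_one.2 ⟨i, rfl⟩) (c.mem_zpowers_r_one.2 ⟨j, rfl⟩) h2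
      (Inv.Klein.orderOf_eq hU hj hj1)]
  have h3 := Subgroup.mem_centralizer_iff.1 hg _ ha
  rcases c.cases (Subgroup.mem_top g) with ⟨i, rfl⟩ | ⟨i, rfl⟩
  · exact key i h3
  · have h4 := key (i - a) (by
      rw [c.s_mul_s, c.s_mul_s, c.r_inj] at h3
      rw [c.s_mul_r, c.r_mul_s, c.s_inj]; linear_combination h3)
    simpa using mul_mem h4 ha

/-- Let R be a finite group, t a central involution of R such that R ⧸ ⟨t⟩ is dihedral (of order ≥ 4) or quasi-dihedral, and A ≤ R an elementary abelian subgroup of order 8 containing t. Then C_R(A) = A. -/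
theorem result {R : Type*} [Group R] [Finite R] (t : R) (ht : orderOf t = 2) (htz : t ∈ Subgroup.center R) [(Subgroup.zpowers t).Normal] (hq : (∃ m : ℕ, 2 ≤ m ∧ Nonempty (R ⧸ Subgroup.zpowers t ≃* DihedralGroup m)) ∨ Cfsg.IsQuasiDihedral (R ⧸ Subgroup.zpowers t)) (A : Subgroup R) (hA : Cfsg.IsElementaryAbelian 2 A) (hA8 : Nat.card A = 8) (htA : t ∈ A) : Subgroup.centralizer (A : Set R) = A := by
  have hle : Subgroup.zpowers t ≤ A := Subgroup.zpowers_le.2 htA
  have hK : IsKleinFour (A.map (QuotientGroup.mk' (Subgroup.zpowers t))) := by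
    refine Misc.isKleinFour_iff.2 ⟨?_, ?_⟩
    · have := Grp.card_map_mul_card_inf_ker (QuotientGroup.mk' (Subgroup.zpowers t)) A
      rw [QuotientGroup.ker_mk', inf_eq_right.2 hle, Nat.card_zpowers, ht, hA8] at this
      omega
    · rintro _ ⟨x, hx, rfl⟩
      rw [← map_pow, hA.2 x hx, map_one]
  refine le_antisymm (fun g hg => ?_) (Subgroup.le_centralizer_iff_isMulCommutative.2 hA.1)
  have h1 : QuotientGroup.mk' (Subgroup.zpowers t) g ∈
      Subgroup.centralizer (A.map (QuotientGroup.mk' (Subgroup.zpowers t)) :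
        Set (R ⧸ Subgroup.zpowers t)) := by
    rw [Subgroup.mem_centralizer_iff]
    rintro _ ⟨x, hx, rfl⟩
    rw [← map_mul, Subgroup.mem_centralizer_iff.1 hg x hx, map_mul]
  have h2 : QuotientGroup.mk' _ g ∈ A.map (QuotientGroup.mk' (Subgroup.zpowers t)) := by
    rcases hq with ⟨m, -, ⟨e⟩⟩ | hq
    · exact dih (Inv.CycExt.ofMulEquiv (Subgroup.topEquiv.trans e) (Inv.dihedralCycExt m)) hK h1
    · obtain ⟨k, ⟨c⟩⟩ := Inv.exists_QDC_top hq
      obtain ⟨b, hb⟩ := c.kleinFour_eq hK le_top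
      rw [hb] at h1 ⊢
      exact c.mem_closure_of_commute_s (Subgroup.mem_top _)
        (Subgroup.mem_centralizer_iff.1 h1 _ (Subgroup.subset_closure (by simp)))
  have h3 := Subgroup.mem_comap.2 h2
  rwa [Subgroup.comap_map_eq, QuotientGroup.ker_mk', sup_eq_left.2 hle] at h3

end Cfsg.Agent.S1236
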