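import Cfsg.Statements.S1241
import Mathlib
import Cfsg.Agent.Transfer.ThompsonTransfer

set_option autoImplicit false
open Cfsg

namespace Cfsg.Agent.S1241

/-- Let G be a finite group, p a prime, H a subgroup of index prime to p, K a subgroup of H normal in H with H/K commutative, and g ∈ H ∖ K an element of p-power order such that for all integers m and all a ∈ G with a g^m a⁻¹ ∈ H one has a g^m a⁻¹ ∈ g^m K. Then g ∉ G'. -/
theorem result {G : Type*} [Group G] [Finite G] {p : ℕ} [Fact p.Prime] (H K : Subgroup G) (hHK : K ≤ H) (hKn : (K.subgroupOf H).Normal) (hab : ∀ x ∈ H, ∀ y ∈ H, x * y * x⁻¹ * y⁻¹ ∈ K) (hidx : Nat.Coprime p H.index) (g : G) (hgH : g ∈ H) (hgK : g ∉ K) (hgp : ∃ k : ℕ, orderOf g = p ^ k) (hctrl : ∀ (m : ℤ) (a : G), a * g ^ m * a⁻¹ ∈ H → (a * g ^ m * a⁻¹) * (g ^ m)⁻¹ ∈ K) : g ∉ commutator G := by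
  intro hg
  let : CommGroup (H ⧸ K.subgroupOf H) :=
    { (inferInstance : Group (H ⧸ K.subgroupOf H)) with
      mul_comm := fun a b => by
        obtain ⟨a, rfl⟩ := QuotientGroup.mk_surjective a
        obtain ⟨b, rfl⟩ := QuotientGroup.mk_surjective b
        rw [← QuotientGroup.mk_mul, ← QuotientGroup.mk_mul, QuotientGroup.eq]
        have := hab _ (H.inv_mem b.2) _ (H.inv_mem a.2)
        simpa [Subgroup.mem_subgroupOf, mul_assoc] using this }
  let φ : H →* H ⧸ K.subgroupOf H := QuotientGroup.mk' _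
  have h1 := Transfer.transfer_eq_pow_of_forall φ g (φ ⟨g, hgH⟩) fun a k hk => by
    rw [← map_pow]
    refine QuotientGroup.eq_iff_div_mem.2 ?_
    have := hctrl k a⁻¹ (by simpa using hk)
    simpa [Subgroup.mem_subgroupOf, div_eq_mul_inv] using this
  have h2 : MonoidHom.transfer φ g = 1 := Abelianization.commutator_subset_ker _ hg
  obtain ⟨k, hk⟩ := hgp
  have h3 : φ ⟨g, hgH⟩ ^ p ^ k = 1 := by
    rw [← map_pow, show (⟨g, hgH⟩ : H) ^ p ^ k = 1 from
      Subtype.ext (by simp [← hk, pow_orderOf_eq_one]), map_one]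
  have h4 : φ ⟨g, hgH⟩ = 1 := by
    rw [← orderOf_eq_one_iff]
    exact Nat.eq_one_of_dvd_coprimes (Nat.Coprime.pow_left k hidx) (orderOf_dvd_of_pow_eq_one h3)
      (orderOf_dvd_of_pow_eq_one (h1.symm.trans h2))
  exact hgK ((QuotientGroup.eq_one_iff (N := K.subgroupOf H) ⟨g, hgH⟩).1 h4)

end Cfsg.Agent.S1241
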