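import Cfsg.Statements.S1242
import Mathlib
import Cfsg.Agent.Transfer.ThompsonTransfer
import Cfsg.Agent.Transfer.PCompl

set_option autoImplicit false
open Cfsg

namespace Cfsg.Agent.S1242

/-- Let G be a finite group, p a prime and H a subgroup of index prime to p such that any two elements of H of p-power order that are conjugate in G are conjugate in H. Then (O^p(G)·G') ∩ H = O^p(H)·H', where O^p denotes the subgroup generated by the elements of order prime to p. -/
theorem result {G : Type*} [Group G] [Finite G] {p : ℕ} [Fact p.Prime] (H : Subgroup G) (hidx : Nat.Coprime p H.index) (hfus : ∀ g ∈ H, (∃ k : ℕ, orderOf g = p ^ k) → ∀ a : G, a * g * a⁻¹ ∈ H → ∃ h ∈ H, h * g * h⁻¹ = a * g * a⁻¹) : (Cfsg.pResidual p G ⊔ commutator G) ⊓ H = (Cfsg.pResidual p ↥H ⊔ commutator ↥H).map H.subtype := by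
  apply le_antisymm
  · rintro x ⟨hx, hxH⟩
    let K : Subgroup H := pResidual p H ⊔ commutator H
    let : CommGroup (H ⧸ K) :=
      { (inferInstance : Group (H ⧸ K)) with
        mul_comm := fun a b => by
          obtain ⟨a, rfl⟩ := QuotientGroup.mk_surjective a
          obtain ⟨b, rfl⟩ := QuotientGroup.mk_surjective b
          rw [← QuotientGroup.mk_mul, ← QuotientGroup.mk_mul, QuotientGroup.eq]
          refine Subgroup.mem_sup_right ?_
          have := Subgroup.commutator_mem_commutator (Subgroup.mem_top b⁻¹) (Subgroup.mem_top a⁻¹)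
          simpa [commutatorElement_def, mul_assoc, commutator] using this }
    let φ : H →* H ⧸ K := QuotientGroup.mk' _
    have hK : IsPGroup p (H ⧸ K) := Transfer.isPGroup_quotient_of_pResidual_le le_sup_left
    have h0 : pResidual p G ⊔ commutator G ≤ (MonoidHom.transfer φ).ker :=
      sup_le (Transfer.pResidual_le_ker _ hK) (Abelianization.commutator_subset_ker _)
    obtain ⟨u, v, hu, hv, ⟨k, hk⟩, hv', e⟩ := Transfer.exists_pPart_mul (p := p) x
    have huH : u ∈ H := Subgroup.zpowers_le.2 hxH hu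
    have hvH : v ∈ H := Subgroup.zpowers_le.2 hxH hv
    have h1 := Transfer.transfer_eq_pow_of_forall φ u (φ ⟨u, huH⟩) fun a j hj => by
      obtain ⟨h, hh, e⟩ := hfus (u ^ j) (H.pow_mem huH j) (by
        have : orderOf (u ^ j) ∣ p ^ k :=
          (orderOf_pow_dvd j).trans (orderOf_dvd_of_pow_eq_one hk)
        obtain ⟨i, -, hi⟩ := (Nat.dvd_prime_pow Fact.out).1 this
        exact ⟨i, hi⟩) a⁻¹ (by simpa using hj)
      have : (⟨a⁻¹ * u ^ j * a, hj⟩ : H) = ⟨h, hh⟩ * ⟨u, huH⟩ ^ j * ⟨h, hh⟩⁻¹ :=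
        Subtype.ext (by simpa using e.symm)
      rw [this, map_mul, map_mul, map_inv, mul_inv_cancel_comm, map_pow]
    have h2 : MonoidHom.transfer φ u = 1 := h0 (Subgroup.zpowers_le.2 hx hu)
    have h3 : φ ⟨u, huH⟩ ^ p ^ k = 1 := by
      rw [← map_pow, show (⟨u, huH⟩ : H) ^ p ^ k = 1 from Subtype.ext (by simp [hk]), map_one]
    have h4 : φ ⟨u, huH⟩ = 1 := by
      rw [← orderOf_eq_one_iff]
      exact Nat.eq_one_of_dvd_coprimes (Nat.Coprime.pow_left k hidx) (orderOf_dvd_of_pow_eq_one h3)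
        (orderOf_dvd_of_pow_eq_one (h1.symm.trans h2))
    refine ⟨⟨u, huH⟩ * ⟨v, hvH⟩, K.mul_mem ((QuotientGroup.eq_one_iff (N := K) ⟨u, huH⟩).1 h4)
      (Subgroup.mem_sup_left (Transfer.mem_pResidual_of_coprime ?_)), e.symm⟩
    rwa [Subgroup.orderOf_mk]
  · refine le_inf ?_ (Subgroup.map_subtype_le _)
    rw [Subgroup.map_sup]
    refine sup_le_sup (Transfer.map_pResidual_le _) ?_
    rw [commutator, Subgroup.map_commutator]
    exact Subgroup.commutator_mono le_top le_top

end Cfsg.Agent.S1242
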