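import Cfsg.Statements.S1243
import Mathlib
import Cfsg.Agent.PLocal.RelSylow
import Cfsg.Agent.FGS.Conj

set_option autoImplicit false
open Cfsg

namespace Cfsg.Agent.S1243


/-- Let T be a Sylow p-subgroup of the finite group G and W ≤ T a subgroup weakly closed in T. If d and g d g⁻¹ both centralize W, then g d g⁻¹ = h d h⁻¹ for some h ∈ N_G(W). -/
theorem result {G : Type*} [Group G] [Finite G] {p : ℕ} [Fact p.Prime] (T : Sylow p G) (W : Subgroup G) (hW : Cfsg.IsWeaklyClosed W (T : Subgroup G)) (d g : G) (hd : d ∈ Subgroup.centralizer (W : Set G)) (hgd : g * d * g⁻¹ ∈ Subgroup.centralizer (W : Set G)) : ∃ h ∈ Subgroup.normalizer (W : Set G), h * d * h⁻¹ = g * d * g⁻¹ := by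
  have hWp : IsPGroup p W := T.isPGroup'.to_le hW.1
  have h1 : W ≤ Subgroup.centralizer ({d} : Set G) := by
    intro w hw
    rw [Subgroup.mem_centralizer_singleton_iff]
    exact hd w hw
  have h2 : W.map (MulAut.conj g⁻¹).toMonoidHom ≤ Subgroup.centralizer ({d} : Set G) := by
    rw [FGS.mapConj_le_iff']
    intro w hw
    rw [Subgroup.mem_centralizer_singleton_iff]
    have := hgd w hw
    calc g⁻¹ * w * g⁻¹⁻¹ * d = g⁻¹ * (w * (g * d * g⁻¹)) * g := by group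
      _ = d * (g⁻¹ * w * g⁻¹⁻¹) := by rw [this]; group
  obtain ⟨R, hWR, hRC, hRp, hRi⟩ := PLocal.RelSylow.exists_relSylow h1 hWp
  obtain ⟨c, hc, hc'⟩ := PLocal.RelSylow.exists_conj_mem hRp hRi h2 (FGS.isPGroup_mapConj hWp g⁻¹)
  obtain ⟨k, hk⟩ := PLocal.RelSylow.exists_conj_mem_sylow' T hRp
  have h3 : k ∈ Subgroup.normalizer (W : Set G) :=
    FGS.mapConj_eq_self_iff.1 (hW.2 k (FGS.mapConj_le_iff'.2 fun x hx => hk x (hWR hx)))
  have h4 : k * c * g⁻¹ ∈ Subgroup.normalizer (W : Set G) := by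
    apply FGS.mapConj_eq_self_iff.1 (hW.2 _ (FGS.mapConj_le_iff'.2 fun x hx => ?_))
    have := hk _ (hc' _ (FGS.conj_mem_mapConj g⁻¹ hx))
    convert this using 1
    group
  refine ⟨(k * c * g⁻¹)⁻¹ * k, Subgroup.mul_mem _ (Subgroup.inv_mem _ h4) h3, ?_⟩
  rw [Subgroup.mem_centralizer_singleton_iff] at hc
  calc (k * c * g⁻¹)⁻¹ * k * d * ((k * c * g⁻¹)⁻¹ * k)⁻¹ = g * c⁻¹ * (d * c) * g⁻¹ := by group
    _ = g * d * g⁻¹ := by rw [← hc]; group

end Cfsg.Agent.S1243
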