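import Cfsg.Statements.S1244
import Mathlib
import Cfsg.Agent.Transfer.ThompsonTransfer
import Cfsg.Agent.Transfer.Focal
import Cfsg.Agent.Misc.Four
import Cfsg.Agent.Inv.FocalTools
import Cfsg.Agent.FT.PRank

set_option autoImplicit false
open Cfsg

namespace Cfsg.Agent.S1244

/-- Let G be a finite group with no subgroup of index 2 whose Sylow 2-subgroup S is commutative, and let R ≤ S be a subgroup whose 2-rank is exactly one less than the 2-rank r of S. Then every involution of S is conjugate, by an element of N_G(S), to an element of R. -/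
theorem result {G : Type*} [Group G] [Finite G] (hG : ∀ H : Subgroup G, H.index ≠ 2) (S : Sylow 2 G) (hS : IsMulCommutative (S : Subgroup G)) (r : ℕ) (hr1 : 1 ≤ r) (hSr : Cfsg.PRankLE 2 r (S : Subgroup G) ∧ ¬ Cfsg.PRankLE 2 (r - 1) (S : Subgroup G)) (R : Subgroup G) (hRS : R ≤ S) (hRr : Cfsg.PRankLE 2 (r - 1) R ∧ (r = 1 ∨ ¬ Cfsg.PRankLE 2 (r - 2) R)) (t : G) (ht : orderOf t = 2) (htS : t ∈ S) : ∃ n ∈ Subgroup.normalizer ((S : Subgroup G) : Set G), n * t * n⁻¹ ∈ R := by
  by_contra hn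
  push Not at hn
  have hc := Misc.isMulCommutative_iff'.1 hS
  let : CommGroup (S : Subgroup G) :=
    { (inferInstance : Group (S : Subgroup G)) with mul_comm := hS.is_comm.comm }
  -- an elementary abelian subgroup of `R` of order `2 ^ (r - 1)`
  obtain ⟨A, hAR, hA, hAc⟩ : ∃ A : Subgroup G, A ≤ R ∧ IsElementaryAbelian 2 A ∧
      2 ^ (r - 1) ≤ Nat.card A := by
    rcases hRr.2 with rfl | h
    · exact ⟨⊥, bot_le, Misc.isElementaryAbelian_two_iff.2 (by simp), by simp⟩
    · obtain ⟨A, h1, h2, h3⟩ := Misc.not_pRankLE_iff.1 h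
      exact ⟨A, h1, h2, h3 ▸ Nat.pow_le_pow_right (by norm_num) (by omega)⟩
  have key : ∀ s ∈ (S : Subgroup G), s * s = 1 → s ∉ R → s * t ∈ R := by
    intro s hs hs2 hsR
    by_contra hst
    have ht2 := Inv.mul_self_of_orderOf_two ht
    have htR : t ∉ R := by simpa using hn 1 (Subgroup.one_mem _)
    have hAS := hAR.trans hRS
    have h1 : A ⊔ Subgroup.zpowers t ≤ S := sup_le hAS (Subgroup.zpowers_le.2 htS)
    have h2 := Misc.card_sup_zpowers_two ht2 (fun h => htR (hAR h))
      (Misc.mem_normalizer_of_comm fun a ha => hc _ htS _ (hAS ha))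
    have h3 := Misc.card_sup_zpowers_two (A := A ⊔ Subgroup.zpowers t) hs2 (fun h => by
      rcases (Misc.mem_sup_zpowers_two ht2 (fun a ha => by
        rw [hc _ htS _ (hAS ha)]; simpa using ha)).1 h with h | h
      · exact hsR (hAR h)
      · exact hst (hAR h)) (Misc.mem_normalizer_of_comm fun a ha => hc _ hs _ (h1 ha))
    have h4 := FT.R2.pRankLE_iff.1 hSr.1 (A ⊔ Subgroup.zpowers t ⊔ Subgroup.zpowers s)
      (sup_le h1 (Subgroup.zpowers_le.2 hs)) (Misc.isElementaryAbelian_two_iff.2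
        (Misc.sq_eq_one_sup_zpowers (Misc.sq_eq_one_sup_zpowers hA.2 ht2
          fun a ha => hc _ htS _ (hAS ha)) hs2 fun a ha => hc _ hs _ (h1 ha)))
    obtain ⟨r, rfl⟩ : ∃ r', r = r' + 1 := ⟨r - 1, by omega⟩
    rw [h3, h2, pow_succ] at h4
    rw [Nat.add_sub_cancel] at hAc
    have : 0 < 2 ^ r := by positivity
    omega
  let φ : (S : Subgroup G) →* (S : Subgroup G) ⧸ R.subgroupOf S := QuotientGroup.mk' _
  have ht2 := Inv.mul_self_of_orderOf_two ht
  have hti : t⁻¹ = t := inv_eq_of_mul_eq_one_right ht2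
  have h1 := Transfer.transfer_eq_pow_of_forall φ t (φ ⟨t, htS⟩) fun a k hk => by
    rw [← map_pow]
    refine QuotientGroup.eq_iff_div_mem.2 ?_
    rw [Subgroup.mem_subgroupOf]
    rcases Nat.even_or_odd' k with ⟨j, rfl | rfl⟩
    · simp [pow_mul, pow_two, ht2]
    · have e : t ^ (2 * j + 1) = t := by simp [pow_succ, pow_mul, ht2]
      obtain ⟨n, hn', e'⟩ := Transfer.normalizer_controls_elem_of_comm S hS t htS a⁻¹
        (by rw [e] at hk; simpa using hk)
      have := key _ ((Subgroup.mem_normalizer_iff.1 hn' t).1 htS) (by rw [conj_mul, ht2]; group) (hn n hn')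
      rw [e', inv_inv] at this
      simpa [e, div_eq_mul_inv, hti] using this
  have h2 : MonoidHom.transfer φ t = 1 := by
    have := Transfer.pResidual_le_ker (MonoidHom.transfer φ) (S.isPGroup'.to_quotient _)
    rw [Inv.pResidual_eq_top_of_index_ne_two hG] at this
    exact this trivial
  obtain ⟨j, hj⟩ := Transfer.odd_index_sylow S
  have h3 : φ ⟨t, htS⟩ ^ 2 = 1 := by
    rw [← map_pow, show (⟨t, htS⟩ : (S : Subgroup G)) ^ 2 = 1 from
      Subtype.ext (by simp [pow_two, ht2]), map_one]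
  rw [h2, hj, pow_succ, pow_mul, h3, one_pow, one_mul] at h1
  exact hn 1 (Subgroup.one_mem _) (by
    simpa [Subgroup.mem_subgroupOf] using
      (QuotientGroup.eq_one_iff (N := R.subgroupOf S) ⟨t, htS⟩).1 h1.symm)

end Cfsg.Agent.S1244
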