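import Cfsg.Statements.S1246
import Mathlib
import Cfsg.Agent.PLocal.FStar
import Cfsg.Agent.PLocal.CharP
import Cfsg.Agent.PLocal.Amb

set_option autoImplicit false
open Cfsg

namespace Cfsg.Agent.S1246

/-- Let V ≤ U be p-subgroups of the finite group G. If the generalized Fitting subgroup of C_G(V) is a p-group, then so is that of C_G(U). -/
theorem result {G : Type*} [Group G] [Finite G] {p : ℕ} [Fact p.Prime] (U V : Subgroup G) (hVU : V ≤ U) (hU : IsPGroup p U) (hV : IsPGroup p ↥(Cfsg.generalizedFittingSubgroup ↥(Subgroup.centralizer (V : Set G)))) : IsPGroup p ↥(Cfsg.generalizedFittingSubgroup ↥(Subgroup.centralizer (U : Set G))) := by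
  open Subgroup PLocal in
  rw [isPGroup_fstar_iff, fstar_eq_pCore_iff, ← CP.isCharP_iff] at hV ⊢
  have key : ∀ W : Subgroup G, V ≤ W → W ≤ U → CP.IsCharP p (centralizer (W : Set G)) →
      CP.IsCharP p (centralizer (U : Set G)) := by
    intro W
    induction W using WellFoundedGT.induction with
    | ind W ih =>
      intro h1 h2 h3
      rcases h2.eq_or_lt with rfl | hlt
      · exact h3
      · have h4 := Amb.lt_inf_normalizer hU hlt
        exact ih _ h4 (h1.trans h4.le) inf_le_left
          (h3.centralizer_of_le hU.to_inf_left h4.le inf_le_right)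
  exact key V le_rfl hVU hV

end Cfsg.Agent.S1246
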