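import Cfsg.Statements.S1247
import Mathlib
import Cfsg.Agent.PLocal.BenderPair

set_option autoImplicit false
open Cfsg

namespace Cfsg.Agent.S1247

/-- Let G be a non-abelian finite simple group, A a maximal subgroup, F = F*(A) its generalized Fitting subgroup (viewed in G), and S ≤ F a subgroup subnormal in F with C_F(S) ≤ S. Let B be any subgroup of G containing S. Then (a) for every prime q not dividing |F(A)|, O_q(B) ∩ A = 1; and (b) for every prime p dividing |F(A)|, O_p(B) commutes elementwise with the subgroup of F generated by its elements of order prime to p. -/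
theorem result {G : Type*} [Group G] [Finite G] [IsSimpleGroup G] (hna : ¬ IsMulCommutative G) (A : Subgroup G) (hA : IsCoatom A) (S : Subgroup G) (hSF : S ≤ (Cfsg.generalizedFittingSubgroup ↥A).map A.subtype) (hSsn : (S.subgroupOf ((Cfsg.generalizedFittingSubgroup ↥A).map A.subtype)).IsSubnormal) (hSC : (Cfsg.generalizedFittingSubgroup ↥A).map A.subtype ⊓ Subgroup.centralizer (S : Set G) ≤ S) (B : Subgroup G) (hSB : S ≤ B) : (∀ q : ℕ, q.Prime → ¬ q ∣ Nat.card (Cfsg.fittingSubgroup ↥A) → (Cfsg.pCore q ↥B).map B.subtype ⊓ A = ⊥) ∧ (∀ p : ℕ, p.Prime → p ∣ Nat.card (Cfsg.fittingSubgroup ↥A) → ∀ x ∈ (Cfsg.pCore p ↥B).map B.subtype, ∀ y ∈ (Cfsg.pResidual p ↥(Cfsg.generalizedFittingSubgroup ↥A)).map ((Cfsg.generalizedFittingSubgroup ↥A).subtype) , x * (A.subtype y) = (A.subtype y) * x) := by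
  have hE := PLocal.layOf_le_of_subnormal hSF hSsn hSC
  refine ⟨fun q hq hnd => ?_, fun p hp hd x hx y hy => ?_⟩
  · have : Fact q.Prime := ⟨hq⟩
    refine PLocal.bender_pcoOf_inf_eq_bot hE hSF hSC hSB ?_
    by_contra h
    exact hnd (PLocal.dvd_card_fitting_of_pcoOf_ne_bot h)
  · have : Fact p.Prime := ⟨hp⟩
    have h1 := PLocal.bender_pcoOf_le_centralizer (p := p)
      (fun X h1 h2 h3 => PLocal.normalizer_le_of_isCoatom hA h1 h2 h3) hE hSF hSC hSB
      (PLocal.pcoOf_ne_bot_of_dvd hd)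
    refine (h1 hx _ (PLocal.pRes_fstarOf_le A ?_)).symm
    rw [← PLocal.Amb.pRes_map_subtype]
    exact ⟨y, hy, rfl⟩

end Cfsg.Agent.S1247
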