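import Cfsg.Statements.S1254
import Mathlib
import Cfsg.Agent.Inv.DihFusion
import Cfsg.Agent.Transfer.Focal

set_option autoImplicit false
open Cfsg

namespace Cfsg.Agent.S1254

/-- Let X be a finite group whose Sylow 2-subgroup S is dihedral (of order at least 4). Then X has a normal 2-complement if and only if, for every Klein four-subgroup U ≤ S, the normalizer N_X(U) is generated by C_X(U) and N_S(U). -/
theorem result {X : Type*} [Group X] [Finite X] (S : Sylow 2 X) (m : ℕ) (hm : 2 ≤ m) (eS : (S : Subgroup X) ≃* DihedralGroup m) : Cfsg.HasNormalPComplement 2 X ↔ ∀ U : Subgroup X, U ≤ S → IsKleinFour U → Subgroup.normalizer (U : Set X) = Subgroup.centralizer (U : Set X) ⊔ ((S : Subgroup X) ⊓ Subgroup.normalizer (U : Set X)) := by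
  rcases Inv.kleinFour_or_DC S.isPGroup' hm eS with hK | ⟨k, -, ⟨c⟩⟩
  · constructor
    · intro h U hU hUK
      obtain rfl : U = S := Subgroup.eq_of_le_of_card_ge hU (by rw [hK.card_four, hUK.card_four])
      rcases Inv.klein_sylow_dichotomy S hK with h1 | h1
      · exact le_antisymm (h1.1.trans le_sup_left)
          (sup_le (Subgroup.centralizer_le_normalizer _) inf_le_right)
      · obtain ⟨x, hx, y, hy, hx1, hy1, hxy⟩ := Inv.Klein.exists_pair hK
        exact absurd (Inv.eq_of_isConj_of_normal_complement
          (Transfer.HasNormalPComplement.isComplement' h S) (fun a ha b hb => Inv.Klein.comm hK ha hb)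
          hx hy (h1 _ _ (Inv.Klein.orderOf_eq hK hx hx1) (Inv.Klein.orderOf_eq hK hy hy1))) hxy
    · intro h
      refine Transfer.hasNormalPComplement_of_normalizer_le_centralizer S ?_
      refine (h S le_rfl hK).le.trans (sup_le le_rfl fun g hg => ?_)
      exact Subgroup.mem_centralizer_iff.2 fun x hx => Inv.Klein.comm hK hx hg.1
  · constructor
    · intro h U hU hUK
      obtain ⟨a, rfl⟩ := c.kleinFour_eq hUK hU
      have h1 : ¬ IsConj (c.r (2 ^ (k + 1))) (c.s a) := fun h1 => by
        obtain ⟨g, hg⟩ := isConj_iff.1 h1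
        obtain ⟨v, hv, e⟩ := Transfer.HasNormalPComplement.conj_eq h S g
        have := e _ (c.r_mem _) (hg ▸ c.s_mem a)
        rw [hg, c.conj_z hv] at this
        exact c.r_ne_s _ _ this
      refine le_antisymm (fun g hg => ?_)
        (sup_le (Subgroup.centralizer_le_normalizer _) inf_le_right)
      obtain ⟨s, hs, e⟩ := c.exists_conj_of_two (c.relIndex_T_eq_two h1) hg
      have h2 : s⁻¹ * g ∈ Subgroup.centralizer (c.T a : Set X) :=
        PLocal.CF.mem_ce_of_conj_eq fun x hx => by
          calc s⁻¹ * g * x * (s⁻¹ * g)⁻¹ = s⁻¹ * (g * x * g⁻¹) * s := by group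
            _ = x := by rw [← e x hx]; group
      simpa using Subgroup.mul_mem _ (Subgroup.mem_sup_right hs) (Subgroup.mem_sup_left h2)
    · intro h
      have key : ∀ a, ¬ IsConj (c.r (2 ^ (k + 1))) (c.s a) := fun a h1 => by
        obtain ⟨g, hg, e⟩ := Inv.exists_conj_kleinFour (c.isKleinFour_T a) (c.relIndex_T_eq_six h1)
          (c.z_mem_T a) (c.s_mem_T a) (by simpa using Inv.DC.h_ne_zero) (by simp)
        have h2 : Subgroup.normalizer (c.T a : Set X) ≤ Subgroup.centralizer {c.r (2 ^ (k + 1))} := by
          rw [h _ (c.T_le a) (c.isKleinFour_T a)]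
          exact sup_le (Subgroup.centralizer_le (Set.singleton_subset_iff.2 (c.z_mem_T a)))
            fun s hs => Subgroup.mem_centralizer_singleton_iff.2 (c.commute_z hs.1)
        rw [Subgroup.mem_centralizer_singleton_iff.1 (h2 hg), mul_inv_cancel_right] at e
        exact c.r_ne_s _ _ e
      exact c.hasNormalPComplement (key 0) (key _)

end Cfsg.Agent.S1254
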