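import Cfsg.Statements.S1255
import Mathlib
import Cfsg.Agent.Inv.DihFusion
import Cfsg.Agent.Inv.IsolatedIff
import Cfsg.Agent.Transfer.ThompsonTransfer

set_option autoImplicit false
open Cfsg

namespace Cfsg.Agent.S1255

/-- Let X be a finite group whose Sylow 2-subgroup S is dihedral of order 2m ≥ 4. Then X has no subgroup of index 2 and no isolated involution if and only if either all involutions of X are conjugate, or for every Klein four-subgroup U ≤ S the index |N_X(U) : C_X(U)| equals 3 when |S| = 4 and equals 6 when |S| > 4. -/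
theorem result {X : Type*} [Group X] [Finite X] (S : Sylow 2 X) (m : ℕ) (hm : 2 ≤ m) (eS : (S : Subgroup X) ≃* DihedralGroup m) : ((∀ H : Subgroup X, H.index ≠ 2) ∧ (∀ z : X, ¬ Cfsg.IsIsolatedInvolution z)) ↔ ((∀ a b : X, orderOf a = 2 → orderOf b = 2 → IsConj a b) ∨ (∀ U : Subgroup X, U ≤ S → IsKleinFour U → (Subgroup.centralizer (U : Set X)).relIndex (Subgroup.normalizer (U : Set X)) = (if Nat.card S = 4 then 3 else 6))) := by
  have hiso : ∀ U : Subgroup X, IsKleinFour U →
      (∀ a b : X, orderOf a = 2 → orderOf b = 2 → IsConj a b) → ∀ z : X, ¬ IsIsolatedInvolution z := by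
    intro U hU h z hz
    obtain ⟨x, hx, y, hy, hx1, hy1, hxy⟩ := Inv.Klein.exists_pair hU
    obtain ⟨g, hg⟩ := isConj_iff.1 (h _ _ hz.1 (Inv.Klein.orderOf_eq hU hx hx1))
    obtain ⟨g', hg'⟩ := isConj_iff.1 (h _ _ hz.1 (Inv.Klein.orderOf_eq hU hy hy1))
    have h1 := hz.2 (g⁻¹ * g') (by
      have : Commute (g * z * g⁻¹) (g' * z * g'⁻¹) := by
        rw [hg, hg']; exact Inv.Klein.comm hU hx hy
      have := this.map (MulAut.conj g⁻¹)
      simpa [mul_assoc] using this)
    apply hxy
    rw [← hg, ← hg']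
    calc g * z * g⁻¹ = g * (g⁻¹ * g' * z * (g⁻¹ * g')⁻¹) * g⁻¹ := by rw [h1]
      _ = _ := by group
  rcases Inv.kleinFour_or_DC S.isPGroup' hm eS with hK | ⟨k, -, ⟨c⟩⟩
  · constructor
    · rintro ⟨-, h⟩
      rcases Inv.klein_sylow_dichotomy S hK with h1 | h1
      · obtain ⟨x, hx, -, -, hx1, -⟩ := Inv.Klein.exists_pair hK
        refine absurd ((Inv.isIsolatedInvolution_iff_sylow (Inv.Klein.orderOf_eq hK hx hx1) S hx).2
          fun g hg => (h1.2 _ hx _ hg (isConj_iff.2 ⟨g, rfl⟩)).symm) (h x)
      · exact Or.inl h1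
    · intro h
      have h1 : ∀ a b : X, orderOf a = 2 → orderOf b = 2 → IsConj a b := by
        rcases h with h | h
        · exact h
        · refine (Inv.klein_sylow_dichotomy S hK).resolve_left fun h1 => ?_
          have := h S le_rfl hK
          rw [Subgroup.relIndex_eq_one.2 h1.1, if_pos hK.card_four] at this
          omega
      refine ⟨fun H hH => ?_, hiso _ hK h1⟩
      have := H.normal_of_index_eq_two hH
      obtain ⟨x, hx, y, hy, hx1, hy1, hxy⟩ := Inv.Klein.exists_pair hK
      have h2 : ∃ t ∈ H, orderOf t = 2 := by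
        by_cases hxH : x ∈ H
        · exact ⟨x, hxH, Inv.Klein.orderOf_eq hK hx hx1⟩
        by_cases hyH : y ∈ H
        · exact ⟨y, hyH, Inv.Klein.orderOf_eq hK hy hy1⟩
        exact ⟨x * y, (Subgroup.mul_mem_iff_of_index_two hH).2 (iff_of_false hxH hyH),
          Inv.Klein.orderOf_eq hK (mul_mem hx hy) (Inv.Klein.mul_ne_one hK hy hxy)⟩
      obtain ⟨t, ht, ht2⟩ := h2
      have h3 : (S : Subgroup X) ≤ H := fun s hs => by
        by_cases hs1 : s = 1
        · exact hs1 ▸ one_mem _
        obtain ⟨g, rfl⟩ := isConj_iff.1 (h1 _ _ ht2 (Inv.Klein.orderOf_eq hK hs hs1))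
        exact this.conj_mem _ ht g
      exact S.not_dvd_index (hH.symm.dvd.trans (Subgroup.index_dvd_of_le h3))
  · constructor
    · rintro ⟨h, -⟩
      have key : ∀ a, IsConj (c.r (2 ^ (k + 1))) (c.s a) := fun a => by
        by_contra hn
        obtain ⟨H, hH⟩ := c.exists_index_two hn
        exact h H hH
      exact Or.inl fun a b ha hb =>
        (c.isConj_of_all (key 0) (key _) ha).trans (c.isConj_of_all (key 0) (key _) hb).symm
    · intro h
      have key : ∀ a, IsConj (c.r (2 ^ (k + 1))) (c.s a) := fun a => by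
        rcases h with h | h
        · exact h _ _ c.orderOf_z (c.orderOf_s a)
        · have := h _ (c.T_le a) (c.isKleinFour_T a)
          rw [if_neg c.card_ne_four] at this
          exact c.isConj_z_of_six this
      exact ⟨Inv.index_ne_two_of_pResidual_eq_top (c.pResidual_eq_top (key 0) (key _)),
        hiso _ (c.isKleinFour_T 0) fun a b ha hb =>
          (c.isConj_of_all (key 0) (key _) ha).trans (c.isConj_of_all (key 0) (key _) hb).symm⟩

end Cfsg.Agent.S1255
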