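import Cfsg.Statements.S1256
import Mathlib
import Cfsg.Agent.Inv.DihFusion

set_option autoImplicit false
open Cfsg

namespace Cfsg.Agent.S1256

/-- Let X be a finite group whose Sylow 2-subgroup S is dihedral of order 2m ≥ 4. If |S| = 4, any two Klein four-subgroups of X are conjugate; if |S| > 4, there are Klein four-subgroups U₁, U₂ of X that are not conjugate, and every Klein four-subgroup of X is conjugate to U₁ or to U₂. -/
theorem result {X : Type*} [Group X] [Finite X] (S : Sylow 2 X) (m : ℕ) (hm : 2 ≤ m) (eS : (S : Subgroup X) ≃* DihedralGroup m) : (Nat.card S = 4 → ∀ U V : Subgroup X, IsKleinFour U → IsKleinFour V → (∃ x : X, U.map (MulAut.conj x).toMonoidHom = V)) ∧ (4 < Nat.card S → ∃ U₁ U₂ : Subgroup X, IsKleinFour U₁ ∧ IsKleinFour U₂ ∧ ¬ (∃ x : X, U₁.map (MulAut.conj x).toMonoidHom = U₂) ∧ ∀ V : Subgroup X, IsKleinFour V → (∃ x : X, V.map (MulAut.conj x).toMonoidHom = U₁) ∨ (∃ x : X, V.map (MulAut.conj x).toMonoidHom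 = U₂)) := by
  have key : ∀ V : Subgroup X, IsKleinFour V →
      ∃ x : X, V.map (MulAut.conj x).toMonoidHom ≤ S ∧ IsKleinFour (V.map (MulAut.conj x).toMonoidHom) := by
    intro V hV
    obtain ⟨x, -, hx⟩ := (PLocal.CF.syl_top S).exists_cj_le
      (IsPGroup.of_card (n := 2) hV.card_four) le_top
    exact ⟨x, hx, (Misc.isKleinFour_map_of_injective _ (MulAut.conj x).injective).2 hV⟩
  constructor
  · intro h4 U V hU hV
    obtain ⟨x, hx, hx'⟩ := key U hU
    obtain ⟨y, hy, hy'⟩ := key V hV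
    have e1 := Subgroup.eq_of_le_of_card_ge hx (by rw [h4, hx'.card_four])
    have e2 := Subgroup.eq_of_le_of_card_ge hy (by rw [h4, hy'.card_four])
    exact ⟨y⁻¹ * x, by rw [FGS.mapConj_mul, e1, ← e2, FGS.mapConj_inv_mapConj]⟩
  · intro h4
    rcases Inv.kleinFour_or_DC S.isPGroup' hm eS with hK | ⟨k, -, ⟨c⟩⟩
    · exact absurd hK.card_four h4.ne'
    refine ⟨c.T 0, c.T (0 + 1), c.isKleinFour_T _, c.isKleinFour_T _, ?_, fun V hV => ?_⟩
    · rintro ⟨x, hx⟩
      exact c.T_map_conj_ne 0 0 x (by simpa using hx)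
    · obtain ⟨x, hx, hx'⟩ := key V hV
      obtain ⟨a, ha⟩ := c.kleinFour_eq hx' hx
      rcases Inv.DC.parity 0 a with ⟨j, rfl⟩ | ⟨j, rfl⟩
      · exact Or.inl ⟨(c.r j)⁻¹ * x, by
          rw [FGS.mapConj_mul, ha, ← c.T_map_conj, FGS.mapConj_inv_mapConj]⟩
      · exact Or.inr ⟨(c.r j)⁻¹ * x, by
          rw [FGS.mapConj_mul, ha, ← c.T_map_conj, FGS.mapConj_inv_mapConj]⟩

end Cfsg.Agent.S1256
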