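import Cfsg.Statements.S1258
import Mathlib
import Cfsg.Agent.PLocal.Quasisimple

set_option autoImplicit false
open Cfsg

namespace Cfsg.Agent.S1258

/-- If the central quotient of a finite group X is non-abelian simple, then X = X' Z(X) and the commutator subgroup X' is quasisimple. -/
theorem result {X : Type*} [Group X] [Finite X] (hs : IsSimpleGroup (X ⧸ Subgroup.center X)) (hna : ¬ IsMulCommutative (X ⧸ Subgroup.center X)) : commutator X ⊔ Subgroup.center X = ⊤ ∧ Cfsg.IsQuasisimple ↥(commutator X) := by
  have hq := PLocal.qs_of_simple hs hna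
  have hsurj := QuotientGroup.mk'_surjective (Subgroup.center X)
  have h1 : commutator X ⊔ Subgroup.center X = ⊤ := by
    have h2 : (commutator X).map (QuotientGroup.mk' (Subgroup.center X)) = ⊤ := by
      rw [commutator_def, Subgroup.map_commutator, Subgroup.map_top_of_surjective _ hsurj,
        ← commutator_def, PLocal.qs_commutator_eq_top hq]
    have := congrArg (Subgroup.comap (QuotientGroup.mk' (Subgroup.center X))) h2
    rwa [Subgroup.comap_map_eq, QuotientGroup.ker_mk', Subgroup.comap_top] at this
  refine ⟨h1, PLocal.qsS_of_map ?_ (QuotientGroup.mk' (Subgroup.center X)) ?_ ?_⟩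
  · exact le_antisymm (Subgroup.commutator_le_self _) (PLocal.commutator_le_of_sup_center_eq_top _ h1)
  · rw [QuotientGroup.ker_mk']
    exact inf_le_left.trans (Subgroup.center_le_centralizer _)
  · rw [commutator_def, Subgroup.map_commutator, Subgroup.map_top_of_surjective _ hsurj,
        ← commutator_def, PLocal.qs_commutator_eq_top hq, PLocal.qsS_top_iff]
    exact hq

end Cfsg.Agent.S1258
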