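import Cfsg.Statements.S1267
import Mathlib
import Cfsg.Agent.PLocal.LocalComp

set_option autoImplicit false
open Cfsg

namespace Cfsg.Agent.S1267

/-- Let G be finite and P ≤ O_p(G). Then E(N_G(P)) = E(G). -/
theorem result {G : Type*} [Group G] [Finite G] (p : ℕ) [Fact p.Prime] (P : Subgroup G) (hP : P ≤ Cfsg.pCore p G) : (Cfsg.layer ↥(Subgroup.normalizer ((P : Subgroup G) : Set G))).map (Subgroup.normalizer ((P : Subgroup G) : Set G)).subtype = Cfsg.layer G := by
  have hPp : IsPGroup p P := (Grp.pCore_isPGroup p G).to_le hP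
  have hC : Subgroup.centralizer (Cfsg.pCore p G : Set G) ≤ Subgroup.normalizer (P : Set G) :=
    (Subgroup.centralizer_le hP).trans (Subgroup.centralizer_le_normalizer _)
  refine le_antisymm (PLocal.map_layer_le_iff.mpr fun K hK hc => ?_)
    (PLocal.layer_le_map_layer ((PLocal.layer_le_centralizer_pCore p).trans hC))
  have h1 := (PLocal.le_map_layer hK hc).trans (PLocal.map_layer_le_centralizer_map_pCore (p := p) _)
  have h2 : K ≤ Subgroup.centralizer (Cfsg.pCore p G : Set G) :=
    (PLocal.qGen_of_perfect (PLocal.qsS_commutator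
      ((PLocal.qsS_subgroupOf_iff hK).mp hc.2))).le_centralizer_pCore hPp
      (Subgroup.centralizer_le_normalizer _)
      (h1.trans (Subgroup.centralizer_le (Grp.le_map_pCore Subgroup.le_normalizer le_rfl hPp))) h1
  exact PLocal.comp_le_layer ((PLocal.comp_subgroupOf_iff_of_subnormal
    (Subgroup.Normal.isSubnormal inferInstance) h2).mp (PLocal.comp_subgroupOf_of_le h2 hC hc))

end Cfsg.Agent.S1267
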