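import Cfsg.Statements.S1281
import Cfsg.Agent.PLocal.SigDefs

set_option autoImplicit false
open Cfsg

namespace Cfsg.Agent.S1281

/-- Let θ be a solvable A-signalizer functor on the finite group G (A a noncyclic elementary abelian p-subgroup) and N a normal subgroup of order prime to p. Then for all non-identity a, b ∈ A, the image of θ a in G / N meets the centralizer of the image of b inside the image of θ b. -/
theorem result {G : Type*} [Group G] [Finite G] (p : ℕ) [Fact p.Prime] (A : Subgroup G) (hA : Cfsg.IsElementaryAbelian p A) (hA2 : p ^ 2 ≤ Nat.card ↥A) (θ : G → Subgroup G) (hθ : Cfsg.IsSolvableSignalizerFunctor p A θ) (N : Subgroup G) [N.Normal] (hN : ¬ p ∣ Nat.card ↥N) (a b : G) (ha : a ∈ A) (ha1 : a ≠ 1) (hb : b ∈ A) (hb1 : b ≠ 1) : (θ a).map (QuotientGroup.mk' N) ⊓ Subgroup.centralizer {QuotientGroup.mk' N b} ≤ (θ b).map (QuotientGroup.mk' N) := by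
  have h := PLocal.Sig.sf_of hA hθ
  rintro _ ⟨⟨x, hx, rfl⟩, hc⟩
  have hNn : ∀ K : Subgroup G, K ≤ Subgroup.normalizer (N : Set G) := fun K => by
    rw [Subgroup.normalizer_eq_top]; exact le_top
  have hbA : Subgroup.zpowers b ≤ A := (Subgroup.zpowers_le_of_mem hb)
  have hm := (h.mem ha ha1).inf (hNn A)
  obtain ⟨c, hc1, hc2⟩ := Solv.coprime_fixed_coset' (Subgroup.zpowers b) (θ a ⊓ N)
    (hbA.trans hm.norm) (PLocal.Sig.ea_cop (PLocal.isEA_mono hA hbA) hm.not_dvd) (Or.inr hm.solv)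
    x (fun y hy => by
      refine Subgroup.mem_inf.2
        ⟨(θ a).mul_mem ((θ a).inv_mem hx) (hθ.1.2.2.1 a ha ha1 y (hbA hy) x hx), ?_⟩
      have h1 : QuotientGroup.mk' N y ∈ Subgroup.zpowers (QuotientGroup.mk' N b) := by
        rw [← MonoidHom.map_zpowers]; exact Subgroup.mem_map_of_mem _ hy
      rw [← FT.cent_zpowers] at hc
      have h2 := FT.mem_cent_iff.1 hc _ h1
      rw [← QuotientGroup.eq_one_iff, ← QuotientGroup.mk'_apply]
      simp only [map_mul, map_inv, h2]
      group)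
  rw [FT.cent_zpowers] at hc2
  refine ⟨x * c, h.bal a ha ha1 b hb hb1 ⟨(θ a).mul_mem hx hc1.1, hc2⟩, ?_⟩
  rw [map_mul, QuotientGroup.mk'_apply N c, (QuotientGroup.eq_one_iff c).2 hc1.2, mul_one]

end Cfsg.Agent.S1281
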