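import Cfsg.Statements.S1286
-- import your own Cfsg.Agent.* helpers here

set_option autoImplicit false
open Cfsg

namespace Cfsg.Agent.S1286

open Subgroup Equiv

abbrev X := Perm (Fin 5)
def a : X := swap 3 4
def b : X := swap 0 1
def x : X := swap 0 1 * swap 1 2
def y : X := swap 2 3 * swap 3 4

def sub (s : Finset X) (h1 : 1 ∈ s) (hm : ∀ g ∈ s, ∀ h ∈ s, g * h ∈ s) (hi : ∀ g ∈ s, g⁻¹ ∈ s) :
    Subgroup X where
  carrier := s
  one_mem' := h1
  mul_mem' hg hh := hm _ hg _ hh
  inv_mem' hg := hi _ hg

theorem mem_sub {s : Finset X} {h1 hm hi} {g : X} : g ∈ sub s h1 hm hi ↔ g ∈ s := Iff.rfl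

theorem card_sub {s : Finset X} {h1 hm hi} : Nat.card (sub s h1 hm hi) = s.card :=
  Nat.card_eq_finsetCard s

def A : Subgroup X := sub {1, a, b, a * b} (by decide +kernel) (by decide +kernel) (by decide +kernel)
def P : Subgroup X := sub {1, x, x * x} (by decide +kernel) (by decide +kernel) (by decide +kernel)
def Q : Subgroup X := sub {1, y, y * y} (by decide +kernel) (by decide +kernel) (by decide +kernel)
def B : Subgroup X := sub {1} (by decide +kernel) (by decide +kernel) (by decide +kernel)

def θ (g : X) : Subgroup X := if g = a then P else if g = b then Q else B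

theorem θa : θ a = P := if_pos rfl
theorem θb : θ b = Q := (if_neg (by decide +kernel)).trans (if_pos rfl)
theorem θc : θ (a * b) = B := (if_neg (by decide +kernel)).trans (if_neg (by decide +kernel))

theorem cases {p : X → Prop} (h1 : p a) (h2 : p b) (h3 : p (a * b)) : ∀ g ∈ A, g ≠ 1 → p g := by
  intro g hg h
  simp only [A, mem_sub, Finset.mem_insert, Finset.mem_singleton] at hg
  rcases hg with rfl | rfl | rfl | rfl
  · exact absurd rfl h
  all_goals assumption

theorem cP : Nat.card P = 3 := card_sub.trans (by decide +kernel)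
theorem cQ : Nat.card Q = 3 := card_sub.trans (by decide +kernel)
theorem cB : Nat.card B = 1 := card_sub.trans (by decide +kernel)

theorem sf : IsSignalizerFunctor 2 A θ := by
  refine ⟨cases ?_ ?_ ?_, cases ?_ ?_ ?_, cases ?_ ?_ ?_, cases (cases ?_ ?_ ?_) (cases ?_ ?_ ?_) (cases ?_ ?_ ?_)⟩
  all_goals simp only [θa, θb, θc, cP, cQ, cB, SetLike.le_def, mem_inf, mem_centralizer_singleton_iff]
  all_goals try simp only [A, P, Q, B, mem_sub]
  all_goals decide +kernel

/-- There exist a finite group X, an elementary abelian subgroup A of order 4 and a solvable A-signalizer functor θ on X for the prime 2 which is not complete. -/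
theorem result : ∃ (X : Type) (_ : Group X) (_ : Finite X) (A : Subgroup X) (θ : X → Subgroup X), Cfsg.IsElementaryAbelian 2 A ∧ Nat.card ↥A = 4 ∧ Cfsg.IsSolvableSignalizerFunctor 2 A θ ∧ ¬ Cfsg.IsCompleteSignalizerFunctor 2 A θ := by
  refine ⟨X, inferInstance, inferInstance, A, θ, ⟨⟨⟨fun g h => Subtype.ext ?_⟩⟩, ?_⟩,
    card_sub.trans (by decide +kernel), ⟨sf, ?_⟩, ?_⟩
  · exact (show ∀ g ∈ ({1, a, b, a * b} : Finset X), ∀ h ∈ ({1, a, b, a * b} : Finset X),
      g * h = h * g by decide +kernel) _ g.2 _ h.2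
  · simp only [A, mem_sub]; decide +kernel
  · have : Fact (Nat.Prime 3) := ⟨Nat.prime_three⟩
    refine cases ?_ ?_ ?_
    · rw [θa]; have := isCyclic_of_prime_card cP; infer_instance
    · rw [θb]; have := isCyclic_of_prime_card cQ; infer_instance
    · rw [θc]; have := isCyclic_of_card_dvd_prime (p := 3) (cB ▸ one_dvd _); infer_instance
  · rintro ⟨-, Y, -, h2, h⟩
    have hx : x ∈ Y := by
      have := h a (by simp [A, mem_sub]) (by decide +kernel)
      rw [θa] at this
      exact (this.ge (show x ∈ P by simp [P, mem_sub])).1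
    have hy : y ∈ Y := by
      have := h b (by simp [A, mem_sub]) (by decide +kernel)
      rw [θb] at this
      exact (this.ge (show y ∈ Q by simp [Q, mem_sub])).1
    have hw : x * x * y * x * y ∈ Y := mul_mem (mul_mem (mul_mem (mul_mem hx hx) hy) hx) hy
    have : Fact (Nat.Prime 2) := ⟨Nat.prime_two⟩
    have ho : orderOf (x * x * y * x * y) = 2 := orderOf_eq_prime (by decide +kernel) (by decide +kernel)
    exact h2 (ho ▸ Y.orderOf_dvd_natCard hw)

end Cfsg.Agent.S1286
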