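import Cfsg.Statements.S1316
import Mathlib
import Cfsg.Agent.PLocal.FStar

set_option autoImplicit false
open Cfsg

namespace Cfsg.Agent.S1316

theorem commutator_sup_sup_le {G : Type*} [Group G] (E A B : Subgroup G) [E.Normal] :
    ⁅E ⊔ A, E ⊔ B⁆ ≤ E ⊔ ⁅A, B⁆ := by
  have h : ∀ K : Subgroup G, (E ⊔ K).map (QuotientGroup.mk' E) = K.map (QuotientGroup.mk' E) := by
    intro K
    rw [Subgroup.map_sup, QuotientGroup.map_mk'_self, bot_sup_eq]
  have h2 : ⁅E ⊔ A, E ⊔ B⁆.map (QuotientGroup.mk' E) = ⁅A, B⁆.map (QuotientGroup.mk' E) := by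
    rw [Subgroup.map_commutator, h, h, Subgroup.map_commutator]
  have h3 := Subgroup.map_le_iff_le_comap.mp h2.le
  rwa [Subgroup.comap_map_eq, QuotientGroup.ker_mk', sup_comm ⁅A, B⁆] at h3

/-- For a finite group X, E(X) equals the intersection of the derived series of F*(X) (its last term). -/
theorem result {X : Type*} [Group X] [Finite X] : (⨅ n : ℕ, (derivedSeries ↥(Cfsg.generalizedFittingSubgroup X) n).map (Cfsg.generalizedFittingSubgroup X).subtype) = Cfsg.layer X := by
  have := PLocal.layer_normal X
  refine le_antisymm ?_ (le_iInf fun n => ?_)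
  · obtain ⟨n, hn⟩ := (Group.isSolvable_def _).mp
      (inferInstance : Group.IsSolvable (Cfsg.fittingSubgroup X))
    have key : ∀ m : ℕ, (derivedSeries ↥(Cfsg.generalizedFittingSubgroup X) m).map
        (Cfsg.generalizedFittingSubgroup X).subtype ≤
        Cfsg.layer X ⊔ (derivedSeries ↥(Cfsg.fittingSubgroup X) m).map
          (Cfsg.fittingSubgroup X).subtype := by
      intro m
      induction m with
      | zero =>
        rw [derivedSeries_zero, derivedSeries_zero, ← MonoidHom.range_eq_map,
          ← MonoidHom.range_eq_map, Subgroup.range_subtype, Subgroup.range_subtype]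
        exact le_rfl
      | succ m ih =>
        rw [derivedSeries_succ, derivedSeries_succ, Subgroup.map_commutator,
          Subgroup.map_commutator]
        exact (Subgroup.commutator_mono ih ih).trans (commutator_sup_sup_le _ _ _)
    refine (iInf_le _ n).trans ((key n).trans ?_)
    rw [hn, Subgroup.map_bot, sup_bot_eq]
  · induction n with
    | zero =>
      rw [derivedSeries_zero, ← MonoidHom.range_eq_map, Subgroup.range_subtype]
      exact PLocal.layer_le_fstar
    | succ m ih =>
      rw [derivedSeries_succ, Subgroup.map_commutator, ← PLocal.layer_commutator X]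
      exact Subgroup.commutator_mono ih ih

end Cfsg.Agent.S1316
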