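import Cfsg.Statements.S1328
import Mathlib
import Cfsg.Agent.PLocal.Balance2

set_option autoImplicit false
open Cfsg

namespace Cfsg.Agent.S1328

open Subgroup PLocal PLocal.Amb in
theorem aux {X : Type*} [Group X] [Finite X] {p : ℕ} [Fact p.Prime] (hO : pPrimeCore p X = ⊥)
    {x : X} (hx : orderOf x = p) {Y : Subgroup X} (hY1 : Y ≠ ⊥)
    (hY : Y ≤ centralizerPPrimeCore p x) :
    ∃ L : Subgroup X, IsComponent L ∧ ⁅L, zpowers x⁆ = L ∧ Y ≤ normalizer (L : Set X) ∧
      ⁅L, Y⁆ ≠ ⊥ := by
  have hx1 : x ^ p ^ 1 = 1 := by rw [pow_one, ← hx, pow_orderOf_eq_one]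
  by_contra hcon
  push Not at hcon
  apply hY1
  refine eq_bot_of_coprime_of_centralizes hO
    ((centralizerPPrimeCore_coprime x).coprime_dvd_left (card_dvd_of_le hY))
    (hY.trans (centralizerPPrimeCore_le_centralizer_pCore hx1)) fun L hL => ?_
  by_cases hne : ⁅L, zpowers x⁆ = L
  · exact hcon L hL hne (hY.trans (centralizerPPrimeCore_le_normalizer_comp hO hx1 hL))
  · exact le_bot_iff.1 ((commutator_mono le_rfl hY).trans
      (comp_commute_centralizerPPrimeCore hO hx hL hne).le)

/-- Let G be finite, H ≤ G with O(H) = 1, t an involution of G normalizing H, and Y a nontrivial subgroup of O(C_H(t)). Then some component E of H is normalized by t and by Y and centralized by neither t nor Y. -/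
theorem result {G : Type*} [Group G] [Finite G] (H : Subgroup G) (hO : Cfsg.oddCore ↥H = ⊥) (t : G) (ht : orderOf t = 2) (htH : t ∈ Subgroup.normalizer (H : Set G)) (Y : Subgroup G) (hY1 : Y ≠ ⊥) (hY : Y ≤ (Cfsg.oddCore ↥(H ⊓ Subgroup.centralizer ({t} : Set G))).map (H ⊓ Subgroup.centralizer ({t} : Set G)).subtype) : ∃ E : Subgroup ↥H, Cfsg.IsComponent E ∧ (E.map H.subtype).map (MulAut.conj t).toMonoidHom = E.map H.subtype ∧ Y ≤ Subgroup.normalizer ((E.map H.subtype : Subgroup G) : Set G) ∧ ¬ (t ∈ Subgroup.centralizer ((E.map H.subtype : Subgroup G) : Set G)) ∧ ¬ (Y ≤ Subgroup.centralizer ((E.map H.subtype : Subgroup G) : Set G)) := by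
  open Subgroup PLocal PLocal.Amb in
  have hP : IsPGroup 2 (zpowers t) := isPGroup_zpowers_of_orderOf_eq ht
  have htH' : zpowers t ≤ normalizer (H : Set G) := zpowers_le.2 htH
  set X := H ⊔ zpowers t with hX
  have hXH : X ≤ normalizer (H : Set G) := sup_le le_normalizer htH'
  have hHX : H ≤ X := le_sup_left
  have htX : t ∈ X := mem_sup_right (mem_zpowers t)
  have hres : 𝐎[2, X] ≤ H := pRes_sup_le hP htH'
  have hOX : pPrimeCore 2 X = ⊥ := by
    have h1 : (pPrimeCore 2 X).map X.subtype ≤ H := by
      rintro _ ⟨y, hy, rfl⟩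
      refine hres (mem_pRes y.2 ?_)
      have := Grp.orderOf_coprime_of_mem_pPrimeCore hy
      rwa [← orderOf_coe] at this
    have h2 := Grp.le_map_pPrimeCore h1 (hHX.trans (le_normalizer_map_subtype _))
      (Grp.map_pPrimeCore_coprime 2 _)
    rw [show pPrimeCore 2 H = ⊥ from hO, Subgroup.map_bot, le_bot_iff,
      Subgroup.map_eq_bot_iff_of_injective _ X.subtype_injective] at h2
    exact h2
  set C := H ⊓ centralizer ({t} : Set G) with hC
  have hYC : Y ≤ C := hY.trans (map_subtype_le _)
  have hYX : Y ≤ X := hYC.trans (inf_le_left.trans hHX)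
  have hY' : Y.subgroupOf X ≤ centralizerPPrimeCore 2 (⟨t, htX⟩ : X) := by
    refine le_trans (fun y hy => ?_) (le_centralizerPPrimeCore
      (K := ((oddCore C).map C.subtype).subgroupOf X) ?_ ?_ ?_)
    · exact hY hy
    · intro y hy
      have : (y : G) ∈ C := map_subtype_le _ hy
      rw [mem_centralizer_singleton_iff]
      exact Subtype.ext (mem_centralizer_singleton_iff.1 this.2)
    · intro c hc
      have hc' : (c : G) ∈ centralizer ({t} : Set G) := by
        rw [mem_centralizer_singleton_iff] at hc ⊢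
        exact congrArg Subtype.val hc
      have h1 : (c : G) ∈ normalizer (C : Set G) := by
        have := le_normalizer_inf (L := zpowers (c : G)) (zpowers_le.2 (hXH c.2))
          (zpowers_le.2 (le_normalizer hc'))
        exact this (mem_zpowers _)
      have h2 := Grp.normalizer_le_normalizer_map_of_characteristic C (oddCore C) h1
      rw [← cj_eq_iff] at h2 ⊢
      rw [cj_subgroupOf, h2]
    · rw [Grp.card_subgroupOf_of_le ((map_subtype_le _).trans (inf_le_left.trans hHX))]
      exact Grp.map_pPrimeCore_coprime 2 _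
  obtain ⟨L, hL, h1, h2, h3⟩ := aux hOX (x := ⟨t, htX⟩) (by rw [← ht]; exact (orderOf_coe _).symm)
    (Y := Y.subgroupOf X) (by
      intro h
      apply hY1
      rw [← map_subgroupOf_of_le hYX, h, Subgroup.map_bot]) hY'
  set L' := L.map X.subtype with hL'
  have hL'q : IsQuasisimple L' := (qsS_map_iff_of_injective _ X.subtype_injective).2 hL.2
  have hL'X : L' ≤ X := map_subtype_le _
  have hL'c : IsComponent (L'.subgroupOf X) := by rwa [hL', map_subtype_subgroupOf]
  have hL'H : L' ≤ H :=
    qGen_of_perfect (p := 2) (qsS_commutator hL'q) H fun g hg hc => hres (mem_pRes (hL'X hg) hc)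
  have h1' : ⁅L', zpowers t⁆ = L' := by
    have := congrArg (Subgroup.map X.subtype) h1
    rwa [map_commutator, MonoidHom.map_zpowers] at this
  refine ⟨L'.subgroupOf H, comp_subgroupOf_of_le hL'H hHX hL'c, ?_, ?_, ?_, ?_⟩ <;>
    rw [map_subgroupOf_of_le hL'H]
  · exact cj_eq_iff.2 (mem_normalizer_of_commutator_zpowers_eq h1')
  · intro y hy
    have := h2 (show (⟨y, hYX hy⟩ : X) ∈ Y.subgroupOf X from hy)
    rw [normalizer_eq_subgroupOf] at this
    exact this
  · exact not_mem_centralizer_of_commutator_zpowers_eq (qsS_ne_bot hL'q) h1'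
  · intro h
    apply h3
    rw [← Subgroup.map_eq_bot_iff_of_injective _ X.subtype_injective, map_commutator,
      map_subgroupOf_of_le hYX, commutator_comm, commutator_eq_bot_iff_le_centralizer]
    exact h

end Cfsg.Agent.S1328
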