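import Cfsg.Statements.S1331
import Cfsg.Agent.PLocal.SigCoprime

set_option autoImplicit false
open Cfsg

namespace Cfsg.Agent.S1331

/-- Let θ be a solvable A-signalizer functor on the finite group G for the prime p, A elementary abelian of rank at least 3, X a member of the family of θ, and B ≤ A with |B| ≥ p². Then X is generated by the subgroups X ∩ ⋂_{d ∈ D, d ≠ 1} θ d, D ranging over the subgroups of index p in B. -/
theorem result {G : Type*} [Group G] [Finite G] (p : ℕ) [Fact p.Prime] (A : Subgroup G) (hA : Cfsg.IsElementaryAbelian p A) (hA3 : p ^ 3 ≤ Nat.card ↥A) (θ : G → Subgroup G) (hθ : Cfsg.IsSolvableSignalizerFunctor p A θ) (X : Subgroup G) (hX : X ∈ Cfsg.signalizerFamily p A θ) (B : Subgroup G) (hB : B ≤ A) (hB2 : p ^ 2 ≤ Nat.card ↥B) : X = ⨆ D : {D : Subgroup G // D ≤ B ∧ D.relIndex B = p}, X ⊓ Cfsg.signalizerInf (D : Subgroup G) θ := by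
  have hBe : Cfsg.IsElementaryAbelian p B := Cfsg.Agent.PLocal.elemAb_mono hA hB
  obtain ⟨-, hXp, hXA, hXθ⟩ := hX
  apply le_antisymm
  · refine Cfsg.Agent.PLocal.Sig.le_of_hyp_le hBe
      (Cfsg.Agent.PLocal.Sig.ne_bot_of_pow_le (k := 1) hB2) ?_ hXp ?_
    · intro b hb
      rw [Subgroup.mem_normalizer_iff]
      intro x
      refine ⟨fun hx => hXA b (hB hb) x hx, fun hx => ?_⟩
      have := hXA b⁻¹ (A.inv_mem (hB hb)) _ hx
      simpa [mul_assoc] using this
    · intro D hD
      refine le_trans ?_ (le_iSup (fun D : {D : Subgroup G // D ≤ B ∧ D.relIndex B = p} =>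
        X ⊓ Cfsg.signalizerInf (D : Subgroup G) θ) ⟨D, hD⟩)
      intro x hx
      refine ⟨hx.1, ?_⟩
      refine Subgroup.mem_iInf.2 ?_
      rintro ⟨d, hd, hd1⟩
      refine hXθ d (hB (hD.1 hd)) hd1 ⟨hx.1, ?_⟩
      exact Subgroup.mem_centralizer_singleton_iff.2
        ((Subgroup.mem_centralizer_iff.1 hx.2) d hd).symm
  · exact iSup_le fun D => inf_le_left

end Cfsg.Agent.S1331
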