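import Cfsg.Statements.S1336
import Mathlib
import Cfsg.Agent.PLocal.KConn

set_option autoImplicit false
open Cfsg

namespace Cfsg.Agent.S1336

open Subgroup PLocal PLocal.KConn


/-- Let G be finite and p prime. Then G has a proper subgroup H with p ∣ |H| and p ∤ |H ∩ gHg⁻¹| for every g ∉ H (a strongly p-embedded subgroup) if and only if G is not 1-connected for p. -/
theorem result {G : Type*} [Group G] [Finite G] (p : ℕ) [Fact p.Prime] : (∃ H : Subgroup G, H ≠ ⊤ ∧ p ∣ Nat.card ↥H ∧ ∀ g : G, g ∉ H → ¬ p ∣ Nat.card ↥(H ⊓ H.map (MulAut.conj g).toMonoidHom)) ↔ ¬ Cfsg.IsKConnected p 1 G := by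
  have hp : p.Prime := Fact.out
  have hinj : ∀ g : G, Function.Injective (MulAut.conj g).toMonoidHom := fun g => (MulAut.conj g).injective
  have hne : ∀ {E : Subgroup G}, p ^ 1 ≤ Nat.card E → E ≠ ⊥ := by
    rintro E h rfl
    rw [card_bot, pow_one] at h
    exact absurd hp.one_lt (not_lt.2 h)
  have hv : ∀ {A : Subgroup G}, IsPGroup p A → A ≠ ⊥ →
      ∃ X, X ≤ A ∧ IsElementaryAbelian p X ∧ p ^ 1 ≤ Nat.card X := by
    intro A hA h1
    obtain ⟨x, hx, hxo⟩ := exists_orderOf_eq_of_ne_bot hA h1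
    exact ⟨zpowers x, zpowers_le.2 hx, ea_zpowers (by rw [← hxo, pow_orderOf_eq_one]),
      by rw [Nat.card_zpowers, hxo, pow_one]⟩
  constructor
  · rintro ⟨H, hH⟩ hc
    have hS := SPE.iff_not_dvd_card_inf.2 hH
    obtain ⟨A, hAH, hA, hA1⟩ := exists_pSubgroup_of_dvd_card hH.2.1
    obtain ⟨E, hEA, hE, hE1⟩ := hv hA hA1
    have key : ∀ X, Conn p 1 E X → X ≤ H := by
      intro X h
      induction h with
      | refl => exact hEA.trans hAH
      | tail _ h2 ih =>
        obtain ⟨x, hx, hxo⟩ := exists_orderOf_eq_of_ne_bot (elemAb_isPGroup h2.1) (hne h2.2.1)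
        refine le_trans ?_ (SPE.centralizer_le hS (ih hx) (k := 1) ?_ (by rw [hxo, pow_one]))
        · intro b hb
          exact mem_centralizer_singleton_iff.2 (h2.2.2.2.2 x hx b hb).symm
        · rintro rfl
          rw [orderOf_one] at hxo
          exact hp.one_lt.ne hxo
    apply hH.1
    rw [eq_top_iff]
    intro g _
    refine SPE.mem_of_map_conj_le hS (elemAb_isPGroup hE) (hne hE1) (hEA.trans hAH) (key _ ?_)
    exact hc E _ hE hE1 (ea_map hE _) (by rw [card_map_conj]; exact hE1)
  · intro hc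
    unfold IsKConnected at hc
    push Not at hc
    obtain ⟨E, E', hE, hE1, hE', hE1', hn⟩ := hc
    change ¬ Conn p 1 E E' at hn
    let H : Subgroup G :=
      { carrier := {g | Conn p 1 E (E.map (MulAut.conj g).toMonoidHom)}
        one_mem' := by
          show Conn p 1 E (E.map (MulAut.conj (1 : G)).toMonoidHom)
          rw [map_conj_one]
        mul_mem' := by
          intro a b ha hb
          show Conn p 1 E (E.map (MulAut.conj (a * b)).toMonoidHom)
          rw [map_conj_mul]
          exact Relation.ReflTransGen.trans ha (Conn.map hb _ (hinj a))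
        inv_mem' := by
          intro a ha
          show Conn p 1 E (E.map (MulAut.conj a⁻¹).toMonoidHom)
          have := Conn.map ha _ (hinj a⁻¹)
          rw [map_conj_inv_map_conj] at this
          exact this.symm }
    have hH : ∀ g, g ∈ H ↔ Conn p 1 E (E.map (MulAut.conj g).toMonoidHom) := fun g => Iff.rfl
    obtain ⟨T, hT, hET⟩ := exists_isSylowIn_ge (H := ⊤) (elemAb_isPGroup hE) le_top
    have hcj : ∀ g : G, ∀ X : Subgroup G, p ^ 1 ≤ Nat.card X →
        p ^ 1 ≤ Nat.card (X.map (MulAut.conj g).toMonoidHom) := fun g X h => by rwa [card_map_conj]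
    have hTH : T ≤ H := by
      intro t ht
      refine conn_one hT.isPGroup hE hE1 (ea_map hE _) (hcj _ _ hE1) hET ?_
      rw [← map_conj_eq_of_mem ht]
      exact map_mono hET
    have hHt : H ≠ ⊤ := by
      intro h
      obtain ⟨g, -, hg⟩ := hT.exists_conj_le (elemAb_isPGroup hE') le_top
      have h1 : Conn p 1 E (E'.map (MulAut.conj g).toMonoidHom) :=
        conn_one hT.isPGroup hE hE1 (ea_map hE' _) (hcj _ _ hE1') hET hg
      have h2 := Conn.map h1 _ (hinj g⁻¹)
      rw [map_conj_inv_map_conj] at h2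
      exact hn (Relation.ReflTransGen.trans ((hH g⁻¹).1 (h ▸ mem_top _)) h2)
    refine ⟨H, SPE.iff_not_dvd_card_inf.1 (SPE.of_normalizer_le hHt
      (dvd_card_of_ne_bot (elemAb_isPGroup hE) (hne hE1) (hET.trans hTH)) ?_)⟩
    intro A hAH hA hA1 n hn
    obtain ⟨X, hXA, hX, hX1⟩ := hv hA hA1
    obtain ⟨g, hgH, hg⟩ := (hT.mono hTH le_top).exists_conj_le hA hAH
    -- X is connected to E
    have h1 : Conn p 1 E X := by
      have h1 : Conn p 1 E (X.map (MulAut.conj g).toMonoidHom) :=
        conn_one hT.isPGroup hE hE1 (ea_map hX _) (hcj _ _ hX1) hET ((map_mono hXA).trans hg)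
      have h2 := Conn.map h1 _ (hinj g⁻¹)
      rw [map_conj_inv_map_conj] at h2
      exact Relation.ReflTransGen.trans ((hH g⁻¹).1 (H.inv_mem hgH)) h2
    have h2 : Conn p 1 X (X.map (MulAut.conj n).toMonoidHom) := by
      refine conn_one hA hX hX1 (ea_map hX _) (hcj _ _ hX1) hXA ?_
      rw [← mem_normalizer_iff_conj_map_eq.1 hn]
      exact map_mono hXA
    exact (h1.trans h2).trans (Conn.map h1 _ (hinj n)).symm

end Cfsg.Agent.S1336
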