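import Cfsg.Statements.S1338
import Mathlib
import Cfsg.Agent.PLocal.KConn

set_option autoImplicit false
open Cfsg

namespace Cfsg.Agent.S1338

open Subgroup PLocal PLocal.KConn


/-- A finite 3-group of 3-rank at least 4 is 2-connected for the prime 3: its commuting graph on elementary abelian subgroups of order ≥ 9 is connected. -/
theorem result {P : Type*} [Group P] [Finite P] (hP : IsPGroup 3 P) (hrk : ¬ Cfsg.PRankLE 3 3 P) : Cfsg.IsKConnected 3 2 P := by
  haveI : Fact (Nat.Prime 3) := ⟨Nat.prime_three⟩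
  have hr2 : ¬ PRankLE 3 2 P := fun h => hrk (FT.R2.pRankLE_mono (by norm_num) (by norm_num) h)
  obtain ⟨U, hUn, hU, hU2⟩ := exists_normal_elem_sq hP hr2
  have key : ∀ X : Subgroup P, IsElementaryAbelian 3 X → 3 ^ 2 ≤ Nat.card X →
      ¬ PRankLE 3 2 (centralizer (X : Set P)) := by
    intro X hX hX2 hC
    -- a normal elementary abelian subgroup of order 81
    obtain ⟨E0, -, hE0, hE04⟩ := exists_ea_of_not_pRankLE (G := P) (H := ⊤) (p := 3) (k := 3)
      (by rwa [FT.R2.pRankLE_coe_top_iff])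
    obtain ⟨E1, hE1, hE14⟩ := Sylow.exists_subgroup_le_card_pow_prime_of_le_card Nat.prime_three hP hE04
    obtain ⟨E, hEn, hE, hE4⟩ := S0122.result (by norm_num) hP E1 (elemAb_mono hE0 hE1) hE14
    have hmax : ∀ y ∈ centralizer (X : Set P), y ^ 3 = 1 → y ∈ X := by
      intro y hy hy3
      by_contra hyX
      have hea : IsElementaryAbelian 3 (X ⊔ zpowers y) := ea_sup hX (ea_zpowers hy3) (by
        rintro a ha _ ⟨n, rfl⟩
        exact (Commute.zpow_right (hy a ha) n))
      refine not_pRankLE_of_ea hea (sup_le (elemAb_le_centralizer hX) (zpowers_le.2 hy)) ?_ hC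
      exact lt_of_le_of_lt hX2 (Grp.card_lt_of_lt (left_lt_sup.2 fun h => hyX (h (mem_zpowers y))))
    have hXle : Nat.card X ≤ 3 ^ 2 := FT.R2.pRankLE_iff.1 hC X (elemAb_le_centralizer hX) hX
    have hX9 : Nat.card X = 3 ^ 2 := le_antisymm hXle hX2
    have hE1' : E ≠ ⊥ := by
      rintro rfl
      simp at hE4
    have hz := FT.inf_cent_ne_bot_of_isPGroup (E := ⊤) (hP.to_subgroup _) (hP.to_subgroup E)
      (by rw [normalizer_eq_top]) hE1'
    obtain ⟨⟨z, hzE, hzc⟩, hz1⟩ := ne_bot_iff_exists_ne_one.1 hz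
    have hz1' : z ≠ 1 := fun h => hz1 (Subtype.ext h)
    have hz3 : z ^ 3 = 1 := hE.2 z hzE
    have hzX : z ∈ X := hmax z (fun a _ => hzc a trivial) hz3
    have hZ : Nat.card (zpowers z) = 3 := FT.R2.card_zpowers_of_pow_eq_one hz3 hz1'
    have hlt : zpowers z < X := by
      refine lt_of_le_of_ne (zpowers_le.2 hzX) fun h => ?_
      rw [h, hX9] at hZ
      norm_num at hZ
    obtain ⟨x, hxX, hxz⟩ := SetLike.exists_of_lt hlt
    have hXe : zpowers z ⊔ zpowers x = X := by
      by_contra hne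
      have h1 : zpowers z ⊔ zpowers x < X :=
        lt_of_le_of_ne (sup_le hlt.le (zpowers_le.2 hxX)) hne
      have h2 := FT.R2.card_lt_sq_of_lt hX9 h1
      have h3 := Grp.card_lt_of_lt (left_lt_sup.2 fun h => hxz (h (mem_zpowers x)) : zpowers z < zpowers z ⊔ zpowers x)
      omega
    have h1 := card_le_card_inf_cent_pow hE (hX.2 x hxX) (by rw [normalizer_eq_top]; trivial)
    have hle : E ⊓ centralizer {x} ≤ X := by
      intro y hy
      refine hmax y ?_ (hE.2 y hy.1)
      rw [← hXe]
      refine le_centralizer_iff.1 (sup_le ?_ ?_) (mem_zpowers y)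
      · rw [zpowers_le]
        intro a _
        exact hzc a trivial
      · rw [zpowers_le]
        rintro _ ⟨n, rfl⟩
        exact Commute.zpow_left (mem_centralizer_singleton_iff.1 hy.2) n
    have heq : E ⊓ centralizer {x} = X := by
      by_contra hne
      have h2 := FT.R2.card_lt_sq_of_lt hX9 (lt_of_le_of_ne hle hne)
      have h3 := Nat.pow_le_pow_left h2 3
      omega
    have hXE : X ≤ E := heq.ge.trans inf_le_left
    refine not_pRankLE_of_ea (H := centralizer (X : Set P)) hE (fun e he u hu => elemAb_comm hE (hXE hu) he) ?_ hC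
    rw [hE4]; norm_num
  intro E E' hE hE2 hE' hE2'
  exact ((conn_normal_iff hr2 hU hU2 hE hE2).2 (key E hE hE2)).trans
    ((conn_normal_iff hr2 hU hU2 hE' hE2').2 (key E' hE' hE2')).symm

end Cfsg.Agent.S1338
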