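import Cfsg.Statements.S1348
import Cfsg.Agent.KSG.HypBlock

set_option autoImplicit false
open Cfsg

namespace Cfsg.Agent.S1348

open KSG.Hyp Subgroup in
/-- Let F be a finite field of odd order, n ≥ 7 odd, and t ∈ SL(n, F) the diagonal matrix with entries −1, …, −1, 1. Then E(C(t)) is a standard subgroup of SL(n, F). -/
theorem result {F : Type*} [Field F] [Fintype F] [DecidableEq F] (hF : Odd (Fintype.card F)) (n : ℕ) (hn : 7 ≤ n) (hodd : Odd n) (t : Matrix.SpecialLinearGroup (Fin n) F) (ht : (t : Matrix (Fin n) (Fin n) F) = Matrix.diagonal (fun i : Fin n => if (i : ℕ) + 1 = n then (1 : F) else -1)) : Cfsg.IsStandardSubgroup ((Cfsg.layer ↥(Subgroup.centralizer ({t} : Set (Matrix.SpecialLinearGroup (Fin n) F)))).map (Subgroup.centralizer ({t} : Set (Matrix.SpecialLinearGroup (Fin n) F))).subtype) := by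
  obtain ⟨m, rfl⟩ : ∃ m, n = m + 1 := ⟨n - 1, by omega⟩
  have hme : Even m := by simpa [Nat.odd_add_one] using hodd
  have h2 : (-1 : F) ≠ 1 := by
    intro h
    have h2 : (2 : F) = 0 := by linear_combination -h
    have hc : ringChar F = 2 := CharP.ringChar_of_prime_eq_zero Nat.prime_two (by simpa using h2)
    have := FiniteField.even_card_of_char_two hc
    rcases hF with ⟨k, hk⟩; omega
  have ht' : (t : Matrix (Fin (m + 1)) (Fin (m + 1)) F) =
      Matrix.diagonal fun i => if i = Fin.last m then (1 : F) else -1 := by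
    rw [ht]; congr 1; funext i; simp [Fin.ext_iff]
  set C := centralizer ({t} : Set (Matrix.SpecialLinearGroup (Fin (m + 1)) F)) with hC
  have hoff : ∀ g ∈ C, ∀ j : Fin m, (g : Matrix (Fin (m + 1)) (Fin (m + 1)) F) (Fin.last m) j.castSucc = 0 ∧
      (g : Matrix (Fin (m + 1)) (Fin (m + 1)) F) j.castSucc (Fin.last m) = 0 := by
    intro g hg
    have h1 := congrArg Subtype.val (hg t rfl)
    simp only [Matrix.SpecialLinearGroup.coe_mul, ht'] at h1
    exact off_of_commute (by simpa using fun _ => h2) h1
  let χ : C →* F :=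
    { toFun := fun g => (g.1 : Matrix (Fin (m + 1)) (Fin (m + 1)) F) (Fin.last m) (Fin.last m)
      map_one' := by simp
      map_mul' := fun g h => ll_mul fun j => (hoff g g.2 j).1 }
  let L := (blkSL (F := F) (m := m)).range
  have hLt : ∀ g ∈ L, ∀ a b : F, (Matrix.diagonal fun i => if i = Fin.last m then b else a) * g.1 =
      g.1 * (Matrix.diagonal fun i => if i = Fin.last m then b else a) := by
    rintro _ ⟨A, rfl⟩ a b
    ext i j
    simp only [Matrix.diagonal_mul, Matrix.mul_diagonal]
    change _ * blk A.1 i j = blk A.1 i j * _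
    induction i using Fin.lastCases <;> induction j using Fin.lastCases <;>
      simp [blk_lc, blk_cl, mul_comm]
  have hLC : L ≤ C := by
    rintro g hg _ rfl
    apply Subtype.ext
    simp only [Matrix.SpecialLinearGroup.coe_mul, ht']
    exact hLt g hg _ _
  have hker : L.subgroupOf C = χ.toHomUnits.ker := by
    ext g
    rw [mem_subgroupOf, MonoidHom.mem_ker, Units.ext_iff]
    constructor
    · rintro ⟨A, hA⟩
      change (g.1 : Matrix (Fin (m + 1)) (Fin (m + 1)) F) _ _ = 1
      rw [← hA]; exact blk_ll _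
    · intro h
      have h1 := eq_blk (fun j => (hoff g g.2 j).1) (fun j => (hoff g g.2 j).2) h
      refine ⟨⟨_, ?_⟩, Subtype.ext h1.symm⟩
      exact (det_blk _).symm.trans ((congrArg Matrix.det h1).symm.trans g.1.2)
  have hq : IsQuasisimple L := by
    refine PLocal.qs_congr ⟨⟨Class.SL_commutator_eq_top (by simp; omega)⟩,
      Class.PSL_isSimpleGroup (by simp; omega)⟩ (MonoidHom.ofInjective blkSL_injective)
  have hE : layer C = L.subgroupOf C := by
    apply le_antisymm
    · refine PLocal.layer_le_iff.2 fun J hJ => ?_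
      rw [← PLocal.qsS_commutator hJ.2, hker]
      exact (commutator_mono le_top le_top).trans (Abelianization.commutator_subset_ker _)
    · refine PLocal.comp_le_layer ⟨?_, (PLocal.qsS_subgroupOf_iff hLC).2 hq⟩
      rw [hker]; exact (MonoidHom.normal_ker _).isSubnormal
  rw [hE, subgroupOf_map_subtype, inf_of_le_left hLC]
  have hdiag : ∀ g ∈ centralizer (L : Set (Matrix.SpecialLinearGroup (Fin (m + 1)) F)),
      ∃ a b : F, g.1 = Matrix.diagonal fun i => if i = Fin.last m then b else a := by
    intro g hg
    refine diag_of_commute (by omega) fun i j hij => ?_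
    have := congrArg Subtype.val
      (hg _ ⟨⟨Matrix.transvection i j 1, Matrix.det_transvection_of_ne i j hij 1⟩, rfl⟩)
    rw [← blk_transvection]
    exact this
  have hne : t ≠ 1 := by
    intro h
    have := congrFun (congrFun ht' (⟨0, by omega⟩ : Fin m).castSucc) (⟨0, by omega⟩ : Fin m).castSucc
    rw [h] at this
    simp only [Matrix.SpecialLinearGroup.coe_one, Matrix.one_apply_eq, Matrix.diagonal_apply_eq,
      Fin.castSucc_ne_last, if_false] at this
    exact h2 this.symm
  haveI : Fact (Nat.Prime 2) := ⟨Nat.prime_two⟩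
  refine isStandard_of (t := t) (orderOf_eq_prime ?_ hne) hq ?_ ?_ ?_ ?_
  · apply Subtype.ext
    rw [pow_two, Matrix.SpecialLinearGroup.coe_mul, ht', Matrix.diagonal_mul_diagonal]
    rw [Matrix.SpecialLinearGroup.coe_one, ← Matrix.diagonal_one]
    congr 1; funext i; split_ifs <;> simp
  · intro g hg
    exact (hLC hg t rfl).symm
  · rw [← normal_subgroupOf_iff_le_normalizer hLC, hker]; exact MonoidHom.normal_ker _
  · refine Group.isSolvable_of_comm fun g h => ?_
    obtain ⟨a, b, hg⟩ := hdiag g g.2
    obtain ⟨c, d, hh⟩ := hdiag h h.2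
    apply Subtype.ext; apply Subtype.ext
    simp only [coe_mul, Matrix.SpecialLinearGroup.coe_mul, hg, hh, Matrix.diagonal_mul_diagonal, mul_comm]
  · intro u hu hu2
    obtain ⟨a, b, hab⟩ := hdiag u hu
    have h1 := congrArg Subtype.val (pow_orderOf_eq_one u)
    rw [hu2, pow_two, Matrix.SpecialLinearGroup.coe_mul, hab, Matrix.diagonal_mul_diagonal] at h1
    have ha : a * a = 1 := by
      simpa using congrFun (congrFun h1 (⟨0, by omega⟩ : Fin m).castSucc) (⟨0, by omega⟩ : Fin m).castSucc
    have hd := u.2
    rw [hab, Matrix.det_diagonal, Fin.prod_univ_castSucc] at hd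
    simp only [Fin.castSucc_ne_last, if_false, Finset.prod_const, Finset.card_univ, Fintype.card_fin,
      if_true] at hd
    obtain ⟨k, rfl⟩ := hme
    rw [pow_add, ← mul_pow, ha, one_pow, one_mul] at hd
    subst hd
    rcases mul_self_eq_one_iff.1 ha with rfl | rfl
    · exfalso
      have : u = 1 := Subtype.ext (by rw [hab]; simp)
      rw [this] at hu2; simp at hu2
    · exact Subtype.ext (hab.trans ht'.symm)

end Cfsg.Agent.S1348
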