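import Cfsg.Statements.S1357
import Mathlib
import Cfsg.Agent.FT.BG15_7

set_option autoImplicit false
open Cfsg

namespace Cfsg.Agent.S1357

set_option linter.unusedVariables false
set_option linter.style.haveILetI false

/-- Let G be a minimal simple group of odd order and M a maximal subgroup with standard factorisation M = K U M_σ. If M_F ≠ M_σ then U = 1, the Fitting subgroup F(M) meets its conjugates by elements outside its normalizer trivially, and K has prime order. -/
theorem result {G : Type*} [Group G] [Finite G] (hG : Cfsg.IsMinSimpleOddOrder G)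
    (M : Subgroup G) (hM : IsCoatom M) (K U : Subgroup G) (hKU : Cfsg.IsSigmaDecomposition M K U) (hne : Cfsg.fittingHallOf M ≠ Cfsg.sigmaCore M) :
    U = ⊥ ∧ Cfsg.IsTISubset (Cfsg.fittingOf M : Set G) ∧ (Nat.card K).Prime := by
  have h := FT.kappaCompl_of_isSigmaDecomposition hG hM hKU
  obtain ⟨D, hD⟩ := FT.B12.exists_hall {Nat.card (FT.kstar M K)}ᶜ
    (FT.B12.solv_of_le hG hM (FT.B12.sigmaCore_normIn M).le)
  have h2 := FT.bg15_2 hG hM h.hallK hne rfl rfl rfl hD rfl
  refine ⟨((h.p1_iff hM).1 h2.1.1).2, fun g hg x hx hx' => ?_, h2.2.1.1⟩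
  by_contra hx1
  rw [FT.bg15_norm_fitting hG hM] at hg
  refine hne (FT.bg15_7 hG hM hg rfl ?_ rfl).1.2
  refine FT.B14.ne_bot_of_mem (x := g * x * g⁻¹) ⟨hx', FT.conj_mem_cj.2 hx⟩ fun e => hx1 ?_
  simpa using e

end Cfsg.Agent.S1357
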