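import Cfsg.Statements.S1359
import Mathlib
import Cfsg.Agent.FT.BG15_1

set_option autoImplicit false
open Cfsg

namespace Cfsg.Agent.S1359

set_option linter.unusedVariables false
set_option linter.style.haveILetI false

/-- Let G be a minimal simple group of odd order and M a maximal subgroup with standard factorisation M = K U M_σ. Then the subgroup generated by those elements of U which centralize some non-identity element of M_σ is abelian. -/
theorem result {G : Type*} [Group G] [Finite G] (hG : Cfsg.IsMinSimpleOddOrder G)
    (M : Subgroup G) (hM : IsCoatom M) (K U : Subgroup G) (hKU : Cfsg.IsSigmaDecomposition M K U) :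
    IsMulCommutative (Subgroup.closure ((U : Set G) ∩ Cfsg.sigmaHat M)) := by
  have h := FT.kappaCompl_of_isSigmaDecomposition hG hM hKU
  refine FT.abelian_of_le (Subgroup.closure_mono ?_) (FT.bg15_1 hG hM h).2.2.2.1
  rintro u ⟨hu, -, y, hy, hy1, hc⟩
  exact ⟨hu, FT.B14.ne_bot_of_mem ⟨hy, FT.mem_cent1_iff.2 hc.symm⟩ hy1⟩

end Cfsg.Agent.S1359
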