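import Cfsg.Statements.S1360
import Mathlib
import Cfsg.Agent.FT.BG15_1

set_option autoImplicit false
open Cfsg

namespace Cfsg.Agent.S1360

set_option linter.unusedVariables false
set_option linter.style.haveILetI false

/-- Let G be a minimal simple group of odd order and M a maximal subgroup with standard factorisation M = K U M_σ. Then U contains a subgroup U₀ with the same exponent as U such that no non-identity element of U₀ centralizes a non-identity element of M_σ. -/
theorem result {G : Type*} [Group G] [Finite G] (hG : Cfsg.IsMinSimpleOddOrder G)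
    (M : Subgroup G) (hM : IsCoatom M) (K U : Subgroup G) (hKU : Cfsg.IsSigmaDecomposition M K U) :
    ∃ U₀ : Subgroup G, U₀ ≤ U ∧ Monoid.exponent U₀ = Monoid.exponent U ∧ ∀ u ∈ U₀, u ∈ Cfsg.sigmaHat M → u = 1 := by
  have h := FT.kappaCompl_of_isSigmaDecomposition hG hM hKU
  obtain ⟨U₀, h1, h2, h3⟩ := FT.bg15_1e hG hM h
  refine ⟨U₀, h1, h2, ?_⟩
  rintro u hu ⟨-, y, hy, hy1, hc⟩
  by_contra hu1
  exact FT.B14.ne_bot_of_mem (Subgroup.mem_inf.2 ⟨hy, FT.mem_cent1_iff.2 hc.symm⟩) hy1 (h3 u hu hu1)

end Cfsg.Agent.S1360
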