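import Cfsg.Statements.S1376
import Mathlib
import Cfsg.Agent.FT.BG15_9
import Cfsg.Agent.S0039
import Cfsg.Agent.Grp.Card

set_option autoImplicit false
open Cfsg

namespace Cfsg.Agent.S1376

set_option linter.unusedVariables false
set_option linter.style.haveILetI false

/-- Let G be a minimal simple group of odd order, M a maximal subgroup, x ≠ 1 in M_σ with C_G(x) not contained in M, and N a maximal subgroup containing C_G(x) with κ(N) nonempty. Then κ(M) is empty, M has a cyclic Frobenius complement (M is a Frobenius group), and M_F is not a TI-subset of G. -/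
theorem result {G : Type*} [Group G] [Finite G] (hG : Cfsg.IsMinSimpleOddOrder G)
    (M : Subgroup G) (hM : IsCoatom M) (x : G) (hx : x ∈ Cfsg.sigmaCore M) (hx1 : x ≠ 1) (hxM : ¬ Subgroup.centralizer ({x} : Set G) ≤ M)
    (N : Subgroup G) (hN : IsCoatom N) (hxN : Subgroup.centralizer ({x} : Set G) ≤ N) (hkN : (Cfsg.kappa N).Nonempty) :
    Cfsg.kappa M = ∅ ∧ (∃ E : Subgroup ↥M, Cfsg.IsFrobeniusComplement E ∧ IsCyclic E) ∧ ¬ Cfsg.IsTISubset (Cfsg.fittingHallOf M : Set G) := by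
  obtain ⟨hF, -, E, hE, hc, hfr⟩ := FT.bg15_9 hG hM hx hx1 hxM hN hxN fun h => h.not_ptype ⟨hN, hkN⟩
  have hn := FT.B12.sigmaCore_normIn M
  refine ⟨hF.2, ⟨E.subgroupOf M, ?_, ?_⟩, fun hti => ?_⟩
  · haveI := hn.normal
    refine (S0039.result _ _ (Grp.isComplement'_subgroupOf hn.le hE.1 hfr.sdp.inf_eq
      (FT.B12.sdp_card hfr.sdp)) ?_ ?_).2 fun e he he1 => ?_
    · rw [Ne, Subgroup.subgroupOf_eq_bot, disjoint_iff, inf_eq_left.2 hn.le]; exact hfr.ker_ne
    · rw [Ne, Subgroup.subgroupOf_eq_bot, disjoint_iff, inf_eq_left.2 hE.1]; exact hfr.compl_ne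
    · rw [eq_bot_iff]
      rintro y ⟨hy, hy'⟩
      have h1 : (y : G) = 1 := FT.B14.eq_one_of_mem (hfr.reg e he fun h => he1 (Subtype.ext h))
        (Subgroup.mem_inf.2 ⟨hy, FT.mem_cent1_iff.2 (congrArg Subtype.val (FT.mem_cent1_iff.1 hy'))⟩)
      exact Subtype.ext h1
  · exact isCyclic_of_surjective _ (Subgroup.subgroupOfEquivOfLe hE.1).symm.surjective
  · have he : Cfsg.fittingHallOf M = Cfsg.sigmaCore M := (FT.bg15_fittingHall_eq_iff hG hM).2
      (FT.bg14_1_nil hG hM fun h => hF.not_ptype h.1)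
    refine hxM fun g hg => ?_
    by_contra hgM
    refine hx1 (hti g (by rwa [FT.bg15_norm_fittingHall hG hM]) x (he ▸ hx) ?_)
    have : g * x * g⁻¹ = x := by rw [FT.mem_cent1_iff.1 hg]; group
    rw [this, he]; exact hx

end Cfsg.Agent.S1376
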