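import Mathlib
import Cfsg.Statements.S1381
import Cfsg.Agent.FT.BG16_1

set_option autoImplicit false
open Cfsg

namespace Cfsg.Agent.S1381

/-- Let G be a minimal simple group of odd order and M a maximal subgroup with standard factorisation M = K U M_σ. Then M is of Type II if and only if K ≠ 1 and U ≠ 1. -/
theorem result {G : Type*} [Group G] [Finite G] (hG : Cfsg.IsMinSimpleOddOrder G)
    (M : Subgroup G) (hM : IsCoatom M) (K U : Subgroup G) (hKU : Cfsg.IsSigmaDecomposition M K U) :
    Cfsg.IsOfTypeII M ↔ (K ≠ ⊥ ∧ U ≠ ⊥) :=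
  (FT.B16.typeII_iff_p2 hG hM).trans ((FT.kappaCompl_of_isSigmaDecomposition hG hM hKU).p2_iff hM)

end Cfsg.Agent.S1381
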