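import Mathlib
import Cfsg.Statements.S1386
-- import your own Cfsg.Agent.* helpers here

set_option autoImplicit false
open Cfsg

namespace Cfsg.Agent.S1386

theorem coprime_of_cyclic {G : Type*} [Group G] [Finite G] (W A B : Subgroup G) [IsCyclic W]
    (hA : A ≤ W) (hB : B ≤ W) (hAB : A ⊓ B = ⊥) {a b : G} (ha : a ∈ A) (hb : b ∈ B) :
    (orderOf a).Coprime (orderOf b) := by
  classical
  by_contra hne
  obtain ⟨p, hp, hpa, hpb⟩ := Nat.Prime.not_coprime_iff_dvd.mp hne
  have := Fact.mk hp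
  have := Fintype.ofFinite W
  have ha0 : orderOf a ≠ 0 := (orderOf_pos a).ne'
  have hb0 : orderOf b ≠ 0 := (orderOf_pos b).ne'
  set x : W := ⟨a ^ (orderOf a / p), W.pow_mem (hA ha) _⟩ with hx
  set y : W := ⟨b ^ (orderOf b / p), W.pow_mem (hB hb) _⟩ with hy
  have hxo : orderOf x = p := by
    rw [← Subgroup.orderOf_coe]; exact orderOf_pow_orderOf_div ha0 hpa
  have hyo : orderOf y = p := by
    rw [← Subgroup.orderOf_coe]; exact orderOf_pow_orderOf_div hb0 hpb
  have hcard := IsCyclic.card_pow_eq_one_le (α := W) hp.pos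
  have hsub : (Subgroup.zpowers x : Set W).toFinset ⊆ Finset.univ.filter (fun z : W => z ^ p = 1) := by
    intro z hz
    simp only [Set.mem_toFinset, SetLike.mem_coe] at hz
    obtain ⟨k, rfl⟩ := hz
    simp only [Finset.mem_filter, Finset.mem_univ, true_and]
    rw [← zpow_natCast, ← zpow_mul, mul_comm, zpow_mul, zpow_natCast, ← hxo, pow_orderOf_eq_one, one_zpow]
  have hc : (Subgroup.zpowers x : Set W).toFinset.card = p := by
    rw [Set.toFinset_card, ← Nat.card_eq_fintype_card, ← hxo]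
    exact Nat.card_zpowers x
  have heq := Finset.eq_of_subset_of_card_le hsub (by rw [hc]; exact hcard)
  have hy' : y ∈ (Subgroup.zpowers x : Set W).toFinset := by
    rw [heq]; simp only [Finset.mem_filter, Finset.mem_univ, true_and]
    rw [← hyo, pow_orderOf_eq_one]
  simp only [Set.mem_toFinset, SetLike.mem_coe] at hy'
  obtain ⟨k, hk⟩ := hy'
  have h1 : (y : G) ∈ A ⊓ B := by
    refine ⟨?_, B.pow_mem hb _⟩
    rw [← hk]
    exact A.zpow_mem (A.pow_mem ha _) k
  rw [hAB, Subgroup.mem_bot] at h1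
  have : y = 1 := Subtype.ext h1
  rw [this, orderOf_one] at hyo
  exact hp.one_lt.ne hyo

/-- Let G be a finite group, W₁, W₂ subgroups forming a self-normalizing cyclic pair, S a subgroup with W₂ ≤ S and W₁ a complement to S' in S, and (W₁, U, W₂') type-P data for S. Then W₂' = W₂ (that is, C_{S'}(W₁) = W₂). -/
theorem result {G : Type*} [Group G] [Finite G] (W₁ W₂ S U W₂' : Subgroup G) (hW : Cfsg.IsSelfNormalizingCyclic W₁ W₂)
    (hSW : Cfsg.IsComplIn ⁅S, S⁆ W₁ S) (hW₂S : W₂ ≤ S) (hP : Cfsg.IsTypePWith S W₁ U W₂') :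
    W₂' = W₂ := by
  obtain ⟨h1, h2, h12, hc, hcyc, hN⟩ := hW
  obtain ⟨-, h2', h12', hc', hcyc', hN'⟩ := hP.selfNormalizing
  obtain ⟨x, hx, hx1⟩ := (Subgroup.bot_or_exists_ne_one W₁).resolve_left h1
  have hcent := hP.W₂_centralizer x hx hx1
  have := hP.W₁_cyclic
  have hW1c : ∀ a ∈ W₁, ∀ b ∈ W₁, a * b = b * a := fun a ha b hb => by
    have := mul_comm' (⟨a, ha⟩ : W₁) ⟨b, hb⟩
    exact congrArg Subtype.val this
  have hle : W₂ ≤ W₂' := by
    intro w hw
    obtain ⟨a, ha, b, hb, rfl⟩ := hSW.2.2.2 w (hW₂S hw)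
    have haW : a ∈ W₂' := by
      rw [← hcent]
      refine ⟨ha, Subgroup.mem_centralizer_singleton_iff.mpr ?_⟩
      have e1 := hc x hx _ hw
      have e2 := hW1c x hx b hb
      calc a * x = a * (x * b) * b⁻¹ := by group
        _ = (a * b) * x * b⁻¹ := by rw [e2]; group
        _ = x * a := by rw [← e1]; group
    have hab : Commute a b := (hc' b hb a haW).symm
    have hcop : (orderOf b).Coprime (orderOf (a * b)) :=
      coprime_of_cyclic (W₁ ⊔ W₂) W₁ W₂ le_sup_left le_sup_right h12 hb hw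
    have hpow : b ^ orderOf (a * b) = 1 := by
      have e : a ^ orderOf (a * b) * b ^ orderOf (a * b) = 1 := by
        rw [← hab.mul_pow, pow_orderOf_eq_one]
      have : b ^ orderOf (a * b) ∈ W₁ ⊓ W₂' := by
        refine ⟨W₁.pow_mem hb _, ?_⟩
        rw [eq_inv_of_mul_eq_one_right e]
        exact W₂'.inv_mem (W₂'.pow_mem haW _)
      rwa [h12', Subgroup.mem_bot] at this
    have hb1 : b = 1 := by
      rw [← orderOf_eq_one_iff]
      exact Nat.Coprime.eq_one_of_dvd hcop (orderOf_dvd_of_pow_eq_one hpow)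
    rw [hb1, mul_one]; exact haW
  obtain ⟨y, hy, hy1⟩ := (Subgroup.bot_or_exists_ne_one W₂).resolve_left h2
  have key : ∀ V : Subgroup G, W₂ ≤ V → W₁ ⊓ V = ⊥ →
      ({x * y} : Set G) ⊆ (↑(W₁ ⊔ V) : Set G) \ (↑W₁ ∪ ↑V) := by
    intro V hV hV1 z hz
    rw [Set.mem_singleton_iff] at hz
    subst hz
    refine ⟨Subgroup.mul_mem_sup hx (hV hy), ?_⟩
    rintro (h | h)
    · have : y ∈ W₁ ⊓ V := ⟨by simpa using W₁.mul_mem (W₁.inv_mem hx) h, hV hy⟩
      rw [hV1] at this; exact hy1 this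
    · have : x ∈ W₁ ⊓ V := ⟨hx, by simpa using V.mul_mem h (V.inv_mem (hV hy))⟩
      rw [hV1] at this; exact hx1 this
  have e1 := hN _ (key W₂ le_rfl h12) (Set.singleton_nonempty _)
  have e2 := hN' _ (key W₂' hle h12') (Set.singleton_nonempty _)
  have e3 : W₁ ⊔ W₂' = W₁ ⊔ W₂ := e2.symm.trans e1
  refine le_antisymm ?_ hle
  intro w hw
  have hw' : w ∈ W₁ ⊔ W₂ := e3 ▸ Subgroup.mem_sup_right hw
  have hnorm : W₂ ≤ Subgroup.normalizer (W₁ : Set G) := by
    refine le_trans ?_ (Subgroup.centralizer_le_normalizer _)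
    intro b hb a ha
    exact hc a ha b hb
  have : w ∈ ((W₁ ⊔ W₂ : Subgroup G) : Set G) := hw'
  rw [Subgroup.coe_mul_of_right_le_normalizer_left _ _ hnorm] at this
  obtain ⟨a, ha, b, hb, rfl⟩ := this
  have : a ∈ W₁ ⊓ W₂' := ⟨ha, by simpa using W₂'.mul_mem hw (W₂'.inv_mem (hle hb))⟩
  rw [h12', Subgroup.mem_bot] at this
  simpa [this] using hb

end Cfsg.Agent.S1386
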