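import Mathlib
import Cfsg.Statements.S1396
import Cfsg.Agent.FT.BG7_5
-- import your own Cfsg.Agent.* helpers here

set_option autoImplicit false
open Cfsg

namespace Cfsg.Agent.S1396

/-- Let G be a minimal simple group of odd order, p a prime dividing the order of G and A an abelian p-subgroup. Suppose either (1) A consists exactly of the elements x of C_G(A) with x^p = 1, and every proper subgroup of G has p-length at most one, or (2) A is normal and self-centralizing in some Sylow p-subgroup of G and has rank at least 2. Then A satisfies the transitivity hypothesis. -/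
theorem result {G : Type*} [Group G] [Finite G] (hG : Cfsg.IsMinSimpleOddOrder G)
    (p : ℕ) [Fact p.Prime] (hp : p ∣ Nat.card G) (A : Subgroup G) (hAp : IsPGroup p A) (hAc : IsMulCommutative A)
    (h : (∀ x ∈ Subgroup.centralizer (A : Set G), x ^ p = 1 ↔ x ∈ A) ∧ (∀ H : Subgroup G, H ≠ ⊤ → Cfsg.PLengthLE p 1 H) ∨
      ∃ P : Sylow p G, Cfsg.IsSCN (P : Subgroup G) A ∧ ¬ Cfsg.PRankLE p 1 A) :
    Cfsg.TransitivityHypothesis A := by
  have hp' : p.Prime := Fact.out
  rcases h with ⟨h1, h2⟩ | ⟨P, h1, h2⟩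
  · refine FT.bg7_5a hG ?_ ⟨le_top, ⟨hAc, fun a ha => (h1 a (FT.abelian_iff.mp hAc ha)).mpr ha⟩,
      fun B _ hB hAB => le_antisymm (fun b hb => (h1 b ?_).mp (hB.2 b hb)) hAB⟩ h2
    · rintro rfl
      obtain ⟨x, hx⟩ := exists_prime_orderOf_dvd_card' p hp
      have := (h1 x (by rw [FT.cent_bot]; trivial)).mp (hx ▸ pow_orderOf_eq_one x)
      rw [Subgroup.mem_bot.mp this, orderOf_one] at hx
      exact hp'.one_lt.ne hx
    · exact FT.cent_anti hAB (FT.abelian_iff.mp hB.1 hb)
  · refine FT.bg7_5b hG (p := p) (P := P)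
      ⟨le_top, (FT.B7.isPGroup_iff_primes hp').mp P.isPGroup', ?_⟩ h1 ?_
    · rintro q - rfl
      simpa using P.not_dvd_index
    · obtain ⟨E, hE, hEe, hEc⟩ := FT.B7.exists_elem_of_not_pRankLE h2
      obtain ⟨n, hn⟩ := IsPGroup.iff_card.mp (Grp.isPGroup_of_pow_eq_one hEe.2)
      rw [hn, Nat.pow_lt_pow_iff_right hp'.one_lt] at hEc
      refine le_trans hEc (le_csSup ⟨Nat.card G, ?_⟩ ⟨E, hE, hEe, hn⟩)
      rintro m ⟨D, -, -, hD⟩
      exact ((Nat.lt_pow_self hp'.one_lt).le.trans hD.ge).trans (Subgroup.card_le_card_group D)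

end Cfsg.Agent.S1396
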