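import Cfsg.Statements.S1397
import Mathlib
import Cfsg.Agent.FT.BG8b

set_option autoImplicit false
open Cfsg

namespace Cfsg.Agent.S1397

/-- Let G be a minimal simple group of odd order, M a maximal subgroup, p a prime and A₀ an elementary abelian p-subgroup of F(M) of order at least p ^ 3 that is maximal among elementary abelian p-subgroups of F(M). (a) If F(M) is not a p-group, then F(M) ∩ C_G(A₀) lies in exactly one maximal subgroup of G. (b) If F(M) is a p-group and P is a Sylow p-subgroup of M, then p does not divide the index of P in G, and every normal self-centralizing subgroup A of P containing an elementary abelian subgroup of order p ^ 3 is contained in F(M) and lies in exactly one maximal subgroup of G. -/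
theorem result {G : Type*} [Group G] [Finite G] (hG : Cfsg.IsMinSimpleOddOrder G)
    (M : Subgroup G) (hM : IsCoatom M) (p : ℕ) [Fact p.Prime] (A₀ : Subgroup G)
    (hA₀ : A₀ ≤ Cfsg.fittingOf M) (hA₀e : Cfsg.IsElementaryAbelian p A₀) (hA₀3 : p ^ 3 ≤ Nat.card A₀)
    (hA₀max : ∀ B : Subgroup G, B ≤ Cfsg.fittingOf M → Cfsg.IsElementaryAbelian p B → A₀ ≤ B → B = A₀) :
    (¬ IsPGroup p ↥(Cfsg.fittingOf M) → Cfsg.InUniqueMaximal (Cfsg.fittingOf M ⊓ Subgroup.centralizer (A₀ : Set G))) ∧
      (IsPGroup p ↥(Cfsg.fittingOf M) → ∀ P : Sylow p M,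
        ¬ p ∣ ((P : Subgroup M).map M.subtype).index ∧
        ∀ A : Subgroup G, Cfsg.IsSCN ((P : Subgroup M).map M.subtype) A → ¬ Cfsg.PRankLE p 2 ↥A →
          A ≤ Cfsg.fittingOf M ∧ Cfsg.InUniqueMaximal A) := by
  have hlt : p ^ 2 < Nat.card A₀ := lt_of_lt_of_le FT.R2.sq_lt_cube hA₀3
  refine ⟨FT.bg8_1a hG hM Fact.out hA₀ hA₀e hlt, fun hF P => ?_⟩
  have hF1 : fittingOf M ≠ ⊥ := by
    intro h
    rw [h, le_bot_iff] at hA₀
    rw [hA₀, Subgroup.card_bot] at hlt
    exact absurd hlt (not_lt.2 (Nat.one_le_pow _ _ (Fact.out : p.Prime).pos))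
  obtain ⟨h1, h2⟩ := FT.bg8_1b hG hM hF hF1 (PLocal.isSylowIn_map P)
  exact ⟨by simpa using h1.not_dvd_relIndex, h2⟩

end Cfsg.Agent.S1397
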