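import Cfsg.Statements.S1414
import Cfsg.Agent.FT.BG10_8

set_option autoImplicit false
open Cfsg

namespace Cfsg.Agent.S1414



/-- Let G be a minimal simple group of odd order, M a maximal subgroup, β(M) the set of ideal primes in α(M), and M_β = O_{β(M)}(M). Then M_β is a Hall β(M)-subgroup of M and of G; M' and M_σ each have a nilpotent Hall β(M)'-subgroup; and for each prime p dividing the order of M with p ∉ β(M), both M' and M_σ have normal p-complements and every prime dividing the index of O_{p'}(M) in M is at most p. -/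
theorem result {G : Type*} [Group G] [Finite G] (hG : Cfsg.IsMinSimpleOddOrder G)
    (M : Subgroup G) (hM : IsCoatom M) :
    Cfsg.IsPiHallOf (Cfsg.beta M) (Cfsg.piCoreOf (Cfsg.beta M) M) M ∧ Cfsg.IsPiHall (Cfsg.beta M) (Cfsg.piCoreOf (Cfsg.beta M) M) ∧
      (∃ H : Subgroup G, Cfsg.IsPiHallOf {q | q.Prime ∧ q ∉ Cfsg.beta M} H ⁅M, M⁆ ∧ Group.IsNilpotent H) ∧
      (∃ H : Subgroup G, Cfsg.IsPiHallOf {q | q.Prime ∧ q ∉ Cfsg.beta M} H (Cfsg.sigmaCore M) ∧ Group.IsNilpotent H) ∧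
      ∀ p : ℕ, p.Prime → p ∣ Nat.card M → p ∉ Cfsg.beta M →
        Cfsg.HasNormalPComplement p ↥⁅M, M⁆ ∧ Cfsg.HasNormalPComplement p ↥(Cfsg.sigmaCore M) ∧
        ∀ q : ℕ, q.Prime → q ∣ (Cfsg.pPrimeCore p ↥M).index → q ≤ p := by
  have hs := FT.B10.max_solvable hG hM
  have key : ∀ D : Subgroup G, D ≤ ⁅M, M⁆ →
      ∃ H : Subgroup G, IsPiHallOf {q | q.Prime ∧ q ∉ beta M} H D ∧ Group.IsNilpotent H := by
    intro D hD
    obtain ⟨H, hH⟩ := FT.B10.exists_hall (FT.isSolvable_of_le (hD.trans (FT.der_le M)) hs)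
      {q | q.Prime ∧ q ∉ beta M}
    exact ⟨H, hH, FT.bg10_8b hG hM (hH.1.trans hD) fun p hp hd => (hH.2.1 p hp hd).2⟩
  refine ⟨FT.betaCore_hall hG hM, FT.B10.isPiHall_iff.2 (FT.betaCore_hall_top hG hM), key _ le_rfl,
    key _ (FT.sigmaCore_le_der hG hM), fun p hp _ hβ => ?_⟩
  have := Fact.mk hp
  obtain ⟨h1, h2, h3⟩ := FT.bg10_8c hG hM hp hβ
  refine ⟨FT.B10.hasNormalPComplement_of_hall hp h1, FT.B10.hasNormalPComplement_of_hall hp h2,
    fun q hq hd => h3 q hq ?_⟩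
  rwa [Subgroup.relIndex, FT.bg6_piCoreOf_subgroupOf]


end Cfsg.Agent.S1414
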