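import Cfsg.Statements.S1417
import Cfsg.Agent.FT.BG12_5

set_option autoImplicit false
open Cfsg

namespace Cfsg.Agent.S1417

/-- Let G be a minimal simple group of odd order, M a maximal subgroup, p ∈ τ₂(M) and A ≤ M elementary abelian of order p ^ 2. Then (a) M_σ is nilpotent; (b) every Sylow p-subgroup P of M is abelian, and if A ≤ P then the elements of P of order dividing p are exactly those of A and N_G(P) is not contained in M; (c) M normalizes M_σA; (d) M_σ ∩ C_G(A) = 1; (e) M_σ ∩ M* = 1 for every maximal subgroup M* ≠ M containing A; (f) M_σ ∩ C_G(A₁) = 1 for some subgroup A₁ ≤ A of order p. -/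
theorem result {G : Type*} [Group G] [Finite G] (hG : Cfsg.IsMinSimpleOddOrder G)
    (M : Subgroup G) (hM : IsCoatom M) (p : ℕ) [Fact p.Prime] (hp : p ∈ Cfsg.tau2 M) (A : Subgroup G) (hA : (A ≤ M ∧ Cfsg.IsElementaryAbelian p A ∧ Nat.card A = p ^ 2)) :
    Group.IsNilpotent (Cfsg.sigmaCore M) ∧
      (∀ P : Sylow p M, IsMulCommutative (P : Subgroup M) ∧
        (A ≤ (P : Subgroup M).map M.subtype →
          (∀ x ∈ (P : Subgroup M).map M.subtype, x ^ p = 1 ↔ x ∈ A) ∧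
          ¬ Subgroup.normalizer ((((P : Subgroup M).map M.subtype : Subgroup G)) : Set G) ≤ M)) ∧
      M ≤ Subgroup.normalizer ((Cfsg.sigmaCore M ⊔ A : Subgroup G) : Set G) ∧
      Cfsg.sigmaCore M ⊓ Subgroup.centralizer (A : Set G) = ⊥ ∧
      (∀ Mstar : Subgroup G, IsCoatom Mstar → Mstar ≠ M → A ≤ Mstar → Cfsg.sigmaCore M ⊓ Mstar = ⊥) ∧
      ∃ A₁ : Subgroup G, A₁ ≤ A ∧ Nat.card A₁ = p ∧ Cfsg.sigmaCore M ⊓ Subgroup.centralizer (A₁ : Set G) = ⊥ := by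
  refine ⟨FT.bg12_5a hG hM hp, fun P => ⟨?_, fun hAP => ?_⟩, (FT.bg12_5c hG hM hp hA).2,
    FT.bg12_5d hG hM hp hA, fun Ms h1 h2 h3 => FT.bg12_5e hG hM hp hA h1 h2 h3,
    FT.bg12_5f hG hM hp hA⟩
  · have h := FT.bg12_5b_abelian hG hM hp (FT.B12.syl_map P).1
      (FT.B12.syl_isPGroup hp.1 (FT.B12.syl_map P))
    refine ⟨⟨fun a b => Subtype.ext (Subtype.ext ?_)⟩⟩
    exact (FT.le_cent_iff.1 (FT.abelian_iff.1 h)) _ ⟨a, a.2, rfl⟩ _ ⟨b, b.2, rfl⟩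
  · obtain ⟨-, h2, h3⟩ := FT.bg12_5b hG hM hp hA (FT.B12.syl_map P) hAP
    exact ⟨fun x hx => ⟨h2 x hx, hA.2.1.2 x⟩, h3⟩

end Cfsg.Agent.S1417
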