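import Cfsg.Statements.S1437
import Mathlib
import Cfsg.Agent.FT.BG15_2

set_option autoImplicit false
open Cfsg

namespace Cfsg.Agent.S1437

set_option linter.unusedVariables false
set_option linter.style.haveILetI false

/-- Let G be a minimal simple group of odd order and M a maximal subgroup with standard factorisation M = K U M_σ such that M_F ≠ M_σ; put K* = M_σ ∩ C_G(K), p = #K, q = #K*. Then U = 1 and M_σ = M'; p and q are prime, q divides #M_F and q ∈ β(M); M_σ has a Sylow q-subgroup Q normal in M and contained in M_F; every complement D of Q in M_σ is nilpotent, and Q₀ = Q ∩ C_G(D) is normal in M; Q₀ < Q with #Q = #Q₀ · q ^ p, every element of Q has its q-th power and all its commutators with Q in Q₀, and every subgroup strictly between Q₀ and Q fails to be normal in M. -/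
theorem result {G : Type*} [Group G] [Finite G] (hG : Cfsg.IsMinSimpleOddOrder G)
    (M : Subgroup G) (hM : IsCoatom M) (K U : Subgroup G) (hKU : Cfsg.IsSigmaDecomposition M K U) (hne : Cfsg.fittingHallOf M ≠ Cfsg.sigmaCore M) :
    U = ⊥ ∧ Cfsg.sigmaCore M = ⁅M, M⁆ ∧ (Nat.card K).Prime ∧ (Nat.card ↥(Cfsg.sigmaCore M ⊓ Subgroup.centralizer (K : Set G))).Prime ∧
      Nat.card ↥(Cfsg.sigmaCore M ⊓ Subgroup.centralizer (K : Set G)) ∣ Nat.card (Cfsg.fittingHallOf M) ∧ Nat.card ↥(Cfsg.sigmaCore M ⊓ Subgroup.centralizer (K : Set G)) ∈ Cfsg.beta M ∧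
      ∃ Q : Subgroup G, Q ≤ Cfsg.fittingHallOf M ∧ M ≤ Subgroup.normalizer (Q : Set G) ∧ IsPGroup (Nat.card ↥(Cfsg.sigmaCore M ⊓ Subgroup.centralizer (K : Set G))) Q ∧
        ¬ Nat.card ↥(Cfsg.sigmaCore M ⊓ Subgroup.centralizer (K : Set G)) ∣ Q.relIndex (Cfsg.sigmaCore M) ∧
        ∀ D : Subgroup G, Cfsg.IsComplIn Q D (Cfsg.sigmaCore M) →
          Group.IsNilpotent D ∧ M ≤ Subgroup.normalizer ((Q ⊓ Subgroup.centralizer (D : Set G) : Subgroup G) : Set G) ∧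
          Q ⊓ Subgroup.centralizer (D : Set G) < Q ∧
          Nat.card Q = Nat.card ↥(Q ⊓ Subgroup.centralizer (D : Set G)) * Nat.card ↥(Cfsg.sigmaCore M ⊓ Subgroup.centralizer (K : Set G)) ^ Nat.card K ∧
          (∀ a ∈ Q, ∀ b ∈ Q, a ^ Nat.card ↥(Cfsg.sigmaCore M ⊓ Subgroup.centralizer (K : Set G)) ∈ Q ⊓ Subgroup.centralizer (D : Set G) ∧
            a * b * a⁻¹ * b⁻¹ ∈ Q ⊓ Subgroup.centralizer (D : Set G)) ∧
          ∀ N : Subgroup G, Q ⊓ Subgroup.centralizer (D : Set G) < N → N < Q → ¬ M ≤ Subgroup.normalizer (N : Set G) := by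
  have h := FT.kappaCompl_of_isSigmaDecomposition hG hM hKU
  have hK := h.hallK
  have hq := FT.bg15_2_prime hG hM hK hne rfl
  have hS := FT.bg15_2_syl hG hM hK hne rfl
  obtain ⟨D₀, hD₀⟩ := FT.B12.exists_hall {Nat.card (FT.kstar M K)}ᶜ
    (FT.B12.solv_of_le hG hM (FT.B12.sigmaCore_normIn M).le)
  have h2 := FT.bg15_2 hG hM hK hne rfl rfl rfl hD₀ rfl
  refine ⟨((h.p1_iff hM).1 h2.1.1).2, h2.1.2.2, h2.2.1.1, hq, h2.2.1.2.2.1, h2.2.1.2.2.2, _,
    FT.bg15_2_Q_le_fittingHall hG hM hK hne rfl, (FT.B8.piCoreOf_normIn _ M).norm,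
    FT.B8.pcore_isPGroup hq M, FT.B12.syl_not_dvd hq hS, fun D hD => ?_⟩
  have hsd : FT.SDP (Cfsg.piCoreOf {Nat.card (FT.kstar M K)} M) D (Cfsg.sigmaCore M) :=
    ⟨(hD.2.1.trans (FT.B12.sigmaCore_normIn M).le).trans (FT.B8.piCoreOf_normIn _ M).norm, hD.2.2.1,
      le_antisymm (sup_le hD.1 hD.2.1) fun m hm => by
        obtain ⟨a, ha, b, hb, rfl⟩ := hD.2.2.2 m hm
        exact Subgroup.mul_mem_sup ha hb⟩
  have hD' : Cfsg.IsPiHallOf {Nat.card (FT.kstar M K)}ᶜ D (Cfsg.sigmaCore M) :=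
    FT.B12.hall_right_of_sdp hsd hS.2.1 (by
      have := FT.B12.hall_piNat hS
      rwa [FT.B12.sdp_relIndex_left hsd] at this)
  obtain ⟨-, -, ⟨-, h3, h4⟩, ⟨h5, h6, h7, h8, h9⟩, -⟩ := FT.bg15_2 hG hM hK hne rfl rfl rfl hD' rfl
  exact ⟨h3, h4.norm, h5, h9, fun a ha b hb =>
    ⟨h8 a ha, h7 (Subgroup.commutator_mem_commutator ha hb)⟩, h6⟩

end Cfsg.Agent.S1437
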