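import Cfsg.Statements.S1439
import Mathlib
import Cfsg.Agent.FT.BG15_5

set_option autoImplicit false
open Cfsg

namespace Cfsg.Agent.S1439

set_option linter.unusedVariables false
set_option linter.style.haveILetI false

/-- Let G be a minimal simple group of odd order and M a maximal subgroup, and let Y be the largest normal subgroup of F(M) involving no prime of σ(M). Then Y is cyclic, every prime divisor of its order lies in τ₂(M), and F(M) is generated by F(M_σ) and Y (a direct product, the orders being coprime). -/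
theorem result {G : Type*} [Group G] [Finite G] (hG : Cfsg.IsMinSimpleOddOrder G)
    (M : Subgroup G) (hM : IsCoatom M) :
    IsCyclic ↥(Cfsg.piCoreOf {q | q.Prime ∧ q ∉ Cfsg.sigma M} (Cfsg.fittingOf M)) ∧
      (∀ p : ℕ, p.Prime → p ∣ Nat.card ↥(Cfsg.piCoreOf {q | q.Prime ∧ q ∉ Cfsg.sigma M} (Cfsg.fittingOf M)) → p ∈ Cfsg.tau2 M) ∧
      Cfsg.fittingOf M = Cfsg.fittingOf (Cfsg.sigmaCore M) ⊔ Cfsg.piCoreOf {q | q.Prime ∧ q ∉ Cfsg.sigma M} (Cfsg.fittingOf M) := by
  have e : Cfsg.piCoreOf {q | q.Prime ∧ q ∉ Cfsg.sigma M} (Cfsg.fittingOf M) =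
      Cfsg.piCoreOf (Cfsg.sigma M)ᶜ (Cfsg.fittingOf M) :=
    le_antisymm (FT.B8.piCoreOf_mono_pi (fun _ h => h.2) _)
      (FT.B12.le_piCoreOf (FT.B8.piCoreOf_normIn _ _) fun p hp hd =>
        ⟨hp, FT.B12.piCoreOf_isPi _ _ p hp hd⟩)
  rw [e]
  exact ⟨(FT.bg15_5a hG hM).1, (FT.bg15_5a hG hM).2, (FT.bg15_5_dp hG hM).sup_eq.symm⟩

end Cfsg.Agent.S1439
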