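import Cfsg.Statements.S1441
import Mathlib
import Cfsg.Agent.FT.Stable

set_option autoImplicit false
open Cfsg

namespace Cfsg.Agent.S1441

/-- Let G be a finite group, H a solvable subgroup and A a subgroup normalizing H. Suppose there is a chain H = H₀ ≥ H₁ ≥ ⋯ ≥ H_n = 1 of subgroups normal in H and normalized by A such that A acts trivially on each factor H_{i-1}/H_i (that is, [H_{i-1}, A] ≤ H_i). Then every prime dividing the index of C_A(H) in A divides the order of H. -/
theorem result {G : Type*} [Group G] [Finite G] (H A : Subgroup G) (hH : Group.IsSolvable H) (hA : (A ≤ Subgroup.normalizer (H : Set G)))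
    (n : ℕ) (c : Fin (n + 1) → Subgroup G) (hc0 : c 0 = H) (hcn : c (Fin.last n) = ⊥) (hanti : Antitone c)
    (hcN : ∀ i, H ≤ Subgroup.normalizer ((c i : Subgroup G) : Set G)) (hcA : ∀ i, A ≤ Subgroup.normalizer ((c i : Subgroup G) : Set G))
    (htriv : ∀ i : Fin n, ⁅c i.castSucc, A⁆ ≤ c i.succ) :
    ∀ p : ℕ, p.Prime → p ∣ (A ⊓ Subgroup.centralizer (H : Set G)).relIndex A → p ∣ Nat.card H := by
  intro p hp hdvd
  by_contra hpH
  haveI : Fact p.Prime := ⟨hp⟩
  obtain ⟨P⟩ : Nonempty (Sylow p A) := inferInstance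
  set P' : Subgroup G := (P : Subgroup A).map A.subtype with hP'
  have hP'A : P' ≤ A := Subgroup.map_subtype_le _
  have hPp : IsPGroup p P' := P.isPGroup'.map _
  have hcop : (Nat.card P').Coprime (Nat.card H) := by
    obtain ⟨k, hk⟩ := hPp.exists_card_eq
    rw [hk]
    exact Nat.Coprime.pow_left _ ((Nat.Prime.coprime_iff_not_dvd hp).mpr hpH)
  have hcent : P' ≤ Subgroup.centralizer (H : Set G) := by
    refine FT.stable_series_cent n (fun i => if h : i < n + 1 then c ⟨i, h⟩ else ⊥) ?_ ?_ ?_ ?_ hcop
    · simpa using hc0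
    · simpa [Fin.last] using hcn
    · intro i hi
      have hi' : i < n + 1 := by omega
      simp only [hi', dif_pos]
      rw [← hc0]
      exact hanti (Fin.zero_le _)
    · intro i hi
      have hi' : i < n + 1 := by omega
      have hi'' : i + 1 < n + 1 := by omega
      simp only [hi', hi'', dif_pos]
      exact (Subgroup.commutator_mono le_rfl hP'A).trans (htriv ⟨i, hi⟩)
  have h1 : (P : Subgroup A) ≤ (A ⊓ Subgroup.centralizer (H : Set G)).subgroupOf A := by
    intro x hx
    rw [Subgroup.mem_subgroupOf]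
    exact ⟨x.2, hcent ⟨x, hx, rfl⟩⟩
  exact P.not_dvd_index (hdvd.trans (Subgroup.index_dvd_of_le h1))

end Cfsg.Agent.S1441
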