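import Cfsg.Statements.S1449
import Mathlib
import Cfsg.Agent.FT.BG4_13

set_option autoImplicit false
open Cfsg

namespace Cfsg.Agent.S1449

/-- Let G be a finite group, p an odd prime, R a p-subgroup with no elementary abelian subgroup of order p ^ 3, and A a solvable subgroup of odd order normalizing R with A ∩ C_G(R) = 1. Then the derived subgroup [A, A] is a p-group. -/
theorem result {G : Type*} [Group G] [Finite G] (p : ℕ) [Fact p.Prime] (hp : p ≠ 2) (R A : Subgroup G) (hR : IsPGroup p R) (hr : Cfsg.PRankLE p 2 R)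
    (hA : (A ≤ Subgroup.normalizer (R : Set G))) (hAs : Group.IsSolvable A) (hAodd : Odd (Nat.card A)) (hfaith : A ⊓ Subgroup.centralizer (R : Set G) = ⊥) :
    IsPGroup p ↥⁅A, A⁆ := by
  rintro ⟨x, hx⟩
  obtain ⟨k, hk⟩ := Transfer.exists_pow_coprime_orderOf (p := p) x
  refine ⟨k, Subtype.ext ?_⟩
  have h := FT.R2.der_cent_of_rank_two hp hR hr hA hAodd _ (pow_mem hx (p ^ k)) hk
  have : x ^ p ^ k ∈ A ⊓ Subgroup.centralizer (R : Set G) := ⟨pow_mem (FT.der_le A hx) _, h⟩
  rw [hfaith] at this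
  exact this

end Cfsg.Agent.S1449
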