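import Cfsg.Statements.S1451
import Mathlib
import Cfsg.Agent.FT.RankTwoSol

set_option autoImplicit false
open Cfsg

namespace Cfsg.Agent.S1451

/-- Let G be a solvable group of odd order such that G, or its Fitting subgroup, has no elementary abelian subgroup of order q ^ 3 for any prime q. Then G' is nilpotent; for every Sylow subgroup S of G, every characteristic subgroup T of S with T ≤ [S, S] is normal in G; and for every prime p, G has a characteristic subgroup that is a Hall subgroup for the set of primes greater than p. -/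
theorem result {G : Type*} [Group G] [Finite G] [Group.IsSolvable G] (hodd : Odd (Nat.card G)) (hr : Cfsg.RankLE 2 G ∨ Cfsg.RankLE 2 (Cfsg.fittingSubgroup G)) :
    Group.IsNilpotent ↥(commutator G) ∧
      (∀ (q : ℕ) [Fact q.Prime] (S : Sylow q G) (T : Subgroup ↥(S : Subgroup G)), T.Characteristic → T.map (S : Subgroup G).subtype ≤ ⁅(S : Subgroup G), (S : Subgroup G)⁆ →
        (T.map (S : Subgroup G).subtype).Normal) ∧
      ∀ p : ℕ, ∃ N : Subgroup G, N.Characteristic ∧ Cfsg.IsPiHall {q | q.Prime ∧ p < q} N := by
  have hn : ∀ p : ℕ, p.Prime → IsNarrow p (pCore p G) :=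
    FT.R2.narrow_pCore_of_rank (hr.elim (fun h p hp => FT.R2.pRankLE_subgroup (h p hp) _) id)
  have h1 := FT.R2.commutator_le_fitting hodd hn
  refine ⟨Grp.isNilpotent_of_le_fitting h1, fun q _ S T hT hle => ?_, fun p => ?_⟩
  · exact FT.R2.normal_of_le_der_sylow h1 S.isPGroup' S.not_dvd_index hle
      (Grp.normalizer_le_normalizer_map_of_characteristic _ T)
  · have h := FT.R2.piCore_hall_of_upper hodd hn {q | q.Prime ∧ p < q}
      fun q r _ hr _ _ hq hr' => by
        by_contra hlt
        exact hr' ⟨hr, by have := hq.2; omega⟩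
    exact ⟨_, FT.R2.characteristic_of_normal_hall (Solv.Pi.hall_coprime h), h⟩

end Cfsg.Agent.S1451
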