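import Cfsg.Statements.S1454
import Mathlib
import Cfsg.Agent.FT.RankTwoSol
import Cfsg.Agent.S1448

set_option autoImplicit false
open Cfsg

namespace Cfsg.Agent.S1454

/-- Let G be a finite group, p an odd prime, R a narrow p-subgroup and A a solvable subgroup of odd order normalizing R with A ∩ C_G(R) = 1. Then [A, A] ≤ O_p(A) and the index of O_p(A) in A is coprime to p; if R has an elementary abelian subgroup of order p ^ 3 then the order of every element of A of order coprime to p divides p − 1; and if the order of A is a prime not dividing p(p − 1), then 2·#A divides p + 1, and if in addition [R, A] = R and R is non-abelian then #R = p ^ 3. -/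
theorem result {G : Type*} [Group G] [Finite G] (p : ℕ) [Fact p.Prime] (hp : p ≠ 2) (R A : Subgroup G) (hR : IsPGroup p R) (hRn : Cfsg.IsNarrow p R)
    (hA : (A ≤ Subgroup.normalizer (R : Set G))) (hAs : Group.IsSolvable A) (hAodd : Odd (Nat.card A)) (hfaith : A ⊓ Subgroup.centralizer (R : Set G) = ⊥) :
    (commutator ↥A ≤ Cfsg.pCore p ↥A ∧ ((Cfsg.pCore p ↥A).index).Coprime p) ∧
      (¬ Cfsg.PRankLE p 2 R → ∀ a ∈ A, (orderOf a).Coprime p → orderOf a ∣ p - 1) ∧
      ((Nat.card A).Prime → ¬ Nat.card A ∣ p * (p - 1) →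
        2 * Nat.card A ∣ p + 1 ∧ (⁅R, A⁆ = R → ¬ IsMulCommutative R → Nat.card R = p ^ 3)) := by
  have hp' : p.Prime := Fact.out
  have h1 : ∀ x ∈ A, x ∈ Subgroup.centralizer (R : Set G) → x = 1 := fun x hx hc => by
    have : x ∈ A ⊓ Subgroup.centralizer (R : Set G) := ⟨hx, hc⟩
    rwa [hfaith] at this
  have hb : ¬ PRankLE p 2 R → ∀ a ∈ A, (orderOf a).Coprime p → orderOf a ∣ p - 1 := fun hr a ha hc =>
    orderOf_dvd_of_pow_eq_one (h1 _ (pow_mem ha _)
      (FT.bg5_5b hp hR hRn (FT.R2.three_le_prank_iff.2 hr) (hA ha) hc))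
  refine ⟨?_, hb, fun hq hnd => ?_⟩
  · have h2 : commutator A ≤ pCore p A := by
      refine Grp.le_pCore inferInstance ?_
      rintro ⟨x, hx⟩
      obtain ⟨k, hk⟩ := Transfer.exists_pow_coprime_orderOf (p := p) (x : G)
      refine ⟨k, Subtype.ext (Subtype.ext ?_)⟩
      have hx' : (x : G) ∈ ⁅A, A⁆ := FT.commutator_map_subtype A ▸ Subgroup.mem_map_of_mem _ hx
      exact h1 _ (pow_mem x.2 _) (FT.R2.der_cent_of_narrow hp hR hRn hA hAodd _ (pow_mem hx' _) hk)
    refine ⟨h2, ?_⟩
    obtain ⟨S⟩ : Nonempty (Sylow p A) := inferInstance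
    have hS : (S : Subgroup A).Normal :=
      Subgroup.Normal.of_commutator_le _ (h2.trans (Grp.pCore_le_sylow S))
    rw [Grp.pCore_eq_sylow_of_normal S hS]
    exact FT.sylow_index_coprime S
  · set q := Nat.card A with hqdef
    have hqp : q ≠ p := fun h => hnd (h ▸ dvd_mul_right _ _)
    have hq1 : ¬ q ∣ p - 1 := fun h => hnd (h.mul_left p)
    have hcop : q.Coprime p := (Nat.coprime_primes hq hp').2 hqp
    have hr : PRankLE p 2 R := by
      by_contra hr
      haveI := Fact.mk hq
      obtain ⟨a, ha⟩ := exists_prime_orderOf_dvd_card' (G := A) q dvd_rfl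
      rw [← Subgroup.orderOf_coe] at ha
      exact hq1 (ha ▸ hb hr a a.2 (ha ▸ hcop))
    have hi : (Subgroup.centralizer (R : Set G)).relIndex A = q := by
      have := Grp.card_inf_mul_relIndex A (Subgroup.centralizer (R : Set G))
      rwa [hfaith, Subgroup.card_bot, one_mul] at this
    obtain ⟨m, hm⟩ := hp'.odd_of_ne_two hp
    refine ⟨?_, fun hRA hna => ?_⟩
    · rcases (FT.bg4_13 hp hR (FT.R2.prank_le_iff.2 hr) hA hq hqp hi.symm.dvd).2.2 with h | h
      · rw [show p + 1 = 2 * ((p + 1) / 2) by omega]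
        exact Nat.mul_dvd_mul_left 2 h
      · exact absurd (h.trans (Dvd.intro_left 2 (by omega))) hq1
    · have hR1 : R ≠ ⊥ := fun h => hna (h ▸ inferInstance)
      obtain ⟨hp3, h2⟩ := S1448.result p hp R A hR hR1 hr hA hcop hAodd hRA
      obtain ⟨S, C, h3, -, -, h4, h5, h6, -⟩ := h2.resolve_left hna
      have hSR : S ≤ R := h3 ▸ le_sup_left
      have hS : S = omegaOne p R := by
        refine PLocal.eq_of_le_of_card_le (fun x hx => PLocal.mem_omegaOne (hSR hx) ?_) ?_
        · have := Monoid.pow_exponent_eq_one (⟨x, hx⟩ : S)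
          rw [h5] at this
          exact congrArg Subtype.val this
        · rw [h4]
          exact FT.bg4_8a (FT.R2.prank_le_iff.2 (FT.R2.pRankLE_of_le (PLocal.omegaOne_le R) hr))
            (FT.bg4_8b hp3 hR (FT.R2.prank_le_iff.2 hr))
      have hN : Subgroup.normalizer (R : Set G) ≤ Subgroup.normalizer (S : Set G) :=
        hS ▸ PLocal.normalizer_le_normalizer_omegaOne R
      haveI : (S.subgroupOf R).Normal := FT.NormIn.normal ⟨hSR, Subgroup.le_normalizer.trans hN⟩
      obtain ⟨e, rfl⟩ := (Subgroup.isCyclic_iff_exists_zpowers_eq_top C).1 h6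
      have heR : e ∈ R := h3 ▸ Subgroup.mem_sup_right (Subgroup.mem_zpowers e)
      haveI : IsCyclic (R ⧸ S.subgroupOf R) := by
        refine FT.R2.isCyclic_quotient_of_sup_zpowers (e := ⟨e, heR⟩) ?_
        apply Subgroup.map_injective R.subtype_injective
        rw [Subgroup.map_sup, Subgroup.map_subgroupOf_eq_of_le hSR, MonoidHom.map_zpowers,
          ← MonoidHom.range_eq_map, Subgroup.range_subtype]
        exact h3
      have hc : q.Coprime (Nat.card (MulAut (R ⧸ S.subgroupOf R))) := by
        obtain ⟨n, hn⟩ := (hR.to_quotient (S.subgroupOf R)).exists_card_eq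
        rw [IsCyclic.card_mulAut, hn]
        rcases n with _ | n
        · simp
        · rw [Nat.totient_prime_pow_succ hp']
          exact Nat.Coprime.mul_right (hcop.pow_right n) ((Nat.Prime.coprime_iff_not_dvd hq).2 hq1)
      have h7 : ⁅R, A⁆ ≤ S := by
        rw [Subgroup.commutator_le]
        intro r hr a ha
        refine (FT.R2.secAut_eq_one_iff hA (hA.trans hN) ⟨a, ha⟩).1 ?_ r hr
        rw [← orderOf_eq_one_iff]
        exact Nat.eq_one_of_dvd_coprimes hc ((orderOf_map_dvd _ _).trans (orderOf_dvd_natCard _))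
          (orderOf_dvd_natCard _)
      rw [← le_antisymm hSR (hRA.ge.trans h7), h4]

end Cfsg.Agent.S1454
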