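import Cfsg.Statements.S1463
import Cfsg.Agent.FT.BG2_6

set_option autoImplicit false
open scoped MatrixGroups
open Cfsg

namespace Cfsg.Agent.S1463

/-- Let F be a field of odd characteristic p and H a finite subgroup of odd order of GL(2, F) that leaves no 1-dimensional subspace of F² invariant. Then p does not divide the order of H. -/
theorem result {F : Type*} [Field F] (p : ℕ) [Fact p.Prime] [CharP F p] (hp : p ≠ 2)
    (H : Subgroup (GL (Fin 2) F)) [Finite H] (hodd : Odd (Nat.card H))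
    (hirr : ∀ v : Fin 2 → F, v ≠ 0 → ∃ g ∈ H, (g : Matrix (Fin 2) (Fin 2) F).mulVec v ∉ Submodule.span F {v}) :
    ¬ p ∣ Nat.card H := by
  intro hpH
  let ρ : H →* FT.GL2.Mat2 F := (Units.coeHom (FT.GL2.Mat2 F)).comp H.subtype
  have hline : ¬ FT.GL2.FixesLine ρ := by
    rintro ⟨v, hv0, hv⟩
    obtain ⟨g, hg, hgv⟩ := hirr v hv0
    obtain ⟨c, hc⟩ := hv ⟨g, hg⟩
    exact hgv (Submodule.mem_span_singleton.2 ⟨c, hc.symm⟩)
  obtain ⟨x, hx⟩ := exists_prime_orderOf_dvd_card' p hpH
  refine hline (FT.GL2.fixesLine_of_comm ρ ((FT.GL2.comm_or_fixesLine hodd ρ).resolve_right hline)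
    (x := x) ?_ (FT.GL2.sub_one_sq_of_pow_char p (k := 1) ?_))
  · intro h
    have : x = 1 := by
      ext1; exact Units.ext h
    rw [this, orderOf_one] at hx
    exact (Fact.out : p.Prime).one_lt.ne hx
  · rw [pow_one, ← map_pow, ← hx, pow_orderOf_eq_one, map_one]

end Cfsg.Agent.S1463
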