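import Cfsg.Statements.S1466
import Cfsg.Agent.FT.Puig

set_option autoImplicit false
open Cfsg

namespace Cfsg.Agent.S1466

/-- Let p be a prime and R a nontrivial finite p-group. Then for every i > 0, Z(R) ≤ C_R(L_i(R)) ≤ L_i(R); likewise Z(R) ≤ C_R(L_*(R)) ≤ L_*(R) and Z(R) ≤ C_R(L(R)) ≤ L(R); and L(R) ≠ 1, L_*(R) ≠ 1. -/
theorem result {R : Type*} [Group R] [Finite R] (p : ℕ) [Fact p.Prime] (hR : IsPGroup p R) [Nontrivial R] :
    (∀ i : ℕ, 0 < i → Subgroup.center R ≤ Subgroup.centralizer ((Cfsg.puigSeq R i : Subgroup R) : Set R) ∧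
        Subgroup.centralizer ((Cfsg.puigSeq R i : Subgroup R) : Set R) ≤ Cfsg.puigSeq R i) ∧
      (Subgroup.center R ≤ Subgroup.centralizer ((Cfsg.puigLower R : Subgroup R) : Set R) ∧ Subgroup.centralizer ((Cfsg.puigLower R : Subgroup R) : Set R) ≤ Cfsg.puigLower R) ∧
      (Subgroup.center R ≤ Subgroup.centralizer ((Cfsg.puigSubgroup R : Subgroup R) : Set R) ∧ Subgroup.centralizer ((Cfsg.puigSubgroup R : Subgroup R) : Set R) ≤ Cfsg.puigSubgroup R) ∧
      Cfsg.puigSubgroup R ≠ ⊥ ∧ Cfsg.puigLower R ≠ ⊥ := by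
  simp only [FT.puigSeq_eq, FT.puigLower_eq, FT.puigSubgroup_eq]
  have hn : Group.IsNilpotent R := hR.isNilpotent
  have hT : Group.IsNilpotent (⊤ : Subgroup R) := inferInstance
  have hZ : (⊤ : Subgroup R) ⊓ Subgroup.centralizer ((⊤ : Subgroup R) : Set R) ≠ ⊥ :=
    FT.inf_centralizer_self_ne_bot_of_nilpotent hT top_ne_bot
  refine ⟨fun i hi => ⟨Subgroup.center_le_centralizer _, ?_⟩,
    ⟨Subgroup.center_le_centralizer _, ?_⟩, ⟨Subgroup.center_le_centralizer _, ?_⟩, ?_, ?_⟩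
  · simpa using FT.inf_centralizer_puigSeqOf_le hT hi
  · simpa using FT.inf_centralizer_puigLowerOf_le hT
  · simpa using FT.inf_centralizer_puigOf_le hT
  · intro h
    exact hZ (le_bot_iff.1 (h ▸ (FT.center_le_puigLowerOf ⊤).trans (FT.puigLowerOf_le_puigOf ⊤)))
  · intro h
    exact hZ (le_bot_iff.1 (h ▸ FT.center_le_puigLowerOf ⊤))

end Cfsg.Agent.S1466
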