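import Cfsg.Statements.S1474
import Mathlib
import Cfsg.Agent.Solv.CN

set_option autoImplicit false
open Cfsg

namespace Cfsg.Agent.S1474

/-- Let G be a finite group in which every non-identity element has nilpotent centralizer, not itself nilpotent, and having a nontrivial normal Sylow p-subgroup for some prime p. Let H be the largest normal nilpotent Hall subgroup of G. Then H is a nontrivial proper normal subgroup with a complement E that is a Frobenius complement in G (no non-identity element of E centralizes a non-identity element of H), and G/H is nilpotent. -/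
theorem result {G : Type*} [Group G] [Finite G] (hCN : Cfsg.IsCNGroup G) (hnn : ¬ Group.IsNilpotent G) (p : ℕ) [Fact p.Prime] (P : Sylow p G)
    (hP1 : (P : Subgroup G) ≠ ⊥) (hPn : (P : Subgroup G).Normal) :
    Cfsg.fittingHall G ≠ ⊥ ∧ Cfsg.fittingHall G ≠ ⊤ ∧
      (∃ E : Subgroup G, Subgroup.IsComplement' (Cfsg.fittingHall G) E ∧ Cfsg.IsFrobeniusComplement E ∧
        ∀ e ∈ E, e ≠ 1 → Cfsg.fittingHall G ⊓ Subgroup.centralizer ({e} : Set G) = ⊥) ∧
      Group.IsNilpotent (G ⧸ Cfsg.fittingHall G) := by
  set H := Cfsg.fittingHall G with hHdef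
  have hHn : Group.IsNilpotent H := FT.fittingHall_isNilpotent
  have hHc : (Nat.card H).Coprime H.index := FT.fittingHall_coprime
  have hsyl : ∀ (r : ℕ) [Fact r.Prime] (R : Sylow r G), (R : Subgroup G).Normal →
      (R : Subgroup G) ≤ H := fun r _ R _ =>
    FT.le_fittingHall R.isPGroup'.isNilpotent R.card_coprime_index
  have hH1 : H ≠ ⊥ := fun h => hP1 (le_bot_iff.mp (h ▸ hsyl p P hPn))
  have hHt : H ≠ ⊤ := fun h => hnn (by rw [h] at hHn; exact Group.isNilpotent_top.mp hHn)
  obtain ⟨E, hE⟩ := Subgroup.exists_right_complement'_of_coprime hHc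
  have hE1 : E ≠ ⊥ := fun h => hHt (by have := hE.sup_eq_top; rwa [h, sup_bot_eq] at this)
  have hEc : Nat.card E = H.index := hE.symm.index_eq_card.symm
  have hfpf : ∀ e ∈ E, e ≠ 1 → H ⊓ Subgroup.centralizer ({e} : Set G) = ⊥ := by
    intro e he he1
    by_contra hne
    obtain ⟨x, ⟨hxH, hxe⟩, hx1⟩ := (Subgroup.bot_or_exists_ne_one _).resolve_left hne
    obtain ⟨r, hr, hrd⟩ := Nat.exists_prime_and_dvd (mt orderOf_eq_one_iff.mp he1)
    have := Fact.mk hr
    have hy : orderOf (e ^ (orderOf e / r)) = r := orderOf_pow_orderOf_div (orderOf_pos e).ne' hrd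
    set y := e ^ (orderOf e / r) with hydef
    have hyE : y ∈ E := E.pow_mem he _
    have hy1 : y ≠ 1 := fun h => by
      rw [h, orderOf_one] at hy
      exact hr.one_lt.ne hy
    have hrH : (Nat.card H).Coprime r := hHc.coprime_dvd_right
      (by rw [← hEc, ← hy]; exact E.orderOf_dvd_natCard hyE)
    obtain ⟨R, hR⟩ := (IsPGroup.of_card (p := r) (G := Subgroup.zpowers y) (n := 1)
      (by rw [Nat.card_zpowers, hy, pow_one])).exists_le_sylow
    have hyR : y ∈ (R : Subgroup G) := hR (Subgroup.mem_zpowers y)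
    have hyH : y ∈ Subgroup.centralizer (H : Set G) := Solv.CN.mem_centralizer_of_commute hCN hHn
      hxH hx1 (Commute.pow_right (Subgroup.mem_centralizer_singleton_iff.mp hxe) _) (hy ▸ hrH)
    have hRH : (R : Subgroup G) ≤ Subgroup.centralizer (H : Set G) := by
      refine Subgroup.le_centralizer_iff.mp fun h hh => ?_
      exact Solv.CN.mem_centralizer_of_commute hCN R.isPGroup'.isNilpotent hyR hy1
        (hyH h hh).symm (Solv.coprime_card_of_isPGroup R.isPGroup'
          (hrH.coprime_dvd_left (H.orderOf_dvd_natCard hh))).symm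
    have hCn : Group.IsNilpotent (Subgroup.centralizer (H : Set G)) :=
      Solv.CN.isNilpotent_of_le_centralizer hCN hx1
        (Subgroup.centralizer_le (Set.singleton_subset_iff.mpr hxH))
    have h2 : (R : Subgroup G) ≤ pCore r G :=
      Grp.le_pCore_of_le_fitting R.isPGroup' (hRH.trans (Grp.le_fitting inferInstance hCn))
    have h3 : (R : Subgroup G).Normal := by
      rw [le_antisymm h2 (Grp.pCore_le_sylow R)]
      infer_instance
    exact hy1 (Subgroup.disjoint_def.mp hE.disjoint (hsyl r R h3 hyR) hyE)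
  refine ⟨hH1, hHt, ⟨E, hE, Solv.Frob.isFrobeniusComplement_of_fpf hE hH1 hE1 hfpf, hfpf⟩, ?_⟩
  have hEn : Group.IsNilpotent E := Solv.CN.isNilpotent_of_fpf hCN hH1
    (by rw [Subgroup.normalizer_eq_top]; exact le_top) hfpf
  exact Group.nilpotent_of_mulEquiv hE.symm.QuotientMulEquiv.symm

end Cfsg.Agent.S1474
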