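import Cfsg.Statements.S1476
import Mathlib
import Cfsg.Agent.Solv.CN
import Cfsg.Agent.S1474

set_option autoImplicit false
open Cfsg

namespace Cfsg.Agent.S1476

/-- Let G be a finite solvable group in which every non-identity element has nilpotent centralizer. Then either G is nilpotent; or G has a normal subgroup K with a Frobenius complement E (K E = G, K ∩ E = 1, E meets its conjugates by outside elements trivially) such that E is cyclic or E is generated by two elementwise-commuting subgroups, one cyclic of odd order and one isomorphic to a generalized quaternion group; or G is a three-step group with respect to some prime p. -/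
theorem result {G : Type*} [Group G] [Finite G] [Group.IsSolvable G] (hCN : Cfsg.IsCNGroup G) :
    Group.IsNilpotent G ∨
      (∃ K E : Subgroup G, K.Normal ∧ Subgroup.IsComplement' K E ∧ Cfsg.IsFrobeniusComplement E ∧
        (IsCyclic E ∨ ∃ C Q : Subgroup G, C ⊔ Q = E ∧ (∀ a ∈ C, ∀ b ∈ Q, a * b = b * a) ∧ IsCyclic C ∧ Odd (Nat.card C) ∧
          ∃ n : ℕ, Nonempty (↥Q ≃* QuaternionGroup (2 ^ n)))) ∨
      ∃ p : ℕ, p.Prime ∧ Cfsg.IsThreeStepGroup p G := by
  by_cases hnil : Group.IsNilpotent G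
  · exact Or.inl hnil
  right
  have hnorm : ∀ (A N : Subgroup G) [N.Normal], A ≤ Subgroup.normalizer (N : Set G) :=
    fun A N _ => by rw [Subgroup.normalizer_eq_top]; exact le_top
  by_cases hsyl : ∃ (p : ℕ) (_ : Fact p.Prime) (P : Sylow p G),
      (P : Subgroup G) ≠ ⊥ ∧ (P : Subgroup G).Normal
  · left
    obtain ⟨p, _, P, hP1, hPn⟩ := hsyl
    obtain ⟨h1, -, ⟨E, hE, hF, hfpf⟩, -⟩ := S1474.result hCN hnil p P hP1 hPn
    refine ⟨fittingHall G, E, inferInstance, hE, hF, ?_⟩
    rcases Solv.CN.cyclic_or_of_fpf (Solv.CN.isNilpotent_of_fpf hCN h1 (hnorm _ _) hfpf) h1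
      (hnorm _ _) hfpf with h | ⟨C, Q, h2, h3, h4, h5, n, -, h6⟩
    · exact Or.inl h
    · exact Or.inr ⟨C, Q, h2, h3, h4, h5, n, h6⟩
  right
  have : Nontrivial G := by
    by_contra h
    rw [not_nontrivial_iff_subsingleton] at h
    exact hnil inferInstance
  obtain ⟨p, hp, hK⟩ := Grp.exists_pCore_ne_bot G
  have := Fact.mk hp
  refine ⟨p, hp, hK, ?_⟩
  set K := pCore p G with hKdef
  have hKp : IsPGroup p K := Grp.pCore_isPGroup p G
  -- `F(G) = O_p(G)`
  have hF : fittingSubgroup G = K := by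
    refine le_antisymm ?_ (Grp.pCore_le_fitting p)
    rw [Grp.fitting_eq_iSup_pCore]
    refine iSup_le fun q => ?_
    by_cases hqp : (q : ℕ) = p
    · rw [hqp]
    have := Fact.mk q.2
    by_contra hq
    obtain ⟨y, hy, hy1⟩ := (Subgroup.bot_or_exists_ne_one (pCore q G)).resolve_left
      (fun h => hq (h ▸ bot_le))
    obtain ⟨x, hx, hx1⟩ := (Subgroup.bot_or_exists_ne_one K).resolve_left hK
    obtain ⟨P⟩ : Nonempty (Sylow p G) := inferInstance
    have h1 : (P : Subgroup G) ≤ Subgroup.centralizer (pCore q G : Set G) := by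
      refine Subgroup.le_centralizer_iff.mp fun g hg => ?_
      have hg' := Grp.pCore_le_pPrimeCore_of_ne hqp hg
      exact Solv.CN.mem_centralizer_of_commute hCN P.isPGroup'.isNilpotent
        (Grp.pCore_le_sylow P hx) hx1 (Grp.pCore_le_centralizer_pPrimeCore p G hx g hg').symm
        (Solv.coprime_card_of_isPGroup P.isPGroup'
          (Grp.orderOf_coprime_of_mem_pPrimeCore hg')).symm
    have hCn : Group.IsNilpotent (Subgroup.centralizer (pCore q G : Set G)) :=
      Solv.CN.isNilpotent_of_le_centralizer hCN hy1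
        (Subgroup.centralizer_le (Set.singleton_subset_iff.mpr hy))
    have h2 : (P : Subgroup G) ≤ pCore p G :=
      Grp.le_pCore_of_le_fitting P.isPGroup' (h1.trans (Grp.le_fitting inferInstance hCn))
    refine hsyl ⟨p, inferInstance, P, Solv.CN.ne_bot_of_mem (Grp.pCore_le_sylow P hx) hx1, ?_⟩
    rw [le_antisymm h2 (Grp.pCore_le_sylow P)]
    infer_instance
  have hCK : Subgroup.centralizer (K : Set G) ≤ K := hF ▸ Grp.centralizer_fitting_le G
  obtain ⟨H, hH1, hH2⟩ := Solv.Pi.exists_isPiHall {q | q ≠ p} G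
  have hHp : (Nat.card H).Coprime p :=
    ((Nat.Prime.coprime_iff_not_dvd hp).mpr fun hd => hH1 p hp hd rfl).symm
  obtain ⟨n, hn⟩ : ∃ n, H.index = p ^ n :=
    ⟨_, Nat.eq_prime_pow_of_unique_prime_dvd Subgroup.FiniteIndex.index_ne_zero
      (fun hq hd => by by_contra h; exact hH2 _ hq h hd)⟩
  have hKH : K ⊓ H = ⊥ := Grp.inf_eq_bot_of_isPGroup_of_coprime hKp hHp
  have hKH' : ∀ a ∈ H, a ∈ K → a = 1 := fun a ha hk => by
    have : a ∈ K ⊓ H := ⟨hk, ha⟩
    rwa [hKH] at this
  have hfpf : ∀ a ∈ H, a ≠ 1 → K ⊓ Subgroup.centralizer {a} = ⊥ := by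
    intro a ha ha1
    by_contra hne
    obtain ⟨x, ⟨hx, hxa⟩, hx1⟩ := (Subgroup.bot_or_exists_ne_one _).resolve_left hne
    exact ha1 (hKH' a ha (hCK (Solv.CN.mem_centralizer_of_commute hCN hKp.isNilpotent hx hx1
      (Subgroup.mem_centralizer_singleton_iff.mp hxa) (Solv.coprime_card_of_isPGroup hKp
        (hHp.coprime_dvd_left (H.orderOf_dvd_natCard ha))).symm)))
  have hH : H ≠ ⊥ := by
    intro h
    rw [h, Subgroup.index_bot] at hn
    exact hnil (IsPGroup.of_card hn).isNilpotent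
  obtain ⟨C, Q, hsup, hC, hcyc, hodd, -, hCmax⟩ := Solv.CN.structure_of_fpf
    (Solv.CN.isNilpotent_of_fpf hCN hK (hnorm _ _) hfpf) hK (hnorm _ _) hfpf
  -- pass to the quotient
  have hCN' : IsCNGroup (G ⧸ K) := Solv.CN.quotient hCN K inferInstance
  set φ := QuotientGroup.mk' K with hφ
  have hφ1 : ∀ a, φ a = 1 ↔ a ∈ K := fun a => QuotientGroup.eq_one_iff a
  set B := fittingSubgroup (G ⧸ K) with hB
  have hBn : Group.IsNilpotent B := Grp.isNilpotent_of_le_fitting le_rfl
  have hCB : Subgroup.centralizer (B : Set (G ⧸ K)) ≤ B := Grp.centralizer_fitting_le _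
  have hBp : (Nat.card B).Coprime p := Grp.coprime_of_le_pPrimeCore
    (Grp.fitting_le_pPrimeCore_of_pCore_eq_bot (Grp.pCore_quotient_pCore p G))
  have hBH : B ≤ H.map φ := by
    refine Grp.le_of_coprime_card_index (Nat.Coprime.coprime_dvd_right
      (Subgroup.index_map_dvd H (QuotientGroup.mk'_surjective K)) ?_)
    rw [hn]
    exact hBp.pow_right n
  have hpd : p ∣ Nat.card (G ⧸ K) := by
    by_contra h
    exact hsyl ⟨p, inferInstance, hKp.toSylow h, hK, (inferInstance : K.Normal)⟩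
  have hBodd : Odd (Nat.card B) := by
    by_contra h
    obtain ⟨x, hx⟩ := exists_prime_orderOf_dvd_card' p hpd
    obtain ⟨b, hb⟩ := exists_prime_orderOf_dvd_card' 2 (Nat.not_odd_iff_even.mp h).two_dvd
    rw [← Subgroup.orderOf_coe] at hb
    have hb1 : (b : G ⧸ K) ≠ 1 := fun h => by
      rw [h, orderOf_one] at hb
      omega
    have hb2 : (b : G ⧸ K) * b = 1 := by rw [← pow_two, ← hb, pow_orderOf_eq_one]
    have hinv : ∀ s t : G ⧸ K, s ∈ B → t ∈ B → s ≠ 1 → t ≠ 1 → s * s = 1 → t * t = 1 → s = t := by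
      intro s t hs ht hs1 ht1 hs2 ht2
      obtain ⟨s, hsH, rfl⟩ := hBH hs
      obtain ⟨t, htH, rfl⟩ := hBH ht
      rw [Solv.CN.involution_unique_of_fpf hK (hnorm _ _) hfpf hsH htH
        (fun h => hs1 (by rw [h, map_one])) (fun h => ht1 (by rw [h, map_one]))
        (hKH' _ (H.mul_mem hsH hsH) ((hφ1 _).mp (by rw [map_mul, hs2])))
        (hKH' _ (H.mul_mem htH htH) ((hφ1 _).mp (by rw [map_mul, ht2])))]
    have h1 := hinv (x * b * x⁻¹) b ((inferInstance : B.Normal).conj_mem _ b.2 x) b.2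
      (by simpa using hb1) hb1
      (by rw [show x * b * x⁻¹ * (x * b * x⁻¹) = x * (b * b) * x⁻¹ by group, hb2]; simp) hb2
    have h2 := hCB (Solv.CN.mem_centralizer_of_commute hCN' hBn b.2 hb1
      (mul_inv_eq_iff_eq_mul.mp h1).symm (by rw [hx]; exact hBp))
    have h3 := B.orderOf_dvd_natCard h2
    rw [hx] at h3
    exact hp.one_lt.ne' (hBp.symm.eq_one_of_dvd h3)
  have hA : H ⊓ B.comap φ ≤ C := by
    refine hCmax _ inf_le_left (Odd.of_dvd_nat hBodd ?_)
    rw [← Grp.card_map_mk'_of_disjoint K (H := H ⊓ B.comap φ)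
      (by rw [← inf_assoc, hKH, bot_inf_eq])]
    exact Subgroup.card_dvd_of_le (Subgroup.map_le_iff_le_comap.mpr inf_le_right)
  have hHB : H.map φ = B := by
    refine le_antisymm (le_trans ?_ hCB) hBH
    rintro _ ⟨h, hh, rfl⟩ b hb
    obtain ⟨a, ha, rfl⟩ := hBH hb
    rw [← map_mul, ← map_mul, hC hh a (hA ⟨ha, hb⟩)]
  have hHC : H = C := le_antisymm
    (le_trans (le_inf le_rfl (Subgroup.map_le_iff_le_comap.mp hHB.le)) hA) (hsup ▸ le_sup_left)
  have hcomap : K ⊔ H = B.comap φ := by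
    rw [← hHB, Subgroup.comap_map_eq, QuotientGroup.ker_mk', sup_comm]
  obtain ⟨m, -, hm⟩ : ∃ m ≤ n, (K ⊔ H).index = p ^ m :=
    (Nat.dvd_prime_pow hp).mp (hn ▸ Subgroup.index_dvd_of_le le_sup_right)
  refine ⟨H, hH, hHC ▸ hcyc, hHC ▸ hodd, hHp, hcomap ▸ inferInstance, fun h => ?_, ⟨m, hm⟩, hfpf,
    fun x hx a ha ha1 hxa => hx ?_⟩
  · have h1 : B = ⊤ := by
      rw [← Subgroup.map_comap_eq_self_of_surjective (QuotientGroup.mk'_surjective K) B, ← hcomap,
        h, Subgroup.map_top_of_surjective _ (QuotientGroup.mk'_surjective K)]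
    rw [h1, Subgroup.card_top] at hBp
    exact hp.one_lt.ne' (hBp.symm.eq_one_of_dvd hpd)
  · rw [hcomap] at hm ⊢
    rw [Subgroup.index_comap_of_surjective _ (QuotientGroup.mk'_surjective K)] at hm
    refine Solv.CN.mem_of_commute_of_hall hCN' hBn (hm ▸ hBp.pow_right m) hCB
      (x := φ a) (hHB ▸ ⟨a, ha, rfl⟩) (fun h => ha1 (hKH' a ha ((hφ1 a).mp h)))
      (by rw [Subgroup.normalizer_eq_top]; trivial) ?_
    have h1 := (hφ1 _).mpr hxa
    simp only [map_mul, map_inv] at h1
    exact (commutatorElement_eq_one_iff_commute.mp h1).symm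

end Cfsg.Agent.S1476
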