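import Cfsg.Statements.S1477
import Mathlib
import Cfsg.Agent.Solv.CN

set_option autoImplicit false
open Cfsg

namespace Cfsg.Agent.S1477

/-- Let G be a finite group in which every non-identity element has nilpotent centralizer, and H a nilpotent subgroup not properly contained in any nilpotent subgroup. Then the order of H is coprime to its index; if the order of H is not a prime power then H ∩ gHg⁻¹ = 1 whenever gHg⁻¹ ≠ H; and if H ∩ gHg⁻¹ = 1 whenever gHg⁻¹ ≠ H, then C_G(x) ≤ H for every non-identity x ∈ H. -/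
theorem result {G : Type*} [Group G] [Finite G] (hCN : Cfsg.IsCNGroup G) (H : Subgroup G) (hH : Group.IsNilpotent H)
    (hmax : ∀ L : Subgroup G, Group.IsNilpotent L → H ≤ L → L = H) :
    (Nat.card H).Coprime H.index ∧
      (¬ IsPrimePow (Nat.card H) → Nat.card H ≠ 1 → ∀ g : G, H.map (MulAut.conj g).toMonoidHom ≠ H → H ⊓ H.map (MulAut.conj g).toMonoidHom = ⊥) ∧
      ((∀ g : G, H.map (MulAut.conj g).toMonoidHom ≠ H → H ⊓ H.map (MulAut.conj g).toMonoidHom = ⊥) → ∀ x ∈ H, x ≠ 1 → Subgroup.centralizer ({x} : Set G) ≤ H) := by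
  have hall := Solv.CN.hall_of_max hCN hH hmax
  refine ⟨hall, fun hp h1 g hg => ?_, fun hTI x hx h1 c hc => ?_⟩
  · by_contra h
    obtain ⟨w, hw1, hH1, hH2⟩ := Solv.CN.exists_le_centralizer_of_inf_ne_bot hCN hH
      (Grp.isNilpotent_map H _) hp h
    rw [hmax _ (hCN w hw1) hH1] at hH2
    exact hg (Subgroup.eq_of_le_of_card_ge hH2 (Grp.card_conj_smul g H).ge)
  · have hxc : Commute x c := (Subgroup.mem_centralizer_singleton_iff.mp hc).symm
    refine Solv.CN.mem_of_commute_of_hall hCN hH hall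
      (Solv.CN.centralizer_le_of_max hCN hH (Solv.CN.ne_bot_of_mem hx h1) hmax) hx h1 ?_ hxc
    rw [← Grp.conj_smul_eq_iff_mem_normalizer]
    by_contra hne
    have : x ∈ H ⊓ H.map (MulAut.conj c).toMonoidHom :=
      ⟨hx, Grp.mem_map_conj_iff.mpr (by rw [mul_assoc, hxc.eq]; simpa using hx)⟩
    rw [hTI c hne] at this
    exact h1 this

end Cfsg.Agent.S1477
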