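import Cfsg.Statements.S1481
import Mathlib
import Cfsg.Agent.FT.BG8Base
import Cfsg.Agent.FT.Stable
import Cfsg.Agent.Solv.FrobeniusAction

set_option autoImplicit false
open Cfsg

namespace Cfsg.Agent.S1481

open Subgroup Cfsg.Agent.FT

/-- Let G be a finite group and H a local subgroup (the normalizer of a nontrivial subgroup of prime-power order) not properly contained in any local subgroup; let F = F(H), suppose at least two primes divide #F, put X = H ∩ C_G(F), let M ≤ F with F ∩ C_G(M) ≤ M, and let R be a solvable subgroup normalized by M and by X. Then for every prime q not dividing #F there is exactly one maximal M-invariant q-subgroup of R, and it is a Sylow q-subgroup of the largest normal subgroup of R of order coprime to #F. -/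
theorem result {G : Type*} [Group G] [Finite G] (H : Subgroup G) (hH : Cfsg.IsLocalSubgroup H) (hHmax : ∀ L : Subgroup G, Cfsg.IsLocalSubgroup L → H ≤ L → L = H)
    (hF2 : 2 ≤ (Nat.card (Cfsg.fittingOf H)).primeFactors.card)
    (M : Subgroup G) (hM : M ≤ Cfsg.fittingOf H) (hCM : Cfsg.fittingOf H ⊓ Subgroup.centralizer (M : Set G) ≤ M)
    (R : Subgroup G) (hR : Group.IsSolvable R) (hMR : M ≤ Subgroup.normalizer (R : Set G))
    (hXR : H ⊓ Subgroup.centralizer (Cfsg.fittingOf H : Set G) ≤ Subgroup.normalizer (R : Set G))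
    (q : ℕ) [Fact q.Prime] (hq : ¬ q ∣ Nat.card (Cfsg.fittingOf H)) :
    ∃! Q : Subgroup G, Q ∈ Cfsg.maxInvSubgroups R M {q} ∧
      (∀ Q' : Subgroup G, Q' ∈ Cfsg.maxInvSubgroups R M {q} →
        Q' ≤ Cfsg.piCoreOf (Cfsg.primesNotDvd (Nat.card (Cfsg.fittingOf H))) R ∧
        ¬ q ∣ Q'.relIndex (Cfsg.piCoreOf (Cfsg.primesNotDvd (Nat.card (Cfsg.fittingOf H))) R)) := by
  have hq' : q.Prime := Fact.out
  set F := fittingOf H with hF
  set π := primesNotDvd (Nat.card F) with hπ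
  set K := piCoreOf π R with hK
  have hFH : F ⊴ H := B8.fit_normIn H
  have hFn : Group.IsNilpotent F := B8.fit_nilpotent H
  have hMH : M ≤ H := hM.trans hFH.1
  -- the centres of the cores
  have hZ : ∀ r : ℕ, r.Prime → r ∣ Nat.card F → ∃ Z : Subgroup G, IsPGroup r Z ∧
      Z ≤ M ⊓ piCoreOf {r} H ∧ 𝒩(Z) = H := by
    intro r hr hd
    have h1 : piCoreOf {r} H ⊴ H := B8.piCoreOf_normIn _ _
    have h2 := B8.pcore_le_fit hr H
    have hp : IsPGroup r ↥(piCoreOf {r} H ⊓ 𝒞(F)) := (B8.pcore_isPGroup hr H).to_inf_left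
    refine ⟨piCoreOf {r} H ⊓ 𝒞(F), hp,
      le_inf (le_trans (inf_le_inf h2 (cent_anti hM)) hCM) inf_le_left,
      hHmax _ ⟨r, _, hr, hp, B8.inf_cent_ne_bot hFn (h1.of_le h2 hFH.1)
        (B8.pcore_ne_bot_of_dvd hr hd), rfl⟩ (h1.inf_cent hFH.2).2⟩
  -- `C_H(F) ∩ R ≤ F`
  have hXF : (H ⊓ 𝒞(F)) ⊓ R ≤ F := by
    set S := (H ⊓ 𝒞(F)) ⊓ R with hS
    have hSX : S ⊴ H ⊓ 𝒞(F) := ⟨inf_le_left, norm_inf le_normalizer hXR⟩
    have h1 : fittingOf S ≤ F :=
      (Grp.map_fitting_le_map_fitting hSX.1 hSX.2).trans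
        (Grp.map_fitting_le_map_fitting inf_le_left ((NormIn.refl H).inf_cent hFH.2).2)
    refine le_trans ?_ ((bg1_3 (isSolvable_of_le inf_le_right hR)).trans h1)
    exact le_inf le_rfl ((inf_le_left.trans inf_le_right).trans (cent_anti h1))
  -- no fixed points
  have hfix : ∀ Y : Subgroup G, Y ≤ R → M ≤ 𝒩(Y) → (Nat.card Y).Coprime (Nat.card F) →
      Y ⊓ H = ⊥ := by
    intro Y hYR hMY hc
    have hb : ∀ W : Subgroup G, W ≤ Y → W ≤ F → W = ⊥ := fun W h1 h2 => by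
      rw [eq_bot_iff, ← Subgroup.inf_eq_bot_of_coprime hc]
      exact le_inf h1 h2
    have h1 : Y ⊓ H ≤ 𝒞(M) := by
      rw [← comm_eq_bot_iff]
      exact hb _ ((commutator_mono inf_le_left le_rfl).trans (comm_le_left hMY))
        ((commutator_mono inf_le_right hM).trans (comm_le_right hFH.2))
    have h2 : Y ⊓ H ≤ 𝒞(F) := by
      have h3 : M ≤ F ⊓ 𝒞(Y ⊓ H) := le_inf hM (le_cent_comm.mp h1)
      refine coprime_nil_faithful_cent_stab hFn (inf_le_right.trans hFH.2)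
        (hc.coprime_dvd_left (card_dvd_of_le inf_le_left)) ?_
      exact (inf_le_inf_left _ (cent_anti h3)).trans (hCM.trans h3)
    exact hb _ inf_le_left
      ((le_inf (le_inf inf_le_right h2) (inf_le_left.trans hYR)).trans hXF)
  -- every invariant `π'`-subgroup lies in `K`
  have hin : ∀ Y : Subgroup G, Y ≤ R → M ≤ 𝒩(Y) → (Nat.card Y).Coprime (Nat.card F) → Y ≤ K := by
    intro Y hYR hMY hc
    refine B8.le_piCoreOf_of_forall hYR fun p hp hpπ => ?_
    have := Fact.mk hp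
    have hpd : p ∣ Nat.card F := by
      by_contra h
      exact hpπ ⟨hp, h⟩
    obtain ⟨r, hr, hrp⟩ := Finset.exists_mem_ne (lt_of_lt_of_le one_lt_two hF2) p
    have hr' := Nat.prime_of_mem_primeFactors hr
    have := Fact.mk hr'
    obtain ⟨Zp, hZp, hZpM, hZpH⟩ := hZ p hp hpd
    obtain ⟨Zr, hZr, hZrM, hZrH⟩ := hZ r hr' (Nat.dvd_of_mem_primeFactors hr)
    have hZrF : Zr ≤ F := hZrM.trans (inf_le_left.trans hM)
    have hZrY : Zr ≤ 𝒩(Y) := (hZrM.trans inf_le_left).trans hMY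
    have h1 : ⁅Y, Zr⁆ = Y := by
      have h2 := Solv.coprime_commutator_sup_centralizer Zr Y hZrY
        (hc.symm.coprime_dvd_left (card_dvd_of_le hZrF)) (Or.inl (Solv.isSolvable_of_isPGroup hZr))
      have h3 : Y ⊓ 𝒞(Zr) = ⊥ := by
        rw [eq_bot_iff, ← hfix Y hYR hMY hc, ← hZrH]
        exact inf_le_inf_left _ (cent_le_norm _)
      rwa [h3, sup_bot_eq] at h2
    set L := M ⊔ R with hL
    have hLs : Group.IsSolvable L := Solv.Frob.isSolvable_sup_of_le_normalizer hMR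
      (by have := isNilpotent_of_le hM hFn; infer_instance) hR
    have h2 : Zr ≤ piCoreOf {p}ᶜ L := by
      refine bg1_15_aux hLs hZp (hZpM.trans (inf_le_left.trans le_sup_left))
        ⟨le_inf (hZrM.trans (inf_le_left.trans le_sup_left)) ?_, ?_⟩
        (Grp.coprime_card_of_isPGroup_of_ne hrp hZr)
      · rw [hZpH]
        exact hZrF.trans hFH.1
      · rw [hZpH, hZrH]
        exact inf_le_right
    have h3 : Y ≤ piCoreOf {p}ᶜ L := by
      rw [← h1]
      exact (commutator_mono (hYR.trans le_sup_right) h2).trans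
        (comm_le_right (B8.piCoreOf_normIn _ L).2)
    exact (le_inf h3 hYR).trans (B7.piCoreOf_inf_le _ le_sup_right)
  have hKc : (Nat.card F).Coprime (Nat.card K) := B7.coprime_of_primesNotDvd (B7.piCoreOf_pi _ _)
  have hMK : M ≤ 𝒩(K) := hMR.trans (B7.normalizer_le_normalizer_piCoreOf _ _)
  have hKR : K ≤ R := B7.piCoreOf_le _ _
  have hcop : (Nat.card M).Coprime (Nat.card K) := hKc.coprime_dvd_left (card_dvd_of_le hM)
  have hs : Group.IsSolvable M ∨ Group.IsSolvable K := Or.inr (isSolvable_of_le hKR hR)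
  have hmax : ∀ Q ∈ maxInvSubgroups R M {q}, Q ∈ maxInvSubgroups K M {q} := by
    intro Q hQ
    refine ⟨⟨hin Q hQ.1.1 hQ.1.2.2 ?_, hQ.1.2⟩, fun S hS h => hQ.2 S ⟨hS.1.trans hKR, hS.2⟩ h⟩
    exact (Solv.coprime_card_of_isPGroup ((B7.isPGroup_iff_primes hq').mpr hQ.1.2.1)
      ((Nat.Prime.coprime_iff_not_dvd hq').mpr hq).symm).symm
  obtain ⟨Q, hQ, -⟩ := B7.exists_maxInv_ge (B7.bot_mem_inv R M {q})
  refine ⟨Q, ⟨hQ, fun Q' hQ' => ⟨(hmax Q' hQ').1.1, ?_⟩⟩, fun Q' hQ' => ?_⟩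
  · obtain ⟨P, rfl⟩ := B7.exists_sylow_of_maxInv hMK hcop hs (hmax Q' hQ')
    rw [relIndex, subgroupOf, comap_map_eq_self_of_injective K.subtype_injective]
    exact P.not_dvd_index
  · obtain ⟨c, hc, h⟩ := B7.maxInv_conj_of_coprime hMK hcop hs (hmax Q hQ) (hmax Q' hQ'.1)
    obtain ⟨r, hr⟩ := Finset.card_pos.mp (lt_of_lt_of_le two_pos hF2)
    obtain ⟨Z, -, hZM, hZH⟩ := hZ r (Nat.prime_of_mem_primeFactors hr)
      (Nat.dvd_of_mem_primeFactors hr)
    have h1 : c ∈ K ⊓ H :=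
      ⟨hc.1, hZH ▸ cent_le_norm Z (cent_anti (hZM.trans inf_le_left) hc.2)⟩
    rw [hfix K hKR hMK hKc.symm, mem_bot] at h1
    rw [h, h1, B7.conj_one]

end Cfsg.Agent.S1481
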