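import Cfsg.Statements.S1488
import Cfsg.Agent.Char.Induction
import Cfsg.Agent.Char.Inner

set_option autoImplicit false
open Cfsg

namespace Cfsg.Agent.S1488

/-- Let A be a normal subgroup of the finite group G contained in the subgroup H, let θ be a function on H and θ₁ a function on the image of H in G ⧸ A whose composite with the projection is θ. Then the function induced from θ₁ to G ⧸ A, composed with the projection G → G ⧸ A, equals the function induced from θ to G. -/
theorem result {G : Type*} [Group G] [Fintype G] (A H : Subgroup G) [A.Normal] (hAH : A ≤ H) [Fintype (G ⧸ A)] [Fintype ↥(H.map (QuotientGroup.mk' A))] (θ : H → ℂ) (θ₁ : ↥(H.map (QuotientGroup.mk' A)) → ℂ) (hθ : ∀ x : H, θ₁ ⟨QuotientGroup.mk' A x, Subgroup.mem_map_of_mem _ x.2⟩ = θ x) (g : G) : Cfsg.indFun (H.map (QuotientGroup.mk' A)) θ₁ (QuotientGroup.mk' A g) = Cfsg.indFun H θ g := by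
  classical
  have hmem : ∀ y : G, (QuotientGroup.mk' A y ∈ H.map (QuotientGroup.mk' A)) ↔ y ∈ H := by
    intro y
    constructor
    · intro hy
      have : y ∈ (H.map (QuotientGroup.mk' A)).comap (QuotientGroup.mk' A) := hy
      rwa [Subgroup.comap_map_eq, QuotientGroup.ker_mk', sup_eq_left.2 hAH] at this
    · exact fun hy => Subgroup.mem_map_of_mem _ hy
  have hext : ∀ y : G, extendByZero (H.map (QuotientGroup.mk' A)) θ₁ (QuotientGroup.mk' A y)
      = extendByZero H θ y := by
    intro y
    by_cases hy : y ∈ H
    · rw [Char.extendByZero_of_mem _ _ ((hmem y).2 hy), Char.extendByZero_of_mem _ _ hy]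
      exact hθ ⟨y, hy⟩
    · rw [Char.extendByZero_of_not_mem _ _ (fun h => hy ((hmem y).1 h)),
        Char.extendByZero_of_not_mem _ _ hy]
  have : Fintype A := Fintype.ofFinite A
  have hsum : ∑ x : G, extendByZero H θ (x⁻¹ * g * x) = Nat.card A *
      ∑ q : G ⧸ A, extendByZero (H.map (QuotientGroup.mk' A)) θ₁
        (q⁻¹ * QuotientGroup.mk' A g * q) := by
    rw [Char.sum_eq_sum_quotient_sum A, Finset.mul_sum]
    refine Finset.sum_congr rfl fun q _ => ?_
    rw [Nat.card_eq_fintype_card, ← nsmul_eq_mul, ← Finset.card_univ, ← Finset.sum_const]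
    refine Finset.sum_congr rfl fun a _ => ?_
    rw [← hext]
    congr 1
    have : QuotientGroup.mk' A (q.out * (a : G)) = q := by
      simp
    rw [map_mul, map_mul, map_inv, this]
  have hcard : Nat.card H = Nat.card A * Nat.card (H.map (QuotientGroup.mk' A)) := by
    have h1 := Subgroup.card_eq_card_quotient_mul_card_subgroup
      ((QuotientGroup.mk' A).domRestrict H).ker
    have h2 := Nat.card_congr (QuotientGroup.quotientKerEquivRange
      ((QuotientGroup.mk' A).domRestrict H)).toEquiv
    rw [MonoidHom.domRestrict_range] at h2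
    rw [h1, h2, MonoidHom.ker_domRestrict, QuotientGroup.ker_mk',
      Nat.card_congr (Subgroup.subgroupOfEquivOfLe hAH).toEquiv, mul_comm]
  rw [Char.indFun_apply, Char.indFun_apply, hsum, hcard]
  have hA := Char.card_ne_zero A
  have hB := Char.card_ne_zero (H.map (QuotientGroup.mk' A))
  push_cast
  field_simp

end Cfsg.Agent.S1488
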