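import Cfsg.Statements.S1497
import Cfsg.Agent.FT.DadeBasic
-- import your own Cfsg.Agent.* helpers here

set_option autoImplicit false
open Cfsg

namespace Cfsg.Agent.S1497

/-- Let A be a nonempty subset of the finite group G not containing 1 and L a subgroup. Then A is a TI-subset whose normaliser is L if and only if the Dade hypothesis holds for A, L and the constant choice H(a) = ⊥. -/
theorem result {G : Type*} [Group G] [Finite G] (A : Set G) (hA : A.Nonempty) (h1 : (1 : G) ∉ A) (L : Subgroup G) : (Cfsg.IsTISubset A ∧ Subgroup.normalizer A = L) ↔ Cfsg.DadeHypothesis A L (fun _ => ⊥) := by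
  constructor
  · rintro ⟨hTI, hN⟩
    have hc : ∀ x ∈ L, ∀ a ∈ A, x * a * x⁻¹ ∈ A := fun x hx a ha =>
      (Subgroup.mem_set_normalizer_iff.mp (hN ▸ hx) a).mp ha
    have hin : ∀ a ∈ A, ∀ g : G, g * a * g⁻¹ ∈ A → g ∈ L := by
      intro a ha g hg
      by_contra hgL
      exact h1 (hTI g (hN ▸ hgL) a ha hg ▸ ha)
    exact
      { one_not_mem := h1
        subset := fun a ha => hin a ha a (by simpa using ha)
        conj_mem := hc
        fusion := fun a ha g hg => ⟨g, hin a ha g hg, rfl⟩
        le_centralizer := fun _ _ => bot_le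
        conj_mem_H := fun a _ c _ u hu => by
          rw [Subgroup.mem_bot] at hu ⊢; simp [hu]
        inf_eq_bot := fun _ _ => bot_inf_eq _
        sup_eq := fun a ha => by
          rw [bot_sup_eq, inf_eq_right]
          intro c hc
          apply hin a ha c
          rw [Subgroup.mem_centralizer_singleton_iff.mp hc]
          simpa using ha
        coprime := fun _ _ _ _ => by simp }
  · intro hD
    have hin : ∀ a ∈ A, ∀ g : G, g * a * g⁻¹ ∈ A → g ∈ L := by
      intro a ha g hg
      obtain ⟨x, hx, e⟩ := hD.fusion a ha g hg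
      have h2 : x⁻¹ * g ∈ Subgroup.centralizer ({a} : Set G) := by
        rw [Subgroup.mem_centralizer_singleton_iff]
        calc x⁻¹ * g * a = x⁻¹ * (g * a * g⁻¹) * g := by group
          _ = a * (x⁻¹ * g) := by rw [← e]; group
      rw [← hD.sup_eq a ha, bot_sup_eq] at h2
      simpa using L.mul_mem hx h2.1
    have hN : Subgroup.normalizer A = L := by
      apply le_antisymm
      · intro g hg
        obtain ⟨a, ha⟩ := hA
        exact hin a ha g ((Subgroup.mem_set_normalizer_iff.mp hg a).mp ha)
      · intro x hx
        refine Subgroup.mem_set_normalizer_iff.mpr fun a => ⟨hD.conj_mem x hx a, fun h => ?_⟩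
        simpa [mul_assoc] using hD.conj_mem x⁻¹ (L.inv_mem hx) _ h
    exact ⟨fun g hg a ha hga => absurd (hN ▸ hin a ha g hga) hg, hN⟩

end Cfsg.Agent.S1497
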