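import Cfsg.Statements.S1499
import Cfsg.Agent.FT.DadeBasic
-- import your own Cfsg.Agent.* helpers here

set_option autoImplicit false
open Cfsg

namespace Cfsg.Agent.S1499

/-- Under the Dade hypothesis for (A, L, H), let a, b ∈ A. If an element of the coset a·H(a) is conjugate in G to an element of b·H(b), then a and b are conjugate by an element of L. Moreover the set normaliser of the coset a·H(a) is the centraliser of a. -/
theorem result {G : Type*} [Group G] [Finite G] (A : Set G) (L : Subgroup G) (H : G → Subgroup G) (hD : Cfsg.DadeHypothesis A L H) (a b : G) (ha : a ∈ A) (hb : b ∈ A) : ((∃ u ∈ H a, ∃ v ∈ H b, ∃ g : G, g * (a * u) * g⁻¹ = b * v) → ∃ x ∈ L, x * a * x⁻¹ = b) ∧ Subgroup.normalizer ((fun u : G => a * u) '' (H a : Set G)) = Subgroup.centralizer ({a} : Set G) := by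
  refine ⟨fun ⟨u, hu, v, hv, g, e⟩ => FT.Dade.exists_conj_of_conj_mul hD ha hb hu hv e, ?_⟩
  ext g
  rw [Subgroup.mem_centralizer_singleton_iff]
  constructor
  · intro hg
    have h1 := (Subgroup.mem_set_normalizer_iff.mp hg a).mp ⟨1, one_mem _, by simp⟩
    obtain ⟨v, hv, e⟩ := h1
    have := FT.Dade.conj_eq_of_conj_mul hD (g := g) ha ha (one_mem _) hv (by simpa using e.symm)
    calc g * a = g * a * g⁻¹ * g := by group
      _ = a * g := by rw [this]
  · intro hg
    have key : ∀ g : G, g * a = a * g → ∀ y ∈ (fun u : G => a * u) '' (H a : Set G),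
        g * y * g⁻¹ ∈ (fun u : G => a * u) '' (H a : Set G) := by
      rintro g hg _ ⟨u, hu, rfl⟩
      refine ⟨g * u * g⁻¹, hD.conj_mem_H a ha g (Subgroup.mem_centralizer_singleton_iff.mpr hg) u hu, ?_⟩
      simp only [← mul_assoc, hg]
    refine Subgroup.mem_set_normalizer_iff.mpr fun y => ⟨key g hg y, fun hy => ?_⟩
    have := key g⁻¹ (by
      calc g⁻¹ * a = g⁻¹ * (a * g) * g⁻¹ := by group
        _ = a * g⁻¹ := by rw [← hg]; group) _ hy
    simpa [mul_assoc] using this

end Cfsg.Agent.S1499
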