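import Cfsg.Statements.S1504
import Cfsg.Agent.FT.CycTIBridge

set_option autoImplicit false
set_option maxSynthPendingDepth 3
open Cfsg

namespace Cfsg.Agent.S1504

/-- Let W₁, W₂ be subgroups of a finite group with W₁ ⊓ W₂ = ⊥ whose elements commute, and W = W₁ ⊔ W₂. For linear characters φ, ψ of W with φ trivial on W₂ and ψ trivial on W₁, the function (1 − φ)(1 − ψ) vanishes on W₁ ∪ W₂; and the family of these functions, indexed by pairs (φ, ψ) with φ ≠ 1 ≠ ψ, is linearly independent over ℂ. -/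
theorem result {G : Type*} [Group G] [Finite G] (W₁ W₂ : Subgroup G) (hdisj : W₁ ⊓ W₂ = ⊥) (hcomm : ∀ a ∈ W₁, ∀ b ∈ W₂, a * b = b * a) : (∀ φ ψ : ↥(W₁ ⊔ W₂) →* ℂˣ, (∀ w : ↥(W₁ ⊔ W₂), (w : G) ∈ W₂ → φ w = 1) → (∀ w : ↥(W₁ ⊔ W₂), (w : G) ∈ W₁ → ψ w = 1) → ∀ w : ↥(W₁ ⊔ W₂), ((w : G) ∈ W₁ ∨ (w : G) ∈ W₂) → (1 - (φ w : ℂ) - (ψ w : ℂ) + (φ w : ℂ) * (ψ w : ℂ)) = 0) ∧ LinearIndependent ℂ (fun p : {p : (↥(W₁ ⊔ W₂) →* ℂˣ) × (↥(W₁ ⊔ W₂) →* ℂˣ) // p.1 ≠ 1 ∧ p.2 ≠ 1 ∧ (∀ w : ↥(W₁ ⊔ W₂), (w : G) ∈ W₂ → p.1 w = 1) ∧ (∀ w : ↥(W₁ ⊔ W₂), (w : G) ∈ W₁ → p.2 w = 1)} => fun w : ↥(W₁ ⊔ W₂) => 1 - (p.1.1 w : ℂ) - (p.1.2 w : ℂ) + (p.1.1 w : ℂ) * (p.1.2 w : ℂ)) := by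
  classical
  haveI : Fintype ↥(W₁ ⊔ W₂) := Fintype.ofFinite _
  have hc := FT.isCompl_subgroupOf (W := W₁ ⊔ W₂) rfl hdisj
  constructor
  · intro φ ψ hφ hψ w hw
    rcases hw with hw | hw
    · rw [hψ w hw]; simp
    · rw [hφ w hw]; simp
  have e : ∀ φ ψ : ↥(W₁ ⊔ W₂) →* ℂˣ,
      (fun w => 1 - (φ w : ℂ) - (ψ w : ℂ) + (φ w : ℂ) * (ψ w : ℂ)) = FT.alphaV φ ψ := by
    intro φ ψ
    funext w
    simp [FT.alphaV, FT.lc]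
    ring
  refine (funext fun p => e _ _ : _ = fun p : {p : (↥(W₁ ⊔ W₂) →* ℂˣ) × (↥(W₁ ⊔ W₂) →* ℂˣ) // p.1 ≠ 1 ∧ p.2 ≠ 1 ∧ (∀ w : ↥(W₁ ⊔ W₂), (w : G) ∈ W₂ → p.1 w = 1) ∧ (∀ w : ↥(W₁ ⊔ W₂), (w : G) ∈ W₁ → p.2 w = 1)} => FT.alphaV p.1.1 p.1.2) ▸ ?_
  have key : ∀ φ ψ φ' ψ' : ↥(W₁ ⊔ W₂) →* ℂˣ, φ' ≠ 1 → ψ' ≠ 1 →
      φ ∈ FT.perp (W₂.subgroupOf (W₁ ⊔ W₂)) → ψ ∈ FT.perp (W₁.subgroupOf (W₁ ⊔ W₂)) →
      φ' ∈ FT.perp (W₂.subgroupOf (W₁ ⊔ W₂)) → ψ' ∈ FT.perp (W₁.subgroupOf (W₁ ⊔ W₂)) →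
      Cfsg.classInner (FT.alphaV φ ψ) (FT.lc (φ' * ψ')) = if φ = φ' ∧ ψ = ψ' then 1 else 0 := by
    intro φ ψ φ' ψ' h1 h2 a b a' b'
    have o₂ := FT.one_mem_perp (W₂.subgroupOf (W₁ ⊔ W₂))
    have o₁ := FT.one_mem_perp (W₁.subgroupOf (W₁ ⊔ W₂))
    have e1 : FT.alphaV φ ψ = FT.lc (φ * ψ) + FT.lc (1 * 1) - FT.lc (φ * 1) - FT.lc (1 * ψ) := by
      simp [FT.alphaV]
    rw [e1]
    simp only [Char.classInner_sub_left, Char.classInner_add_left, FT.classInner_lc,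
      FT.perp_mul_eq_iff hc a a' b b', FT.perp_mul_eq_iff hc o₂ a' o₁ b',
      FT.perp_mul_eq_iff hc a a' o₁ b', FT.perp_mul_eq_iff hc o₂ a' b b', h1.symm, h2.symm]
    simp
  rw [linearIndependent_iff']
  intro s c hs p hp
  have := congrArg (fun f => Cfsg.classInner f (FT.lc (p.1.1 * p.1.2))) hs
  simp only [Char.classInner_sum_left, Char.classInner_smul_left, Char.classInner_zero_left] at this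
  rw [Finset.sum_eq_single p] at this
  · rw [key _ _ _ _ p.2.1 p.2.2.1 (FT.mem_perp_subgroupOf.2 p.2.2.2.1)
      (FT.mem_perp_subgroupOf.2 p.2.2.2.2) (FT.mem_perp_subgroupOf.2 p.2.2.2.1)
      (FT.mem_perp_subgroupOf.2 p.2.2.2.2)] at this
    simpa using this
  · intro q _ hq
    rw [key _ _ _ _ p.2.1 p.2.2.1 (FT.mem_perp_subgroupOf.2 q.2.2.2.1)
      (FT.mem_perp_subgroupOf.2 q.2.2.2.2) (FT.mem_perp_subgroupOf.2 p.2.2.2.1)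
      (FT.mem_perp_subgroupOf.2 p.2.2.2.2), if_neg, mul_zero]
    exact fun h => hq (Subtype.ext (Prod.ext h.1 h.2))
  · exact fun h => absurd hp h

end Cfsg.Agent.S1504
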