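import Cfsg.Statements.S1511
import Cfsg.Agent.FT.PrimeTIBridge

set_option autoImplicit false
set_option maxSynthPendingDepth 3
open Cfsg

namespace Cfsg.Agent.S1511

/-- Let L be a finite group with K normal with complement W₁ ≠ 1 a cyclic Hall subgroup, and W₂ ≠ 1 a cyclic subgroup of K equal to C_K(x) for every non-identity x ∈ W₁, with W₁W₂ of odd order. Then there are a map μ from the linear characters of W = W₁ ⊔ W₂ to irreducible characters of L, injective, and a sign δ(ω) ∈ {1, −1} depending only on the values of ω on W₂, such that: for ω, ω' agreeing on W₂, the function induced to L from ω − ω' equals δ(ω) • (μ ω − μ ω'); μ ω x = δ(ω) ω x for x ∈ W outside W₂; every irreducible character of L not of the form μ ω vanishes on W outside W₂; and μ ω 1 − δ(ω) is an integer multiple of Nat.card W₁.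 -/
theorem result {L : Type*} [Group L] [Fintype L] (K W₁ W₂ : Subgroup L) [hK : K.Normal] (hKW₁ : K ⊓ W₁ = ⊥) (hKW₁' : K ⊔ W₁ = ⊤) (hW₁ : W₁ ≠ ⊥) (hW₁c : IsCyclic W₁) (hHall : Nat.Coprime (Nat.card W₁) W₁.index) (hW₂ : W₂ ≠ ⊥) (hW₂c : IsCyclic W₂) (hW₂K : W₂ ≤ K) (hC : ∀ x ∈ W₁, x ≠ 1 → K ⊓ Subgroup.centralizer ({x} : Set L) = W₂) (hodd : Odd (Nat.card ↥(W₁ ⊔ W₂))) : ∃ (μ : (↥(W₁ ⊔ W₂) →* ℂˣ) → (L → ℂ)) (δ : (↥(W₁ ⊔ W₂) →* ℂˣ) → ℂ), Function.Injective μ ∧ (∀ ω, Cfsg.IsIrrCharacter L (μ ω)) ∧ (∀ ω, δ ω = 1 ∨ δ ω = -1) ∧ (∀ ω ω' : ↥(W₁ ⊔ W₂) →* ℂˣ, (∀ w : ↥(W₁ ⊔ W₂), (w : L) ∈ W₂ → ω w = ω' w) → δ ω = δ ω' ∧ Cfsg.indFun (W₁ ⊔ W₂) (fun w => (ω w : ℂ) - (ω' w : ℂ)) = δ ω • (μ ω - μ ω')) ∧ (∀ ω, ∀ w : ↥(W₁ ⊔ W₂), (w : L) ∉ W₂ → μ ω w = δ ω * (ω w : ℂ)) ∧ (∀ θ : L → ℂ, Cfsg.IsIrrCharacter L θ → (∀ ω, θ ≠ μ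 ω) → ∀ w : ↥(W₁ ⊔ W₂), (w : L) ∉ W₂ → θ w = 0) ∧ (∀ ω, ∃ n : ℤ, μ ω 1 - δ ω = n * (Nat.card W₁ : ℂ)) := by
  have h := FT.primeTI_of_subgroups rfl hKW₁ hKW₁' hW₁ hW₁c hHall hW₂ hW₂c hC hodd
  haveI : Fintype ↥(W₁ ⊔ W₂) := Fintype.ofFinite _
  refine ⟨FT.mu2 (W₁.subgroupOf (W₁ ⊔ W₂)) (W₂.subgroupOf (W₁ ⊔ W₂)) (W₁ ⊔ W₂).subtype,
    fun ω => FT.etaSign (W₁.subgroupOf (W₁ ⊔ W₂)) (W₂.subgroupOf (W₁ ⊔ W₂)) (W₁ ⊔ W₂).subtype ω,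
    h.cycTI.mu2_injective h.odd, h.mu2_irr, fun ω => ?_, fun ω ω' e => ?_,
    fun ω w hw => h.mu2_apply ω hw, fun θ hθ hne w hw => ?_, fun ω => ?_⟩
  · rcases FT.Mu.etaSign_eq_or (W₁.subgroupOf (W₁ ⊔ W₂)) (W₂.subgroupOf (W₁ ⊔ W₂))
      (W₁ ⊔ W₂).subtype ω with e | e <;> simp [e]
  · obtain ⟨φ, hφ, rfl⟩ := (FT.exists_perp_mul_iff (H := W₂.subgroupOf (W₁ ⊔ W₂))).2 e
    refine ⟨by simp only [h.etaSign_mul hφ], ?_⟩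
    simp only [h.etaSign_mul hφ, Int.cast_smul_eq_zsmul]
    exact h.indHom_sub hφ ω'
  · exact h.vanish (Char.Cfsg.IsIrrCharacter.isClassFunction hθ)
      (fun ω => Char.Cfsg.IsIrrCharacter.inner_eq_zero hθ (h.mu2_irr ω) (hne ω)) hw
  · obtain ⟨n, hn⟩ := h.mu2_one ω
    refine ⟨n, ?_⟩
    rw [hn, FT.card_subgroupOf_of_le le_sup_left]
    simp

end Cfsg.Agent.S1511
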