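import Cfsg.Statements.S1512
import Cfsg.Agent.FT.PrimeTIBridge

set_option autoImplicit false
set_option maxSynthPendingDepth 3
open Cfsg

namespace Cfsg.Agent.S1512

/-- Let K be a normal subgroup of the finite group L and x a non-identity element whose order is coprime to the order of K, such that K ⊓ C_L(y) = W₂ for every non-identity element y of the cyclic group generated by x. Then the number of conjugacy classes of K mapped to themselves by conjugation by x is at most Nat.card W₂. -/
theorem result {L : Type*} [Group L] [Finite L] (K W₂ : Subgroup L) [hK : K.Normal] (x : L) (hx1 : x ≠ 1) (hx : Nat.Coprime (orderOf x) (Nat.card K)) (hC : ∀ y ∈ Subgroup.zpowers x, y ≠ 1 → K ⊓ Subgroup.centralizer ({y} : Set L) = W₂) : Nat.card {C : ConjClasses K // ConjClasses.map (MulEquiv.toMonoidHom ((MulAut.conjNormal x : MulAut K))) C = C} ≤ Nat.card W₂ := by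
  have h := FT.Mu.card_fixed_classes_le K W₂ hx (fun k hk e => by
    rw [← hC (x ^ Nat.card K) (Subgroup.pow_mem _ (Subgroup.mem_zpowers x) _) (fun e1 =>
      hx1 (orderOf_eq_one_iff.1 (Nat.eq_one_of_dvd_coprimes hx dvd_rfl (orderOf_dvd_of_pow_eq_one e1))))]
    exact ⟨hk, Subgroup.mem_centralizer_singleton_iff.2 e⟩)
  refine le_trans (le_of_eq (Nat.card_congr (Equiv.subtypeEquivRight fun C => ?_))) h
  obtain ⟨a, rfl⟩ := ConjClasses.exists_rep C
  have e : ConjClasses.map (MulEquiv.toMonoidHom ((MulAut.conjNormal x : MulAut K)))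
    (ConjClasses.mk a) = ConjClasses.mk (MulAut.conjNormal x a) := rfl
  rw [e, ConjClasses.mk_eq_mk_iff_isConj]
  constructor
  · intro h1 g hg
    have hg' := ConjClasses.mk_eq_mk_iff_isConj.1 hg
    exact hg'.trans (h1.symm.trans
      ((MulEquiv.toMonoidHom ((MulAut.conjNormal x : MulAut K))).map_isConj hg'.symm))
  · exact fun h1 => (h1 a rfl).symm

end Cfsg.Agent.S1512
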