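import Cfsg.Statements.S1513
import Cfsg.Agent.FT.PrimeTIBridge

set_option autoImplicit false
set_option maxSynthPendingDepth 3
open Cfsg

namespace Cfsg.Agent.S1513

/-- Let L be a finite group with K normal with complement W₁ ≠ 1 a cyclic Hall subgroup, and W₂ ≠ 1 a cyclic subgroup of K equal to C_K(x) for every non-identity x ∈ W₁, with W₁W₂ of odd order. For an irreducible character θ of K: if θ is not fixed under conjugation by some element of W₁, then the function induced from θ to L is an irreducible character of L; and the irreducible characters of K fixed by all of W₁ are exactly Nat.card W₂ in number, each inducing to the sum of Nat.card W₁ pairwise distinct irreducible characters of L. -/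
theorem result {L : Type*} [Group L] [Fintype L] (K W₁ W₂ : Subgroup L) [hK : K.Normal] (hKW₁ : K ⊓ W₁ = ⊥) (hKW₁' : K ⊔ W₁ = ⊤) (hW₁ : W₁ ≠ ⊥) (hW₁c : IsCyclic W₁) (hHall : Nat.Coprime (Nat.card W₁) W₁.index) (hW₂ : W₂ ≠ ⊥) (hW₂c : IsCyclic W₂) (hW₂K : W₂ ≤ K) (hC : ∀ x ∈ W₁, x ≠ 1 → K ⊓ Subgroup.centralizer ({x} : Set L) = W₂) (hodd : Odd (Nat.card ↥(W₁ ⊔ W₂))) : (∀ θ : K → ℂ, Cfsg.IsIrrCharacter K θ → (∃ x ∈ W₁, (fun k : K => θ ⟨x * k * x⁻¹, hK.conj_mem (k : L) k.2 x⟩) ≠ θ) → Cfsg.IsIrrCharacter L (Cfsg.indFun K θ)) ∧ Nat.card {θ : Cfsg.IrrCharacter K // ∀ x ∈ W₁, (fun k : K => (θ : K → ℂ) ⟨x * k * x⁻¹, hK.conj_mem (k : L) k.2 x⟩) = θ} = Nat.card W₂ ∧ (∀ θ : K → ℂ, Cfsg.IsIrrCharacter K θ → (∀ x ∈ W₁, (fun k : K => θ ⟨x * k * x⁻¹, hK.conj_mem (k : L) k.2 x⟩) = θ) → ∃ C : Finset (L → ℂ), C.card = Nat.card W₁ ∧ (∀ μ ∈ C, Cfsg.IsIrrCharacter L μ)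 ∧ Cfsg.indFun K θ = ∑ μ ∈ C, μ) := by
  have h := FT.primeTI_of_subgroups rfl hKW₁ hKW₁' hW₁ hW₁c hHall hW₂ hW₂c hC hodd
  haveI : Fintype ↥(W₁ ⊔ W₂) := Fintype.ofFinite _
  classical
  obtain ⟨a, ha, ha1⟩ := h.exists_ne_one
  have key : ∀ θ : K → ℂ, Cfsg.IsIrrCharacter K θ →
      (∀ x ∈ W₁, (fun k : K => θ ⟨x * k * x⁻¹, hK.conj_mem (k : L) k.2 x⟩) = θ) →
      ∃ ψ ∈ FT.perp (W₁.subgroupOf (W₁ ⊔ W₂)), θ = FT.muRes (W₁.subgroupOf (W₁ ⊔ W₂))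
        (W₂.subgroupOf (W₁ ⊔ W₂)) (W₁ ⊔ W₂).subtype K ψ :=
    fun θ hθ e => h.eq_muRes_of_fixed hθ ha ha1 (e a ha)
  refine ⟨fun θ hθ ⟨x, _, hx⟩ => ?_, ?_, fun θ hθ e => ?_⟩
  · rcases h.irr_cases hθ with ⟨ψ, -, rfl⟩ | h1
    · exact absurd (h.conjChar_muRes ψ x) hx
    · exact h1.1
  · rw [← FT.card_subgroupOf_of_le (le_sup_right : W₂ ≤ W₁ ⊔ W₂), ← h.cycTI.card_perp₁,
      ← Fintype.card_coe, ← Nat.card_eq_fintype_card]
    symm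
    refine Nat.card_eq_of_bijective (fun ψ => ⟨⟨_, h.muRes_irr ψ⟩, fun x _ => h.conjChar_muRes ψ x⟩)
      ⟨fun ψ ψ' e => ?_, fun θ => ?_⟩
    · have e1 := (h.muRes_eq_iff _ _).1 (congrArg (fun x => x.1.1) e)
      rw [← FT.mul_inv_mem_perp_iff] at e1
      exact Subtype.ext (mul_inv_eq_one.1
        (FT.eq_one_of_mem_perp h.compl (FT.mul_mem_perp ψ.2 (FT.inv_mem_perp ψ'.2)) e1))
    · obtain ⟨ψ, hψ, e⟩ := key θ.1.1 θ.1.2 θ.2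
      exact ⟨⟨ψ, hψ⟩, Subtype.ext (Subtype.ext e.symm)⟩
  · obtain ⟨ψ, -, rfl⟩ := key θ hθ e
    have hi : Function.Injective fun φ => FT.mu2 (W₁.subgroupOf (W₁ ⊔ W₂))
        (W₂.subgroupOf (W₁ ⊔ W₂)) (W₁ ⊔ W₂).subtype (φ * ψ) :=
      (h.cycTI.mu2_injective h.odd).comp (mul_left_injective ψ)
    refine ⟨(FT.perp (W₂.subgroupOf (W₁ ⊔ W₂))).image fun φ => FT.mu2 (W₁.subgroupOf (W₁ ⊔ W₂))
        (W₂.subgroupOf (W₁ ⊔ W₂)) (W₁ ⊔ W₂).subtype (φ * ψ), ?_, ?_, ?_⟩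
    · rw [Finset.card_image_of_injective _ hi, h.cycTI.card_perp₂,
        FT.card_subgroupOf_of_le le_sup_left]
    · intro μ hμ
      obtain ⟨φ, -, rfl⟩ := Finset.mem_image.1 hμ
      exact h.mu2_irr _
    · rw [Finset.sum_image (fun _ _ _ _ e => hi e), h.indFun_muRes]
      rfl

end Cfsg.Agent.S1513
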