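import Mathlib
import Cfsg.Statements.S1515
import Cfsg.Agent.FT.Coherence

set_option autoImplicit false
open Cfsg

namespace Cfsg.Agent.S1515
open Cfsg.Agent.Char Cfsg.Agent.FT.Coh


/-- Let (S, τ, R) be a coherence system from L to G, χ ∈ S, and ψ an integer combination of S with ⟨χ, ψ⟩ = ⟨conj χ, ψ⟩ = 0. Let τ₁ be a linear isometry on the integer combinations of χ − ψ and χ − conj χ, with virtual-character values, agreeing with τ on integer multiples of χ − conj χ. Then the sum over α ∈ R χ of the squared absolute values of ⟨τ₁(χ − ψ), α⟩ is at least ⟨χ, χ⟩; and if ⟨τ₁(χ − ψ), τ₁(χ − ψ)⟩ minus that sum is at least ⟨ψ, ψ⟩, then the sum equals ⟨χ, χ⟩ and every ⟨τ₁(χ − ψ), α⟩ with α ∈ R χ is 0 or 1. -/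
theorem result {L : Type*} [Group L] [Fintype L] {G : Type*} [Group G] [Fintype G] (S : Set (L → ℂ)) (τ : (L → ℂ) → (G → ℂ)) (R : (L → ℂ) → Finset (G → ℂ)) (hS : Cfsg.IsCoherenceSystem S τ R) (χ : L → ℂ) (hχ : χ ∈ S) (ψ : L → ℂ) (hψ : ψ ∈ Cfsg.zspan S) (h1 : Cfsg.classInner χ ψ = 0) (h2 : Cfsg.classInner (Cfsg.conjFun χ) ψ = 0) (τ₁ : (L → ℂ) → (G → ℂ)) (hτ₁ : Cfsg.IsLinearIsometryOn (Cfsg.zspan {χ - ψ, χ - Cfsg.conjFun χ}) τ₁) (hagree : ∀ n : ℤ, τ₁ (n • (χ - Cfsg.conjFun χ)) = τ (n • (χ - Cfsg.conjFun χ))) : (Cfsg.classInner χ χ).re ≤ ∑ α ∈ R χ, ‖Cfsg.classInner (τ₁ (χ - ψ)) α‖ ^ 2 ∧ ((Cfsg.classInner ψ ψ).re ≤ (Cfsg.classInner (τ₁ (χ - ψ)) (τ₁ (χ - ψ))).re - ∑ α ∈ R χ, ‖Cfsg.classInner (τ₁ (χ - ψ)) α‖ ^ 2 → (∑ α ∈ R χ, ‖Cfsg.classInner (τ₁ (χ - ψ)) α‖ ^ 2 = (Cfsg.classInner χ χ).re ∧ ∀ α ∈ R χ, Cfsg.classInner (τ₁ (χ - ψ)) α = 0 ∨ Cfsg.classInner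 (τ₁ (χ - ψ)) α = 1)) := by
  have m1 : χ - ψ ∈ zspan {χ - ψ, χ - conjFun χ} := mem_zspan (Or.inl rfl)
  have m2 : χ - conjFun χ ∈ zspan {χ - ψ, χ - conjFun χ} := mem_zspan (Or.inr rfl)
  have hg := iso_gen hτ₁ m1
  have he : τ₁ (χ - conjFun χ) = τ (χ - conjFun χ) := by simpa using hagree 1
  have h1' : ip ψ χ = 0 := by rw [ip_comm]; exact ip_eq_zero_of_classInner h1
  have h2' : ip ψ (conjFun χ) = 0 := by rw [ip_comm]; exact ip_eq_zero_of_classInner h2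
  have k : ip (τ₁ (χ - ψ)) (τ (χ - conjFun χ)) = ip χ χ := by
    rw [← he, iso_ip hτ₁ m1 m2]
    simp only [ip_sub_left, ip_sub_right, h1', h2', sys_ip_conj hS hχ]; ring
  have hz := sys_int_ip hS hχ hg
  have hc : ∀ α ∈ R χ, classInner (τ₁ (χ - ψ)) α = (ip (τ₁ (χ - ψ)) α : ℂ) := fun α hα =>
    classInner_eq_ip hg (hS.virtual χ hχ α hα)
  have hs : ∑ α ∈ R χ, ‖classInner (τ₁ (χ - ψ)) α‖ ^ 2 = ∑ α ∈ R χ, ip (τ₁ (χ - ψ)) α ^ 2 :=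
    Finset.sum_congr rfl fun α hα => by rw [hc α hα, Complex.norm_real, Real.norm_eq_abs, sq_abs]
  have hle := sys_norm_le hS hχ hz k
  rw [hs, ← ip_def, ← ip_def, ← ip_def]
  refine ⟨hle, fun h => ?_⟩
  rw [iso_ip hτ₁ m1 m1] at h
  simp only [ip_sub_left, ip_sub_right, h1', ip_comm χ ψ] at h
  refine ⟨by linarith, fun α hα => ?_⟩
  have := ip_eq_zero_or_one hz (by rw [← hS.sum_eq χ hχ, k]; linarith) α hα
  rw [hc α hα]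
  rcases this with e | e <;> simp [e]

end Cfsg.Agent.S1515
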