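import Cfsg.Statements.S1525
import Cfsg.Agent.FT.DadeIsometry
-- import your own Cfsg.Agent.* helpers here

set_option autoImplicit false
open Cfsg

namespace Cfsg.Agent.S1525

/-- Under the Dade hypothesis for (A, L, H), let χ be a class function of G and let ψ be a function on L whose value at each a ∈ A is the average of χ over the coset a·H(a). Then (1/|G|) Σ |χ g|² over the elements g of G conjugate into some coset a·H(a) with a ∈ A is at least (1/|L|) Σ_{a ∈ A ∩ L} |ψ a|². -/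
theorem result {G : Type*} [Group G] [Fintype G] (A : Set G) (L : Subgroup G) [Fintype L] (H : G → Subgroup G) (hD : Cfsg.DadeHypothesis A L H) (χ : G → ℂ) (hχ : Cfsg.IsClassFunction G χ) (ψ : L → ℂ) (hψ : ∀ a : L, (a : G) ∈ A → ψ a = (Nat.card (H a) : ℂ)⁻¹ * ∑ᶠ u ∈ (H a : Set G), χ (a * u)) : (Nat.card L : ℝ)⁻¹ * ∑ᶠ a ∈ {a : L | (a : G) ∈ A}, ‖ψ a‖ ^ 2 ≤ (Nat.card G : ℝ)⁻¹ * ∑ᶠ g ∈ {g : G | ∃ a ∈ A, ∃ u ∈ H a, ∃ x : G, x * g * x⁻¹ = a * u}, ‖χ g‖ ^ 2 := by
  classical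
  have h := FT.Dade.norm_rho_le hD hχ
  rw [finsum_mem_eq_toFinset_sum, finsum_mem_eq_toFinset_sum]
  convert h using 2
  · rw [Set.toFinset_ofPred, Finset.sum_filter]
    refine Finset.sum_congr rfl fun a _ => ?_
    split_ifs with ha
    · rw [hψ a ha, FT.Dade.rho_apply_of_mem χ ha]
    · simp [FT.Dade.rho_apply_of_not_mem χ ha]
  · rw [Set.toFinset_ofPred, Finset.sum_filter]
    exact Finset.sum_congr rfl fun g _ => if_congr Iff.rfl rfl rfl

end Cfsg.Agent.S1525
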