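import Cfsg.Statements.S1526
import Cfsg.Agent.FT.PF7d
import Cfsg.Agent.S1497
import Cfsg.Agent.S1524
import Cfsg.Agent.Solv.FpfThompson
-- import your own Cfsg.Agent.* helpers here

set_option autoImplicit false
open Cfsg

namespace Cfsg.Agent.S1526

open Cfsg.Agent.FT.PF7

/-- Let G be a finite group of odd order and (L i, H i), i in a finite index type with at least two elements, pairs of subgroups with H i a nontrivial proper normal subgroup of L i such that every non-identity element of H i has its centraliser within L i contained in H i (L i is a Frobenius group with kernel H i), the orders of the H i pairwise coprime, and the underlying set of each H i a TI-subset of G with normaliser L i. If every non-identity element of G is conjugate to an element of some H i, we reach a contradiction. -/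
theorem result {G : Type*} [Group G] [Finite G] (hodd : Odd (Nat.card G)) {ι : Type*} [Fintype ι] (hι : 2 ≤ Fintype.card ι) (L H : ι → Subgroup G) (hHL : ∀ i, H i < L i) (hH1 : ∀ i, H i ≠ ⊥) (hHn : ∀ i, ∀ x ∈ L i, ∀ h ∈ H i, x * h * x⁻¹ ∈ H i) (hfrob : ∀ i, ∀ h ∈ H i, h ≠ 1 → L i ⊓ Subgroup.centralizer ({h} : Set G) ≤ H i) (hcop : ∀ i j, i ≠ j → Nat.Coprime (Nat.card (H i)) (Nat.card (H j))) (hTI : ∀ i, Cfsg.IsTISubset (H i : Set G) ∧ Subgroup.normalizer (H i : Set G) = L i) (hcover : ∀ g : G, g ≠ 1 → ∃ i, ∃ x : G, x * g * x⁻¹ ∈ H i) : False := by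

  classical
  have := Fintype.ofFinite G
  have hF : ∀ i, Fintype (L i) := fun i => Fintype.ofFinite _
  have : Nonempty ι := Fintype.card_pos_iff.mp (by omega)
  have hN : ∀ i, ((H i).subgroupOf (L i)).Normal := fun i =>
    ⟨fun h hh x => hHn i x x.2 h hh⟩
  have hcard : ∀ i, Nat.card ((H i).subgroupOf (L i)) = Nat.card (H i) := fun i =>
    Nat.card_congr (Subgroup.subgroupOfEquivOfLe (hHL i).le).toEquiv
  have hK1 : ∀ i, (H i).subgroupOf (L i) ≠ ⊥ := fun i h =>
    hH1 i (Subgroup.card_eq_one.mp (by rw [← hcard, h, Subgroup.card_bot]))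
  have htop : ∀ i, (H i).subgroupOf (L i) ≠ ⊤ := fun i h =>
    (hHL i).not_ge (Subgroup.subgroupOf_eq_top.mp h)
  have hC : ∀ i, ∀ k ∈ (H i).subgroupOf (L i), k ≠ 1 →
      Subgroup.centralizer {k} ≤ (H i).subgroupOf (L i) := by
    intro i k hk hk1 x hx
    refine hfrob i k hk (fun e => hk1 (Subtype.ext e)) ⟨x.2, ?_⟩
    exact Subgroup.mem_centralizer_singleton_iff.mpr
      (congrArg Subtype.val (Subgroup.mem_centralizer_singleton_iff.mp hx))
  have hirr : ∀ i, ∀ φ ∈ inducedIrrAbove ((H i).subgroupOf (L i)) ⊥, IsIrrCharacter (L i) φ :=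
    fun i φ hφ => isIrr_of_mem_of_centralizer (hC i) hφ
  have hoddL : ∀ i, Odd (Nat.card (L i)) := fun i => odd_card_subgroup hodd _
  have hD : ∀ i, DadeHypothesis (sharp (H i)) (L i) fun _ => ⊥ := fun i => by
    refine (S1497.result _ ?_ (fun h => h.2 rfl) _).mp
      ⟨isTISubset_sharp (hTI i).1, (normalizer_sharp _).trans (hTI i).2⟩
    obtain ⟨⟨x, hx⟩, hx1⟩ := Subgroup.ne_bot_iff_exists_ne_one.mp (hH1 i)
    exact ⟨x, hx, fun e => hx1 (Subtype.ext e)⟩
  have hA : ∀ i, ∀ x : L i, (x : G) ∈ sharp (H i) ↔ x ∈ (H i).subgroupOf (L i) ∧ x ≠ 1 :=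
    fun i x => and_congr Iff.rfl (not_congr OneMemClass.coe_eq_one)
  have key : ∀ i, ∃ (ν : (L i → ℂ) → (G → ℂ)) (ζ : L i → ℂ),
      Hyp78 (sharp (H i)) (L i) (fun _ => ⊥) ((H i).subgroupOf (L i)) ν ζ := by
    intro i
    obtain ⟨W, hW⟩ := Subgroup.exists_right_complement'_of_coprime
      (coprime_card_index_of_irr (hirr i))
    set W₁ := W.map (L i).subtype with hW₁
    have hW₁L : W₁ ≤ L i := Subgroup.map_subtype_le W
    have hinf : H i ⊓ W₁ = ⊥ := by
      rw [eq_bot_iff]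
      rintro _ ⟨h1, w, hw, rfl⟩
      have h2 : w ∈ (H i).subgroupOf (L i) ⊓ W := ⟨h1, hw⟩
      rw [hW.disjoint.eq_bot, Subgroup.mem_bot] at h2
      rw [h2]
      exact one_mem _
    have hsup : H i ⊔ W₁ = L i := by
      have h2 := congrArg (Subgroup.map (L i).subtype) hW.sup_eq_top
      rwa [Subgroup.map_sup, Subgroup.map_subgroupOf_eq_of_le (hHL i).le, ← MonoidHom.range_eq_map,
        Subgroup.range_subtype] at h2
    have hW1 : W₁ ≠ ⊥ := fun e => (hHL i).ne (by rw [← hsup, e, sup_bot_eq])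
    have hfpf : ∀ w ∈ W₁, w ≠ 1 → ∀ h ∈ H i, w * h = h * w → h = 1 := by
      intro w hw hw1 h hh e
      by_contra h1
      have h2 : w ∈ H i ⊓ W₁ :=
        ⟨hfrob i h hh h1 ⟨hW₁L hw, Subgroup.mem_centralizer_singleton_iff.mpr e⟩, hw⟩
      rw [hinf, Subgroup.mem_bot] at h2
      exact hw1 h2
    have hnil : Group.IsNilpotent (H i) := by
      refine Solv.isNilpotent_of_fpf_subgroup (H i) W₁ ((hTI i).2 ▸ hW₁L) hW1 fun w hw hw1 => ?_
      rw [eq_bot_iff]
      rintro h ⟨h1, h2⟩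
      exact hfpf w hw hw1 h h1 (Subgroup.mem_centralizer_singleton_iff.mp h2).symm
    obtain ⟨-, ν, hν⟩ := (FT.isCoherent_iff_cohWith _ _).mp (S1524.result (H i) (L i) W₁ (hoddL i)
      (hHL i).le hW₁L (hH1 i) hW1 hnil (hHn i) hinf hsup hfpf (hTI i).1 (hTI i).2)
    have : Group.IsSolvable ((H i).subgroupOf (L i)) :=
      Group.isSolvable_of_isSolvable_injective
        (f := (Subgroup.subgroupOfEquivOfLe (hHL i).le).toMonoidHom) (MulEquiv.injective _)
    obtain ⟨ζ, hζ, hζ1⟩ := exists_mem_degree_index (hK1 i)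
    exact ⟨ν, ζ, Hyp78.of_odd (hoddL i) (hD i) (hA i) (cohWith_dade_of_indFun (hD i) (hA i) hν) hζ
      (hirr i ζ hζ) hζ1⟩
  choose ν ζ h78 using key
  refine no_frobenius_partition hodd (fun i => sharp (H i)) L (fun _ _ => ⊥)
    (fun i => (H i).subgroupOf (L i)) ν ζ h78 hirr
    (fun i => two_mul_index_le_of_irr (hoddL i) (hK1 i) (hirr i)) htop (fun i j hij e => ?_)
    (fun i j hij => disjoint_support_sharp (hcop i j hij)) fun g hg => ?_
  · have h1 := hcop i j hij
    rw [hcard, hcard] at e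
    rw [← e, Nat.coprime_self] at h1
    exact hH1 i (Subgroup.card_eq_one.mp h1)
  · obtain ⟨i, x, hx⟩ := hcover g hg
    exact ⟨i, mem_support_sharp hg hx⟩

end Cfsg.Agent.S1526
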