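import Cfsg.Statements.S1527
import Cfsg.Agent.FT.PF7d
import Cfsg.Agent.S1497
-- import your own Cfsg.Agent.* helpers here

set_option autoImplicit false
open Cfsg

namespace Cfsg.Agent.S1527

open Cfsg.Agent.FT.PF7

/-- Let G be a finite group and H i (i in a finite index type) subgroups of pairwise coprime orders, each of whose underlying sets is a TI-subset of G, such that every non-identity element of G is conjugate to an element of some H i. Then Nat.card G − 1 = Σ_i [G : N_G(H i)] · (Nat.card (H i) − 1). -/
theorem result {G : Type*} [Group G] [Finite G] {ι : Type*} [Fintype ι] (H : ι → Subgroup G) (hcop : ∀ i j, i ≠ j → Nat.Coprime (Nat.card (H i)) (Nat.card (H j))) (hTI : ∀ i, Cfsg.IsTISubset (H i : Set G)) (hcover : ∀ g : G, g ≠ 1 → ∃ i, ∃ x : G, x * g * x⁻¹ ∈ H i) : Nat.card G - 1 = ∑ i, (Subgroup.normalizer (H i : Set G)).index * (Nat.card (H i) - 1) := by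
  classical
  have := Fintype.ofFinite G
  have hsharp : ∀ i, (sharp (H i)).ncard = Nat.card (H i) - 1 := by
    intro i
    have h1 : sharp (H i) = (H i : Set G) \ {1} := rfl
    rw [h1, Set.ncard_diff_singleton_of_mem (one_mem (H i)), ← Nat.card_coe_set_eq]
    rfl
  have hsupp : ∀ i, (FT.Dade.support (sharp (H i)) fun _ => ⊥).ncard =
      (Subgroup.normalizer (H i : Set G)).index * (Nat.card (H i) - 1) := by
    intro i
    rw [← hsharp]
    rcases (sharp (H i)).eq_empty_or_nonempty with h | h
    · rw [h]
      simp [FT.Dade.support]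
    · have := Fintype.ofFinite (Subgroup.normalizer (H i : Set G))
      have h1 := ncard_support ((S1497.result _ h (fun h => h.2 rfl) _).mp
        ⟨isTISubset_sharp (hTI i), normalizer_sharp _⟩)
      have h2 : (0 : ℝ) < Nat.card (Subgroup.normalizer (H i : Set G)) :=
        Nat.cast_pos.mpr Nat.card_pos
      have h3 : (0 : ℝ) < (Subgroup.normalizer (H i : Set G)).index :=
        Nat.cast_pos.mpr (Nat.pos_of_ne_zero Subgroup.index_ne_zero_of_finite)
      rw [← (Subgroup.normalizer (H i : Set G)).card_mul_index] at h1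
      push_cast at h1
      field_simp at h1
      exact_mod_cast h1
  have hone : ∀ i, (1 : G) ∉ FT.Dade.support (sharp (H i)) fun _ => ⊥ := by
    rintro i ⟨a, ha, u, hu, x, hx⟩
    rw [Subgroup.mem_bot.mp hu] at hx
    exact ha.2 (by simpa using hx.symm)
  have h1 : ({1}ᶜ : Set G) = ⋃ i, FT.Dade.support (sharp (H i)) fun _ => ⊥ := by
    ext g
    rw [Set.mem_iUnion]
    constructor
    · intro hg
      obtain ⟨i, x, hx⟩ := hcover g hg
      exact ⟨i, mem_support_sharp hg hx⟩
    · rintro ⟨i, hi⟩ rfl
      exact hone i hi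
  have h2 := Set.ncard_iUnion_of_finite (fun i => Set.toFinite _)
    (fun i j hij => disjoint_support_sharp (hcop i j hij))
  rw [← h1, Set.ncard_compl, Set.ncard_singleton, finsum_eq_sum_of_fintype] at h2
  rw [h2]
  exact Finset.sum_congr rfl fun i _ => hsupp i

end Cfsg.Agent.S1527
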