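import Mathlib
import Cfsg.Statements.S1529
import Cfsg.Agent.FT.CohIrr

set_option autoImplicit false
open Cfsg

namespace Cfsg.Agent.S1529
open Cfsg.Agent.Char Cfsg.Agent.FT.Coh


/-- Let N be a subgroup of the finite group G, S a set of irreducible characters of N with at least two members, and τ₁ a linear isometry on the integer combinations of S with virtual-character values such that τ₁ α vanishes at 1 whenever α ∈ ℤ[S] does. Then there is ε ∈ {1, −1} such that ε • τ₁ χ is an irreducible character of G for every χ ∈ S, and distinct members of S give distinct characters. -/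
theorem result {G : Type*} [Group G] [Fintype G] (N : Subgroup G) [Fintype N] (S : Set (N → ℂ)) (hirr : ∀ χ ∈ S, Cfsg.IsIrrCharacter N χ) (htwo : ∃ χ ∈ S, ∃ ψ ∈ S, χ ≠ ψ) (τ₁ : (N → ℂ) → (G → ℂ)) (hτ₁ : Cfsg.IsLinearIsometryOn (Cfsg.zspan S) τ₁) (h0 : ∀ α ∈ Cfsg.zspan S, α 1 = 0 → τ₁ α 1 = 0) : ∃ ε : ℂ, (ε = 1 ∨ ε = -1) ∧ (∀ χ ∈ S, Cfsg.IsIrrCharacter G (ε • τ₁ χ)) ∧ (∀ χ ∈ S, ∀ ψ ∈ S, τ₁ χ = τ₁ ψ → χ = ψ) := by
  obtain ⟨ε, hε, h⟩ := iso_exists_sign hirr hτ₁ h0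
  refine ⟨ε, by exact_mod_cast hε, fun χ hχ => by rw [Int.cast_smul_eq_zsmul]; exact h χ hχ,
    fun χ hχ ψ hψ e => ?_⟩
  by_contra hne
  have := iso_ip hτ₁ (mem_zspan hχ) (mem_zspan hψ)
  rw [e, (iso_isDirr hτ₁ hψ (hirr ψ hψ)).ip_self, ip_irr_ne (hirr χ hχ) (hirr ψ hψ) hne] at this
  exact one_ne_zero this

end Cfsg.Agent.S1529
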