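import Mathlib
import Cfsg.Statements.S1531
import Cfsg.Agent.FT.CohIrr

set_option autoImplicit false
open Cfsg

namespace Cfsg.Agent.S1531
open Cfsg.Agent.Char Cfsg.Agent.FT.Coh


/-- Let N be a subgroup of the finite group G, S a set of irreducible characters of N, and α a linear isometry on the integer combinations of S vanishing at 1 with values virtual characters of G vanishing at 1. Let X, Y ⊆ S be disjoint, each with at least two members, and σ, τ linear isometries on ℤ[X], ℤ[Y] into virtual characters agreeing with α on the members vanishing at 1. Then ⟨σ χ, τ η⟩ = 0 for χ ∈ X, η ∈ Y; and if for some χ₀ ∈ X, η₀ ∈ Y with degrees c = χ₀ 1, e = η₀ 1 one has α (c • η₀ − e • χ₀) = c • τ η₀ − e • σ χ₀, then (X ∪ Y, N minus 1, α) is coherent. -/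
theorem result {G : Type*} [Group G] [Fintype G] (N : Subgroup G) [Fintype N] (S X Y : Set (N → ℂ)) (hirr : ∀ ξ ∈ S, Cfsg.IsIrrCharacter N ξ) (hXS : X ⊆ S) (hYS : Y ⊆ S) (hXY : Disjoint X Y) (hX2 : ∃ a ∈ X, ∃ b ∈ X, a ≠ b) (hY2 : ∃ a ∈ Y, ∃ b ∈ Y, a ≠ b) (α : (N → ℂ) → (G → ℂ)) (hα : Cfsg.IsLinearIsometryOn (Cfsg.zspanOn S {1}ᶜ) α) (hα1 : ∀ θ ∈ Cfsg.zspanOn S {1}ᶜ, α θ 1 = 0) (σ τ : (N → ℂ) → (G → ℂ)) (hσ : Cfsg.IsLinearIsometryOn (Cfsg.zspan X) σ) (hσα : ∀ θ ∈ Cfsg.zspanOn X {1}ᶜ, σ θ = α θ) (hτ : Cfsg.IsLinearIsometryOn (Cfsg.zspan Y) τ) (hτα : ∀ θ ∈ Cfsg.zspanOn Y {1}ᶜ, τ θ = α θ) : (∀ χ ∈ X, ∀ η ∈ Y, Cfsg.classInner (σ χ) (τ η) = 0) ∧ ((∃ χ₀ ∈ X, ∃ η₀ ∈ Y, α (χ₀ 1 • η₀ - η₀ 1 • χ₀) = χ₀ 1 • τ η₀ - η₀ 1 • σ χ₀) → Cfsg.IsCoherent (X ∪ Y) {1}ᶜ α) := by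
  have ho : ∀ χ ∈ X, ∀ η ∈ Y, ip (σ χ) (τ η) = 0 := by
    intro χ hχ η hη
    obtain ⟨a, ha, b, hb, hab⟩ := hX2
    obtain ⟨c, hc, d, hd, hcd⟩ := hY2
    obtain ⟨χ', hχ', n1⟩ : ∃ χ' ∈ X, χ ≠ χ' := by
      by_cases e : χ = a
      · exact ⟨b, hb, e ▸ hab⟩
      · exact ⟨a, ha, e⟩
    obtain ⟨η', hη', n2⟩ : ∃ η' ∈ Y, η ≠ η' := by
      by_cases e : η = c
      · exact ⟨d, hd, e ▸ hcd⟩
      · exact ⟨c, hc, e⟩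
    exact irr_ortho hirr hXS hYS hXY hα hα1 hσ hσα hτ hτα hχ hχ' n1 hη hη' n2
  refine ⟨fun χ hχ η hη => classInner_eq_zero_of_ip (iso_gen hσ (mem_zspan hχ))
    (iso_gen hτ (mem_zspan hη)) (ho χ hχ η hη), ?_⟩
  rintro ⟨χ₀, hχ₀, η₀, hη₀, e⟩
  obtain ⟨T₀, he, hT₀⟩ := iso_exists_linear hα
  have hsub : X ∪ Y ⊆ S := Set.union_subset hXS hYS
  refine isCoherent_congr (τ := T₀) ?_ (fun β hβ => he β (zspanOn_mono hsub hβ))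
  obtain ⟨T₁, hT₁, e₁⟩ := exists_linCoh_of_iso (τ := T₀) hσ
    (fun β hβ => by rw [hσα β hβ, he β (zspanOn_mono hXS hβ)])
  obtain ⟨T₂, hT₂, e₂⟩ := exists_linCoh_of_iso (τ := T₀) hτ
    (fun β hβ => by rw [hτα β hβ, he β (zspanOn_mono hYS hβ)])
  obtain ⟨m, hm0, hm⟩ := (hirr χ₀ (hXS hχ₀)).exists_nat_one
  obtain ⟨n, hn0, hn⟩ := (hirr η₀ (hYS hη₀)).exists_nat_one
  have hmem : χ₀ 1 • η₀ - η₀ 1 • χ₀ ∈ zspanOn S {1}ᶜ := by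
    refine mem_zspanOn_one.2 ⟨?_, by simp [mul_comm]⟩
    rw [hm, hn]
    exact zspan_sub (zspan_natCast_smul m (mem_zspan (hYS hη₀)))
      (zspan_natCast_smul n (mem_zspan (hXS hχ₀)))
  obtain ⟨T, hT, -⟩ := exists_linCoh_union (fun χ hχ => (hirr χ (hXS hχ)).isGen)
    (fun χ hχ => (hirr χ (hYS hχ)).isGen) hT₁ hT₂ hXY
    (fun χ hχ η hη => by
      rw [e₁ χ (mem_zspan hχ), e₂ η (mem_zspan hη), ho χ hχ η hη, ip_irr_ne (hirr χ (hXS hχ))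
        (hirr η (hYS hη)) (fun e => Set.disjoint_left.1 hXY hχ (e ▸ hη))])
    hχ₀ (hirr χ₀ (hXS hχ₀)).one_ne_zero (ψ₁ := χ₀ 1 • η₀)
    (Submodule.smul_mem _ _ (Submodule.subset_span hη₀))
    (by simp [(hirr χ₀ (hXS hχ₀)).one_ne_zero, (hirr η₀ (hYS hη₀)).one_ne_zero]) (c := η₀ 1)
    (by simp [mul_comm]) (by rw [he _ hmem, e, map_smul, e₁ _ (mem_zspan hχ₀), e₂ _ (mem_zspan hη₀)])
  obtain ⟨a, ha, b, hb, hab⟩ := hX2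
  exact hT.isCoherent
    (exists_ne_zero_of_irr (Or.inl ha) (Or.inl hb) (hirr a (hXS ha)) (hirr b (hXS hb)) hab)

end Cfsg.Agent.S1531
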