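import Mathlib
import Cfsg.Statements.S1532
import Cfsg.Agent.FT.FeitCoh

set_option autoImplicit false
open Cfsg

namespace Cfsg.Agent.S1532
open Cfsg.Agent.Char Cfsg.Agent.FT Cfsg.Agent.FT.Coh Cfsg.Agent.FT.P6

theorem aux {G : Type*} [Group G] [Fintype G] (p : ℕ) [Fact p.Prime] (hp : p ≠ 2) (P : Sylow p G)
    (N : Subgroup G) (hna : ¬ IsMulCommutative (P : Subgroup G))
    (hTI : IsTISubset ((P : Subgroup G) : Set G)) (hlt : (P : Subgroup G) < N)
    (hC : ∀ k ∈ (P : Subgroup G), k ≠ 1 → Subgroup.centralizer ({k} : Set G) ≤ (P : Subgroup G))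
    [Fintype N] (Z : Subgroup G) (hZ1 : Z ≠ ⊥)
    (hZP : ∀ z ∈ Z, z ∈ (P : Subgroup G) ∧ ∀ y ∈ (P : Subgroup G), z * y = y * z)
    (hZn : ∀ x ∈ N, ∀ z ∈ Z, x * z * x⁻¹ ∈ Z)
    (hN : Subgroup.normalizer ((P : Subgroup G) : Set G) = N) :
    IsCoherent {χ : N → ℂ | IsIrrCharacter N χ ∧ ∃ z : N, (z : G) ∈ Z ∧ χ z ≠ χ 1} {1}ᶜ
      (fun α => indFun N α) := by
  set K := (P : Subgroup G).subgroupOf N with hK
  have hKn : K.Normal := by subst hN; exact Subgroup.normal_in_normalizer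
  have hC' := cent_subgroupOf (L := N) hC
  have hd : ⁅K, K⁆ ≠ ⊥ := by
    rw [hK, der_subgroupOf hlt.le, Ne, Subgroup.subgroupOf_eq_bot,
      disjoint_iff, inf_eq_left.2 ((P6.der_le _).trans hlt.le)]
    exact fun h => hna (isMulCommutative_iff_der.2 h)
  have hK1 : K ≠ ⊥ := fun h => hd (by rw [h]; simp)
  have hK2 : K ≠ ⊤ := fun h => hlt.not_ge (Subgroup.subgroupOf_eq_top.1 h)
  have hnil := nilpotent_of_frob hC' hK2
  have hodd : Odd (Nat.card N) := by
    refine odd_card_of_frob hC' ?_ hd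
    rw [Grp.card_subgroupOf_of_le hlt.le, P.card_eq_multiplicity]
    exact ((Fact.out : p.Prime).odd_of_ne_two hp).pow
  have hlt' : ⁅K, K⁆ < K := Grp.commutator_lt_of_isSolvable hK1
  have hirr := irr_of_frob hC'
  have hiso := iso_indFun_of_TI (H := P) (L := N) (by subst hN; exact hTI)
  have hcj : ∀ χ ∈ inducedIrrAbove K ⊥, conjFun χ ∈ inducedIrrAbove K ⊥ ∧ conjFun χ ≠ χ :=
    fun χ hχ => ⟨above_conj hχ, fun e => by
      have h4 := (hirr _ hχ).inner_self
      obtain ⟨θ, h1, h2, rfl⟩ := PF7.mem_indAll.1 hχ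
      have h3 : classInner (conjFun (indFun K θ)) (indFun K θ) = 0 :=
        classInner_star_indFun_eq_zero_of_odd K hodd h1 h2
      rw [e, h4] at h3
      exact one_ne_zero h3⟩
  obtain ⟨R, hS⟩ := exists_sys_of_irr (above_nonempty (bot_lt_iff_ne_bot.2 hK1)) hirr hcj
    hiso indFun_one_of_mem
  have hZn' : (Z.subgroupOf N).Normal := ⟨fun z hz x => hZn x x.2 z hz⟩
  have hZK : Z.subgroupOf N ≤ K := fun z hz => (hZP z hz).1
  have hirr' : ∀ χ ∈ seqInd K (Z.subgroupOf N) ⊥, IsIrrCharacter N χ :=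
    fun χ h => hirr χ (P11.seqInd_subset_indAll h)
  have h := pf6_6 hS hodd hnil hlt' (frob_quot hC' hlt'.le) (Z := Z.subgroupOf N)
    (by
      rw [Ne, Subgroup.subgroupOf_eq_bot, disjoint_iff,
        inf_eq_left.2 fun z hz => hlt.le (hZP z hz).1]
      exact hZ1) hZK
    (fun z hz k hk => Subtype.ext ((hZP z hz).2 k hk)) hirr'
  rwa [seqInd_eq_irr hZK hirr'] at h

/-- Let G be a finite group, p an odd prime and P a Sylow p-subgroup that is non-abelian, whose underlying set is a TI-subset of G, with P properly contained in its set normaliser N and C_G(x) ≤ P for every non-identity x ∈ P. Let Z be a nontrivial subgroup of the centre of P normalised by N. Then the set of irreducible characters χ of N with χ z ≠ χ 1 for some z ∈ Z is coherent for the map induced by induction from N to G. -/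
theorem result {G : Type*} [Group G] [Fintype G] (p : ℕ) [Fact p.Prime] (hp : p ≠ 2) (P : Sylow p G) (hna : ¬ IsMulCommutative (P : Subgroup G)) (hTI : Cfsg.IsTISubset ((P : Subgroup G) : Set G)) (hlt : (P : Subgroup G) < Subgroup.normalizer ((P : Subgroup G) : Set G)) (hC : ∀ k ∈ (P : Subgroup G), k ≠ 1 → Subgroup.centralizer ({k} : Set G) ≤ (P : Subgroup G)) [Fintype ↥(Subgroup.normalizer ((P : Subgroup G) : Set G))] (Z : Subgroup G) (hZ1 : Z ≠ ⊥) (hZP : ∀ z ∈ Z, z ∈ (P : Subgroup G) ∧ ∀ y ∈ (P : Subgroup G), z * y = y * z) (hZn : ∀ x ∈ Subgroup.normalizer ((P : Subgroup G) : Set G), ∀ z ∈ Z, x * z * x⁻¹ ∈ Z) : Cfsg.IsCoherent {χ : ↥(Subgroup.normalizer ((P : Subgroup G) : Set G)) → ℂ | Cfsg.IsIrrCharacter ↥(Subgroup.normalizer ((P : Subgroup G) : Set G)) χ ∧ ∃ z : ↥(Subgroup.normalizer ((P : Subgroup G) : Set G)), (z : G) ∈ Z ∧ χ z ≠ χ 1} {1}ᶜ (fun α => Cfsg.indFun (Subgroup.normalizer ((P : Subgroup G) : Set G)) α) := by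
  exact aux p hp P _ hna hTI hlt hC Z hZ1 hZP hZn rfl

end Cfsg.Agent.S1532
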