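import Cfsg.Statements.S1542
import Cfsg.Agent.FT.PF12TypeI

set_option autoImplicit false
open Cfsg

namespace Cfsg.Agent.S1542

open Cfsg.Agent.FT Cfsg.Agent.FT.PF12

/-- Let G be a minimal simple group of odd order and L a maximal subgroup of Type I in which every non-identity element of H = L_F has its centraliser within L inside H. Let S be the set of functions on L induced from non-principal irreducible characters of H. Then every member of S is an irreducible character of L, and (S, L minus 1, τ) is coherent for τ the Dade map relative to A(L), L and a ↦ R(a). -/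
theorem result {G : Type*} [Group G] [Fintype G] (hG : Cfsg.IsMinSimpleOddOrder G) (L : Subgroup G) [Fintype L] (hL : IsCoatom L) (hI : Cfsg.IsOfTypeI L) (hfrob : ∀ x ∈ Cfsg.fittingHallOf L, x ≠ 1 → L ⊓ Subgroup.centralizer ({x} : Set G) ≤ Cfsg.fittingHallOf L) : (∀ χ ∈ Cfsg.inducedIrrAbove (Cfsg.fittingHall L) ⊥, Cfsg.IsIrrCharacter L χ) ∧ Cfsg.IsCoherent (Cfsg.inducedIrrAbove (Cfsg.fittingHall L) ⊥) {1}ᶜ (Cfsg.dadeIsometry (Cfsg.typeA L) L (Cfsg.supportR L)) := by
  have hF : FrobKer L (fittingHallOf L) := by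
    obtain ⟨⟨-, -, h1, h2, -⟩, -⟩ := hI
    refine ⟨fun h => h1 ?_, lt_of_le_of_ne (fittingHallOf_le L) fun h => h2 ?_,
      le_normalizer_fittingHallOf L, hfrob⟩
    · rw [← fittingHallOf_subgroupOf, h, Subgroup.bot_subgroupOf]
    · rw [← fittingHallOf_subgroupOf, h, Subgroup.subgroupOf_self]
  refine ⟨fun χ hχ => PF7.isIrr_of_mem_of_centralizer (FrobKer.cent_type hF) hχ, ?_⟩
  rw [typeA_eq_setA hI, setA_of_frobKer hF]
  exact coherent_of_frobKer hG hL (typeIw_of_typeI hI) hF

end Cfsg.Agent.S1542
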