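import Cfsg.Statements.S1551
import Cfsg.Agent.Spor.M24Res

set_option autoImplicit false
open scoped Pointwise
open Cfsg

namespace Cfsg.Agent.S1551

open Cfsg.Agent.Spor Cfsg.Agent.Spor.M24C Cfsg.Agent.Comp
open scoped Pointwise

/-- Generators of the normal subgroup of order 64. -/
def gl : List ℕ := [720981692062171673584743151055243296, 220213109803259289183002082616117280, 222718116131712103283380056249960480, 216357873600481717532560151321610272, 984778822338565988800583747246260322, 216227626219662118351051565874283587]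

theorem fix_iff (g : M24) : (∀ t ∈ famOf 6 sx0, g • t = t) ↔
    ∀ m ∈ [15, 5264, 622848, 3416064, 4196928, 8536096], g • setOf' m = setOf' m := by
  rw [forall_mem_famOf]
  have : ∀ j < 6, mem24 sx0 j = [15, 5264, 622848, 3416064, 4196928, 8536096].getD j 0 := by decide +kernel
  constructor
  · intro h m hm
    obtain ⟨j, hj, rfl⟩ := List.getElem_of_mem hm
    have h1 := h j hj
    rwa [this j hj, List.getD_eq_getElem _ _ hj] at h1
  · intro h j hj
    rw [this j hj, List.getD_eq_getElem _ _ hj]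
    exact h _ (List.getElem_mem _)

theorem card_K : {g : M24 | ∀ t ∈ famOf 6 sx0, g • t = t}.ncard = 192 := by
  rw [← chainM.ncard_fix_sets [15, 5264, 622848, 3416064, 4196928, 8536096] (fun _ => true) (N := 192) (by decide +kernel)]
  simp only [fix_iff, Subgroup.mem_top, true_and, and_true]

theorem card_A : {g : M24 | (∀ t ∈ famOf 6 sx0, g • t = t) ∧ g * g = 1}.ncard = 64 := by
  rw [← chainM.ncard_fix_sets [15, 5264, 622848, 3416064, 4196928, 8536096] (fun c => Nat.beq (mulC c c) oneC) (N := 64)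
    (by decide +kernel)]
  simp only [fix_iff, Subgroup.mem_top, true_and, beq_iff, ← code_mul', ← code_one', ← eq_iff_code]

theorem card_gen_ge : 64 ≤ Nat.card (gen gl) :=
  card_ge_of_slp (inH_gen (by decide +kernel)) [1026, 3076, 6, 4103, 9] 133 1 [[5, 6], [9, 4], [2, 0]] (by decide +kernel)

theorem gen_sub : (gen gl : Set M24) ⊆ {g : M24 | (∀ t ∈ famOf 6 sx0, g • t = t) ∧ g * g = 1} := by
  intro g hg
  refine ⟨fun t ht => ?_, mul_self_of_mem_gen (by decide +kernel) g hg⟩
  revert t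
  rw [fix_iff]
  intro m hm
  have : allL [15, 5264, 622848, 3416064, 4196928, 8536096] (fun m => allL gl (okS m)) = true := by decide +kernel
  simp only [allL_iff] at this
  exact gen_le (fun c hc => inH_of_okS (this m hm c hc)) hg

theorem gen_eq : (gen gl : Set M24) = {g : M24 | (∀ t ∈ famOf 6 sx0, g • t = t) ∧ g * g = 1} :=
  Set.eq_of_subset_of_ncard_le gen_sub (by
    rw [card_A, ← Nat.card_coe_set_eq]; exact card_gen_ge) (Set.toFinite _)

theorem mem_gen_iff (g : M24) : g ∈ gen gl ↔ (∀ t ∈ famOf 6 sx0, g • t = t) ∧ g * g = 1 :=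
  Set.ext_iff.1 gen_eq g

theorem card_gen : Nat.card (gen gl) = 64 := by
  rw [← card_A, ← gen_eq, ← Nat.card_coe_set_eq]; rfl

theorem conj_mul' {G : Type*} [Group G] (k g : G) : k⁻¹ * g * k * (k⁻¹ * g * k) = 1 ↔ g * g = 1 := by
  rw [show k⁻¹ * g * k * (k⁻¹ * g * k) = k⁻¹ * (g * g) * k⁻¹⁻¹ by group, conj_eq_one_iff]

/-- Structure of a sextet stabiliser: it induces every permutation of the six tetrads, the subgroup fixing each tetrad setwise has order 192, and there is a normal subgroup of order 64 consisting of elements squaring to the identity. -/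
theorem result (S : Finset (Finset Cfsg.GolayPt)) (hS : S ∈ Cfsg.sextets) : (∀ e : Equiv.Perm ↥S, ∃ g ∈ MulAction.stabilizer Cfsg.M24 S, ∀ t : ↥S, (g : Equiv.Perm Cfsg.GolayPt) • (t : Finset Cfsg.GolayPt) = ((e t : ↥S) : Finset Cfsg.GolayPt)) ∧ Nat.card {g : ↥(MulAction.stabilizer Cfsg.M24 S) // ∀ t ∈ S, ((g : Cfsg.M24) : Equiv.Perm Cfsg.GolayPt) • t = t} = 192 ∧ ∃ N : Subgroup ↥(MulAction.stabilizer Cfsg.M24 S), N.Normal ∧ Nat.card N = 64 ∧ ∀ x ∈ N, x * x = 1 := by
  obtain ⟨k, rfl⟩ := exists_smul_sextet sx0_mem hS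
  have hK : ∀ g : M24, (∀ t ∈ k • famOf 6 sx0, g • t = t) ↔
      ∀ t ∈ famOf 6 sx0, (k⁻¹ * g * k) • t = t := by
    intro g
    simp only [← smul_smul_eq_iff]
    constructor
    · intro h t ht; exact h _ (Finset.smul_mem_smul_finset ht)
    · intro h t ht
      obtain ⟨u, hu, rfl⟩ := Finset.mem_smul_finset.1 ht
      exact h u hu
  have hst : ∀ (S : Finset (Finset GolayPt)) (g : M24), (∀ t ∈ S, g • t = t) →
      g ∈ MulAction.stabilizer M24 S := by
    intro S g h
    refine Finset.eq_of_subset_of_card_le (fun t ht => ?_) (by rw [Finset.card_smul_finset])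
    obtain ⟨u, hu, rfl⟩ := Finset.mem_smul_finset.1 ht
    rwa [h u hu]
  have hc : Nat.card (resHom M24 (k • famOf 6 sx0)).ker = 192 := by
    rw [← card_K]
    refine Eq.trans ?_ (ncard_eq_of_conj k (Q := fun g => ∀ t ∈ k • famOf 6 sx0, g • t = t)
      fun g => by rw [hK]; simp [mul_assoc])
    rw [← Nat.card_coe_set_eq]
    refine Nat.card_congr (Equiv.ofBijective (fun g => ⟨g.1.1, (mem_ker_resHom _ _).1 g.2⟩)
      ⟨fun a b e => Subtype.ext (Subtype.ext (congrArg (fun x => (x.1 : M24)) e)), fun g => ?_⟩)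
    exact ⟨⟨⟨g.1, hst _ _ g.2⟩, (mem_ker_resHom _ _).2 g.2⟩, rfl⟩
  refine ⟨fun e => ?_, ?_, ?_⟩
  · obtain ⟨g, hg⟩ := surjective_of_card_ker (resHom M24 (k • famOf 6 sx0)) (by
      rw [hc, card_stabilizer_sextet hS, Nat.card_perm, Nat.card_eq_fintype_card, Fintype.card_coe,
        hS.1]; rfl) e
    exact ⟨g, g.2, fun t => by rw [← hg]; rfl⟩
  · rw [← hc]
    exact Nat.card_congr (Equiv.subtypeEquivRight fun g => (mem_ker_resHom _ g).symm)
  · have hN : ∀ g : M24, k⁻¹ * g * k ∈ gen gl ↔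
        (∀ t ∈ k • famOf 6 sx0, g • t = t) ∧ g * g = 1 := by
      intro g
      rw [mem_gen_iff, hK, conj_mul']
    let N : Subgroup M24 := (gen gl).comap (MulAut.conj k⁻¹).toMonoidHom
    have hN' : ∀ g : M24, g ∈ N ↔ k⁻¹ * g * k ∈ gen gl := fun g => by simp [N]
    refine ⟨N.subgroupOf _, ⟨fun n hn g => ?_⟩, ?_, fun x hx => ?_⟩
    · rw [Subgroup.mem_subgroupOf, hN', hN] at hn ⊢
      refine ⟨fun t ht => ?_, ?_⟩
      · have : (g : M24)⁻¹ • t ∈ k • famOf 6 sx0 :=
          (smul_mem_iff_of_stab (Subgroup.inv_mem _ g.2) t).2 ht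
        change ((g : M24) * n * (g : M24)⁻¹) • t = t
        rw [mul_smul, mul_smul, hn.1 _ this, smul_inv_smul]
      · change ((g : M24) * n * (g : M24)⁻¹) * ((g : M24) * n * (g : M24)⁻¹) = 1
        rw [conj_mul, hn.2]; simp
    · rw [Nat.card_congr (Subgroup.subgroupOfEquivOfLe fun g hg =>
        hst _ g ((hN g).1 ((hN' g).1 hg)).1).toEquiv, card_eq_of_conj k hN', card_gen]
    · rw [Subgroup.mem_subgroupOf, hN', hN] at hx
      exact Subtype.ext hx.2

end Cfsg.Agent.S1551
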