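import Cfsg.Statements.S1554
import Cfsg.Agent.Spor.M24Res

set_option autoImplicit false
open scoped Pointwise
open Cfsg

namespace Cfsg.Agent.S1554

open Cfsg.Agent.Spor Cfsg.Agent.Spor.M24C Cfsg.Agent.Comp
open scoped Pointwise

/-- An octad stabiliser is a split extension: the joint stabiliser of the octad and a point outside it is a complement to the pointwise stabiliser of the octad, and is isomorphic to the alternating group of degree 8. -/
theorem result (o : Finset Cfsg.GolayPt) (ho : o ∈ Cfsg.octads) (p : Cfsg.GolayPt) (hp : p ∉ o) : (Cfsg.M24 ⊓ fixingSubgroup (Equiv.Perm Cfsg.GolayPt) (o : Set Cfsg.GolayPt)) ⊓ (Cfsg.M24 ⊓ MulAction.stabilizer (Equiv.Perm Cfsg.GolayPt) o ⊓ MulAction.stabilizer (Equiv.Perm Cfsg.GolayPt) p) = ⊥ ∧ (Cfsg.M24 ⊓ fixingSubgroup (Equiv.Perm Cfsg.GolayPt) (o : Set Cfsg.GolayPt)) ⊔ (Cfsg.M24 ⊓ MulAction.stabilizer (Equiv.Perm Cfsg.GolayPt) o ⊓ MulAction.stabilizer (Equiv.Perm Cfsg.GolayPt) p) = (Cfsg.M24 ⊓ MulAction.stabilizer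 (Equiv.Perm Cfsg.GolayPt) o) ∧ Nonempty (↥(Cfsg.M24 ⊓ MulAction.stabilizer (Equiv.Perm Cfsg.GolayPt) o ⊓ MulAction.stabilizer (Equiv.Perm Cfsg.GolayPt) p) ≃* alternatingGroup (Fin 8)) := by
  have hE : ∀ g : M24, (g : Equiv.Perm GolayPt) ∈
      M24 ⊓ fixingSubgroup (Equiv.Perm GolayPt) (o : Set GolayPt) ↔ g ∈ fixS o := by
    intro g
    simp only [Subgroup.mem_inf, g.2, true_and, mem_fixingSubgroup_iff, mem_fixS, Finset.mem_coe]
    rfl
  have hH : ∀ g : M24, (g : Equiv.Perm GolayPt) ∈ M24 ⊓ MulAction.stabilizer (Equiv.Perm GolayPt) o ⊓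
      MulAction.stabilizer (Equiv.Perm GolayPt) p ↔
      g ∈ MulAction.stabilizer M24 o ⊓ MulAction.stabilizer M24 p := by
    intro g
    simp only [Subgroup.mem_inf, g.2, true_and, MulAction.mem_stabilizer_iff]
    rfl
  refine ⟨?_, le_antisymm (sup_le ?_ inf_le_left) ?_, ?_⟩
  · rw [eq_bot_iff]
    rintro g ⟨h1, h2⟩
    lift g to M24 using h1.1
    rw [eq_one_of_mem_fixS_octad ho ((hE g).1 h1) hp h2.2]
    exact Subgroup.one_mem _
  · intro g hg
    lift g to M24 using hg.1
    exact ⟨g.2, fixS_le_stabilizer o ((hE g).1 hg)⟩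
  · intro g hg
    lift g to M24 using hg.1
    have hg' : g ∈ MulAction.stabilizer M24 o := hg.2
    obtain ⟨e, he, h⟩ := exists_fixS_octad ho hp (q := g • p) (mt (smul_mem_iff_of_stab hg' p).1 hp)
    have : (g : Equiv.Perm GolayPt) = e * (e⁻¹ * g : M24) := by simp
    rw [this]
    refine Subgroup.mul_mem_sup ((hE e).2 he) ((hH _).2 ⟨Subgroup.mul_mem _
      (Subgroup.inv_mem _ (fixS_le_stabilizer o he)) hg', ?_⟩)
    change (e⁻¹ * g) • p = p
    rw [mul_smul, ← h, inv_smul_smul]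
  · let f : ↥(MulAction.stabilizer M24 o ⊓ MulAction.stabilizer M24 p) →* alternatingGroup o :=
      ((resHom M24 o).comp (Subgroup.inclusion inf_le_left)).codRestrict _ fun g => by
        rw [← range_resHom_octad ho]; exact ⟨_, rfl⟩
    have hf : Function.Bijective f := by
      constructor
      · rw [injective_iff_map_eq_one]
        intro g hg
        have h1 := (mem_ker_resHom o _).1 (congrArg Subtype.val hg)
        exact Subtype.ext (eq_one_of_mem_fixS_octad ho (mem_fixS.2 h1) hp g.2.2)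
      · rintro ⟨e, he⟩
        rw [← range_resHom_octad ho] at he
        obtain ⟨g, rfl⟩ := he
        obtain ⟨u, hu, h⟩ := exists_fixS_octad ho hp (q := (g : M24)⁻¹ • p)
          (mt (smul_mem_iff_of_stab (Subgroup.inv_mem _ g.2) p).1 hp)
        refine ⟨⟨g * u, Subgroup.mul_mem _ g.2 (fixS_le_stabilizer o hu), ?_⟩, ?_⟩
        · change ((g : M24) * u) • p = p
          rw [mul_smul, h, smul_inv_smul]
        · refine Subtype.ext (Equiv.ext fun q => Subtype.ext ?_)
          change ((g : M24) * u) • (q : GolayPt) = (g : M24) • (q : GolayPt)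
          rw [mul_smul, mem_fixS.1 hu q q.2]
    exact ⟨((subEquiv _ (le_trans inf_le_left inf_le_left) hH).trans
      (MulEquiv.ofBijective f hf)).trans (o.equivFinOfCardEq ho.2).altCongrHom⟩

end Cfsg.Agent.S1554
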