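import Cfsg.Statements.S1555
import Mathlib
import Cfsg.Agent.Spor.SteinerMeet
import Cfsg.Agent.S0363

set_option autoImplicit false
open scoped Pointwise
open Cfsg

namespace Cfsg.Agent.S1555



/-- Bottom row of the Leech triangle: an octad is met in a prescribed pair of its points by exactly 16 octads and in a prescribed 4-subset by exactly 4 octads. -/
theorem result (o : Finset Cfsg.GolayPt) (ho : o ∈ Cfsg.octads) (s : Finset Cfsg.GolayPt) (hs : s ⊆ o) : (s.card = 2 → {o' : Finset Cfsg.GolayPt | o' ∈ Cfsg.octads ∧ o ∩ o' = s}.ncard = 16) ∧ (s.card = 4 → {o' : Finset Cfsg.GolayPt | o' ∈ Cfsg.octads ∧ o ∩ o' = s}.ncard = 4) := by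
  have hB := S0363.result
  have hα : Fintype.card Cfsg.GolayPt = 24 := rfl
  have hk := hB.1 o ho
  rw [Spor.ncard_inter_eq_nMeet _ hs]
  have hd : Disjoint s (o \ s) := Finset.disjoint_sdiff
  have hc : (o \ s).card = 8 - s.card := by rw [Finset.card_sdiff_of_subset hs, hk]
  have h6 := Spor.nMeet_sdiff_self hB ho hs
  have z : ∀ i, 8 - s.card < i → Spor.nMeet Cfsg.octads s (o \ s) i = 0 := fun i hi =>
    Spor.nMeet_eq_zero_of_lt (by omega)
  have z' := fun i => Spor.nMeet_sdiff_of_ge hB ho hs (i := i)
  have m := Spor.steiner_moment hB s (o \ s) hd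
  refine ⟨fun h => ?_, fun h => ?_⟩
  · have m0 := m 0 (by omega)
    have m1 := m 1 (by omega)
    have m2 := m 2 (by omega)
    have z3 := z' 3 (by omega) (by omega)
    have z4 := z' 4 (by omega) (by omega)
    have z5 := z' 5 (by omega) (by omega)
    have z7 := z 7 (by omega)
    have z8 := z 8 (by omega)
    simp only [hα, hc, h, Finset.sum_range_succ, Finset.range_zero, Finset.sum_empty]
      at m0 m1 m2 h6
    norm_num [Nat.choose] at m0 m1 m2 h6
    omega
  · have m0 := m 0 (by omega)
    have z1 := z' 1 (by omega) (by omega)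
    have z2 := z' 2 (by omega) (by omega)
    have z3 := z' 3 (by omega) (by omega)
    have z5 := z 5 (by omega)
    have z6 := z 6 (by omega)
    have z7 := z 7 (by omega)
    have z8 := z 8 (by omega)
    simp only [hα, hc, h, Finset.sum_range_succ, Finset.range_zero, Finset.sum_empty]
      at m0 h6
    norm_num [Nat.choose] at m0 h6
    omega

end Cfsg.Agent.S1555
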