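import Cfsg.Statements.S1559
import Cfsg.Agent.Spor.M24OrbT

set_option autoImplicit false
open scoped Pointwise
open Cfsg

namespace Cfsg.Agent.S1559

open Cfsg.Agent.Spor Cfsg.Agent.Spor.M24C Cfsg.Agent.Comp
open scoped Pointwise

/-- A trio stabiliser has five orbits on the 3795 trios, of sizes 1, 42, 56, 1008, 2688; and the stabiliser is a maximal proper subgroup. -/
theorem result (T : Finset (Finset Cfsg.GolayPt)) (hT : T ∈ Cfsg.trios) : ∃ X₁ ∈ Cfsg.trios, ∃ X₂ ∈ Cfsg.trios, ∃ X₃ ∈ Cfsg.trios, ∃ X₄ ∈ Cfsg.trios, (MulAction.orbit ↥(MulAction.stabilizer Cfsg.M24 T) X₁).ncard = 42 ∧ (MulAction.orbit ↥(MulAction.stabilizer Cfsg.M24 T) X₂).ncard = 56 ∧ (MulAction.orbit ↥(MulAction.stabilizer Cfsg.M24 T) X₃).ncard = 1008 ∧ (MulAction.orbit ↥(MulAction.stabilizer Cfsg.M24 T) X₄).ncard = 2688 ∧ Cfsg.trios = {T} ∪ MulAction.orbit ↥(MulAction.stabilizer Cfsg.M24 T) X₁ ∪ MulAction.orbit ↥(MulAction.stabilizer Cfsg.M24 T) X₂ ∪ MulAction.orbit ↥(MulAction.stabilizer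 Cfsg.M24 T) X₃ ∪ MulAction.orbit ↥(MulAction.stabilizer Cfsg.M24 T) X₄ ∧ IsCoatom (MulAction.stabilizer Cfsg.M24 T) := by
  obtain ⟨x, -, y, hy, z, hz, w, hw, v, hv, h1, h2, h3, h4, h6, h5⟩ := (orbT_trios hT).five
  refine ⟨y, hy, z, hz, w, hw, v, hv, h2, h3, h4, h6, ?_, ?_⟩
  · rw [← orbit_eq_singleton_of_cover h1 (S := MulAction.orbit (MulAction.stabilizer M24 T) y ∪
      MulAction.orbit (MulAction.stabilizer M24 T) z ∪
      MulAction.orbit (MulAction.stabilizer M24 T) w ∪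
      MulAction.orbit (MulAction.stabilizer M24 T) v) (by
        rw [← Set.union_assoc, ← Set.union_assoc, ← Set.union_assoc, ← h5]; exact hT) (by
        rintro (((h | h) | h) | h)
        · exact not_mem_orbit_of_ncard (by rw [h2]; norm_num) h
        · exact not_mem_orbit_of_ncard (by rw [h3]; norm_num) h
        · exact not_mem_orbit_of_ncard (by rw [h4]; norm_num) h
        · exact not_mem_orbit_of_ncard (by rw [h6]; norm_num) h)]
    exact h5
  · exact OrbDec.isCoatom (N := 3795) (by rw [orbit_trio hT]; exact orbT_trios hT)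
      (by rw [orbit_trio hT, ncard_trios]) (by norm_num) (by decide +kernel)

end Cfsg.Agent.S1559
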