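import Cfsg.Statements.S1560
import Cfsg.Agent.Spor.M24OrbD

set_option autoImplicit false
open scoped Pointwise
open Cfsg

namespace Cfsg.Agent.S1560

open Cfsg.Agent.Spor Cfsg.Agent.Spor.M24C Cfsg.Agent.Comp
open scoped Pointwise

/-- Intersection numbers of dodecads: a dodecad meets every other dodecad in 0, 4, 6 or 8 points, meeting 495 of them in 4 points, 1584 in 6 points and 495 in 8 points. -/
theorem result (d : Finset Cfsg.GolayPt) (hd : d ∈ Cfsg.dodecads) : (∀ d' ∈ Cfsg.dodecads, d' ≠ d → (d ∩ d').card = 0 ∨ (d ∩ d').card = 4 ∨ (d ∩ d').card = 6 ∨ (d ∩ d').card = 8) ∧ {d' : Finset Cfsg.GolayPt | d' ∈ Cfsg.dodecads ∧ (d ∩ d').card = 4}.ncard = 495 ∧ {d' : Finset Cfsg.GolayPt | d' ∈ Cfsg.dodecads ∧ (d ∩ d').card = 6}.ncard = 1584 ∧ {d' : Finset Cfsg.GolayPt | d' ∈ Cfsg.dodecads ∧ (d ∩ d').card = 8}.ncard = 495 := by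
  obtain ⟨y, hy, hc⟩ := orbD_dodecads hd
  have hf : ∀ g ∈ MulAction.stabilizer M24 d, ∀ s ∈ dodecads,
      (d ∩ g • s).card = (d ∩ s).card := fun g hg S _ => by
    conv_lhs => rw [← MulAction.mem_stabilizer_iff.1 hg, card_smul_inter]
  have hi : Function.Injective fun i => (d ∩ y i).card := by
    simp only [hc]; decide
  refine ⟨fun d' hd' hne => ?_, hy.ncard_fibre _ hf hi 2 (hc 2), hy.ncard_fibre _ hf hi 3 (hc 3),
    hy.ncard_fibre _ hf hi 4 (hc 4)⟩
  obtain ⟨i, g, hg, rfl⟩ := hy.exists_mem hd'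
  have h12 : (d ∩ g • y i).card ≠ 12 := fun h => hne (by
    have h1 : d ∩ g • y i = d :=
      Finset.eq_of_subset_of_card_le Finset.inter_subset_left (by rw [h, hd.2])
    exact (Finset.eq_of_subset_of_card_le (Finset.inter_eq_left.1 h1) (by rw [hd.2, hd'.2])).symm)
  rw [hf g hg _ (hy.mem i), hc] at h12 ⊢
  revert h12
  fin_cases i <;> simp

end Cfsg.Agent.S1560
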