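import Cfsg.Statements.S1562
import Cfsg.Agent.Spor.M24OrbD

set_option autoImplicit false
open scoped Pointwise
open Cfsg

namespace Cfsg.Agent.S1562

open Cfsg.Agent.Spor Cfsg.Agent.Spor.M24C Cfsg.Agent.Comp
open scoped Pointwise

/-- Orbits of a triad stabiliser on the triads disjoint from it: the 210 triads inside a common octad with it form one orbit and the remaining 1120 another. -/
theorem result (T : Finset Cfsg.GolayPt) (hT : T.card = 3) : {U : Finset Cfsg.GolayPt | U.card = 3 ∧ Disjoint T U ∧ (∃ o ∈ Cfsg.octads, T ∪ U ⊆ o)}.ncard = 210 ∧ {U : Finset Cfsg.GolayPt | U.card = 3 ∧ Disjoint T U ∧ ¬ (∃ o ∈ Cfsg.octads, T ∪ U ⊆ o)}.ncard = 1120 ∧ ∀ U U' : Finset Cfsg.GolayPt, U.card = 3 → U'.card = 3 → Disjoint T U → Disjoint T U' → ((∃ o ∈ Cfsg.octads, T ∪ U ⊆ o) ↔ (∃ o ∈ Cfsg.octads, T ∪ U' ⊆ o)) → ∃ g : Equiv.Perm Cfsg.GolayPt, g ∈ Cfsg.M24 ∧ g • T = T ∧ g • U = U' := by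
  obtain ⟨y, hy, h0, h1⟩ := orbY_triads hT
  have hf : ∀ g ∈ MulAction.stabilizer M24 T, ∀ U ∈ {U : Finset GolayPt | U.card = 3 ∧ Disjoint T U},
      (∃ o ∈ octads, T ∪ g • U ⊆ o) = (∃ o ∈ octads, T ∪ U ⊆ o) := fun g hg S _ => by
    conv_lhs => rw [← MulAction.mem_stabilizer_iff.1 hg, ← Finset.smul_finset_union,
      exists_octad_smul]
  have hi : Function.Injective fun i => ∃ o ∈ octads, T ∪ y i ⊆ o := by
    intro i j h
    fin_cases i <;> fin_cases j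
    · rfl
    · exact absurd (h.mp h0) h1
    · exact absurd (h.mpr h0) h1
    · rfl
  have e0 := hy.ncard_fibre (fun U => ∃ o ∈ octads, T ∪ U ⊆ o) hf hi 0 (eq_true h0)
  have e1 := hy.ncard_fibre (fun U => ∃ o ∈ octads, T ∪ U ⊆ o) hf hi 1 (eq_false h1)
  simp only [Set.mem_ofPred_eq, eq_iff_iff, iff_true, iff_false, and_assoc] at e0 e1
  refine ⟨e0, e1, fun U U' hU hU' hd hd' h => ?_⟩
  obtain ⟨g, hg, e⟩ := hy.exists_smul (fun U => ∃ o ∈ octads, T ∪ U ⊆ o) hf hi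
    (a := U) (b := U') ⟨hU, hd⟩ ⟨hU', hd'⟩ (propext h)
  exact ⟨g, g.2, hg, e⟩

end Cfsg.Agent.S1562
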