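import Cfsg.Statements.S1564
import Cfsg.Agent.Spor.M24Six

set_option autoImplicit false
open scoped Pointwise
open Cfsg

namespace Cfsg.Agent.S1564

open Cfsg.Agent.Comp Cfsg.Agent.Comp.Idx Cfsg.Agent.Spor Cfsg.Agent.Spor.M24C

open Classical in
/-- The relative position of two triples. -/
noncomputable def rel (s t : Finset GolayPt) : ℕ :=
  if ∃ o ∈ octads, s ∪ t ⊆ o then (s ∩ t).card else 4

theorem rel_setOf' {a b : ℕ} (ha : a < 2 ^ 24) (hb : b < 2 ^ 24) :
    rel (setOf' a) (setOf' b) = ite' (inOct (Nat.lor a b)) (pop 24 (Nat.land a b)) 4 := by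
  have hab : Nat.lor a b < 2 ^ 24 := Nat.or_lt_two_pow ha hb
  have e := inOct_iff hab
  rw [show setOf' (Nat.lor a b) = setOf' a ∪ setOf' b from setOf'_lor a b] at e
  rw [rel, card_inter_setOf', ite'_eq]
  by_cases h : ∃ o ∈ octads, setOf' a ∪ setOf' b ⊆ o
  · rw [if_pos h, if_pos (e.2 h)]
  · rw [if_neg h, if_neg (mt e.1 h)]



/-- The stabiliser of a set of three points (setwise) is a maximal proper subgroup of the group of the length-24 code. -/
theorem result (s : Finset Cfsg.GolayPt) (hs : s.card = 3) : IsCoatom (MulAction.stabilizer Cfsg.M24 s) := by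
  have h0 : (setOf' 7).card = 3 := by rw [card_setOf']; decide +kernel
  obtain ⟨g, rfl⟩ := exists_smul_finset (s := setOf' 7) (by omega) (h0.trans hs.symm)
  have hle : ∀ z : Finset GolayPt, (setOf' 7 ∩ z).card ≤ 3 := fun z =>
    h0 ▸ Finset.card_le_card Finset.inter_subset_left
  refine isCoatom_stabilizer_smul g (isCoatom_stabilizer_of_rel (setOf' 7) (fun t => t.card = 3)
    (fun t => ⟨fun ht => exists_smul_finset (by omega) (h0.trans ht.symm), ?_⟩)
    rel ?_ ?_ ⟨setOf' 11, ?_, ?_⟩ ?_)
  · rintro ⟨k, rfl⟩; rw [Finset.card_smul_finset, h0]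
  · intro k y z
    have e := exists_octad_smul_iff k (y ∪ z)
    rw [Finset.smul_finset_union] at e
    rw [rel, rel, card_smul_inter_smul]
    by_cases h : ∃ o ∈ octads, y ∪ z ⊆ o
    · rw [if_pos h, if_pos (e.2 h)]
    · rw [if_neg h, if_neg (mt e.1 h)]
  · intro t t' ht ht' h
    have hu : ∀ t : Finset GolayPt, t.card = 3 → ¬ (∃ o ∈ octads, setOf' 7 ∪ t ⊆ o) →
        (setOf' 7 ∩ t).card = 0 := fun t ht hn => by
      by_contra h
      refine hn (exists_octad_of_card_le ?_)
      have := Finset.card_union_add_card_inter (setOf' 7) t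
      omega
    have h1 := hle t
    have h2 := hle t'
    rw [rel, rel] at h
    have hc : (setOf' 7 ∪ t).card ≤ 6 := (Finset.card_union_le _ _).trans (by omega)
    split_ifs at h with a b b
    · exact exists_smul_two rfl (ht.trans ht'.symm) h hc (iff_of_true a b)
    · omega
    · omega
    · exact exists_smul_two rfl (ht.trans ht'.symm) ((hu t ht a).trans (hu t' ht' b).symm) hc
        (iff_of_false a b)
  · rw [card_setOf']; decide +kernel
  · exact fun h => absurd (setOf'_inj (by norm_num) (by norm_num) h) (by norm_num)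
  · intro S h2 hS y hy hne hy'
    have step : ∀ a b i j k, and' (Nat.blt a (2 ^ 24)) (and' (Nat.blt b (2 ^ 24))
        (and' (Nat.beq (pop 24 a) 3) (and' (Nat.beq (pop 24 b) 3)
        (and' (Nat.beq (ite' (inOct (Nat.lor 7 a)) (pop 24 (Nat.land 7 a)) 4) i)
        (and' (Nat.beq (ite' (inOct (Nat.lor a b)) (pop 24 (Nat.land a b)) 4) j)
        (Nat.beq (ite' (inOct (Nat.lor 7 b)) (pop 24 (Nat.land 7 b)) 4) k)))))) = true →
        S i → S j → S k := by
      intro a b i j k h hi hj
      simp only [and'_eq_true, beq_iff, blt_iff] at h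
      obtain ⟨ha, hb, h1, h2, h3, h4, h5⟩ := h
      rw [← rel_setOf' (by norm_num) ha] at h3
      rw [← rel_setOf' ha hb] at h4
      rw [← rel_setOf' (by norm_num) hb] at h5
      rw [← card_setOf'] at h1 h2
      subst h3 h4 h5
      exact hS _ _ h1 h2 hi hj
    have cls : ∀ z : Finset GolayPt, z.card = 3 → rel (setOf' 7) z = 0 ∨ rel (setOf' 7) z = 1 ∨
        rel (setOf' 7) z = 2 ∨ rel (setOf' 7) z = 4 ∨ z = setOf' 7 := by
      intro z hz
      have h1 := hle z
      by_cases h : (setOf' 7 ∩ z).card = 3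
      · right; right; right; right
        have e1 := Finset.eq_of_subset_of_card_le (Finset.inter_subset_left (s₁ := setOf' 7)
          (s₂ := z)) (by omega)
        have e2 := Finset.eq_of_subset_of_card_le (Finset.inter_subset_right (s₁ := setOf' 7)
          (s₂ := z)) (by omega)
        rw [← e2, e1]
      · rw [rel]; split_ifs <;> omega
    have a02 : S 0 → S 2 := fun h => step 152 1027 0 0 2 (by decide +kernel) h h
    have a42 : S 4 → S 2 := fun h => step 56 131 4 4 2 (by decide +kernel) h h
    have a12 : S 1 → S 2 := fun h => step 25 35 1 1 2 (by decide +kernel) h h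
    have a21 : S 2 → S 1 := fun h => step 11 25 2 2 1 (by decide +kernel) h h
    have a10 : S 1 → S 0 := fun h => step 25 16424 1 1 0 (by decide +kernel) h h
    have a14 : S 1 → S 4 := fun h => step 25 104 1 1 4 (by decide +kernel) h h
    have s2 : S 2 := by
      rcases cls y hy with h | h | h | h | h
      · rw [h] at hy'; exact a02 hy'
      · rw [h] at hy'; exact a12 hy'
      · rw [h] at hy'; exact hy'
      · rw [h] at hy'; exact a42 hy'
      · exact absurd h hne
    intro z hz
    rcases cls z hz with h | h | h | h | h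
    · rw [h]; exact a10 (a21 s2)
    · rw [h]; exact a21 s2
    · rw [h]; exact s2
    · rw [h]; exact a14 (a21 s2)
    · rw [h]; exact h2

end Cfsg.Agent.S1564
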