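import Cfsg.Statements.S1565
import Cfsg.Agent.Spor.M24Six

set_option autoImplicit false
open scoped Pointwise
open Cfsg

namespace Cfsg.Agent.S1565

open Cfsg.Agent.Comp Cfsg.Agent.Comp.Idx Cfsg.Agent.Spor Cfsg.Agent.Spor.M24C



/-- The stabiliser of an octad is a maximal proper subgroup of the group of the length-24 code. -/
theorem result (o : Finset Cfsg.GolayPt) (ho : o ∈ Cfsg.octads) : IsCoatom (MulAction.stabilizer Cfsg.M24 o) := by
  obtain ⟨g, rfl⟩ := exists_smul_oct0 ho
  refine isCoatom_stabilizer_smul g (isCoatom_stabilizer_of_rel (setOf' 5279) (fun t => t ∈ octads)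
    (fun t => ⟨exists_smul_oct0, ?_⟩)
    (fun s t => (s ∩ t).card) card_smul_inter_smul ?_ ⟨setOf' 13062145, ?_, ?_⟩ ?_)
  · rintro ⟨k, rfl⟩; exact (smul_mem_octads_iff k).2 oct0_mem
  · intro t t' ht ht' h
    rw [card_setOf'_inter _ (by norm_num), card_setOf'_inter _ (by norm_num)] at h
    obtain ⟨k, hk, e⟩ := cw_trans (inH_fixL (l := [5279])
      (G := [893823217922518520435297327509540065, 762686309869437546511063520592900130,
        726364594475767665320089786649779264]) (by decide +kernel))
      [32, 0, 1, 0, 7, 0, 0, 0, 1183] 9 (fun m => Nat.beq (pop 24 m) 8)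
      (fun m => pop 24 (Nat.land 5279 m)) (by decide +kernel) ht.1 ht'.1
      (by rw [beq_iff, pop_of_octad ht]) (by rw [beq_iff, pop_of_octad ht']) h
    exact ⟨k, hk _ (by simp), e⟩
  · exact setOf'_mem_octads (by decide +kernel)
  · exact fun h => absurd (setOf'_inj (by norm_num) (by norm_num) h) (by norm_num)
  · intro S h2 hS y hy hne hy'
    have step : ∀ a b i j k, and' (and' (isCW a) (Nat.beq (pop 24 a) 8))
        (and' (and' (isCW b) (Nat.beq (pop 24 b) 8))
        (and' (Nat.beq (pop 24 (Nat.land 5279 a)) i) (and' (Nat.beq (pop 24 (Nat.land a b)) j)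
        (Nat.beq (pop 24 (Nat.land 5279 b)) k)))) = true → S i → S j → S k := by
      intro a b i j k h hi hj
      rw [and'_eq_true, and'_eq_true (a := and' (isCW b) _)] at h
      obtain ⟨h1, h2, h3⟩ := h
      simp only [and'_eq_true, beq_iff, ← card_inter_setOf'] at h3
      obtain ⟨rfl, rfl, rfl⟩ := h3
      exact hS _ _ (setOf'_mem_octads h1) (setOf'_mem_octads h2) hi hj
    have cls : ∀ z ∈ octads, (setOf' 5279 ∩ z).card = 0 ∨ (setOf' 5279 ∩ z).card = 2 ∨
        (setOf' 5279 ∩ z).card = 4 ∨ z = setOf' 5279 := by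
      intro z hz
      obtain ⟨r, hr⟩ := even_card_inter oct0_mem.1 hz.1
      by_cases h : 5 ≤ (setOf' 5279 ∩ z).card
      · right; right; right
        exact (octad_eq_of_five_le oct0_mem hz h).symm
      · omega
    have a04 : S 0 → S 4 := fun h => step 11952160 4755660 0 0 4 (by decide +kernel) h h
    have a24 : S 2 → S 4 := fun h => step 13062145 3416079 2 2 4 (by decide +kernel) h h
    have a40 : S 4 → S 0 := fun h => step 5902343 5939296 4 4 0 (by decide +kernel) h h
    have a42 : S 4 → S 2 := fun h => step 5902343 13062145 4 4 2 (by decide +kernel) h h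
    have s4 : S 4 := by
      rcases cls y hy with h | h | h | h
      · rw [h] at hy'; exact a04 hy'
      · rw [h] at hy'; exact a24 hy'
      · rw [h] at hy'; exact hy'
      · exact absurd h hne
    intro z hz
    rcases cls z hz with h | h | h | h
    · rw [h]; exact a40 s4
    · rw [h]; exact a42 s4
    · rw [h]; exact s4
    · rw [h]; exact h2

end Cfsg.Agent.S1565
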