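import Cfsg.Statements.S1566
import Cfsg.Agent.Spor.M24Six

set_option autoImplicit false
open scoped Pointwise
open Cfsg

namespace Cfsg.Agent.S1566

open Cfsg.Agent.Comp Cfsg.Agent.Comp.Idx Cfsg.Agent.Spor Cfsg.Agent.Spor.M24C

/-- The relative position of two complementary pairs. -/
def rel (P Q : Finset (Finset GolayPt)) : Finset ℕ :=
  (P ×ˢ Q).image fun x => (x.1 ∩ x.2).card

theorem rel_smul (g : M24) (P Q : Finset (Finset GolayPt)) : rel (g • P) (g • Q) = rel P Q := by
  ext n
  simp only [rel, Finset.mem_image, Finset.mem_product, Prod.exists]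
  constructor
  · rintro ⟨a, b, ⟨ha, hb⟩, rfl⟩
    obtain ⟨a, ha', rfl⟩ := Finset.mem_smul_finset.1 ha
    obtain ⟨b, hb', rfl⟩ := Finset.mem_smul_finset.1 hb
    exact ⟨a, b, ⟨ha', hb'⟩, (card_smul_inter_smul g a b).symm⟩
  · rintro ⟨a, b, ⟨ha, hb⟩, rfl⟩
    exact ⟨g • a, g • b, ⟨Finset.smul_mem_smul_finset ha, Finset.smul_mem_smul_finset hb⟩,
      card_smul_inter_smul g a b⟩

theorem smul_pair (g : M24) (d : Finset GolayPt) :
    g • ({d, dᶜ} : Finset (Finset GolayPt)) = {g • d, (g • d)ᶜ} := by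
  rw [Finset.smul_finset_insert, Finset.smul_finset_singleton, smul_compl']

theorem card_inter_compl {d e : Finset GolayPt} (hd : d ∈ dodecads) :
    (d ∩ eᶜ).card = 12 - (d ∩ e).card := by
  rw [← Finset.sdiff_eq_inter_compl, Finset.card_sdiff, hd.2, Finset.inter_comm]

theorem rel_pair {d e : Finset GolayPt} (hd : d ∈ dodecads) (he : e ∈ dodecads) :
    rel {d, dᶜ} {e, eᶜ} = {(d ∩ e).card, 12 - (d ∩ e).card} := by
  have h1 : (d ∩ e).card ≤ 12 := hd.2 ▸ Finset.card_le_card Finset.inter_subset_left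
  have h2 := card_inter_compl (e := e) hd
  have h3 : (dᶜ ∩ e).card = 12 - (d ∩ e).card := by
    rw [Finset.inter_comm, card_inter_compl he, Finset.inter_comm]
  have h4 : (dᶜ ∩ eᶜ).card = (d ∩ e).card := by
    rw [card_inter_compl (compl_mem_dodecads hd), h3]; omega
  ext n
  simp only [rel, Finset.mem_image, Finset.mem_product, Prod.exists, Finset.mem_insert,
    Finset.mem_singleton]
  constructor
  · rintro ⟨a, b, ⟨rfl | rfl, rfl | rfl⟩, rfl⟩ <;> simp [h2, h3, h4]
  · rintro (rfl | rfl)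
    · exact ⟨d, e, ⟨Or.inl rfl, Or.inl rfl⟩, rfl⟩
    · exact ⟨d, eᶜ, ⟨Or.inl rfl, Or.inr rfl⟩, h2⟩

theorem trans0 {t t' : Finset GolayPt} (ht : t ∈ dodecads) (ht' : t' ∈ dodecads)
    (h : (setOf' 340831 ∩ t).card = (setOf' 340831 ∩ t').card) :
    ∃ k : M24, k • setOf' 340831 = setOf' 340831 ∧ k • t = t' := by
  rw [card_setOf'_inter _ (by norm_num), card_setOf'_inter _ (by norm_num)] at h
  obtain ⟨k, hk, e⟩ := cw_trans (inH_fixL (l := [340831])
    (G := [305837386740148497622081706129361008, 422338848929632341200143049707266433,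
      476970774971363273639380865244136525]) (by decide +kernel))
    [3232, 0, 0, 0, 34, 0, 13, 0, 31, 0, 0, 0, 863] 11 (fun m => Nat.beq (pop 24 m) 12)
    (fun m => pop 24 (Nat.land 340831 m)) (by decide +kernel) ht.1 ht'.1
    (by rw [beq_iff, pop_of_dodecad ht]) (by rw [beq_iff, pop_of_dodecad ht']) h
  exact ⟨k, hk _ (by simp), e⟩

theorem cls0 {t : Finset GolayPt} (ht : t ∈ dodecads) :
    (setOf' 340831 ∩ t).card = 0 ∨ (setOf' 340831 ∩ t).card = 4 ∨ (setOf' 340831 ∩ t).card = 6 ∨
      (setOf' 340831 ∩ t).card = 8 ∨ (setOf' 340831 ∩ t).card = 12 := by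
  have h1 := card_of_mem_codeSets (symmDiff_mem_codeSets dod0_mem.1 ht.1)
  have h2 := card_symmDiff' (setOf' 340831) t
  have h3 := dod0_mem.2
  have h4 := ht.2
  omega



/-- The setwise stabiliser of a dodecad together with its complement is a maximal proper subgroup of the group of the length-24 code. -/
theorem result (d : Finset Cfsg.GolayPt) (hd : d ∈ Cfsg.dodecads) : IsCoatom (MulAction.stabilizer Cfsg.M24 ({d, dᶜ} : Finset (Finset Cfsg.GolayPt))) := by
  obtain ⟨g, rfl⟩ := exists_smul_dod0 hd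
  rw [← smul_pair]
  refine isCoatom_stabilizer_smul g (isCoatom_stabilizer_of_rel _
    (fun P => ∃ t ∈ dodecads, P = {t, tᶜ}) (fun P => ⟨?_, ?_⟩) rel rel_smul ?_
    ⟨_, ⟨setOf' 8245261, setOf'_mem_dodecads (by decide +kernel), rfl⟩, ?_⟩ ?_)
  · rintro ⟨t, ht, rfl⟩
    obtain ⟨k, rfl⟩ := exists_smul_dod0 ht
    exact ⟨k, smul_pair k _⟩
  · rintro ⟨k, rfl⟩
    exact ⟨_, (smul_mem_dodecads_iff k).2 dod0_mem, smul_pair k _⟩
  · rintro _ _ ⟨t, ht, rfl⟩ ⟨t', ht', rfl⟩ h
    rw [rel_pair dod0_mem ht, rel_pair dod0_mem ht'] at h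
    have h1 : (setOf' 340831 ∩ t).card ∈ ({(setOf' 340831 ∩ t').card,
        12 - (setOf' 340831 ∩ t').card} : Finset ℕ) := h ▸ Finset.mem_insert_self _ _
    rw [Finset.mem_insert, Finset.mem_singleton, ← card_inter_compl dod0_mem] at h1
    rcases h1 with h1 | h1
    · obtain ⟨k, e1, e2⟩ := trans0 ht ht' h1
      exact ⟨k, by rw [smul_pair, e1], by rw [smul_pair, e2]⟩
    · obtain ⟨k, e1, e2⟩ := trans0 ht (compl_mem_dodecads ht') h1
      exact ⟨k, by rw [smul_pair, e1], by rw [smul_pair, e2, compl_compl, Finset.pair_comm]⟩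
  · intro h
    have := rel_pair dod0_mem (setOf'_mem_dodecads (m := 8245261) (by decide +kernel))
    rw [h, rel_pair dod0_mem dod0_mem, card_inter_setOf', card_inter_setOf'] at this
    revert this
    decide +kernel
  · intro S h2 hS y hy hne hy'
    have step : ∀ a b i j k, and' (and' (isCW a) (Nat.beq (pop 24 a) 12))
        (and' (and' (isCW b) (Nat.beq (pop 24 b) 12))
        (and' (Nat.beq (pop 24 (Nat.land 340831 a)) i) (and' (Nat.beq (pop 24 (Nat.land a b)) j)
        (Nat.beq (pop 24 (Nat.land 340831 b)) k)))) = true →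
        S {i, 12 - i} → S {j, 12 - j} → S {k, 12 - k} := by
      intro a b i j k h hi hj
      rw [and'_eq_true, and'_eq_true (a := and' (isCW b) _)] at h
      obtain ⟨h1, h2, h3⟩ := h
      simp only [and'_eq_true, beq_iff, ← card_inter_setOf'] at h3
      obtain ⟨rfl, rfl, rfl⟩ := h3
      have ha := setOf'_mem_dodecads h1
      have hb := setOf'_mem_dodecads h2
      rw [← rel_pair dod0_mem ha] at hi
      rw [← rel_pair ha hb] at hj
      rw [← rel_pair dod0_mem hb]
      exact hS _ _ ⟨_, ha, rfl⟩ ⟨_, hb, rfl⟩ hi hj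
    have cls : ∀ t ∈ dodecads, rel {setOf' 340831, (setOf' 340831)ᶜ} {t, tᶜ} = {4, 12 - 4} ∨
        rel {setOf' 340831, (setOf' 340831)ᶜ} {t, tᶜ} = {6, 12 - 6} ∨
        ({t, tᶜ} : Finset (Finset GolayPt)) = {setOf' 340831, (setOf' 340831)ᶜ} := by
      intro t ht
      have key : ∀ t ∈ dodecads, (setOf' 340831 ∩ t).card = 12 → t = setOf' 340831 := by
        intro t ht h
        have e1 := Finset.eq_of_subset_of_card_le (Finset.inter_subset_left (s₁ := setOf' 340831)
          (s₂ := t)) (by rw [h, dod0_mem.2])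
        have e2 := Finset.eq_of_subset_of_card_le (Finset.inter_subset_right (s₁ := setOf' 340831)
          (s₂ := t)) (by rw [h, ht.2])
        rw [← e2, e1]
      rw [rel_pair dod0_mem ht]
      rcases cls0 ht with h | h | h | h | h
      · right; right
        rw [← key tᶜ (compl_mem_dodecads ht) (by rw [card_inter_compl dod0_mem, h]), compl_compl,
          Finset.pair_comm]
      · left; rw [h]
      · right; left; rw [h]
      · left; rw [h]; decide
      · right; right; rw [key t ht h]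
    have a46 : S {4, 12 - 4} → S {6, 12 - 6} := fun h =>
      step 16748578 11690445 4 4 6 (by decide +kernel) h h
    have a64 : S {6, 12 - 6} → S {4, 12 - 4} := fun h =>
      step 8245261 15900839 6 6 4 (by decide +kernel) h h
    obtain ⟨y, hy, rfl⟩ := hy
    have s4 : S {4, 12 - 4} := by
      rcases cls y hy with h | h | h
      · rw [h] at hy'; exact hy'
      · rw [h] at hy'; exact a64 hy'
      · exact absurd h hne
    rintro _ ⟨z, hz, rfl⟩
    rcases cls z hz with h | h | h
    · rw [h]; exact s4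
    · rw [h]; exact a46 s4
    · rw [h]; exact h2

end Cfsg.Agent.S1566
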