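import Cfsg.Statements.S1567
import Cfsg.Agent.Spor.Co0Trans
-- import your own Cfsg.Agent.* helpers here

set_option autoImplicit false
open Cfsg

namespace Cfsg.Agent.S1567

/-- The rank-24 lattice is the additive subgroup generated by its 196560 minimal vectors. -/
theorem result : AddSubgroup.closure {x : Cfsg.GolayPt → ℤ | x ∈ Cfsg.leechLattice ∧ Cfsg.sqNorm x = 32} = Cfsg.leechLattice := by
  apply le_antisymm
  · rw [AddSubgroup.closure_le]; exact fun x hx => hx.1
  set H := AddSubgroup.closure {x : GolayPt → ℤ | x ∈ leechLattice ∧ sqNorm x = 32} with hH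
  have h32 : ∀ x : leechLattice, sqNorm (x : GolayPt → ℤ) = 32 → (x : GolayPt → ℤ) ∈ H :=
    fun x hx => AddSubgroup.subset_closure ⟨x.2, hx⟩
  have hsum : ∀ (x a b : leechLattice) (g : Co0), g • x = a + b → sqNorm (a : GolayPt → ℤ) = 32 →
      sqNorm (b : GolayPt → ℤ) = 32 → (x : GolayPt → ℤ) ∈ H := by
    intro x a b g h ha hb
    have : x = g⁻¹ • a + g⁻¹ • b := by rw [← smul_add, ← h, inv_smul_smul]
    rw [this, AddSubgroup.coe_add]
    exact H.add_mem (h32 _ (by rw [Spor.Leech.sqNorm_smul, ha])) (h32 _ (by rw [Spor.Leech.sqNorm_smul, hb]))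
  have hshort : ∀ y : leechLattice, sqNorm (y : GolayPt → ℤ) ≤ 64 → (y : GolayPt → ℤ) ∈ H := by
    intro y h1
    by_cases hy : y = 0
    · rw [hy]; exact H.zero_mem
    have := Spor.Leech.min_norm y.2 (fun h => hy (Subtype.ext h))
    have c := Spor.Leech.sixteen_dvd_sqNorm y.2
    have : sqNorm (y : GolayPt → ℤ) = 32 ∨ sqNorm (y : GolayPt → ℤ) = 48 ∨
      sqNorm (y : GolayPt → ℤ) = 64 := by omega
    rcases this with h | h | h
    · exact h32 y h
    · obtain ⟨g, hg⟩ := Spor.Leech.exists_smul_eq_u5 h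
      exact hsum y Spor.leechU (Spor.Leech.u5 - Spor.leechU) g (by rw [hg]; abel) (by decide) (by decide)
    · obtain ⟨g, hg⟩ := Spor.Leech.exists_smul_eq_e8 y h none
      exact hsum y Spor.leechU Spor.leechU' g (by rw [hg, Spor.Leech.leechU_add]) (by decide) (by decide)
  have key : ∀ (n : ℕ) (x : leechLattice), sqNorm (x : GolayPt → ℤ) ≤ n → (x : GolayPt → ℤ) ∈ H := by
    intro n
    induction n with
    | zero => intro x hx; exact hshort x (by omega)
    | succ n ih =>
      intro x hx
      by_cases h : sqNorm (x : GolayPt → ℤ) ≤ 64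
      · exact hshort x h
      obtain ⟨y, h1, z, h2⟩ := Spor.Leech.isLeechForm.exists_short x
      rw [Spor.Leech.dotForm_apply, Spor.Leech.dotInt_self] at h1
      have e : x = y + (z + z) := by rw [← two_smul ℕ z, ← h2]; abel
      have a := Spor.Leech.sqNorm_sub (x : GolayPt → ℤ) y
      have b := Spor.Leech.sqNorm_add (x : GolayPt → ℤ) y
      have c := Spor.Leech.sqNorm_nonneg ((x : GolayPt → ℤ) + y)
      have e2 : (x : GolayPt → ℤ) - y = 2 • (z : GolayPt → ℤ) := congrArg Subtype.val h2
      rw [e2, Spor.Leech.sqNorm_two_nsmul] at a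
      have hz := ih z (by push_cast at hx; omega)
      rw [e, AddSubgroup.coe_add, AddSubgroup.coe_add]
      exact H.add_mem (hshort y h1) (H.add_mem hz hz)
  intro x hx
  exact key (sqNorm x).toNat ⟨x, hx⟩ (by simp)

end Cfsg.Agent.S1567
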