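import Cfsg.Statements.S1568
import Cfsg.Agent.Spor.Co0Cross
-- import your own Cfsg.Agent.* helpers here

set_option autoImplicit false
open Cfsg

namespace Cfsg.Agent.S1568

/-- Shape census of the lattice vectors of sum of squares 48 (customary norm 6): the four families (2^12, 0^12), (±3^3, ±1^21), (±4, ±2^8, 0^15) and (±5, ±1^23) have 5275648, 8290304, 3108864 and 98304 members. -/
theorem result : {x : Cfsg.GolayPt → ℤ | x ∈ Cfsg.leechLattice ∧ Cfsg.sqNorm x = 48 ∧ ∀ i, x i = 0 ∨ x i = 2 ∨ x i = -2}.ncard = 5275648 ∧ {x : Cfsg.GolayPt → ℤ | x ∈ Cfsg.leechLattice ∧ Cfsg.sqNorm x = 48 ∧ ∃ i j k, i ≠ j ∧ j ≠ k ∧ i ≠ k ∧ |x i| = 3 ∧ |x j| = 3 ∧ |x k| = 3}.ncard = 8290304 ∧ {x : Cfsg.GolayPt → ℤ | x ∈ Cfsg.leechLattice ∧ Cfsg.sqNorm x = 48 ∧ ∃ i, |x i| = 4}.ncard = 3108864 ∧ {x : Cfsg.GolayPt → ℤ | x ∈ Cfsg.leechLattice ∧ Cfsg.sqNorm x = 48 ∧ ∃ i, |x i| = 5}.ncard = 98304 := by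
  classical
  have fin : {x | x ∈ leechLattice ∧ sqNorm x = (48 : ℕ)}.Finite :=
    Set.finite_of_ncard_ne_zero (ne_of_eq_of_ne Spor.Leech.count_48 (by norm_num))
  have tot : ∀ f : (GolayPt → ℤ) → ℕ,
      {x | (x ∈ leechLattice ∧ sqNorm x = (48 : ℕ)) ∧ 0 ≤ f x}.ncard = 16773120 := fun f => by
    simpa using Spor.Leech.count_48
  have cnt : ∀ (p : ℤ → Prop) [DecidablePred p] (m : ℕ), _ := fun p _ m =>
    (Spor.Leech.count_shape p 48 m (by norm_num)).trans
      (Spor.Leech.count_uniform (2 ^ 100) (by norm_num) (fun a => a.natAbs ^ 2 + if p a then 2000 else 0) _)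
  simp only [Spor.Leech.gUni, Spor.Leech.gA_zero, Spor.Leech.gA_one, Spor.Leech.gA_two,
    Spor.Leech.gA_three, Spor.Leech.gB_zero, Spor.Leech.gB_one, Spor.Leech.gB_two,
    Spor.Leech.gB_three] at cnt
  have ex : ∀ k : ℤ, {x | x ∈ leechLattice ∧ sqNorm x = 48 ∧ ∃ i, |x i| = k} =
      {x | (x ∈ leechLattice ∧ sqNorm x = (48 : ℕ)) ∧
        0 + 1 ≤ (Finset.univ.filter fun i => |x i| = k).card} := fun k => by
    ext x
    simp only [Set.mem_setOf_eq, zero_add, Finset.one_le_card, Finset.filter_nonempty_iff,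
      Finset.mem_univ, true_and, and_assoc, Nat.cast_ofNat]
  refine ⟨?_, ?_, ?_, ?_⟩
  · refine Eq.trans ?_ ((cnt (fun a => ¬ (a = 0 ∨ a = 2 ∨ a = -2)) 0).trans (by decide +kernel))
    congr 1; ext x
    simp only [Set.mem_setOf_eq, Finset.card_eq_zero, Finset.filter_eq_empty_iff, Finset.mem_univ,
      not_not, and_assoc, Nat.cast_ofNat, forall_const]
  · have a0 := Spor.Leech.ncard_le_split fin (fun x => (Finset.univ.filter fun i => |x i| = 3).card) 0
    have a1 := Spor.Leech.ncard_le_split fin (fun x => (Finset.univ.filter fun i => |x i| = 3).card) 1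
    have a2 := Spor.Leech.ncard_le_split fin (fun x => (Finset.univ.filter fun i => |x i| = 3).card) 2
    rw [tot, (cnt (fun a => |a| = 3) 0).trans (show _ = 8482816 by decide +kernel)] at a0
    rw [(cnt (fun a => |a| = 3) 1).trans (show _ = 0 by decide +kernel)] at a1
    rw [(cnt (fun a => |a| = 3) 2).trans (show _ = 0 by decide +kernel)] at a2
    have : {x : GolayPt → ℤ | x ∈ leechLattice ∧ sqNorm x = 48 ∧ ∃ i j k, i ≠ j ∧ j ≠ k ∧ i ≠ k ∧
        |x i| = 3 ∧ |x j| = 3 ∧ |x k| = 3} = {x | (x ∈ leechLattice ∧ sqNorm x = (48 : ℕ)) ∧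
        2 + 1 ≤ (Finset.univ.filter fun i => |x i| = 3).card} := by
      ext x
      simp only [Set.mem_setOf_eq, Nat.add_one_le_iff, Finset.two_lt_card_iff, Finset.mem_filter,
        Finset.mem_univ, true_and, and_assoc, Nat.cast_ofNat]
      refine and_congr_right fun _ => and_congr_right fun _ => ?_
      exact ⟨fun ⟨i, j, k, a, b, c, d, e, f⟩ => ⟨i, j, k, d, e, f, a, c, b⟩,
        fun ⟨i, j, k, d, e, f, a, c, b⟩ => ⟨i, j, k, a, b, c, d, e, f⟩⟩
    rw [this]
    simp only [zero_add, one_add_one_eq_two] at a0 a1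
    omega
  · have a0 := Spor.Leech.ncard_le_split fin (fun x => (Finset.univ.filter fun i => |x i| = 4).card) 0
    rw [tot, (cnt (fun a => |a| = 4) 0).trans (show _ = 13664256 by decide +kernel)] at a0
    rw [ex]; omega
  · have a0 := Spor.Leech.ncard_le_split fin (fun x => (Finset.univ.filter fun i => |x i| = 5).card) 0
    rw [tot, (cnt (fun a => |a| = 5) 0).trans (show _ = 16674816 by decide +kernel)] at a0
    rw [ex]; omega

end Cfsg.Agent.S1568
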