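import Cfsg.Statements.S1569
import Cfsg.Agent.Spor.Co0Basic
-- import your own Cfsg.Agent.* helpers here

set_option autoImplicit false
open scoped Pointwise
open Cfsg

namespace Cfsg.Agent.S1569

/-- The cross through a lattice vector of customary norm 8 has exactly 48 members. -/
theorem result (x : Cfsg.GolayPt → ℤ) (hx : x ∈ Cfsg.leechLattice) (hxn : Cfsg.sqNorm x = 64) : (Cfsg.cross x).ncard = 48 := by
  have h := Spor.Leech.isLeechForm.card_fib (f := ⟨x, hx⟩)
    (by rw [Spor.Leech.dotForm_apply, Spor.Leech.dotInt_self]; exact hxn)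
  rw [← h, ← Set.ncard_coe_finset, ← Set.ncard_image_of_injective _ Subtype.val_injective]
  congr 1
  ext y
  simp only [cross, Set.mem_setOf_eq, Set.mem_image, Finset.mem_coe]
  constructor
  · rintro ⟨hy, h1, z, hz, h2⟩
    refine ⟨⟨y, hy⟩, Spor.Leech.isLeechForm.mem_fib.2 ⟨?_, ?_⟩, rfl⟩
    · rw [Spor.Leech.dotForm_apply, Spor.Leech.dotInt_self]; exact (h1.trans hxn).le
    · exact (Spor.Leech.mk_eq_mk_iff.2 ⟨⟨z, hz⟩, Subtype.ext h2⟩).symm
  · rintro ⟨y, hy, rfl⟩
    have h1 := Spor.Leech.isLeechForm.fib_norm (f := ⟨x, hx⟩)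
      (by rw [Spor.Leech.dotForm_apply, Spor.Leech.dotInt_self]; exact hxn) hy
    rw [Spor.Leech.dotForm_apply, Spor.Leech.dotInt_self] at h1
    obtain ⟨z, hz⟩ := Spor.Leech.mk_eq_mk_iff.1 (Spor.Leech.isLeechForm.mem_fib.1 hy).2.symm
    exact ⟨y.2, h1.trans hxn.symm, z, z.2, congrArg Subtype.val hz⟩

end Cfsg.Agent.S1569
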