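import Cfsg.Statements.S1574
import Cfsg.Agent.Spor.Co2Trans16
-- import your own Cfsg.Agent.* helpers here

set_option autoImplicit false
open Cfsg

namespace Cfsg.Agent.S1574

/-- The stabiliser of a minimal vector is transitive on the minimal vectors of customary inner product −2 with it. -/
theorem result (v w w' : ↥Cfsg.leechLattice) (hv : Cfsg.sqNorm (v : Cfsg.GolayPt → ℤ) = 32) (hw : Cfsg.sqNorm (w : Cfsg.GolayPt → ℤ) = 32) (hw' : Cfsg.sqNorm (w' : Cfsg.GolayPt → ℤ) = 32) (hd : Cfsg.dotInt (v : Cfsg.GolayPt → ℤ) (w : Cfsg.GolayPt → ℤ) = -16) (hd' : Cfsg.dotInt (v : Cfsg.GolayPt → ℤ) (w' : Cfsg.GolayPt → ℤ) = -16) : ∃ g : ↥Cfsg.Co0, g • v = v ∧ g • w = w' := by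
  obtain ⟨g, a, b⟩ := Spor.Leech.trans_of_std₂
    (Spor.Leech.exists_std_16 (x := -w) hv (by rw [AddSubgroup.coe_neg, Spor.Leech.sqNorm_neg, hw])
      (by rw [AddSubgroup.coe_neg, Spor.Leech.dotInt_neg_right, hd]; rfl))
    (Spor.Leech.exists_std_16 (x := -w') hv (by rw [AddSubgroup.coe_neg, Spor.Leech.sqNorm_neg, hw'])
      (by rw [AddSubgroup.coe_neg, Spor.Leech.dotInt_neg_right, hd']; rfl))
  exact ⟨g, a, neg_injective (by rw [← smul_neg, b])⟩

end Cfsg.Agent.S1574
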