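import Cfsg.Statements.S1575
import Cfsg.Agent.Spor.Co0Trans
-- import your own Cfsg.Agent.* helpers here

set_option autoImplicit false
open Cfsg

namespace Cfsg.Agent.S1575

/-- The stabiliser of a minimal vector is transitive on the minimal vectors of customary inner product −1 with it. -/
theorem result (v w w' : ↥Cfsg.leechLattice) (hv : Cfsg.sqNorm (v : Cfsg.GolayPt → ℤ) = 32) (hw : Cfsg.sqNorm (w : Cfsg.GolayPt → ℤ) = 32) (hw' : Cfsg.sqNorm (w' : Cfsg.GolayPt → ℤ) = 32) (hd : Cfsg.dotInt (v : Cfsg.GolayPt → ℤ) (w : Cfsg.GolayPt → ℤ) = -8) (hd' : Cfsg.dotInt (v : Cfsg.GolayPt → ℤ) (w' : Cfsg.GolayPt → ℤ) = -8) : ∃ g : ↥Cfsg.Co0, g • v = v ∧ g • w = w' := by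
  have key : ∀ w : leechLattice, sqNorm (w : GolayPt → ℤ) = 32 →
      dotInt (v : GolayPt → ℤ) (w : GolayPt → ℤ) = -8 →
      ∃ g : Co0, g • (v + w) = Spor.Leech.u5 ∧ g • v = Spor.leechU := by
    intro w hw hd
    apply Spor.Leech.exists_std_mcl _ hv
    · rw [AddSubgroup.coe_add, Spor.Leech.dotInt_add_left, Spor.Leech.dotInt_self,
        Spor.Leech.dotInt_comm, hv, hd]; norm_num
    · rw [AddSubgroup.coe_add, Spor.Leech.sqNorm_add, hv, hw, hd]; norm_num
  obtain ⟨g, a, b⟩ := Spor.Leech.trans_of_std₂ (key w hw hd) (key w' hw' hd')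
  refine ⟨g, b, ?_⟩
  rw [smul_add, b] at a
  exact add_left_cancel a

end Cfsg.Agent.S1575
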