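import Cfsg.Statements.S1579
import Cfsg.Agent.Spor.Co0Trans
-- import your own Cfsg.Agent.* helpers here

set_option autoImplicit false
open Cfsg

namespace Cfsg.Agent.S1579

/-- The stabiliser of a vector of customary norm 6 is transitive on the 552 minimal vectors that complete it to a sum of two minimal vectors. -/
theorem result (u v v' : ↥Cfsg.leechLattice) (hu : Cfsg.sqNorm (u : Cfsg.GolayPt → ℤ) = 48) (hv : Cfsg.sqNorm (v : Cfsg.GolayPt → ℤ) = 32 ∧ Cfsg.sqNorm ((u - v) : Cfsg.GolayPt → ℤ) = 32) (hv' : Cfsg.sqNorm (v' : Cfsg.GolayPt → ℤ) = 32 ∧ Cfsg.sqNorm ((u - v') : Cfsg.GolayPt → ℤ) = 32) : ∃ g : ↥Cfsg.Co0, g • u = u ∧ g • v = v' := by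
  have key : ∀ v : leechLattice, (sqNorm (v : GolayPt → ℤ) = 32 ∧
      sqNorm ((u - v) : GolayPt → ℤ) = 32) →
      ∃ g : Co0, g • u = Spor.Leech.u5 ∧ g • v = Spor.leechU := by
    intro v hv
    apply Spor.Leech.exists_std_mcl hu hv.1
    have := hv.2
    rw [Spor.Leech.sqNorm_sub, hu, hv.1] at this
    omega
  exact Spor.Leech.trans_of_std₂ (key v hv) (key v' hv')

end Cfsg.Agent.S1579
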