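import Cfsg.Statements.S1580
import Cfsg.Agent.Spor.LeechConf
-- import your own Cfsg.Agent.* helpers here

set_option autoImplicit false
open Cfsg

namespace Cfsg.Agent.S1580

/-- The McLaughlin configuration: for u of customary norm 6 and v minimal with u − v minimal, there are 275 further such summands x of customary inner product 2 with v, permuted transitively by the stabiliser of u and v. -/
theorem result (u v : ↥Cfsg.leechLattice) (hu : Cfsg.sqNorm (u : Cfsg.GolayPt → ℤ) = 48) (hv : Cfsg.sqNorm (v : Cfsg.GolayPt → ℤ) = 32 ∧ Cfsg.sqNorm ((u - v) : Cfsg.GolayPt → ℤ) = 32) : {x : ↥Cfsg.leechLattice | Cfsg.sqNorm (x : Cfsg.GolayPt → ℤ) = 32 ∧ Cfsg.sqNorm ((u - x) : Cfsg.GolayPt → ℤ) = 32 ∧ Cfsg.dotInt (v : Cfsg.GolayPt → ℤ) (x : Cfsg.GolayPt → ℤ) = 16}.ncard = 275 ∧ ∀ x ∈ {x : ↥Cfsg.leechLattice | Cfsg.sqNorm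 (x : Cfsg.GolayPt → ℤ) = 32 ∧ Cfsg.sqNorm ((u - x) : Cfsg.GolayPt → ℤ) = 32 ∧ Cfsg.dotInt (v : Cfsg.GolayPt → ℤ) (x : Cfsg.GolayPt → ℤ) = 16}, ∀ x' ∈ {x : ↥Cfsg.leechLattice | Cfsg.sqNorm (x : Cfsg.GolayPt → ℤ) = 32 ∧ Cfsg.sqNorm ((u - x) : Cfsg.GolayPt → ℤ) = 32 ∧ Cfsg.dotInt (v : Cfsg.GolayPt → ℤ) (x : Cfsg.GolayPt → ℤ) = 16}, ∃ g : ↥Cfsg.Co0, g • u = u ∧ g • v = v ∧ g • x = x' := by
  have hd : ∀ x : leechLattice, sqNorm (x : GolayPt → ℤ) = 32 →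
      (sqNorm ((u : GolayPt → ℤ) - (x : GolayPt → ℤ)) = 32 ↔ dotInt (u : GolayPt → ℤ) x = 24) := fun x hx => by
    rw [Spor.Leech.sqNorm_sub, hu, hx]; omega
  obtain ⟨g, a, b⟩ := Spor.Leech.exists_std_mcl hu hv.1 ((hd v hv.1).1 hv.2)
  obtain ⟨e, c⟩ := Spor.Leech.orbit_conf₂ a b Spor.ModelCo3B.iff_mcl_24_16
  have h : {x : ↥Cfsg.leechLattice | Cfsg.sqNorm (x : Cfsg.GolayPt → ℤ) = 32 ∧ Cfsg.sqNorm ((u - x) : Cfsg.GolayPt → ℤ) = 32 ∧ Cfsg.dotInt (v : Cfsg.GolayPt → ℤ) (x : Cfsg.GolayPt → ℤ) = 16} = _ :=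
    Set.ext fun x => Iff.trans ⟨fun h => ⟨⟨h.1, (hd x h.1).1 h.2.1⟩, h.2.2⟩,
      fun h => ⟨h.1.1, (hd x h.1.1).2 h.1.2, h.2⟩⟩ (e x).symm
  rw [h, c, Spor.ModelCo3B.orb_mcl_24_16.2]
  refine ⟨rfl, fun x hx y hy => ?_⟩
  obtain ⟨k, hk, d⟩ := Comp.exists_smul_of_orbit hx hy
  exact ⟨k, hk.1, hk.2, d⟩

end Cfsg.Agent.S1580
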