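import Cfsg.Statements.S1581
import Cfsg.Agent.Spor.LeechConf
-- import your own Cfsg.Agent.* helpers here

set_option autoImplicit false
open Cfsg

namespace Cfsg.Agent.S1581

/-- The McLaughlin group acts with rank 3 and subdegrees 1, 112, 162 on its 275 points: the point stabiliser has two orbits on the remaining points, distinguished by customary inner product 1 or 2 with the fixed point. -/
theorem result (u v x : ↥Cfsg.leechLattice) (hu : Cfsg.sqNorm (u : Cfsg.GolayPt → ℤ) = 48) (hv : Cfsg.sqNorm (v : Cfsg.GolayPt → ℤ) = 32 ∧ Cfsg.sqNorm ((u - v) : Cfsg.GolayPt → ℤ) = 32) (hx : x ∈ {x : ↥Cfsg.leechLattice | Cfsg.sqNorm (x : Cfsg.GolayPt → ℤ) = 32 ∧ Cfsg.sqNorm ((u - x) : Cfsg.GolayPt → ℤ) = 32 ∧ Cfsg.dotInt (v : Cfsg.GolayPt → ℤ) (x : Cfsg.GolayPt → ℤ) = 16}) : {y : ↥Cfsg.leechLattice | y ∈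 {x : ↥Cfsg.leechLattice | Cfsg.sqNorm (x : Cfsg.GolayPt → ℤ) = 32 ∧ Cfsg.sqNorm ((u - x) : Cfsg.GolayPt → ℤ) = 32 ∧ Cfsg.dotInt (v : Cfsg.GolayPt → ℤ) (x : Cfsg.GolayPt → ℤ) = 16} ∧ Cfsg.dotInt (x : Cfsg.GolayPt → ℤ) (y : Cfsg.GolayPt → ℤ) = 8}.ncard = 112 ∧ {y : ↥Cfsg.leechLattice | y ∈ {x : ↥Cfsg.leechLattice | Cfsg.sqNorm (x : Cfsg.GolayPt → ℤ) = 32 ∧ Cfsg.sqNorm ((u - x) : Cfsg.GolayPt → ℤ) = 32 ∧ Cfsg.dotInt (v : Cfsg.GolayPt → ℤ) (x : Cfsg.GolayPt → ℤ) = 16} ∧ y ≠ x ∧ Cfsg.dotInt (x : Cfsg.GolayPt → ℤ) (y : Cfsg.GolayPt → ℤ) = 16}.ncard = 162 ∧ ∀ y ∈ {x : ↥Cfsg.leechLattice | Cfsg.sqNorm (x : Cfsg.GolayPt → ℤ) = 32 ∧ Cfsg.sqNorm ((u - x) : Cfsg.GolayPt → ℤ) = 32 ∧ Cfsg.dotInt (v : Cfsg.GolayPt → ℤ) (x : Cfsg.GolayPt → ℤ) = 16}, ∀ y' ∈ {x : ↥Cfsg.leechLattice | Cfsg.sqNorm (x : Cfsg.GolayPt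 → ℤ) = 32 ∧ Cfsg.sqNorm ((u - x) : Cfsg.GolayPt → ℤ) = 32 ∧ Cfsg.dotInt (v : Cfsg.GolayPt → ℤ) (x : Cfsg.GolayPt → ℤ) = 16}, y ≠ x → y' ≠ x → Cfsg.dotInt (x : Cfsg.GolayPt → ℤ) (y : Cfsg.GolayPt → ℤ) = Cfsg.dotInt (x : Cfsg.GolayPt → ℤ) (y' : Cfsg.GolayPt → ℤ) → ∃ g : ↥Cfsg.Co0, g • u = u ∧ g • v = v ∧ g • x = x ∧ g • y = y' := by
  have hd : ∀ x : leechLattice, sqNorm (x : GolayPt → ℤ) = 32 →
      (sqNorm ((u : GolayPt → ℤ) - (x : GolayPt → ℤ)) = 32 ↔ dotInt (u : GolayPt → ℤ) x = 24) := fun x hx => by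
    rw [Spor.Leech.sqNorm_sub, hu, hx]; omega
  obtain ⟨g, a, b, c⟩ := Spor.Leech.exists_std_mcl3 hu hv.1 ((hd v hv.1).1 hv.2) hx.1
    ((hd x hx.1).1 hx.2.1) hx.2.2
  obtain ⟨e1, c1⟩ := Spor.Leech.orbit_conf₃ a b c Spor.ModelCo3B.iff_u43_24_16_8
  obtain ⟨e2, c2⟩ := Spor.Leech.orbit_conf₃ a b c Spor.ModelCo3B.iff_u43_24_16_16
  rw [Spor.ModelCo3B.orb_u43_24_16_8.2] at c1
  rw [Spor.ModelCo3B.orb_u43_24_16_16.2] at c2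
  have key : ∀ y : leechLattice, sqNorm (y : GolayPt → ℤ) = 32 → dotInt (u : GolayPt → ℤ) y = 24 →
      dotInt (v : GolayPt → ℤ) y = 16 → y ≠ x →
      dotInt (x : GolayPt → ℤ) y = 8 ∨ dotInt (x : GolayPt → ℤ) y = 16 := by
    intro y h1 h2 h3 h4
    have : g • y ∈ _ := (Spor.ModelCo3B.iff_mcl_24_16 (g • y)).2 ⟨⟨by rw [Spor.Leech.sqNorm_smul, h1],
      by rw [Spor.Leech.dot_of_smul a, h2]⟩, by rw [Spor.Leech.dot_of_smul b, h3]⟩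
    rw [Spor.ModelCo3B.cov_u43'] at this
    rcases this with d | d | d
    · have := Spor.ModelCo3B.val_u43_24_16_32 d
      rw [Spor.Leech.dot_of_smul c] at this
      exact absurd (Spor.Leech.eq_of_dot_32 hx.1 h1 this) h4
    · exact Or.inl (Spor.Leech.dot_of_smul c y ▸ Spor.ModelCo3B.val_u43_24_16_8 d)
    · exact Or.inr (Spor.Leech.dot_of_smul c y ▸ Spor.ModelCo3B.val_u43_24_16_16 d)
  have fin : ∀ {p y y' : leechLattice}, y ∈ MulAction.orbit ↥(MulAction.stabilizer Co0 u ⊓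
      MulAction.stabilizer Co0 v ⊓ MulAction.stabilizer Co0 x) p → y' ∈ MulAction.orbit ↥(MulAction.stabilizer Co0 u ⊓
      MulAction.stabilizer Co0 v ⊓ MulAction.stabilizer Co0 x) p →
      ∃ g : Co0, g • u = u ∧ g • v = v ∧ g • x = x ∧ g • y = y' := by
    intro p y y' hy hy'
    obtain ⟨k, hk, d⟩ := Comp.exists_smul_of_orbit hy hy'
    exact ⟨k, hk.1.1, hk.1.2, hk.2, d⟩
  refine ⟨?_, ?_, fun y hy y' hy' n n' h => ?_⟩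
  · refine Eq.trans ?_ c1; congr 1; ext y; rw [e1]
    exact ⟨fun h => ⟨⟨⟨h.1.1, (hd y h.1.1).1 h.1.2.1⟩, h.1.2.2⟩, h.2⟩,
      fun h => ⟨⟨h.1.1.1, (hd y h.1.1.1).2 h.1.1.2, h.1.2⟩, h.2⟩⟩
  · refine Eq.trans ?_ c2; congr 1; ext y; rw [e2]
    refine ⟨fun h => ⟨⟨⟨h.1.1, (hd y h.1.1).1 h.1.2.1⟩, h.1.2.2⟩, h.2.2⟩,
      fun h => ⟨⟨h.1.1.1, (hd y h.1.1.1).2 h.1.1.2, h.1.2⟩, ?_, h.2⟩⟩
    rintro rfl
    have := h.2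
    rw [Spor.Leech.dotInt_self, h.1.1.1] at this; omega
  · obtain ⟨h1, h2, h3⟩ := hy
    obtain ⟨h1', h2', h3'⟩ := hy'
    have h4 := (hd y h1).1 h2
    have h4' := (hd y' h1').1 h2'
    rcases key y h1 h4 h3 n with d | d
    · exact fin ((e1 y).2 ⟨⟨⟨h1, h4⟩, h3⟩, d⟩) ((e1 y').2 ⟨⟨⟨h1', h4'⟩, h3'⟩, h ▸ d⟩)
    · exact fin ((e2 y).2 ⟨⟨⟨h1, h4⟩, h3⟩, d⟩) ((e2 y').2 ⟨⟨⟨h1', h4'⟩, h3'⟩, h ▸ d⟩)

end Cfsg.Agent.S1581
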