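import Cfsg.Statements.S1582
import Cfsg.Agent.Spor.U43Leech
-- import your own Cfsg.Agent.* helpers here

set_option autoImplicit false
open Cfsg

namespace Cfsg.Agent.S1582

/-- The point stabiliser in the rank-3 action of the McLaughlin group on 275 points is isomorphic to PSU(4, 3). -/
theorem result (u v x : ↥Cfsg.leechLattice) (hu : Cfsg.sqNorm (u : Cfsg.GolayPt → ℤ) = 48) (hv : Cfsg.sqNorm (v : Cfsg.GolayPt → ℤ) = 32 ∧ Cfsg.sqNorm ((u - v) : Cfsg.GolayPt → ℤ) = 32) (hx : x ∈ {x : ↥Cfsg.leechLattice | Cfsg.sqNorm (x : Cfsg.GolayPt → ℤ) = 32 ∧ Cfsg.sqNorm ((u - x) : Cfsg.GolayPt → ℤ) = 32 ∧ Cfsg.dotInt (v : Cfsg.GolayPt → ℤ) (x : Cfsg.GolayPt → ℤ) = 16}) (F : Type) [Field F] [Fintype F] (hF : Fintype.card F = 9) : Nonempty (↥(MulAction.stabilizer ↥Cfsg.Co0 u ⊓ MulAction.stabilizer ↥Cfsg.Co0 v ⊓ MulAction.stabilizer ↥Cfsg.Co0 x) ≃* Cfsg.PSU 4 F 3) := by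
  open Cfsg.Agent.Spor Cfsg.Agent.Spor.Leech in
  · obtain ⟨h1, h2, h3⟩ := hx
    have a := hv.2
    rw [sqNorm_sub, hu, hv.1] at a
    rw [sqNorm_sub, hu, h1] at h2
    obtain ⟨g, b, c⟩ := exists_std_mcl hu hv.1 (by omega)
    obtain ⟨k, hk⟩ := (ModelCo3B.iff_mcl_24_16 (g • x)).2
      ⟨⟨by rw [sqNorm_smul, h1], by rw [← b, dotInt_smul]; omega⟩, by rw [← c, dotInt_smul, h3]⟩
    have hk' : (k : Co0) • ModelCo3B.v 1 = g • x := hk
    obtain ⟨e⟩ := stab_equiv₃ (g := (k : Co0)⁻¹ * g) (a := u) (b := v) (c := x)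
      (by rw [mul_smul, b, inv_smul_eq_iff]; exact k.2.1.symm)
      (by rw [mul_smul, c, inv_smul_eq_iff]; exact k.2.2.symm)
      (by rw [mul_smul, inv_smul_eq_iff]; exact hk'.symm)
    obtain ⟨e'⟩ := U43Leech.iso F hF
    exact ⟨e.trans e'⟩

end Cfsg.Agent.S1582
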