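import Cfsg.Statements.S1585
import Cfsg.Agent.Spor.Co0Trans
-- import your own Cfsg.Agent.* helpers here

set_option autoImplicit false
open Cfsg

namespace Cfsg.Agent.S1585

/-- Two vectors of customary norm 6 with inner product −4 are exchanged by some automorphism of the lattice. -/
theorem result (v w : ↥Cfsg.leechLattice) (hv : Cfsg.sqNorm (v : Cfsg.GolayPt → ℤ) = 48) (hw : Cfsg.sqNorm (w : Cfsg.GolayPt → ℤ) = 48) (hvw : Cfsg.dotInt (v : Cfsg.GolayPt → ℤ) (w : Cfsg.GolayPt → ℤ) = -32) : ∃ g : ↥Cfsg.Co0, g • v = w ∧ g • w = v := by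
  have hn : sqNorm ((v + w : leechLattice) : GolayPt → ℤ) = 32 := by
    rw [AddSubgroup.coe_add, Spor.Leech.sqNorm_add, hv, hw, hvw]; norm_num
  obtain ⟨g, a, b⟩ := Spor.Leech.trans_of_std₂
    (Spor.Leech.exists_std_hs hv hn (by
      rw [AddSubgroup.coe_add, Spor.Leech.dotInt_add_right, Spor.Leech.dotInt_self, hv, hvw]; norm_num))
    (Spor.Leech.exists_std_hs hw hn (by
      rw [AddSubgroup.coe_add, Spor.Leech.dotInt_add_right, Spor.Leech.dotInt_self,
        Spor.Leech.dotInt_comm, hw, hvw]; norm_num))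
  refine ⟨g, a, ?_⟩
  rw [smul_add, a, add_comm v w] at b
  exact add_left_cancel b

end Cfsg.Agent.S1585
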