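import Cfsg.Statements.S1587
import Mathlib

set_option autoImplicit false
open Matrix
open Cfsg

namespace Cfsg.Agent.S1587



/-- First step of the characterisation of the rank-24 lattice: in an even lattice without roots, norm-8 vectors congruent modulo 2 are equal, opposite or orthogonal. -/
theorem result (B : Matrix (Fin 24) (Fin 24) ℤ) (hsymm : B.IsSymm) (hpos : ∀ x : Fin 24 → ℤ, x ≠ 0 → 0 < x ⬝ᵥ (B *ᵥ x)) (heven : ∀ x : Fin 24 → ℤ, (2 : ℤ) ∣ x ⬝ᵥ (B *ᵥ x)) (h2 : ∀ x : Fin 24 → ℤ, x ⬝ᵥ (B *ᵥ x) ≠ 2) (x y : Fin 24 → ℤ) (hx : x ⬝ᵥ (B *ᵥ x) = 8) (hy : y ⬝ᵥ (B *ᵥ y) = 8) (hc : ∀ i, (2 : ℤ) ∣ (x - y) i) : y = x ∨ y = -x ∨ x ⬝ᵥ (B *ᵥ y) = 0 := by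
  have hs : ∀ u v : Fin 24 → ℤ, u ⬝ᵥ (B *ᵥ v) = v ⬝ᵥ (B *ᵥ u) := by
    intro u v
    rw [Matrix.dotProduct_mulVec, ← Matrix.mulVec_transpose, hsymm.eq, dotProduct_comm]
  have h4 : ∀ u : Fin 24 → ℤ, u ≠ 0 → 4 ≤ u ⬝ᵥ (B *ᵥ u) := by
    intro u hu
    have := hpos u hu
    have := heven u
    have := h2 u
    omega
  choose z hz using hc
  have hxz : x = y + (2 : ℤ) • z := by
    ext i
    have := hz i
    simp only [Pi.sub_apply] at this
    simp only [Pi.add_apply, Pi.smul_apply, smul_eq_mul]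
    omega
  by_cases h0 : z = 0
  · left; rw [hxz, h0]; simp
  by_cases h1 : y + z = 0
  · right; left
    have : z = -y := by rw [← sub_eq_zero, sub_neg_eq_add, add_comm]; exact h1
    rw [hxz, this]; ext i; simp; ring
  right; right
  have e1 := h4 z h0
  have e2 := h4 _ h1
  rw [hxz] at hx ⊢
  simp only [Matrix.mulVec_add, Matrix.mulVec_smul, add_dotProduct, dotProduct_add,
    smul_dotProduct, dotProduct_smul, smul_eq_mul] at hx e2 ⊢
  have := hs y z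
  omega

end Cfsg.Agent.S1587
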