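import Cfsg.Statements.S1588
import Cfsg.Agent.Spor.LeechForm
-- import your own Cfsg.Agent.* helpers here

set_option autoImplicit false
open Matrix
open Cfsg

namespace Cfsg.Agent.S1588

/-- Second step of the characterisation: under the vector counts of the rank-24 lattice, the norm-8 vectors fall into congruence classes of exactly 48 modulo twice the lattice. -/
theorem result (B : Matrix (Fin 24) (Fin 24) ℤ) (hsymm : B.IsSymm) (hpos : ∀ x : Fin 24 → ℤ, x ≠ 0 → 0 < x ⬝ᵥ (B *ᵥ x)) (heven : ∀ x : Fin 24 → ℤ, (2 : ℤ) ∣ x ⬝ᵥ (B *ᵥ x)) (h2 : ∀ x : Fin 24 → ℤ, x ⬝ᵥ (B *ᵥ x) ≠ 2) (h4 : {x : Fin 24 → ℤ | x ⬝ᵥ (B *ᵥ x) = 4}.ncard = 196560) (h6 : {x : Fin 24 → ℤ | x ⬝ᵥ (B *ᵥ x) = 6}.ncard = 16773120) (h8 : {x : Fin 24 → ℤ | x ⬝ᵥ (B *ᵥ x) = 8}.ncard = 398034000) (x : Fin 24 → ℤ) (hx : x ⬝ᵥ (B *ᵥ x) = 8) : {y : Fin 24 → ℤ | y ⬝ᵥ (B *ᵥ y) = 8 ∧ ∀ i, (2 : ℤ) ∣ (x - y) i}.ncard = 48 := by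
  classical
  let d : (Fin 24 → ℤ) →ₗ[ℤ] (Fin 24 → ℤ) →ₗ[ℤ] ℤ := (8 : ℤ) • Matrix.toLinearMap₂' ℤ B
  have hd : ∀ x y, d x y = 8 * (x ⬝ᵥ (B *ᵥ y)) := fun x y => by
    simp [d, Matrix.toLinearMap₂'_apply']
  have hc : ∀ n : ℤ, {x | d x x = 8 * n} = {x : Fin 24 → ℤ | x ⬝ᵥ (B *ᵥ x) = n} := fun n => by
    ext x; simp only [Set.mem_setOf_eq, hd]; omega
  have h : Spor.Leech.IsLeechForm d :=
    { free := inferInstance
      fin := inferInstance
      rank := by simp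
      symm := fun x y => by
        rw [hd, hd, Matrix.dotProduct_mulVec, ← Matrix.mulVec_transpose, hsymm.eq, dotProduct_comm]
      min := fun x hx => by
        have := hpos x hx; have := heven x; have := h2 x; rw [hd]; omega
      even := fun x => by have := heven x; rw [hd]; omega
      c32 := (congrArg Set.ncard (hc 4)).trans h4
      c48 := (congrArg Set.ncard (hc 6)).trans h6
      c64 := (congrArg Set.ncard (hc 8)).trans h8 }
  have hx' : d x x = 64 := by rw [hd, hx]; rfl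
  rw [← h.card_fib hx', ← Set.ncard_coe_finset]
  congr 1; ext y
  have key : (∀ i, (2 : ℤ) ∣ (x - y) i) ↔ ((y : _ ⧸ Spor.Leech.twoM (Fin 24 → ℤ)) = x) := by
    rw [eq_comm, Spor.Leech.mk_eq_mk_iff]
    constructor
    · intro a; choose z hz using a
      exact ⟨z, funext fun i => by rw [hz i]; simp⟩
    · rintro ⟨z, hz⟩ i; exact ⟨z i, by rw [hz]; simp⟩
  simp only [Set.mem_setOf_eq, Finset.mem_coe, key]
  constructor
  · rintro ⟨a, b⟩; exact h.mem_fib.2 ⟨by rw [hd, a]; norm_num, b⟩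
  · intro a
    have := h.fib_norm hx' a
    rw [hd] at this
    exact ⟨by omega, (h.mem_fib.1 a).2⟩

end Cfsg.Agent.S1588
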