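import Cfsg.Statements.S1591
import Cfsg.Agent.Spor.TernGolay

set_option autoImplicit false
open Cfsg

namespace Cfsg.Agent.S1591

open Cfsg.Agent.Comp Cfsg.Agent.Spor.Tern



/-- Any two words of the length-12 ternary code have dot product zero. -/
theorem result (x y : Cfsg.ArrayPt → ZMod 3) (hx : x ∈ Cfsg.ternaryGolayCode) (hy : y ∈ Cfsg.ternaryGolayCode) : ∑ p, x p * y p = 0 := by
  have h : ∀ j < 6, ∀ k < 6, ∑ p, trow j p * trow k p = 0 := by decide +kernel
  obtain ⟨n, -, rfl⟩ := exists_tword hx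
  obtain ⟨m, -, rfl⟩ := exists_tword hy
  simp only [tword_eq, Finset.sum_apply, Pi.smul_apply, smul_eq_mul, Finset.sum_mul_sum]
  rw [Finset.sum_comm]
  refine Finset.sum_eq_zero fun j hj => ?_
  rw [Finset.sum_comm]
  refine Finset.sum_eq_zero fun k hk => ?_
  simp only [mul_mul_mul_comm _ (trow j _), ← Finset.mul_sum]
  rw [h j (Finset.mem_range.1 hj) k (Finset.mem_range.1 hk), mul_zero]

end Cfsg.Agent.S1591
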