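import Cfsg.Statements.S1594
import Cfsg.Agent.Spor.TernGolay
import Cfsg.Agent.S0425
import Cfsg.Agent.Spor.GolayM24

set_option autoImplicit false
open Cfsg

namespace Cfsg.Agent.S1594

open Cfsg.Agent.Spor Cfsg.Agent.Spor.Tern
open scoped Pointwise

theorem monoPerms_eq : monoPerms ternaryGolayCode = setSystemAut hexads := by
  have hle : monoPerms ternaryGolayCode ≤ setSystemAut hexads := by
    rintro σ ⟨c, hc⟩
    refine mem_setSystemAut_of_mapsTo ?_
    rintro _ ⟨x, hx, rfl, h6⟩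
    exact ⟨_, hc x hx, support_monomialMap σ c x, by rwa [Finset.card_smul_finset]⟩
  refine le_antisymm hle fun g hg => ?_
  let x : Fin 5 ↪ ArrayPt := (Fin.castLEEmb (by norm_num : 5 ≤ 12)).trans aeq.symm.toEmbedding
  obtain ⟨k, hk, e⟩ := Perm.multTrans_subgroup_iff.1 multTrans_monoPerms x (fun i => g • x i)
    x.injective ((MulAction.injective g).comp x.injective)
  have h1 : (⟨k⁻¹ * g, mul_mem (inv_mem (hle hk)) hg⟩ : setSystemAut hexads) ∈
      MulAction.stabilizer (setSystemAut hexads) x := by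
    refine DFunLike.ext _ _ fun i => ?_
    show (k⁻¹ * g) • x i = x i
    rw [mul_smul, ← e i, inv_smul_smul]
  rw [(S0425.result (by decide) hexads_steiner).2.2 x, Subgroup.mem_bot, Subtype.ext_iff] at h1
  rwa [← inv_mul_eq_one.1 h1]



/-- The monomial automorphism group of the length-12 ternary code has order 190080 and its permutation parts are exactly the automorphisms of its hexad system. -/
theorem result : Nat.card {f : Equiv.Perm Cfsg.ArrayPt × (Cfsg.ArrayPt → (ZMod 3)ˣ) // (∀ x ∈ Cfsg.ternaryGolayCode, Cfsg.monomialMap f.1 f.2 x ∈ Cfsg.ternaryGolayCode)} = 190080 ∧ {σ : Equiv.Perm Cfsg.ArrayPt | ∃ c : Cfsg.ArrayPt → (ZMod 3)ˣ, (∀ x ∈ Cfsg.ternaryGolayCode, Cfsg.monomialMap σ c x ∈ Cfsg.ternaryGolayCode)} = (Cfsg.setSystemAut {h : Finset Cfsg.ArrayPt | ∃ x ∈ Cfsg.ternaryGolayCode, Cfsg.ternarySupport x = h ∧ h.card = 6} : Set (Equiv.Perm Cfsg.ArrayPt)) := by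
  refine ⟨?_, congrArg SetLike.coe monoPerms_eq⟩
  rw [card_monomial diag_const, monoPerms_eq, (S0425.result (by decide) hexads_steiner).1.2,
    Nat.card_eq_fintype_card]
  decide

end Cfsg.Agent.S1594
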