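import Cfsg.Statements.S1595
import Mathlib
import Cfsg.Agent.Spor.SteinerMeet

set_option autoImplicit false
open Cfsg

namespace Cfsg.Agent.S1595



/-- Leech triangle of S(5, 6, 12): blocks meet in 0, 2, 3 or 4 points, and a block is met exactly in a given 2-, 3- or 4-subset by 3, 2, 3 blocks respectively. -/
theorem result {α : Type*} [Fintype α] [DecidableEq α] (hα : Fintype.card α = 12) {B : Set (Finset α)} (hB : Cfsg.IsSteinerSystem 5 6 B) (b : Finset α) (hb : b ∈ B) : (∀ c ∈ B, c ≠ b → (b ∩ c).card = 0 ∨ (b ∩ c).card = 2 ∨ (b ∩ c).card = 3 ∨ (b ∩ c).card = 4) ∧ ∀ s ⊆ b, (s.card = 2 → {c : Finset α | c ∈ B ∧ b ∩ c = s}.ncard = 3) ∧ (s.card = 3 → {c : Finset α | c ∈ B ∧ b ∩ c = s}.ncard = 2) ∧ (s.card = 4 → {c : Finset α | c ∈ B ∧ b ∩ c = s}.ncard = 3) := by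
  have hk := hB.1 b hb
  refine ⟨fun c hc hcb => ?_, fun s hs => ?_⟩
  · have m1 := Spor.steiner_moment0 hB b 1 (by norm_num)
    have m2 := Spor.steiner_moment0 hB b 2 (by norm_num)
    have m3 := Spor.steiner_moment0 hB b 3 (by norm_num)
    have m4 := Spor.steiner_moment0 hB b 4 (by norm_num)
    have h5 := Spor.nMeet_block_of_ge hB hb (i := 5) (by norm_num) (by norm_num)
    have h6 := Spor.nMeet_block_self hB hb
    simp only [hα, hk, Finset.sum_range_succ, Finset.range_zero, Finset.sum_empty, h5, h6]
      at m1 m2 m3 m4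
    norm_num [Nat.choose] at m1 m2 m3 m4
    have h1 : Spor.nMeet B ∅ b 1 = 0 := by omega
    have h1' := Spor.nMeet_eq_zero.1 h1 c hc (by simp)
    have := Spor.steiner_inter_lt hB hc hb hcb
    rw [Finset.inter_comm]
    omega
  · rw [Spor.ncard_inter_eq_nMeet B hs]
    have hd : Disjoint s (b \ s) := Finset.disjoint_sdiff
    have hc : (b \ s).card = 6 - s.card := by rw [Finset.card_sdiff_of_subset hs, hk]
    have h6 := Spor.nMeet_sdiff_self hB hb hs
    have z : ∀ i, 6 - s.card < i → Spor.nMeet B s (b \ s) i = 0 := fun i hi =>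
      Spor.nMeet_eq_zero_of_lt (by omega)
    have m := Spor.steiner_moment hB s (b \ s) hd
    refine ⟨fun h => ?_, fun h => ?_, fun h => ?_⟩
    · have m0 := m 0 (by omega)
      have m1 := m 1 (by omega)
      have m2 := m 2 (by omega)
      have m3 := m 3 (by omega)
      have z5 := z 5 (by omega)
      have z6 := z 6 (by omega)
      simp only [hα, hc, h, Finset.sum_range_succ, Finset.range_zero, Finset.sum_empty]
        at m0 m1 m2 m3 h6
      norm_num [Nat.choose] at m0 m1 m2 m3 h6
      omega
    · have m0 := m 0 (by omega)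
      have m1 := m 1 (by omega)
      have m2 := m 2 (by omega)
      have z4 := z 4 (by omega)
      have z5 := z 5 (by omega)
      have z6 := z 6 (by omega)
      simp only [hα, hc, h, Finset.sum_range_succ, Finset.range_zero, Finset.sum_empty]
        at m0 m1 m2 h6
      norm_num [Nat.choose] at m0 m1 m2 h6
      omega
    · have m0 := m 0 (by omega)
      have m1 := m 1 (by omega)
      have z3 := z 3 (by omega)
      have z4 := z 4 (by omega)
      have z5 := z 5 (by omega)
      have z6 := z 6 (by omega)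
      simp only [hα, hc, h, Finset.sum_range_succ, Finset.range_zero, Finset.sum_empty]
        at m0 m1 h6
      norm_num [Nat.choose] at m0 m1 h6
      omega

end Cfsg.Agent.S1595
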