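import Cfsg.Statements.S1596
import Cfsg.Agent.Spor.M12Quartet

set_option autoImplicit false
open scoped Pointwise
open Cfsg

namespace Cfsg.Agent.S1596

open Cfsg.Agent.Spor Cfsg.Agent.Spor.M24C



/-- A quartet of a dodecad is determined by any two of its triples: two disjoint triples uniting to a hexad extend to exactly one quartet. -/
theorem result (d : Finset Cfsg.GolayPt) (hd : d ∈ Cfsg.dodecads) (t u : Finset Cfsg.GolayPt) (ht : t.card = 3) (hu : u.card = 3) (htu : Disjoint t u) (hh : t ∪ u ∈ Cfsg.hexadsOn d) : ∃! Q : Finset (Finset Cfsg.GolayPt), Q ∈ Cfsg.quartets d ∧ t ∈ Q ∧ u ∈ Q := by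
  obtain ⟨g, rfl, rfl, rfl⟩ := exists_smul_triples hd ht hu hh
  refine ⟨g • famOf 4 qu0, ⟨smul_mem_quartets g qu0_mem, Finset.smul_mem_smul_finset ?_,
    Finset.smul_mem_smul_finset ?_⟩, ?_⟩
  · exact (setOf'_mem_famOf_iff (by norm_num)).2 ⟨0, by norm_num, by decide +kernel⟩
  · exact (setOf'_mem_famOf_iff (by norm_num)).2 ⟨1, by norm_num, by decide +kernel⟩
  · rintro Q ⟨hQ, h1, h2⟩
    obtain ⟨Q, rfl⟩ : ∃ Q', g • Q' = Q := MulAction.surjective g Q
    rw [smul_mem_quartets_iff] at hQ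
    rw [Finset.smul_mem_smul_finset_iff] at h1 h2
    rw [quartet_eq_qu0 hQ h1 h2]

end Cfsg.Agent.S1596
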