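import Cfsg.Statements.S1597
import Cfsg.Agent.Spor.M12Quartet

set_option autoImplicit false
open scoped Pointwise
open Cfsg

namespace Cfsg.Agent.S1597

open Cfsg.Agent.Spor Cfsg.Agent.Spor.M24C



/-- A dodecad has 220 quartets and its stabiliser is transitive on them. -/
theorem result (d : Finset Cfsg.GolayPt) (hd : d ∈ Cfsg.dodecads) : (Cfsg.quartets d).ncard = 220 ∧ ∀ Q ∈ Cfsg.quartets d, ∀ Q' ∈ Cfsg.quartets d, ∃ g : Equiv.Perm Cfsg.GolayPt, g ∈ Cfsg.M24 ∧ g • d = d ∧ g • Q = Q' := by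
  refine ⟨?_, fun Q hQ Q' hQ' => ?_⟩
  · obtain ⟨g, rfl⟩ := exists_smul_dod0 hd
    exact (ncard_eq_of_smul g fun _ => smul_mem_quartets_iff g).trans ncard_quartets_card_stabQ.1
  · obtain ⟨g, rfl, rfl⟩ := exists_smul_qu0 hd hQ
    obtain ⟨k, e, rfl⟩ := exists_smul_qu0 hd hQ'
    refine ⟨(k * g⁻¹ : M24), (k * g⁻¹).2, ?_, ?_⟩
    · show (k * g⁻¹) • g • setOf' 340831 = _
      rw [mul_smul, inv_smul_smul, e]
    · show (k * g⁻¹) • g • famOf 4 qu0 = _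
      rw [mul_smul, inv_smul_smul]

end Cfsg.Agent.S1597
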