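import Cfsg.Statements.S1598
import Cfsg.Agent.Spor.M12Quartet

set_option autoImplicit false
open scoped Pointwise
open Cfsg

namespace Cfsg.Agent.S1598

open Cfsg.Agent.Comp Cfsg.Agent.Spor Cfsg.Agent.Spor.M24C Matrix

theorem exists_hom_of_graph {G L : Type*} [Group G] [Group L] (D : Subgroup (G × L))
    (H : Subgroup G) (htot : ∀ g ∈ H, ∃ l, (g, l) ∈ D) (hfun : ∀ l, (1, l) ∈ D → l = 1) :
    ∃ φ : H →* L, ∀ g : H, ((g : G), φ g) ∈ D := by
  choose f hf using htot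
  refine ⟨MonoidHom.mk' (fun g => f g g.2) fun a b => ?_, fun g => hf g g.2⟩
  have := D.mul_mem (D.inv_mem (D.mul_mem (hf a a.2) (hf b b.2))) (hf _ (a * b).2)
  exact (inv_mul_eq_one.1 (hfun _ (by simpa using this))).symm

/-- Affine coordinates on nine points. -/
noncomputable def e (v : Fin 2 → ZMod 3) : GolayPt :=
  pt (dg 16103300091365 ((v 0).val + 3 * (v 1).val))

theorem e_inj : Function.Injective e := by decide +kernel

/-- Elements acting on the nine points by affine maps, with their linear parts. -/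
def aff : Subgroup (M24 × GL (Fin 2) (ZMod 3)) where
  carrier := {p | ∃ b, ∀ v, p.1 • e v = e ((p.2 : Matrix (Fin 2) (Fin 2) (ZMod 3)) *ᵥ v + b)}
  one_mem' := ⟨0, fun v => by simp⟩
  mul_mem' := fun {p q} ⟨b, hb⟩ ⟨c, hc⟩ => ⟨p.2 *ᵥ c + b, fun v => by
    rw [Prod.fst_mul, mul_smul, hc, hb, Prod.snd_mul, Units.val_mul, mulVec_add, mulVec_mulVec,
      add_assoc]⟩
  inv_mem' := fun {p} ⟨b, hb⟩ => ⟨-((p.2⁻¹ : GL (Fin 2) (ZMod 3)) *ᵥ b), fun v => by
    rw [Prod.fst_inv, inv_smul_eq_iff, hb, Prod.snd_inv, mulVec_add, mulVec_neg, mulVec_mulVec,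
      mulVec_mulVec, Units.mul_inv, one_mulVec, one_mulVec, neg_add_cancel_right]⟩

theorem mem_aff {c : ℕ} (A : Matrix (Fin 2) (Fin 2) (ZMod 3)) (hA : A.det ≠ 0)
    (b : Fin 2 → ZMod 3) (hc : okM c = true) (h : ∀ v, pt (dg c (ix (e v))) = e (A *ᵥ v + b)) :
    ∃ l, (mc c, l) ∈ aff :=
  ⟨GeneralLinearGroup.mkOfDetNeZero A hA, b, fun v => by
    rw [← pt_ix (e v), mc_smul_pt hc (ix_lt _), h]; rfl⟩

theorem card_GL : Nat.card (GL (Fin 2) (ZMod 3)) = 48 := by
  rw [card_GL_field]; simp [Fin.prod_univ_two]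

theorem exists_surj : ∃ φ : stabQ →* GL (Fin 2) (ZMod 3), Function.Surjective φ := by
  obtain ⟨φ, hφ⟩ := exists_hom_of_graph aff stabQ (fun g hg => by
    have : stabQ ≤ aff.map (MonoidHom.fst _ _) := by
      rw [← gen_gQ, gen, Subgroup.closure_le]
      rintro _ ⟨c, hc, rfl⟩
      simp only [List.mem_cons, List.not_mem_nil, or_false] at hc
      rcases hc with rfl | rfl
      · obtain ⟨l, hl⟩ := mem_aff !![1, 2; 0, 1] (by decide) ![0, 1] okgQ0 (by decide +kernel)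
        exact ⟨_, hl, rfl⟩
      · obtain ⟨l, hl⟩ := mem_aff !![1, 2; 1, 1] (by decide) ![2, 2] okgQ1 (by decide +kernel)
        exact ⟨_, hl, rfl⟩
    obtain ⟨⟨g, l⟩, h, rfl⟩ := this hg
    exact ⟨l, h⟩) (by
    rintro l ⟨b, hb⟩
    have h0 : b = 0 := by simpa using (e_inj (hb 0)).symm
    refine Units.ext (Matrix.ext_of_mulVec_single fun i => ?_)
    have := e_inj (hb (Pi.single i 1))
    rw [h0, add_zero] at this
    rw [Units.val_one, one_mulVec]
    exact this.symm)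
  have hk : Nat.card φ.ker ≤ 9 := by
    choose b hb using fun n : φ.ker => hφ n
    refine (Nat.card_le_card_of_injective b fun n m h => ?_).trans (by simp)
    have h1 : ∀ v, ((n : stabQ) : M24) • e v = ((m : stabQ) : M24) • e v := fun v => by
      rw [hb n, hb m, h, MonoidHom.mem_ker.1 n.2, MonoidHom.mem_ker.1 m.2]
    have := eq_one_of_dodecad_finset (compl_mem_dodecads d0_mem) (s := Finset.univ.image e)
      (by decide +kernel) (by decide +kernel) (g := ((m : stabQ) : M24)⁻¹ * (n : stabQ))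
      (by rw [M24C.stabilizer_compl]; exact mul_mem (inv_mem m.1.2.1) n.1.2.1) (mem_fixS.2 fun p hp => by
        obtain ⟨v, -, rfl⟩ := Finset.mem_image.1 hp
        rw [mul_smul, h1, inv_smul_smul])
    exact Subtype.ext (Subtype.ext (inv_mul_eq_one.1 this).symm)
  refine ⟨φ, MonoidHom.range_eq_top.1 (Subgroup.eq_top_of_le_card _ ?_)⟩
  have := φ.ker.card_mul_index
  rw [Subgroup.index_ker, ncard_quartets_card_stabQ.2] at this
  rw [card_GL]
  nlinarith

theorem exists_surj_of_equiv {A B L : Type*} [Group A] [Group B] [Group L] (f : A ≃* B)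
    (φ : B →* L) (h : Function.Surjective φ) : ∃ ψ : A →* L, Function.Surjective ψ :=
  ⟨φ.comp f.toMonoidHom, h.comp f.surjective⟩



/-- A quartet stabiliser inside the dodecad stabiliser has order 432, a normal subgroup of order 9 with quotient GL(2, 3), and is transitive on the dodecad. -/
theorem result (d : Finset Cfsg.GolayPt) (hd : d ∈ Cfsg.dodecads) (Q : Finset (Finset Cfsg.GolayPt)) (hQ : Q ∈ Cfsg.quartets d) : Nat.card ↥(MulAction.stabilizer Cfsg.M24 d ⊓ MulAction.stabilizer Cfsg.M24 Q) = 432 ∧ (∃ (N : Subgroup ↥(MulAction.stabilizer Cfsg.M24 d ⊓ MulAction.stabilizer Cfsg.M24 Q)) (_ : N.Normal), Nat.card N = 9 ∧ Nonempty (↥(MulAction.stabilizer Cfsg.M24 d ⊓ MulAction.stabilizer Cfsg.M24 Q) ⧸ N ≃* GL (Fin 2) (ZMod 3))) ∧ ∀ p ∈ d, ∀ q ∈ d, ∃ g ∈ (MulAction.stabilizer Cfsg.M24 d ⊓ MulAction.stabilizer Cfsg.M24 Q), ((g : ↥Cfsg.M24) : Equiv.Perm Cfsg.GolayPt) p = q := by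
  obtain ⟨g, rfl, rfl⟩ := exists_smul_qu0 hd hQ
  have hc := (card_eq_of_conj g (mem_stabQ_smul g)).trans ncard_quartets_card_stabQ.2
  refine ⟨hc, ?_, fun p hp q hq => ?_⟩
  · obtain ⟨φ, hφ⟩ := exists_surj
    obtain ⟨ψ, hψ⟩ := exists_surj_of_equiv (conjEquiv g (mem_stabQ_smul g)) φ hφ
    refine ⟨ψ.ker, inferInstance, ?_, ⟨QuotientGroup.quotientKerEquivOfSurjective ψ hψ⟩⟩
    have := ψ.ker.card_mul_index
    rw [Subgroup.index_ker, hc, MonoidHom.range_eq_top.2 hψ, Subgroup.card_top, card_GL] at this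
    omega
  · have h := exists_smul_of_orbN inH_gQ 3 (x := 0) (m := 340831) (by norm_num) (by decide +kernel)
    obtain ⟨k, hk, e1⟩ := h _ (Finset.inv_smul_mem_iff.2 hp)
    obtain ⟨k', hk', e2⟩ := h _ (Finset.inv_smul_mem_iff.2 hq)
    refine ⟨g * (k' * k⁻¹) * g⁻¹, (mem_stabQ_smul g _).2 (by
      simpa [mul_assoc] using mul_mem hk' (inv_mem hk)), ?_⟩
    show (g * (k' * k⁻¹) * g⁻¹) • p = q
    rw [mul_smul, ← e1, mul_smul, mul_smul, inv_smul_smul, e2, smul_inv_smul]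

end Cfsg.Agent.S1598
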