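import Cfsg.Statements.S1599
import Cfsg.Agent.Spor.M12Quartet

set_option autoImplicit false
open scoped Pointwise
open Cfsg

namespace Cfsg.Agent.S1599

open Cfsg.Agent.Comp Cfsg.Agent.Spor Cfsg.Agent.Spor.M24C



/-- A quartet stabiliser has five orbits on the quartets of its dodecad, of sizes 1, 12, 27, 72, 108. -/
theorem result (d : Finset Cfsg.GolayPt) (hd : d ∈ Cfsg.dodecads) (Q : Finset (Finset Cfsg.GolayPt)) (hQ : Q ∈ Cfsg.quartets d) : ∃ X₁ ∈ Cfsg.quartets d, ∃ X₂ ∈ Cfsg.quartets d, ∃ X₃ ∈ Cfsg.quartets d, ∃ X₄ ∈ Cfsg.quartets d, (MulAction.orbit ↥(MulAction.stabilizer Cfsg.M24 d ⊓ MulAction.stabilizer Cfsg.M24 Q) X₁).ncard = 12 ∧ (MulAction.orbit ↥(MulAction.stabilizer Cfsg.M24 d ⊓ MulAction.stabilizer Cfsg.M24 Q) X₂).ncard = 27 ∧ (MulAction.orbit ↥(MulAction.stabilizer Cfsg.M24 d ⊓ MulAction.stabilizer Cfsg.M24 Q) X₃).ncard = 72 ∧ (MulAction.orbit ↥(MulAction.stabilizer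 Cfsg.M24 d ⊓ MulAction.stabilizer Cfsg.M24 Q) X₄).ncard = 108 ∧ Cfsg.quartets d = {Q} ∪ MulAction.orbit ↥(MulAction.stabilizer Cfsg.M24 d ⊓ MulAction.stabilizer Cfsg.M24 Q) X₁ ∪ MulAction.orbit ↥(MulAction.stabilizer Cfsg.M24 d ⊓ MulAction.stabilizer Cfsg.M24 Q) X₂ ∪ MulAction.orbit ↥(MulAction.stabilizer Cfsg.M24 d ⊓ MulAction.stabilizer Cfsg.M24 Q) X₃ ∪ MulAction.orbit ↥(MulAction.stabilizer Cfsg.M24 d ⊓ MulAction.stabilizer Cfsg.M24 Q) X₄ := by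
  obtain ⟨g, rfl, rfl⟩ := exists_smul_qu0 hd hQ
  have h := orbDec_quartets0.conj g (mem_stabQ_smul g) fun _ => smul_mem_quartets_iff g
  refine ⟨_, h.mem 1, _, h.mem 2, _, h.mem 3, _, h.mem 4, h.card 1, h.card 2, h.card 3, h.card 4, ?_⟩
  have h0 : MulAction.orbit ↥(MulAction.stabilizer M24 (g • setOf' 340831) ⊓
      MulAction.stabilizer M24 (g • famOf 4 qu0)) (g • famOf 4 qu0) = {g • famOf 4 qu0} := by
    ext y
    exact ⟨fun ⟨k, hk⟩ => hk.symm.trans k.2.2, fun e => e ▸ MulAction.mem_orbit_self _⟩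
  rw [← h0, h.cover]
  ext Q
  simp only [Set.mem_iUnion, Fin.exists_fin_succ, Set.mem_union, or_assoc, IsEmpty.exists_iff,
    or_false]
  rfl

end Cfsg.Agent.S1599
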