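import Cfsg.Statements.S1600
import Cfsg.Agent.Spor.M12Quartet

set_option autoImplicit false
open scoped Pointwise
open Cfsg

namespace Cfsg.Agent.S1600

open Cfsg.Agent.Comp Cfsg.Agent.Spor Cfsg.Agent.Spor.M24C



/-- The pointwise stabiliser of three points of a dodecad inside the dodecad stabiliser (order 72) is transitive on the complementary dodecad. -/
theorem result (d : Finset Cfsg.GolayPt) (hd : d ∈ Cfsg.dodecads) (p q r : Cfsg.GolayPt) (hp : p ∈ d) (hq : q ∈ d) (hr : r ∈ d) (hpq : p ≠ q) (hpr : p ≠ r) (hqr : q ≠ r) : Nat.card ↥(MulAction.stabilizer Cfsg.M24 d ⊓ MulAction.stabilizer Cfsg.M24 p ⊓ MulAction.stabilizer Cfsg.M24 q ⊓ MulAction.stabilizer Cfsg.M24 r) = 72 ∧ ∀ x ∉ d, ∀ y ∉ d, ∃ g ∈ (MulAction.stabilizer Cfsg.M24 d ⊓ MulAction.stabilizer Cfsg.M24 p ⊓ MulAction.stabilizer Cfsg.M24 q ⊓ MulAction.stabilizer Cfsg.M24 r), ((g : ↥Cfsg.M24) : Equiv.Perm Cfsg.GolayPt) x = y := by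
  obtain ⟨k, rfl⟩ := exists_smul_dod0 hd
  obtain ⟨u, hu, hm⟩ := exists_dodecad_map hd (k := 3) (by norm_num) (fun i => k • pt i) ![p, q, r]
    (fun i => Finset.smul_mem_smul_finset (by revert i; decide +kernel))
    (fun i => by fin_cases i <;> assumption)
    ((MulAction.injective k).comp (f := fun i : Fin 3 => pt i) (by decide +kernel))
    (by intro i j; fin_cases i <;> fin_cases j <;> simp [*, Ne.symm])
  obtain rfl : (u * k) • pt 0 = p := (mul_smul _ _ _).trans (hm 0)
  obtain rfl : (u * k) • pt 1 = q := (mul_smul _ _ _).trans (hm 1)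
  obtain rfl : (u * k) • pt 2 = r := (mul_smul _ _ _).trans (hm 2)
  rw [show k • setOf' 340831 = (u * k) • setOf' 340831 by rw [mul_smul, hu]]
  generalize u * k = g
  have key : ∀ x, x ∈ MulAction.stabilizer M24 (g • setOf' 340831) ⊓
      MulAction.stabilizer M24 (g • pt 0) ⊓ MulAction.stabilizer M24 (g • pt 1) ⊓
      MulAction.stabilizer M24 (g • pt 2) ↔
      g⁻¹ * x * g ∈ fixK (MulAction.stabilizer M24 (setOf' 340831)) bD 3 := fun x => by
    simp only [Subgroup.mem_inf, mem_stabilizer_smul_iff, fixK_succ, fixK_zero,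
      dg_bD (show 0 < 5 by norm_num), dg_bD (show 1 < 5 by norm_num),
      dg_bD (show 2 < 5 by norm_num)]
  refine ⟨?_, fun x hx y hy => ?_⟩
  · rw [card_eq_of_conj g key, chainD.card_fixK_eq (by norm_num)]
    decide +kernel
  · have h := exists_smul_of_orbN (H := fixK (MulAction.stabilizer M24 (setOf' 340831)) bD 3)
      (G := [715461294005770680473893921775552544, 809399594410595785774724965859756064]) (by
        simp only [List.mem_cons, List.not_mem_nil, or_false, forall_eq_or_imp, forall_eq]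
        constructor <;> exact inH_fixK (inH_of_okS (by decide +kernel)) (by decide +kernel)
          (by decide +kernel)) 3 (x := 5) (m := 340831 ^^^ 16777215) (by norm_num)
      (by decide +kernel)
    simp only [setOf'_compl, Finset.mem_compl] at h
    obtain ⟨k, hk, e1⟩ := h _ (mt Finset.inv_smul_mem_iff.1 hx)
    obtain ⟨k', hk', e2⟩ := h _ (mt Finset.inv_smul_mem_iff.1 hy)
    refine ⟨g * (k' * k⁻¹) * g⁻¹, (key _).2 (by
      simpa [mul_assoc] using mul_mem hk' (inv_mem hk)), ?_⟩
    show (g * (k' * k⁻¹) * g⁻¹) • x = y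
    rw [mul_smul, ← e1, mul_smul, mul_smul, inv_smul_smul, e2, smul_inv_smul]

end Cfsg.Agent.S1600
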