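import Cfsg.Statements.S1601
import Cfsg.Agent.Spor.M24Facts
import Cfsg.Agent.Spor.MathieuSimple
import Cfsg.Agent.S0498

set_option autoImplicit false
open scoped Pointwise
open Cfsg

namespace Cfsg.Agent.S1601

open Cfsg.Agent.Spor Cfsg.Agent.Spor.M24C MulAction

/-- In the 3-transitive action of the smallest Mathieu group on the complementary dodecad, a point stabiliser is isomorphic to PSL(2, 11). -/
theorem result (d : Finset Cfsg.GolayPt) (hd : d ∈ Cfsg.dodecads) (p q : Cfsg.GolayPt) (hp : p ∈ d) (hq : q ∉ d) : Nonempty (↥(MulAction.stabilizer Cfsg.M24 d ⊓ MulAction.stabilizer Cfsg.M24 p ⊓ MulAction.stabilizer Cfsg.M24 q) ≃* Matrix.ProjectiveSpecialLinearGroup (Fin 2) (ZMod 11)) := by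
  have h1 := card_eq_orbit_mul (stabilizer M24 d ⊓ stabilizer M24 p) q
  have h2 : orbit ↥(stabilizer M24 d ⊓ stabilizer M24 p) q = ↑(dᶜ) := by
    ext y
    simp only [Finset.mem_coe, Finset.mem_compl]
    constructor
    · rintro ⟨g, rfl⟩
      exact (smul_mem_iff_of_smul_eq g.2.1 q).not.2 hq
    · intro hy
      have hc : dᶜ.card = 12 := (compl_mem_dodecads hd).2
      obtain ⟨s, hs, hs2⟩ := Finset.exists_subset_card_eq (s := dᶜ \ {q, y}) (n := 2) (by
        have := Finset.le_card_sdiff {q, y} dᶜ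
        have := Finset.card_le_two (a := q) (b := y)
        omega)
      obtain ⟨a, b, hab, rfl⟩ := Finset.card_eq_two.1 hs2
      simp only [Finset.insert_subset_iff, Finset.singleton_subset_iff, Finset.mem_sdiff,
        Finset.mem_compl, Finset.mem_insert, Finset.mem_singleton, not_or] at hs
      obtain ⟨g, hg, hg1, hg2⟩ := exists_dodecad_pt_map hd hp ![q, a, b] ![y, a, b]
        (by intro i; fin_cases i <;> simp [hq, hs]) (by intro i; fin_cases i <;> simp [hy, hs])
        (by intro i j; fin_cases i <;> fin_cases j <;>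
          simp [hs, hab, hab.symm, Ne.symm hs.1.2.1, Ne.symm hs.2.2.1])
        (by intro i j; fin_cases i <;> fin_cases j <;>
          simp [hs, hab, hab.symm, Ne.symm hs.1.2.2, Ne.symm hs.2.2.2])
      exact ⟨⟨g, hg, hg1⟩, hg2 0⟩
  rw [h2, card_stabilizer_dodecad_pt hd, Set.ncard_coe_finset, (compl_mem_dodecads hd).2] at h1
  have h3 : Nat.card ↥(stabilizer M24 d ⊓ stabilizer M24 p ⊓ stabilizer M24 q) = 11 * 60 := by
    omega
  have := isSimpleGroup_of_le_M24_11 _ h3 (by norm_num) (by norm_num)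
    (primePow_check_of_dvd [(2, 2), (3, 1), (5, 1)] (by simp; norm_num)
      (by norm_num) (by decide) (by decide))
  have : Fact (Nat.Prime 11) := ⟨by norm_num⟩
  exact S0498.result 11 (Or.inl rfl) (by rw [h3]; norm_num) (F := ZMod 11) (by simp)

end Cfsg.Agent.S1601
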