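import Cfsg.Statements.S1602
import Cfsg.Agent.Spor.M24Facts

set_option autoImplicit false
open scoped Pointwise
open Cfsg

namespace Cfsg.Agent.S1602

open Cfsg.Agent.Spor Cfsg.Agent.Spor.M24C MulAction Finset

theorem octad_unique {d o o' : Finset GolayPt} (hd : d ∈ dodecads) (ho : o ∈ octads)
    (ho' : o' ∈ octads) (h : o \ d = o' \ d) {p : GolayPt} (hp : p ∈ d) (h1 : p ∈ o)
    (h2 : p ∈ o') : o = o' := by
  have hs : symmDiff o o' ⊆ d.erase p := by
    intro x hx
    have := Finset.ext_iff.1 h x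
    simp only [mem_sdiff, mem_symmDiff, mem_erase] at this hx ⊢
    refine ⟨by rintro rfl; tauto, by tauto⟩
  have h3 := card_le_card hs
  rw [card_erase_of_mem hp, hd.2] at h3
  have h4 := symmDiff_mem_codeSets ho.1 ho'.1
  have h5 := card_of_mem_codeSets h4
  have h6 := card_of_mem_codeSets (symmDiff_mem_codeSets h4 hd.1)
  have h7 := card_symmDiff' (symmDiff o o') d
  rw [inter_eq_left.2 (hs.trans (erase_subset _ _)), hd.2] at h7
  rw [← symmDiff_eq_bot, bot_eq_empty, ← card_eq_zero]
  omega

/-- In the 12-point action of the smallest Mathieu group the setwise stabiliser of a pair is isomorphic to the symmetric group of degree 5. -/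
theorem result (d : Finset Cfsg.GolayPt) (hd : d ∈ Cfsg.dodecads) (p q q' : Cfsg.GolayPt) (hp : p ∈ d) (hq : q ∉ d) (hq' : q' ∉ d) (hqq' : q ≠ q') : Nonempty (↥(MulAction.stabilizer Cfsg.M24 d ⊓ MulAction.stabilizer Cfsg.M24 p ⊓ MulAction.stabilizer Cfsg.M24 ({q, q'} : Finset Cfsg.GolayPt)) ≃* Equiv.Perm (Fin 5)) := by
  obtain ⟨o, ho, hpo, hod⟩ : ∃ o ∈ octads, p ∈ o ∧ o \ d = {q, q'} := by
    obtain ⟨g, rfl, rfl⟩ := flag_dod hd hp
    obtain ⟨r, hr⟩ : ((g • setOf' 340831)ᶜ \ {q, q'}).Nonempty := by
      rw [← card_pos]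
      have := le_card_sdiff {q, q'} (g • setOf' 340831)ᶜ
      have := card_le_two (a := q) (b := q')
      have := (compl_mem_dodecads hd).2
      omega
    simp only [mem_sdiff, mem_compl, mem_insert, mem_singleton, not_or] at hr
    obtain ⟨k, hk, hk1, hk2⟩ := exists_dodecad_pt_map hd hp (fun i => g • pt (20 + i.1))
      ![q, q', r] (fun i => by rw [smul_mem_smul_finset_iff]; revert i; decide)
      (by intro i; fin_cases i <;> simp [hq, hq', hr])
      ((MulAction.injective g).comp (f := fun i : Fin 3 => pt (20 + i.1)) (by decide))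
      (by intro i j; fin_cases i <;> fin_cases j <;> 
        simp [hr, hqq', hqq'.symm, Ne.symm hr.2.1, Ne.symm hr.2.2])
    refine ⟨k • g • setOf' 3416079, (smul_mem_octads_iff _).2 ((smul_mem_octads_iff _).2
      (setOf'_mem_octads (by decide +kernel))), ?_, ?_⟩
    · rw [← hk1, smul_mem_smul_finset_iff, smul_mem_smul_finset_iff]
      decide
    · rw [← mem_stabilizer_iff.1 hk, ← smul_finset_sdiff, ← smul_finset_sdiff,
        show setOf' 3416079 \ setOf' 340831 = {pt 20, pt 21} by decide +kernel]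
      simp only [smul_finset_insert, smul_finset_singleton]
      exact congrArg₂ _ (hk2 0) (congrArg _ (hk2 1))
  set K := stabilizer M24 d ⊓ stabilizer M24 p ⊓ stabilizer M24 ({q, q'} : Finset GolayPt)
  have hK : K ≤ stabilizer M24 ((o ∩ d).erase p) := by
    rintro g ⟨⟨h1, h2⟩, h3⟩
    replace h1 : g • d = d := h1
    replace h2 : g • p = p := h2
    replace h3 : g • ({q, q'} : Finset GolayPt) = {q, q'} := h3
    have h4 : g • o = o := octad_unique hd ((smul_mem_octads_iff g).2 ho) ho
      (by rw [hod, ← h3, ← hod, smul_finset_sdiff, h1]) hp (h2 ▸ smul_mem_smul_finset hpo) hpo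
    rw [mem_stabilizer_iff, erase_eq, smul_finset_sdiff, smul_finset_inter, smul_finset_singleton,
      h1, h2, h4]
  have hT : ((o ∩ d).erase p).card = 5 := by
    have := card_sdiff_add_card_inter o d
    rw [hod, card_pair hqq', ho.2] at this
    rw [card_erase_of_mem (mem_inter.2 ⟨hpo, hp⟩)]
    omega
  have hf : ∀ g ∈ K, (∀ x ∈ (o ∩ d).erase p, g • x = x) → g = 1 := fun g hg h =>
    eq_one_of_dodecad_finset hd ((erase_subset _ _).trans inter_subset_right) hT.ge hg.1.1
      (mem_fixS.2 h)
  refine nonempty_equiv_perm_fin hK hf hT (le_antisymm ?_ ?_)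
  · have := Nat.card_le_card_of_injective _ (restrictTo_injective hK hf)
    rwa [Nat.card_perm, Nat.card_eq_fintype_card (α := ↥((o ∩ d).erase p)), Fintype.card_coe,
      hT] at this
  · have h1 := card_eq_orbit_mul (stabilizer M24 d ⊓ stabilizer M24 p) ({q, q'} : Finset GolayPt)
    have h2 : (orbit ↥(stabilizer M24 d ⊓ stabilizer M24 p) ({q, q'} : Finset GolayPt)).ncard ≤
        66 := by
      have : orbit ↥(stabilizer M24 d ⊓ stabilizer M24 p) ({q, q'} : Finset GolayPt) ⊆
          ↑(powersetCard 2 dᶜ) := by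
        rintro _ ⟨g, rfl⟩
        rw [mem_coe, mem_powersetCard]
        refine ⟨?_, (card_smul_finset _ _).trans (card_pair hqq')⟩
        simp only [smul_finset_insert, smul_finset_singleton, insert_subset_iff,
          singleton_subset_iff, mem_compl]
        exact ⟨(smul_mem_iff_of_smul_eq g.2.1 q).not.2 hq,
          (smul_mem_iff_of_smul_eq g.2.1 q').not.2 hq'⟩
      have h3 := Set.ncard_le_ncard this
      rwa [Set.ncard_coe_finset, card_powersetCard, (compl_mem_dodecads hd).2] at h3
    rw [card_stabilizer_dodecad_pt hd] at h1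
    have h3 := Nat.mul_le_mul_right (Nat.card K) h2
    rw [← h1] at h3
    change 120 ≤ _
    omega

end Cfsg.Agent.S1602
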