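import Cfsg.Statements.S1603
import Cfsg.Agent.Spor.M24DodStd
import Cfsg.Agent.Class.SmallIso

set_option autoImplicit false
open scoped Pointwise
open Cfsg

namespace Cfsg.Agent.S1603

open Cfsg.Agent.Comp Cfsg.Agent.Spor Cfsg.Agent.Spor.M24C MulAction

/-- The involution fixing the first four base points. -/
def zz : ℕ := 970499966350631336865513127433832480

/-- The points attached to the vectors of the plane over the field with three elements. -/
def ft (x y : ZMod 3) : ℕ := [0, 4, 12, 6, 13, 16, 9, 8, 18].getD (3 * x.val + y.val) 0

/-- The codes of the centraliser. -/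
def cl : List ℕ := [969202056781860934635753244362607648, 221306056451638017120264557308184672, 719608059484697496685871976717321280, 719923664328491199848526586197411872, 969270339852425397140562826583147616, 221550289410297402012191048719174720, 715872302521680643580706198532491296, 217617199158940686300653144474946624, 964944003105871756720595991810606176, 965346966670364367458681901213092896, 716146062361566097043008109225804864, 217568596627580172659656007490766944, 984818244535754528103549039458486304, 721064549862662597311266359538158624, 235742061483406767849477376128910432, 981818813153752489120759972731324512, 731722996265023435542964160459476032, 228001363311221454468151101670655040, 610727855379770684683436871688162368, 596693691629046116550990400692717664, 608288895615245987645162920685438016, 609271311764373893382231684089481248, 607038988187158853496018113149338720, 601915135321570999558303616165022752, 735007443424217238740507493471945824, 969958826742993894265839954570609728, 982939420336662894431691245045713984, 233950865888990746377447415904013344, 725920953632283487556548229579442272,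 232652365823391711183829569059784736, 735500604421669808992593446508235808, 970499966350631336865513127433832480, 233233386906768391987032901617288256, 726098387229991916328255735577218112, 983549310955746530506231437997410400, 234286372747013287696275781005149280, 984355386066803413838770983050249280, 720846548273546509231824711698154592, 731231112280071455683496764367734880, 227578386318009578406903204956702752, 981759386190175716564125263593507904, 235366405754860650836778140353760288, 610933098178650810155900481226967136, 596606098937906343490530381836356672, 601885875835129268478585557547549792, 606675048206788974183023727349926944, 609429652419472343420009903857697856, 608405391266436187982588441666881568]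

theorem okz : okM zz = true := by decide +kernel

theorem cl_ok : allL cl (fun u => and' (okS 340831 u) (and' (and' (okM u)
    (Nat.beq (conjC u zz) zz)) (Nat.beq (dg u 0) 0))) = true := by decide +kernel

theorem key : ∀ a b c d : ZMod 3, a * d - b * c ≠ 0 → ∃ u ∈ cl,
    ∀ x y : ZMod 3, ft (a * x + b * y) (c * x + d * y) = dg u (ft x y) := by decide +kernel

theorem ft_lt : ∀ x y : ZMod 3, ft x y < 24 := by decide +kernel

theorem ft_inj : ∀ x y x' y' : ZMod 3, ft x y = ft x' y' → x = x' ∧ y = y' := by decide +kernel

theorem std : Nonempty (GL (Fin 2) (ZMod 3) ≃*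
    fixK (stabilizer M24 (setOf' 340831) ⊓ Subgroup.centralizer {mc zz}) bD 1) := by
  have hc := chainD.card_cent okz 1 (by norm_num) (N := 48) (by decide +kernel)
  refine Class.nonempty_mulEquiv_of_intertwining (X := GolayPt) (Y := Fin 2 → ZMod 3)
    (MonoidHom.id _) Function.surjective_id (fun v => pt (ft (v 0) (v 1))) Set.univ
    (Subgroup.closure_univ) (fun t _ => ?_) (fun s hs => ?_) ?_
  · have hdet : t.1 0 0 * t.1 1 1 - t.1 0 1 * t.1 1 0 ≠ 0 := by
      rw [← Matrix.det_fin_two]
      exact (Matrix.GeneralLinearGroup.det_ne_zero t)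
    obtain ⟨u, hu, h⟩ := key _ _ _ _ hdet
    have h1 := (allL_iff _ _).1 cl_ok u hu
    simp only [and'_eq_true, beq_iff] at h1
    have h2 := inH_of_okS h1.1
    have h3 := inH_centralizer okz (c := u) (by rw [and'_eq_true, beq_iff]; exact h1.2.1)
    refine ⟨⟨mc u, (mem_fixK_bD (by norm_num)).2 ⟨⟨h2.mc_mem, h3.mc_mem⟩, fun j hj => ?_⟩⟩,
      fun v => ?_⟩
    · obtain rfl : j = 0 := by omega
      rw [smul_pt_eq _ (by norm_num), h2.code_mc, h1.2.2]
    · change pt (ft _ _) = mc u • pt _
      rw [smul_pt_eq _ (ft_lt _ _), h2.code_mc, ← h]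
      simp [Units.smul_def, Matrix.smul_eq_mulVec, Matrix.mulVec, dotProduct, Fin.sum_univ_two]
  · have h : ∀ v : Fin 2 → ZMod 3, s • v = v := fun v => by
      have h1 := ft_inj _ _ _ _ (pt_inj (ft_lt _ _) (ft_lt _ _) (hs v))
      ext i
      fin_cases i
      · exact h1.1
      · exact h1.2
    refine Units.ext (Matrix.mulVec_injective (funext fun v => ?_))
    rw [Units.val_one, Matrix.one_mulVec]
    exact h v
  · have : Fact (Nat.Prime 3) := ⟨Nat.prime_three⟩
    rw [hc, Matrix.card_GL_field]
    simp [Fin.prod_univ_two]

/-- Involution centralisers in the smallest Mathieu group are isomorphic to GL(2, 3). -/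
theorem result (d : Finset Cfsg.GolayPt) (hd : d ∈ Cfsg.dodecads) (p : Cfsg.GolayPt) (hp : p ∈ d) (x : ↥(MulAction.stabilizer Cfsg.M24 d ⊓ MulAction.stabilizer Cfsg.M24 p)) (hx : orderOf x = 2) : Nonempty (↥(Subgroup.centralizer ({x} : Set ↥(MulAction.stabilizer Cfsg.M24 d ⊓ MulAction.stabilizer Cfsg.M24 p))) ≃* GL (Fin 2) (ZMod 3)) := by
  have hx' : orderOf (x : M24) = 2 := by rw [Subgroup.orderOf_coe, hx]
  have h4 := card_fixSet_inter_dodecad hd x.2.1 hx' x.2.2
  have hp' : p ∈ fixSet (x : M24) ∩ d := Finset.mem_inter.2 ⟨mem_fixSet.2 x.2.2, hp⟩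
  have h3 : ((fixSet (x : M24) ∩ d).erase p).card = 3 := by rw [Finset.card_erase_of_mem hp', h4]
  obtain ⟨a, b, c, hab, hac, hbc, h⟩ := Finset.card_eq_three.1 h3
  have ha : a ∈ (fixSet (x : M24) ∩ d).erase p := by simp [h]
  have hb : b ∈ (fixSet (x : M24) ∩ d).erase p := by simp [h]
  have hc : c ∈ (fixSet (x : M24) ∩ d).erase p := by simp [h]
  rw [Finset.mem_erase, Finset.mem_inter, mem_fixSet] at ha hb hc
  obtain ⟨g, rfl, hg⟩ := exists_smul_d0_tuple hd (k := 4) (by norm_num) ![p, a, b, c]
    (by intro i; fin_cases i <;> simp [hp, ha, hb, hc])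
    (by intro i j; fin_cases i <;> fin_cases j <;>
      simp [hab, hac, hbc, hab.symm, hac.symm, hbc.symm, ha, hb, hc, ha.1.symm, hb.1.symm,
        hc.1.symm])
  have hz : g⁻¹ * x * g = mc zz := by
    have h1 : g⁻¹ * x * g ∈ fixK (stabilizer M24 (setOf' 340831)) bD 4 := by
      refine (mem_fixK_bD (by norm_num)).2 ⟨(mem_stabilizer_smul_iff _ _ _).1 x.2.1, fun j hj => ?_⟩
      rw [← smul_smul_eq_iff, hg ⟨j, hj⟩]
      interval_cases j
      exacts [x.2.2, ha.2.1, hb.2.1, hc.2.1]
    have h2 := chainD.forall_fixK (fun c => or' (Nat.beq c oneC) (or' (Nat.beq c zz)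
      (not' (Nat.beq (mulC c c) oneC)))) 4 (by norm_num) (by decide +kernel) _ h1
    have h5 : orderOf (g⁻¹ * x * g) = 2 := by
      rw [← hx']
      exact (MulAut.conj g⁻¹).orderOf_eq (x : M24) ▸ by simp
    rw [orderOf_two_iff] at h5
    simp only [or'_eq_true, beq_iff, not'_eq_true] at h2
    rcases h2 with h2 | h2 | h2
    · exact absurd (by rw [eq_iff_code, h2, code_one']) h5.1
    · rw [eq_iff_code, h2, code_mc okz]
    · exact absurd (by rw [← code_mul', h5.2, code_one']) h2
  obtain ⟨e⟩ := std
  have hp0 : g • pt 0 = p := hg 0
  refine ⟨(subEquiv _ (K := stabilizer M24 (g • setOf' 340831) ⊓ stabilizer M24 p ⊓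
    Subgroup.centralizer {(x : M24)}) inf_le_left fun k => ?_).symm.trans
    ((conjEquiv g fun k => ?_).trans e.symm)⟩
  · rw [Subgroup.mem_inf, Subgroup.mem_centralizer_singleton_iff,
      Subgroup.mem_centralizer_singleton_iff, and_iff_right k.2, ← Subgroup.coe_mul,
      ← Subgroup.coe_mul, Subtype.coe_inj]
  · rw [mem_fixK_bD (by norm_num), Subgroup.mem_inf, Subgroup.mem_inf, Subgroup.mem_inf,
      mem_stabilizer_smul_iff, show k ∈ stabilizer M24 p ↔ g⁻¹ * k * g ∈ stabilizer M24 (pt 0) by
        rw [← mem_stabilizer_smul_iff, hp0], ← hz,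
      Subgroup.mem_centralizer_singleton_iff, Subgroup.mem_centralizer_singleton_iff]
    simp only [Nat.lt_one_iff, forall_eq, mul_assoc, mul_inv_cancel_left, mul_right_inj,
      mem_stabilizer_iff]
    rw [← mul_assoc k, ← mul_assoc (x : M24), mul_left_inj]
    exact and_right_comm

end Cfsg.Agent.S1603
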