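import Cfsg.Statements.S1604
import Cfsg.Agent.Spor.M24Flags

set_option autoImplicit false
open scoped Pointwise
open Cfsg

namespace Cfsg.Agent.S1604

open Cfsg.Agent.Comp Cfsg.Agent.Comp.Idx Cfsg.Agent.Spor Cfsg.Agent.Spor.M24C

theorem cnt (g : M24) (k n : ℕ) (h : cntPow 12 (fun a => force (enc a) fun m =>
    and' (Nat.beq (pop 24 m) 8) (and' (tb m 0) (and' (tb m 1)
      (Nat.beq (pop 24 (Nat.land 5279 m)) k)))) = n) :
    {o' : Finset GolayPt | o' ∈ octads ∧ g • pt 0 ∈ o' ∧ g • pt 1 ∈ o' ∧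
      (g • setOf' 5279 ∩ o').card = k}.ncard = n := by
  rw [ncard_smul_eq g, ← h, ← ncard_codeSets' (fun s => s.card = 8 ∧ pt 0 ∈ s ∧ pt 1 ∈ s ∧
    (setOf' 5279 ∩ s).card = k)]
  · simp only [smul_mem_octads_iff, Finset.smul_mem_smul_finset_iff, card_smul_inter_smul]
    simp only [mem_octads_iff, and_assoc]
  · intro s _
    simp only [and'_eq_true, beq_iff, pt_mem_iff (show 0 < 24 by norm_num),
      pt_mem_iff (show 1 < 24 by norm_num), card_setOf'_inter 5279 (by norm_num), card_eq_pop s]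



/-- A hexad stabiliser in the two-point stabiliser has orbits of sizes 1, 16, 60 on the 77 hexads: the 16 hexads disjoint from it and the 60 meeting it in two points. -/
theorem result (p q : Cfsg.GolayPt) (hpq : p ≠ q) (o o' o'' : Finset Cfsg.GolayPt) (ho : o ∈ Cfsg.octads) (ho' : o' ∈ Cfsg.octads) (ho'' : o'' ∈ Cfsg.octads) (hp : p ∈ o ∧ p ∈ o' ∧ p ∈ o'') (hq : q ∈ o ∧ q ∈ o' ∧ q ∈ o'') (h : (o ∩ o').card = (o ∩ o'').card) : {x : Finset Cfsg.GolayPt | x ∈ Cfsg.octads ∧ p ∈ x ∧ q ∈ x ∧ (o ∩ x).card = 2}.ncard = 16 ∧ {x : Finset Cfsg.GolayPt | x ∈ Cfsg.octads ∧ p ∈ x ∧ q ∈ x ∧ (o ∩ x).card = 4}.ncard = 60 ∧ ∃ g : Equiv.Perm Cfsg.GolayPt, g ∈ Cfsg.M24 ∧ g p = p ∧ g q = q ∧ g • o = o ∧ g • o' = o'' := by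
  obtain ⟨g, rfl, rfl, rfl⟩ := flag_in_in hpq ho hp.1 hq.1
  refine ⟨cnt g 2 16 (by decide +kernel), cnt g 4 60 (by decide +kernel), ?_⟩
  obtain ⟨-, h3, h4⟩ := hp
  obtain ⟨-, h3', h4'⟩ := hq
  obtain ⟨o', rfl⟩ := MulAction.surjective g o'
  obtain ⟨o'', rfl⟩ := MulAction.surjective g o''
  rw [smul_mem_octads_iff] at ho' ho''
  rw [Finset.smul_mem_smul_finset_iff, pt_mem_iff (by norm_num)] at h3 h4 h3' h4'
  rw [card_smul_inter_smul, card_smul_inter_smul, card_setOf'_inter _ (by norm_num),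
    card_setOf'_inter _ (by norm_num)] at h
  obtain ⟨k, hk, e⟩ := cw_trans (inH_fixL (l := [2 ^ 0, 2 ^ 1, 5279])
    (G := [554547362023867004778888257438190624, 928718206277989008510816407558424608,
      849611344791581923886667166489315360]) (by decide +kernel))
    [0, 0, 3, 0, 7, 0, 0, 0, 1183] 7
    (fun m => and' (tb m 0) (and' (tb m 1) (Nat.beq (pop 24 m) 8)))
    (fun m => pop 24 (Nat.land 5279 m)) (by decide +kernel) ho'.1 ho''.1
    (by simp only [and'_eq_true, beq_iff, h3, h3', pop_of_octad ho', and_self])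
    (by simp only [and'_eq_true, beq_iff, h4, h4', pop_of_octad ho'', and_self]) h
  exact ⟨(g * k * g⁻¹ : M24), (g * k * g⁻¹).2,
    conj_smul_smul g k _ _ (smul_pt_of_smul_setOf' (by norm_num) (hk _ (by simp))),
    conj_smul_smul g k _ _ (smul_pt_of_smul_setOf' (by norm_num) (hk _ (by simp))),
    conj_smul_smul g k _ _ (hk _ (by simp)), conj_smul_smul g k _ _ e⟩

end Cfsg.Agent.S1604
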