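import Cfsg.Statements.S1605
import Cfsg.Agent.Spor.M24Flags

set_option autoImplicit false
open scoped Pointwise
open Cfsg

namespace Cfsg.Agent.S1605

open Cfsg.Agent.Comp Cfsg.Agent.Comp.Idx Cfsg.Agent.Spor Cfsg.Agent.Spor.M24C

theorem cnt (g : M24) (k n : ℕ) (h : cntPow 12 (fun a => force (enc a) fun m =>
    and' (Nat.beq (pop 24 m) 8) (and' (tb m 0) (and' (not' (tb m 5))
      (Nat.beq (pop 24 (Nat.land 5279 m)) k)))) = n) :
    {o' : Finset GolayPt | (o' ∈ octads ∧ g • pt 0 ∈ o' ∧ g • pt 5 ∉ o') ∧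
      (g • setOf' 5279 ∩ o').card = k}.ncard = n := by
  rw [ncard_smul_eq g, ← h, ← ncard_codeSets' (fun s => s.card = 8 ∧ pt 0 ∈ s ∧ pt 5 ∉ s ∧
    (setOf' 5279 ∩ s).card = k)]
  · simp only [smul_mem_octads_iff, Finset.smul_mem_smul_finset_iff, card_smul_inter_smul]
    simp only [mem_octads_iff, and_assoc]
  · intro s _
    simp only [and'_eq_true, not'_eq_true, beq_iff, pt_mem_iff (show 0 < 24 by norm_num),
      pt_mem_iff (show 5 < 24 by norm_num), card_setOf'_inter 5279 (by norm_num), card_eq_pop s]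



/-- The two-point stabiliser acts on the 176 octads through the first point avoiding the second with rank 3 and subdegrees 1, 70, 105 (intersections 8, 2, 4). -/
theorem result (p q : Cfsg.GolayPt) (hpq : p ≠ q) : {x : Finset Cfsg.GolayPt | (x ∈ Cfsg.octads ∧ p ∈ x ∧ q ∉ x)}.ncard = 176 ∧ (∀ o o' : Finset Cfsg.GolayPt, (o ∈ Cfsg.octads ∧ p ∈ o ∧ q ∉ o) → (o' ∈ Cfsg.octads ∧ p ∈ o' ∧ q ∉ o') → ∃ g : Equiv.Perm Cfsg.GolayPt, g ∈ Cfsg.M24 ∧ g p = p ∧ g q = q ∧ g • o = o') ∧ ∀ o : Finset Cfsg.GolayPt, (o ∈ Cfsg.octads ∧ p ∈ o ∧ q ∉ o) → {x : Finset Cfsg.GolayPt | (x ∈ Cfsg.octads ∧ p ∈ x ∧ q ∉ x) ∧ (o ∩ x).card = 2}.ncard = 70 ∧ {x : Finset Cfsg.GolayPt | (x ∈ Cfsg.octads ∧ p ∈ x ∧ q ∉ x) ∧ (o ∩ x).card = 4}.ncard = 105 ∧ ∀ o' o'' : Finset Cfsg.GolayPt, (o' ∈ Cfsg.octads ∧ p ∈ o' ∧ q ∉ o') → (o'' ∈ Cfsg.octads ∧ p ∈ o'' ∧ q ∉ o'') → (o ∩ o').card = (o ∩ o'').card → ∃ g : Equiv.Perm Cfsg.GolayPt, g ∈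 Cfsg.M24 ∧ g p = p ∧ g q = q ∧ g • o = o ∧ g • o' = o'' := by
  refine ⟨?_, ?_, ?_⟩
  · obtain ⟨g, rfl, rfl⟩ := exists_smul_pair (a := pt 0) (b := pt 5) (by decide) hpq
    rw [ncard_smul_eq g]
    have := ncard_codeSets' (fun s => s.card = 8 ∧ pt 0 ∈ s ∧ pt 5 ∉ s)
      (fun m => and' (Nat.beq (pop 24 m) 8) (and' (tb m 0) (not' (tb m 5)))) (by
      intro s _
      simp only [and'_eq_true, not'_eq_true, beq_iff, pt_mem_iff (show 0 < 24 by norm_num),
        pt_mem_iff (show 5 < 24 by norm_num), card_eq_pop s])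
    simp only [smul_mem_octads_iff, Finset.smul_mem_smul_finset_iff]
    simp only [mem_octads_iff, and_assoc]
    exact this.trans (by decide +kernel)
  · rintro o o' ⟨h1, h2, h3⟩ ⟨h4, h5, h6⟩
    obtain ⟨g, e1, e2, e3⟩ := flag_in_out h1 h2 h3
    obtain ⟨k, e4, e5, e6⟩ := flag_in_out h4 h5 h6
    refine ⟨(k * g⁻¹ : M24), (k * g⁻¹).2, ?_, ?_, ?_⟩
    · show (k * g⁻¹) • p = p
      rw [mul_smul, ← e4, smul_left_cancel_iff, inv_smul_eq_iff, e4, e1]
    · show (k * g⁻¹) • q = q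
      rw [mul_smul, ← e5, smul_left_cancel_iff, inv_smul_eq_iff, e5, e2]
    · show (k * g⁻¹) • o = o'
      rw [mul_smul, ← e6, smul_left_cancel_iff, inv_smul_eq_iff, e3]
  rintro o ⟨ho, hp, hq⟩
  obtain ⟨g, rfl, rfl, rfl⟩ := flag_in_out ho hp hq
  refine ⟨cnt g 2 70 (by decide +kernel), cnt g 4 105 (by decide +kernel), ?_⟩
  rintro o' o'' ⟨ho', h3, h3'⟩ ⟨ho'', h4, h4'⟩ h
  obtain ⟨o', rfl⟩ := MulAction.surjective g o'
  obtain ⟨o'', rfl⟩ := MulAction.surjective g o''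
  rw [smul_mem_octads_iff] at ho' ho''
  rw [Finset.smul_mem_smul_finset_iff, pt_mem_iff (by norm_num)] at h3 h4 h3' h4'
  rw [card_smul_inter_smul, card_smul_inter_smul, card_setOf'_inter _ (by norm_num),
    card_setOf'_inter _ (by norm_num)] at h
  obtain ⟨k, hk, e⟩ := cw_trans (inH_fixL (l := [2 ^ 0, 2 ^ 5, 5279])
    (G := [967684162873591302139211307258261824, 279827153732582200763423224006676864,
      730070864424098024450976522329993312]) (by decide +kernel))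
    [0, 0, 1, 0, 7, 0, 0, 0, 1183] 7
    (fun m => and' (tb m 0) (and' (not' (tb m 5)) (Nat.beq (pop 24 m) 8)))
    (fun m => pop 24 (Nat.land 5279 m)) (by decide +kernel) ho'.1 ho''.1
    (by simp only [and'_eq_true, not'_eq_true, beq_iff, h3, pop_of_octad ho', and_true, true_and]
        exact h3')
    (by simp only [and'_eq_true, not'_eq_true, beq_iff, h4, pop_of_octad ho'', and_true, true_and]
        exact h4') h
  exact ⟨(g * k * g⁻¹ : M24), (g * k * g⁻¹).2,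
    conj_smul_smul g k _ _ (smul_pt_of_smul_setOf' (by norm_num) (hk _ (by simp))),
    conj_smul_smul g k _ _ (smul_pt_of_smul_setOf' (by norm_num) (hk _ (by simp))),
    conj_smul_smul g k _ _ (hk _ (by simp)), conj_smul_smul g k _ _ e⟩

end Cfsg.Agent.S1605
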