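import Cfsg.Statements.S1606
import Cfsg.Agent.Spor.M24Idx3

set_option autoImplicit false
open scoped Pointwise
open Cfsg

namespace Cfsg.Agent.S1606

/-- The stabiliser of two points in the group of the length-24 code has no subgroups of index 56 or 210. -/
theorem result (p q : Cfsg.GolayPt) (hpq : p ≠ q) (H : Subgroup ↥(MulAction.stabilizer Cfsg.M24 p ⊓ MulAction.stabilizer Cfsg.M24 q)) : H.index ≠ 56 ∧ H.index ≠ 210 := by
  have h := H.index_mul_card
  rw [Spor.M24C.card_stabilizer_two hpq,
    ← Subgroup.card_map_of_injective (Subgroup.subtype_injective _)] at h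
  have hle := Subgroup.map_subtype_le H
  refine ⟨fun e => ?_, fun e => ?_⟩
  · rw [e] at h
    exact Spor.M24C.idx56 hpq (hle.trans inf_le_left) (hle.trans inf_le_right) (by omega)
  · rw [e] at h
    exact Spor.M24C.idx210 (hle.trans inf_le_left) (by omega)

end Cfsg.Agent.S1606
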