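import Cfsg.Statements.S1607
import Cfsg.Agent.Spor.M24Flags

set_option autoImplicit false
open scoped Pointwise
open Cfsg

namespace Cfsg.Agent.S1607

open Cfsg.Agent.Comp Cfsg.Agent.Comp.Idx Cfsg.Agent.Spor Cfsg.Agent.Spor.M24C

theorem cnt (g : M24) (k n : ℕ) (h : cntPow 12 (fun a => force (enc a) fun m =>
    and' (Nat.beq (pop 24 m) 8) (and' (tb m 0) (Nat.beq (pop 24 (Nat.land 5279 m)) k))) = n) :
    {o' : Finset GolayPt | o' ∈ octads ∧ g • pt 0 ∈ o' ∧ (g • setOf' 5279 ∩ o').card = k}.ncard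
      = n := by
  rw [ncard_smul_eq g, ← h, ← ncard_codeSets' (fun s => s.card = 8 ∧ pt 0 ∈ s ∧
    (setOf' 5279 ∩ s).card = k)]
  · simp only [smul_mem_octads_iff, Finset.smul_mem_smul_finset_iff, card_smul_inter_smul]
    simp only [mem_octads_iff, and_assoc]
  · intro s _
    simp only [and'_eq_true, beq_iff, pt_mem_iff (show 0 < 24 by norm_num),
      card_setOf'_inter 5279 (by norm_num), card_eq_pop s]



/-- The point stabiliser acts on the 253 heptads of its S(4, 7, 23) with rank 3 and subdegrees 1, 112, 140 (intersections 8, 2, 4). -/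
theorem result (x : Cfsg.GolayPt) (o : Finset Cfsg.GolayPt) (ho : o ∈ Cfsg.octads) (hx : x ∈ o) : {o' : Finset Cfsg.GolayPt | o' ∈ Cfsg.octads ∧ x ∈ o' ∧ (o ∩ o').card = 2}.ncard = 112 ∧ {o' : Finset Cfsg.GolayPt | o' ∈ Cfsg.octads ∧ x ∈ o' ∧ (o ∩ o').card = 4}.ncard = 140 ∧ ∀ o' o'' : Finset Cfsg.GolayPt, o' ∈ Cfsg.octads → o'' ∈ Cfsg.octads → x ∈ o' → x ∈ o'' → (o ∩ o').card = (o ∩ o'').card → ∃ g : Equiv.Perm Cfsg.GolayPt, g ∈ Cfsg.M24 ∧ g x = x ∧ g • o = o ∧ g • o' = o'' := by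
  obtain ⟨g, rfl, rfl⟩ := flag_in ho hx
  refine ⟨cnt g 2 112 (by decide +kernel), cnt g 4 140 (by decide +kernel), ?_⟩
  intro o' o'' h1 h2 h3 h4 h5
  obtain ⟨o', rfl⟩ := MulAction.surjective g o'
  obtain ⟨o'', rfl⟩ := MulAction.surjective g o''
  rw [smul_mem_octads_iff] at h1 h2
  rw [Finset.smul_mem_smul_finset_iff, pt_mem_iff (by norm_num)] at h3 h4
  rw [card_smul_inter_smul, card_smul_inter_smul, card_setOf'_inter _ (by norm_num),
    card_setOf'_inter _ (by norm_num)] at h5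
  obtain ⟨k, hk, e⟩ := cw_trans (inH_fixL (l := [2 ^ 0, 5279])
    (G := [842718499390468068818522980296557888, 931092564027175186759545406704619904,
      350000181040223824333989355735582848]) (by decide +kernel))
    [0, 0, 1, 0, 7, 0, 0, 0, 1183] 8 (fun m => and' (tb m 0) (Nat.beq (pop 24 m) 8))
    (fun m => pop 24 (Nat.land 5279 m)) (by decide +kernel) h1.1 h2.1
    (by simp only [and'_eq_true, beq_iff, h3, pop_of_octad h1, and_self])
    (by simp only [and'_eq_true, beq_iff, h4, pop_of_octad h2, and_self]) h5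
  exact ⟨(g * k * g⁻¹ : M24), (g * k * g⁻¹).2,
    conj_smul_smul g k _ _ (smul_pt_of_smul_setOf' (by norm_num) (hk _ (by simp))),
    conj_smul_smul g k _ _ (hk _ (by simp)), conj_smul_smul g k _ _ e⟩

end Cfsg.Agent.S1607
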