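import Cfsg.Statements.S1609
import Cfsg.Agent.Spor.M24Idx2

set_option autoImplicit false
open scoped Pointwise
open Cfsg

namespace Cfsg.Agent.S1609

open Spor.M24C MulAction in
theorem eq_of_card {α : Type*} [MulAction M24 α] (x : GolayPt) (H : Subgroup (stabilizer M24 x))
    (s : α) (h : H.map (stabilizer M24 x).subtype ≤ stabilizer M24 s)
    (hc : Nat.card ↥(stabilizer M24 s ⊓ stabilizer M24 x) =
      Nat.card (H.map (stabilizer M24 x).subtype)) :
    H = (stabilizer M24 s).subgroupOf (stabilizer M24 x) := by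
  have e := Subgroup.eq_of_le_of_card_ge (le_inf h (Subgroup.map_subtype_le H)) hc.le
  apply Subgroup.map_injective (stabilizer M24 x).subtype_injective
  rw [Subgroup.subgroupOf_map_subtype, e]

/-- Subgroups of index 253 in the Mathieu group of degree 23 are exactly the duad stabilisers and the heptad stabilisers. -/
theorem result (x : Cfsg.GolayPt) (H : Subgroup ↥(MulAction.stabilizer Cfsg.M24 x)) (hH : H.index = 253) : (∃ s : Finset Cfsg.GolayPt, s.card = 2 ∧ x ∉ s ∧ H = (MulAction.stabilizer Cfsg.M24 s).subgroupOf (MulAction.stabilizer Cfsg.M24 x)) ∨ ∃ o ∈ Cfsg.octads, x ∈ o ∧ H = (MulAction.stabilizer Cfsg.M24 o).subgroupOf (MulAction.stabilizer Cfsg.M24 x) := by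
  have hc : Nat.card (H.map (MulAction.stabilizer M24 x).subtype) = 40320 := by
    rw [Subgroup.card_map_of_injective (Subgroup.subtype_injective _)]
    have := H.index_mul_card
    rw [Spor.M24C.card_stabilizer_pt, hH] at this
    omega
  rcases Spor.M24C.duad_or_octad (Subgroup.map_subtype_le H) (by rw [hc]; norm_num)
    (by rw [hc]; norm_num) (by rw [hc]; norm_num) with ⟨s, hs, hx, h⟩ | ⟨o, ho, hx, h⟩
  · exact Or.inl ⟨s, hs, hx, eq_of_card x H s h (by rw [hc, Spor.M24C.card_stab_duad_pt hs hx])⟩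
  · exact Or.inr ⟨o, ho, hx, eq_of_card x H o h (by rw [hc, Spor.M24C.card_stab_octad_in ho hx])⟩

end Cfsg.Agent.S1609
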