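import Cfsg.Statements.S1610
import Cfsg.Agent.Spor.Hexacode

set_option autoImplicit false
open Cfsg

namespace Cfsg.Agent.S1610

open Cfsg.Agent.Spor.Hexa



/-- The hexacode has 64 words, minimum weight 4, and weight distribution 0^1 4^45 6^18. -/
theorem result (F : Type*) [Field F] [Fintype F] [DecidableEq F] (hF : Fintype.card F = 4) (ω : F) (hω : ω ^ 2 + ω + 1 = 0) : Nat.card ↥(Cfsg.hexacode F ω) = 64 ∧ (∀ x ∈ Cfsg.hexacode F ω, x ≠ 0 → (Finset.univ.filter fun i => x i ≠ 0).card = 4 ∨ (Finset.univ.filter fun i => x i ≠ 0).card = 6) ∧ {x : Fin 6 → F | x ∈ Cfsg.hexacode F ω ∧ (Finset.univ.filter fun i => x i ≠ 0).card = 4}.ncard = 45 ∧ {x : Fin 6 → F | x ∈ Cfsg.hexacode F ω ∧ (Finset.univ.filter fun i => x i ≠ 0).card = 6}.ncard = 18 := by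
  have h2 := two_eq_zero hF
  have hw : ∀ y : Fin 6 → Fin 4, (Finset.univ.filter fun i => phi ω (y i) ≠ 0).card =
      (Finset.univ.filter fun i => y i ≠ 0).card := fun y => by simp only [Ne, phi_eq_zero h2 hω]
  refine ⟨?_, fun x hx h0 => ?_, ?_, ?_⟩
  · have := ncard_words hF hω (fun _ => True) (fun _ => True) (by simp)
    simp only [and_true] at this
    exact this.trans (by decide)
  · obtain ⟨a, b, c, rfl⟩ := exists_mw hF hω hx
    have : ∀ a b c, (∀ i, mw a b c i = 0) ∨ (Finset.univ.filter fun i => mw a b c i ≠ 0).card = 4 ∨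
        (Finset.univ.filter fun i => mw a b c i ≠ 0).card = 6 := by decide +kernel
    rw [hw]
    exact (this a b c).resolve_left fun h => h0 (funext fun i => (phi_eq_zero h2 hω).2 (h i))
  · exact (ncard_words hF hω _ (fun y => (Finset.univ.filter fun i => y i ≠ 0).card = 4)
      fun y => by rw [hw]).trans (by decide +kernel)
  · exact (ncard_words hF hω _ (fun y => (Finset.univ.filter fun i => y i ≠ 0).card = 6)
      fun y => by rw [hw]).trans (by decide +kernel)

end Cfsg.Agent.S1610
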