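import Cfsg.Statements.S1611
import Cfsg.Agent.Spor.Hexacode

set_option autoImplicit false
open Cfsg

namespace Cfsg.Agent.S1611

open Cfsg.Agent.Spor Cfsg.Agent.Spor.Hexa



/-- The monomial automorphism group of the hexacode has order 1080: its diagonal part is the scalars and its permutation parts form the alternating group of degree 6. -/
theorem result (F : Type*) [Field F] [Fintype F] [DecidableEq F] (hF : Fintype.card F = 4) (ω : F) (hω : ω ^ 2 + ω + 1 = 0) : Nat.card {f : Equiv.Perm (Fin 6) × (Fin 6 → Fˣ) // (∀ x ∈ Cfsg.hexacode F ω, Cfsg.monomialMap f.1 f.2 x ∈ Cfsg.hexacode F ω)} = 1080 ∧ (∀ c : Fin 6 → Fˣ, (∀ x ∈ Cfsg.hexacode F ω, Cfsg.monomialMap 1 c x ∈ Cfsg.hexacode F ω) → ∀ i j, c i = c j) ∧ {σ : Equiv.Perm (Fin 6) | ∃ c : Fin 6 → Fˣ, (∀ x ∈ Cfsg.hexacode F ω, Cfsg.monomialMap σ c x ∈ Cfsg.hexacode F ω)} = (alternatingGroup (Fin 6) : Set (Equiv.Perm (Fin 6))) := by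
  have h2 := two_eq_zero hF
  have r1 : ![1, 0, 0, 1, ω + 1, ω] ∈ hexacode F ω := by rw [mem_iff h2 hω]; simp
  have r2 : ![0, 1, 0, 1, ω, ω + 1] ∈ hexacode F ω := by rw [mem_iff h2 hω]; simp
  have r3 : ![0, 0, 1, 1, 1, 1] ∈ hexacode F ω := by rw [mem_iff h2 hω]; simp
  have hdiag : ∀ c : Fin 6 → Fˣ, (∀ x ∈ hexacode F ω, monomialMap 1 c x ∈ hexacode F ω) →
      ∀ i j, c i = c j := by
    intro c hc
    have e1 := (mem_iff h2 hω _).1 (hc _ r1)
    have e2 := (mem_iff h2 hω _).1 (hc _ r2)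
    have e3 := (mem_iff h2 hω _).1 (hc _ r3)
    simp [monomialMap, Equiv.Perm.one_def] at e1 e2 e3
    have : ∀ i, c i = c 2 := by
      intro i
      fin_cases i <;> simp [Units.ext_iff] <;> grind
    exact fun i j => (this i).trans (this j).symm
  have hle : alternatingGroup (Fin 6) ≤ monoPerms (hexacode F ω) :=
    IsMultiplyPretransitive.alternatingGroup_le _ _ (by simpa using multTrans_monoPerms hF hω)
  have hsw : Equiv.swap 0 1 ∉ monoPerms (hexacode F ω) := by
    rintro ⟨c, hc⟩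
    have e1 := (mem_iff h2 hω _).1 (hc _ r1)
    have e3 := (mem_iff h2 hω _).1 (hc _ r3)
    simp [monomialMap, Equiv.swap_apply_def] at e1 e3
    have := (c 2).ne_zero
    grind
  have heq : monoPerms (hexacode F ω) = alternatingGroup (Fin 6) := by
    refine le_antisymm (fun σ hσ => by_contra fun h => hsw ?_) hle
    have h1 : σ⁻¹ * Equiv.swap 0 1 ∈ alternatingGroup (Fin 6) := by
      rw [Equiv.Perm.mem_alternatingGroup] at h ⊢
      rw [Equiv.Perm.sign_mul, Equiv.Perm.sign_inv, Equiv.Perm.sign_swap (by decide),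
        (Int.units_eq_one_or _).resolve_left h]
      simp
    simpa using mul_mem hσ (hle h1)
  refine ⟨?_, hdiag, congrArg SetLike.coe heq⟩
  rw [card_monomial hdiag, heq, Nat.card_units, Nat.card_eq_fintype_card (α := F), hF,
    nat_card_alternatingGroup, Nat.card_eq_fintype_card, Fintype.card_fin]
  decide

end Cfsg.Agent.S1611
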