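import Cfsg.Statements.S1612
import Mathlib
import Cfsg.Agent.TT.PrimGroup

set_option autoImplicit false
open Cfsg

namespace Cfsg.Agent.S1612

theorem sylow_inter {G : Type*} [Group G] [Finite G] {D : Set G}
    (hD : Cfsg.IsThreeTranspositionSet D) {E : Set G} (hE : E ⊆ D)
    (hmax : ∀ E' : Set G, E' ⊆ D → (∀ a ∈ E', ∀ b ∈ E', Commute a b) → E'.ncard ≤ E.ncard)
    {P : Subgroup G} (hP : IsPGroup 2 P) (hEP : E ⊆ P) : E = D ∩ P :=
  Set.eq_of_subset_of_ncard_le (fun x hx => ⟨hE hx, hEP hx⟩) (hmax _ Set.inter_subset_left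
    fun _ ha _ hb => TT.commute_of_mul_mem_pgroup hD (by norm_num) hP ha.1 hb.1
      (P.mul_mem ha.2 hb.2))


/-- In a 3-transposition group (no solvable normal subgroup, perfect derived group), the normaliser of a commuting set of transpositions of maximum size contains a Sylow 2-subgroup and is doubly transitive on the set. -/
theorem result {G : Type*} [Group G] [Finite G] (hsol : ∀ N : Subgroup G, N.Normal → Group.IsSolvable ↥N → N = ⊥) (hperf : ⁅commutator G, commutator G⁆ = commutator G) {D : Set G} (hD : Cfsg.IsThreeTranspositionClass D) {E : Set G} (hE : E ⊆ D) (hc : ∀ a ∈ E, ∀ b ∈ E, Commute a b) (hmax : ∀ E' : Set G, E' ⊆ D → (∀ a ∈ E', ∀ b ∈ E', Commute a b) → E'.ncard ≤ E.ncard) : (∃ P : Sylow 2 G, (P : Subgroup G) ≤ Subgroup.normalizer E) ∧ ∀ a ∈ E, ∀ b ∈ E, ∀ c ∈ E, ∀ d ∈ E, a ≠ b → c ≠ d → ∃ g ∈ Subgroup.normalizer E, g * a * g⁻¹ = c ∧ g * b * g⁻¹ = d := by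
  have h := TT.prim_of_fischer hsol hperf hD
  have hG := TT.group_of_class hD
  have h2 : IsPGroup 2 (Subgroup.closure E) :=
    TT.isPGroup_closure_of_commute (fun a ha => TT.mul_self hD.1 (hE ha)) hc
  constructor
  · obtain ⟨P, hP⟩ := h2.exists_le_sylow
    refine ⟨P, fun g hg => ?_⟩
    rw [sylow_inter hD.1 hE hmax P.isPGroup' (Subgroup.subset_closure.trans hP),
      Subgroup.mem_set_normalizer_iff]
    intro x
    have h1 := h.toIsTT.conj_mem_iff (b := x) (hD.2.2 ▸ Subgroup.mem_top g)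
    simp only [Set.mem_inter_iff, h1, SetLike.mem_coe]
    refine and_congr_right fun _ => ?_
    rw [Subgroup.mul_mem_cancel_right _ (inv_mem hg), Subgroup.mul_mem_cancel_left _ hg]
  · intro a ha b hb c hc' d hd hab hcd
    obtain ⟨g, -, e1, e2⟩ := h.exists_conj_pair (hE ha) ⟨hE hb, hab.symm, hc a ha b hb⟩ (hE hc')
      ⟨hE hd, hcd.symm, hc c hc' d hd⟩
    let C : Subgroup G := Subgroup.centralizer {c, d}
    let E' : Set G := (fun x => g * x * g⁻¹) '' E
    have hE' : E' ⊆ D := by rintro _ ⟨x, hx, rfl⟩; exact hG.2.1 g x (hE hx)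
    have hc2 : ∀ x ∈ E', ∀ y ∈ E', Commute x y := by
      rintro _ ⟨x, hx, rfl⟩ _ ⟨y, hy, rfl⟩
      exact (TT.commute_conj_iff' g x y).2 (hc x hx y hy)
    have hcard : E'.ncard = E.ncard :=
      Set.ncard_image_of_injective _ fun x y hxy => (TT.conj_inj g).1 hxy
    have h3 : IsPGroup 2 (Subgroup.closure E') :=
      TT.isPGroup_closure_of_commute (fun a ha => TT.mul_self hD.1 (hE' ha)) hc2
    have hEC : Subgroup.closure E ≤ C := by
      rw [Subgroup.closure_le]
      intro x hx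
      rw [SetLike.mem_coe, Subgroup.mem_centralizer_iff]
      rintro y (rfl | rfl)
      · exact hc _ hc' x hx
      · exact hc _ hd x hx
    have hE'C : Subgroup.closure E' ≤ C := by
      rw [Subgroup.closure_le]
      intro x hx
      rw [SetLike.mem_coe, Subgroup.mem_centralizer_iff]
      rintro y (rfl | rfl)
      · exact hc2 _ ⟨a, ha, e1⟩ x hx
      · exact hc2 _ ⟨b, hb, e2⟩ x hx
    obtain ⟨S, hS⟩ := (h2.of_equiv (Subgroup.subgroupOfEquivOfLe hEC).symm).exists_le_sylow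
    obtain ⟨S', hS'⟩ := (h3.of_equiv (Subgroup.subgroupOfEquivOfLe hE'C).symm).exists_le_sylow
    obtain ⟨k, hk⟩ := MulAction.exists_smul_eq C S' S
    have hmap : ∀ T : Sylow 2 C, IsPGroup 2 ((T : Subgroup C).map C.subtype) := fun T =>
      T.isPGroup'.map _
    have q1 := sylow_inter hD.1 hE hmax (hmap S) fun x hx =>
      ⟨⟨x, hEC (Subgroup.subset_closure hx)⟩, hS (Subgroup.subset_closure hx), rfl⟩
    have hsub : ∀ x ∈ E, (k * g) * x * ((k : G) * g)⁻¹ ∈ E := by
      intro x hx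
      rw [q1]
      refine ⟨hG.2.1 _ x (hE hx), ?_⟩
      have hx' : g * x * g⁻¹ ∈ Subgroup.closure E' := Subgroup.subset_closure ⟨x, hx, rfl⟩
      have h4 : (⟨_, hE'C hx'⟩ : C) ∈ S' := hS' hx'
      have h5 : k * ⟨_, hE'C hx'⟩ * k⁻¹ ∈ S := by
        rw [← hk]
        exact Subgroup.smul_mem_pointwise_smul _ (MulAut.conj k) _ h4
      exact ⟨_, h5, by simp [mul_assoc]⟩
    have hk2 := Subgroup.mem_centralizer_iff.1 k.2
    refine ⟨k * g, Subgroup.mem_normalizer_fintype hsub, ?_, ?_⟩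
    · rw [mul_inv_rev, mul_assoc, mul_assoc, ← mul_assoc g, ← mul_assoc (g * a), e1,
        ← mul_assoc, ← hk2 c (by simp), mul_inv_cancel_right]
    · rw [mul_inv_rev, mul_assoc, mul_assoc, ← mul_assoc g, ← mul_assoc (g * b), e2,
        ← mul_assoc, ← hk2 d (by simp), mul_inv_cancel_right]

end Cfsg.Agent.S1612
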