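import Cfsg.Statements.S1614
import Cfsg.Agent.TT.LocV
import Cfsg.Agent.TT.LocW
import Cfsg.Agent.TT.ModelsLoc
import Cfsg.Agent.S0247

set_option autoImplicit false
open Cfsg

namespace Cfsg.Agent.S1614

open Cfsg.Agent.TT Subgroup

/-- If the commuting transpositions of one transposition generate a solvable group, a Fischer 3-transposition group is S5, S6, PSU(4, 2) or PSU(5, 2). -/
theorem result {G : Type*} [Group G] [Finite G] (hsol : ∀ N : Subgroup G, N.Normal → Group.IsSolvable ↥N → N = ⊥) (hperf : ⁅commutator G, commutator G⁆ = commutator G) {D : Set G} (hD : Cfsg.IsThreeTranspositionClass D) (x : G) (hx : x ∈ D) (hs : Group.IsSolvable ↥(Subgroup.closure {y : G | y ∈ D ∧ y ≠ x ∧ Commute x y})) : Nonempty (G ≃* Equiv.Perm (Fin 5)) ∨ Nonempty (G ≃* Equiv.Perm (Fin 6)) ∨ ∃ (F : Type) (_ : Field F) (_ : Fintype F), Fintype.card F = 4 ∧ (Nonempty (G ≃* Cfsg.PSU 4 F 2) ∨ Nonempty (G ≃* Cfsg.PSU 5 F 2)) := by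
  have hP := prim_of_fischer hsol hperf hD
  have hZ := center_eq_bot_of_fischer hsol
  by_cases hw : WTriv (loc D x)
  swap
  · obtain ⟨e, -⟩ := (hP.isSym_five_of_not_wtriv hx hw).exists_mulEquiv (by omega) hP.toIsTT
      hD.2.2 hZ
    exact Or.inl ⟨e⟩
  rcases hP.isSp_or_isU_of_not_vtriv hx fun hv => (hP.prim_loc hx hv hw).not_isSolvable hs with
    ⟨n, hn, h⟩ | ⟨n, hn, h⟩
  · obtain ⟨m, rfl, e, -⟩ := h.exists_mulEquiv hD.2.2 hZ
    obtain rfl | h3 : m = 2 ∨ 3 ≤ m := by omega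
    · obtain ⟨f⟩ := S0247.result (F := ZMod 2) rfl
      exact Or.inr (Or.inl ⟨e.trans f⟩)
    · obtain ⟨E, h1, h2⟩ := h.exists_prim_loc (by omega) hx
      exact absurd hs (h2.not_isSolvable_of_subset h1)
  · obtain ⟨e, -⟩ := h.exists_mulEquiv hn hD.2.2 hZ
    refine Or.inr (Or.inr ⟨Class.GF4, inferInstance, inferInstance, Class.card_GF4, ?_⟩)
    obtain rfl | rfl | h6 : n = 4 ∨ n = 5 ∨ 6 ≤ n := by omega
    · exact Or.inl ⟨e⟩
    · exact Or.inr ⟨e⟩
    · obtain ⟨k, rfl⟩ : ∃ k, n = k + 2 := ⟨n - 2, by omega⟩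
      obtain ⟨a, ha, hxa⟩ := hP.exists_not_commute hx
      exact absurd hs (((h.mu hx ha hxa).prim (by omega)).not_isSolvable_of_subset
        Set.inter_subset_left)

end Cfsg.Agent.S1614
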