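import Cfsg.Statements.S1633
import Cfsg.Agent.Spor.U35Leech
import Cfsg.Agent.Spor.LeechConf
-- import your own Cfsg.Agent.* helpers here

set_option autoImplicit false
open Cfsg

namespace Cfsg.Agent.S1633

/-- The Higman–Sims group acts transitively on 352 vectors, a set closed under x ↦ −w − x, with vector stabiliser isomorphic to PSU(3, 5). -/
theorem result (v w : ↥Cfsg.leechLattice) (hv : Cfsg.sqNorm (v : Cfsg.GolayPt → ℤ) = 48) (hw : Cfsg.sqNorm (w : Cfsg.GolayPt → ℤ) = 48) (hvw : Cfsg.dotInt (v : Cfsg.GolayPt → ℤ) (w : Cfsg.GolayPt → ℤ) = -32) (F : Type) [Field F] [Fintype F] (hF : Fintype.card F = 25) : {x : ↥Cfsg.leechLattice | Cfsg.sqNorm (x : Cfsg.GolayPt → ℤ) = 32 ∧ Cfsg.dotInt (v : Cfsg.GolayPt → ℤ) (x : Cfsg.GolayPt → ℤ) = 16 ∧ Cfsg.dotInt (w : Cfsg.GolayPt → ℤ) (x : Cfsg.GolayPt → ℤ) = -24}.ncard = 352 ∧ (∀ x ∈ {x : ↥Cfsg.leechLattice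 | Cfsg.sqNorm (x : Cfsg.GolayPt → ℤ) = 32 ∧ Cfsg.dotInt (v : Cfsg.GolayPt → ℤ) (x : Cfsg.GolayPt → ℤ) = 16 ∧ Cfsg.dotInt (w : Cfsg.GolayPt → ℤ) (x : Cfsg.GolayPt → ℤ) = -24}, -w - x ∈ {x : ↥Cfsg.leechLattice | Cfsg.sqNorm (x : Cfsg.GolayPt → ℤ) = 32 ∧ Cfsg.dotInt (v : Cfsg.GolayPt → ℤ) (x : Cfsg.GolayPt → ℤ) = 16 ∧ Cfsg.dotInt (w : Cfsg.GolayPt → ℤ) (x : Cfsg.GolayPt → ℤ) = -24}) ∧ (∀ x ∈ {x : ↥Cfsg.leechLattice | Cfsg.sqNorm (x : Cfsg.GolayPt → ℤ) = 32 ∧ Cfsg.dotInt (v : Cfsg.GolayPt → ℤ) (x : Cfsg.GolayPt → ℤ) = 16 ∧ Cfsg.dotInt (w : Cfsg.GolayPt → ℤ) (x : Cfsg.GolayPt → ℤ) = -24}, ∀ x' ∈ {x : ↥Cfsg.leechLattice | Cfsg.sqNorm (x : Cfsg.GolayPt → ℤ) = 32 ∧ Cfsg.dotInt (v : Cfsg.GolayPt → ℤ) (x : Cfsg.GolayPt → ℤ) = 16 ∧ Cfsg.dotInt (w : Cfsg.GolayPt → ℤ) (x : Cfsg.GolayPt → ℤ) = -24}, ∃ g : ↥Cfsg.Co0, g • v = v ∧ g • w = w ∧ g • x = x')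 ∧ ∀ x ∈ {x : ↥Cfsg.leechLattice | Cfsg.sqNorm (x : Cfsg.GolayPt → ℤ) = 32 ∧ Cfsg.dotInt (v : Cfsg.GolayPt → ℤ) (x : Cfsg.GolayPt → ℤ) = 16 ∧ Cfsg.dotInt (w : Cfsg.GolayPt → ℤ) (x : Cfsg.GolayPt → ℤ) = -24}, Nonempty (↥(MulAction.stabilizer ↥Cfsg.Co0 v ⊓ MulAction.stabilizer ↥Cfsg.Co0 w ⊓ MulAction.stabilizer ↥Cfsg.Co0 x) ≃* Cfsg.PSU 3 F 5) := by
  open Cfsg.Agent.Spor Cfsg.Agent.Spor.Leech in
  · have hu : sqNorm ((-w : leechLattice) : GolayPt → ℤ) = 48 := by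
      rw [AddSubgroup.coe_neg, sqNorm_neg, hw]
    have hU : sqNorm ((-(v + w) : leechLattice) : GolayPt → ℤ) = 32 := by
      rw [AddSubgroup.coe_neg, sqNorm_neg, AddSubgroup.coe_add, sqNorm_add, hv, hw, hvw]; rfl
    have hd : dotInt ((-w : leechLattice) : GolayPt → ℤ) ((-(v + w) : leechLattice) : GolayPt → ℤ) = 16 := by
      rw [AddSubgroup.coe_neg, AddSubgroup.coe_neg, AddSubgroup.coe_add, Leech.dotInt_neg_left,
        dotInt_neg_right, dotInt_add_right, dotInt_self, dotInt_comm, hvw, hw]; rfl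
    obtain ⟨g, a, b⟩ := exists_std_hs hu hU hd
    obtain ⟨e, c⟩ := orbit_conf₂ a b ModelCo3B.iff_hs_24_8
    have h : {x : ↥Cfsg.leechLattice | Cfsg.sqNorm (x : Cfsg.GolayPt → ℤ) = 32 ∧ Cfsg.dotInt (v : Cfsg.GolayPt → ℤ) (x : Cfsg.GolayPt → ℤ) = 16 ∧ Cfsg.dotInt (w : Cfsg.GolayPt → ℤ) (x : Cfsg.GolayPt → ℤ) = -24} = _ :=
      Set.ext fun x => Iff.trans (by
        rw [Set.mem_setOf_eq, AddSubgroup.coe_neg, AddSubgroup.coe_neg, AddSubgroup.coe_add,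
          Leech.dotInt_neg_left, Leech.dotInt_neg_left, Leech.dotInt_add_left]; omega) (e x).symm
    have hs : MulAction.stabilizer Co0 (-w) ⊓ MulAction.stabilizer Co0 (-(v + w)) =
        MulAction.stabilizer Co0 v ⊓ MulAction.stabilizer Co0 w := by
      ext k
      simp only [Subgroup.mem_inf, MulAction.mem_stabilizer_iff, smul_neg, neg_inj, smul_add]
      constructor
      · rintro ⟨p, q⟩; rw [p] at q; exact ⟨add_right_cancel q, p⟩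
      · rintro ⟨p, q⟩; rw [p, q]; exact ⟨rfl, rfl⟩
    refine ⟨?_, fun x hx => ?_, ?_, fun x hx => ?_⟩
    · rw [h, c, ModelCo3B.orb_hs_24_8.2]
    · obtain ⟨h1, h2, h3⟩ := hx
      refine ⟨?_, ?_, ?_⟩
      · rw [AddSubgroup.coe_sub, AddSubgroup.coe_neg, sqNorm_sub, sqNorm_neg, Leech.dotInt_neg_left,
          hw, h1, h3]; rfl
      · rw [AddSubgroup.coe_sub, AddSubgroup.coe_neg, dotInt_sub_right, dotInt_neg_right, hvw, h2]; rfl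
      · rw [AddSubgroup.coe_sub, AddSubgroup.coe_neg, dotInt_sub_right, dotInt_neg_right, dotInt_self,
          hw, h3]; rfl
    · rw [h, hs]
      intro x hx y hy
      obtain ⟨k, hk, d⟩ := Comp.exists_smul_of_orbit hx hy
      exact ⟨k, hk.1, hk.2, d⟩
    · rw [h] at hx
      obtain ⟨⟨h1, h2⟩, h3⟩ := (e x).1 hx
      obtain ⟨k, hk⟩ := (ModelCo3B.iff_hs_24_8 (g • x)).2
        ⟨⟨by rw [sqNorm_smul, h1], by rw [← a, dotInt_smul, h2]⟩, by rw [← b, dotInt_smul, h3]⟩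
      have hk' : (k : Co0) • ModelCo3B.v 3 = g • x := hk
      obtain ⟨e⟩ := stab_equiv₃ (g := (k : Co0)⁻¹ * g) (a := -w) (b := -(v + w)) (c := x)
        (by rw [mul_smul, a, inv_smul_eq_iff]; exact k.2.1.symm)
        (by rw [mul_smul, b, inv_smul_eq_iff]; exact k.2.2.symm)
        (by rw [mul_smul, inv_smul_eq_iff]; exact hk'.symm)
      obtain ⟨e'⟩ := U35Leech.iso F hF
      rw [← hs]
      exact ⟨e.trans e'⟩

end Cfsg.Agent.S1633
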