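import Cfsg.Statements.S1634
import Cfsg.Agent.Spor.LeechConf
-- import your own Cfsg.Agent.* helpers here

set_option autoImplicit false
open Cfsg

namespace Cfsg.Agent.S1634

/-- The McLaughlin group acts on 2025 points (minimal vectors orthogonal to v with customary inner product 2 with w) transitively with rank 4 and subdegrees 1, 330, 462, 1232. -/
theorem result (v w : ↥Cfsg.leechLattice) (hv : Cfsg.sqNorm (v : Cfsg.GolayPt → ℤ) = 32) (hw : Cfsg.sqNorm (w : Cfsg.GolayPt → ℤ) = 32) (hvw : Cfsg.dotInt (v : Cfsg.GolayPt → ℤ) (w : Cfsg.GolayPt → ℤ) = -8) : {x : ↥Cfsg.leechLattice | Cfsg.sqNorm (x : Cfsg.GolayPt → ℤ) = 32 ∧ Cfsg.dotInt (v : Cfsg.GolayPt → ℤ) (x : Cfsg.GolayPt → ℤ) = 0 ∧ Cfsg.dotInt (w : Cfsg.GolayPt → ℤ) (x : Cfsg.GolayPt → ℤ) = 16}.ncard = 2025 ∧ (∀ x ∈ {x : ↥Cfsg.leechLattice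 | Cfsg.sqNorm (x : Cfsg.GolayPt → ℤ) = 32 ∧ Cfsg.dotInt (v : Cfsg.GolayPt → ℤ) (x : Cfsg.GolayPt → ℤ) = 0 ∧ Cfsg.dotInt (w : Cfsg.GolayPt → ℤ) (x : Cfsg.GolayPt → ℤ) = 16}, ∀ x' ∈ {x : ↥Cfsg.leechLattice | Cfsg.sqNorm (x : Cfsg.GolayPt → ℤ) = 32 ∧ Cfsg.dotInt (v : Cfsg.GolayPt → ℤ) (x : Cfsg.GolayPt → ℤ) = 0 ∧ Cfsg.dotInt (w : Cfsg.GolayPt → ℤ) (x : Cfsg.GolayPt → ℤ) = 16}, ∃ g : ↥Cfsg.Co0, g • v = v ∧ g • w = w ∧ g • x = x') ∧ ∀ x ∈ {x : ↥Cfsg.leechLattice | Cfsg.sqNorm (x : Cfsg.GolayPt → ℤ) = 32 ∧ Cfsg.dotInt (v : Cfsg.GolayPt → ℤ) (x : Cfsg.GolayPt → ℤ) = 0 ∧ Cfsg.dotInt (w : Cfsg.GolayPt → ℤ) (x : Cfsg.GolayPt → ℤ) = 16}, ∃ y₁ ∈ {x : ↥Cfsg.leechLattice | Cfsg.sqNorm (x : Cfsg.GolayPt → ℤ) = 32 ∧ Cfsg.dotInt (v : Cfsg.GolayPt → ℤ) (x : Cfsg.GolayPt → ℤ) = 0 ∧ Cfsg.dotInt (w : Cfsg.GolayPt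 → ℤ) (x : Cfsg.GolayPt → ℤ) = 16}, ∃ y₂ ∈ {x : ↥Cfsg.leechLattice | Cfsg.sqNorm (x : Cfsg.GolayPt → ℤ) = 32 ∧ Cfsg.dotInt (v : Cfsg.GolayPt → ℤ) (x : Cfsg.GolayPt → ℤ) = 0 ∧ Cfsg.dotInt (w : Cfsg.GolayPt → ℤ) (x : Cfsg.GolayPt → ℤ) = 16}, ∃ y₃ ∈ {x : ↥Cfsg.leechLattice | Cfsg.sqNorm (x : Cfsg.GolayPt → ℤ) = 32 ∧ Cfsg.dotInt (v : Cfsg.GolayPt → ℤ) (x : Cfsg.GolayPt → ℤ) = 0 ∧ Cfsg.dotInt (w : Cfsg.GolayPt → ℤ) (x : Cfsg.GolayPt → ℤ) = 16}, (MulAction.orbit ↥(MulAction.stabilizer ↥Cfsg.Co0 v ⊓ MulAction.stabilizer ↥Cfsg.Co0 w ⊓ MulAction.stabilizer ↥Cfsg.Co0 x) y₁).ncard = 330 ∧ (MulAction.orbit ↥(MulAction.stabilizer ↥Cfsg.Co0 v ⊓ MulAction.stabilizer ↥Cfsg.Co0 w ⊓ MulAction.stabilizer ↥Cfsg.Co0 x) y₂).ncard = 462 ∧ (MulAction.orbit ↥(MulAction.stabilizer ↥Cfsg.Co0 v ⊓ MulAction.stabilizer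 ↥Cfsg.Co0 w ⊓ MulAction.stabilizer ↥Cfsg.Co0 x) y₃).ncard = 1232 := by
  have hu : sqNorm ((v + w : leechLattice) : GolayPt → ℤ) = 48 := by
    rw [AddSubgroup.coe_add, Spor.Leech.sqNorm_add, hv, hw, hvw]; norm_num
  have huv : dotInt ((v + w : leechLattice) : GolayPt → ℤ) v = 24 := by
    rw [AddSubgroup.coe_add, Spor.Leech.dotInt_add_left, Spor.Leech.dotInt_self,
      Spor.Leech.dotInt_comm, hv, hvw]; norm_num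
  obtain ⟨g, a, b⟩ := Spor.Leech.exists_std_mcl hu hv huv
  obtain ⟨e, c⟩ := Spor.Leech.orbit_conf₂ a b Spor.ModelCo3B.iff_mcl_16_0
  have h : {x : ↥Cfsg.leechLattice | Cfsg.sqNorm (x : Cfsg.GolayPt → ℤ) = 32 ∧ Cfsg.dotInt (v : Cfsg.GolayPt → ℤ) (x : Cfsg.GolayPt → ℤ) = 0 ∧ Cfsg.dotInt (w : Cfsg.GolayPt → ℤ) (x : Cfsg.GolayPt → ℤ) = 16} = _ :=
    Set.ext fun x => Iff.trans (by
      rw [Set.mem_setOf_eq, AddSubgroup.coe_add, Spor.Leech.dotInt_add_left]; omega) (e x).symm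
  refine ⟨?_, ?_, fun x hx => ?_⟩
  · rw [h, c, Spor.ModelCo3B.orb_mcl_16_0.2]
  · rw [h, ← Spor.Leech.stab_add_eq]
    intro x hx y hy
    obtain ⟨k, hk, d⟩ := Comp.exists_smul_of_orbit hx hy
    exact ⟨k, hk.1, hk.2, d⟩
  · obtain ⟨g, a, b, c⟩ := Spor.Leech.exists_std_triple hu hv hx.1 hx.2.1 huv
      (by rw [AddSubgroup.coe_add, Spor.Leech.dotInt_add_left, hx.2.1, hx.2.2]; rfl)
    obtain ⟨e1, c1⟩ := Spor.Leech.orbit_conf₃ a b c Spor.ModelCo3B.iff_m22_16_0_0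
    obtain ⟨e2, c2⟩ := Spor.Leech.orbit_conf₃ a b c Spor.ModelCo3B.iff_m22_16_0_16
    obtain ⟨e3, c3⟩ := Spor.Leech.orbit_conf₃ a b c Spor.ModelCo3B.iff_m22_16_0_8
    rw [Spor.ModelCo3B.orb_m22_16_0_0.2] at c1
    rw [Spor.ModelCo3B.orb_m22_16_0_16.2] at c2
    rw [Spor.ModelCo3B.orb_m22_16_0_8.2] at c3
    have f1 := (e1 _).1 (MulAction.mem_orbit_self _)
    have f2 := (e2 _).1 (MulAction.mem_orbit_self _)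
    have f3 := (e3 _).1 (MulAction.mem_orbit_self _)
    rw [AddSubgroup.coe_add, Spor.Leech.dotInt_add_left] at f1 f2 f3
    rw [Spor.Leech.stab_add_eq]
    exact ⟨_, ⟨f1.1.1.1, f1.1.2, by omega⟩, _, ⟨f2.1.1.1, f2.1.2, by omega⟩, _,
      ⟨f3.1.1.1, f3.1.2, by omega⟩, c1, c2, c3⟩

end Cfsg.Agent.S1634
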