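import Cfsg.Statements.S1635
import Cfsg.Agent.Spor.GolayStd
import Cfsg.Agent.Spor.Golay

set_option autoImplicit false
open Cfsg

namespace Cfsg.Agent.S1635

open Cfsg.Agent.Spor



/-- Coset leaders of the length-24 code: a coset contains a unique word of weight ≤ 3, or else exactly six words of weight 4 and none lighter. -/
theorem result (w : Cfsg.GolayPt → ZMod 2) : ({v : Cfsg.GolayPt → ZMod 2 | hammingNorm v ≤ 4 ∧ w - v ∈ Cfsg.golayCode}.ncard = 1 ∧ ∃ v : Cfsg.GolayPt → ZMod 2, hammingNorm v ≤ 3 ∧ w - v ∈ Cfsg.golayCode) ∨ ({v : Cfsg.GolayPt → ZMod 2 | hammingNorm v ≤ 4 ∧ w - v ∈ Cfsg.golayCode}.ncard = 6 ∧ ∀ v : Cfsg.GolayPt → ZMod 2, w - v ∈ Cfsg.golayCode → hammingNorm v ≤ 4 → hammingNorm v = 4) := by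
  have e : {v : Cfsg.GolayPt → ZMod 2 | hammingNorm v ≤ 4 ∧ w - v ∈ Cfsg.golayCode} =
      ↑(shortWords golayCode w) := by
    ext v
    rw [Finset.mem_coe, mem_shortWords, Set.mem_setOf_eq, and_comm, ← neg_mem_iff, neg_sub]
  rw [e, Set.ncard_coe_finset]
  rcases coset_leaders card_golayPt golayCode isGolay_golayCode.dim isGolay_golayCode.min w with
    ⟨u, hu, h3⟩ | ⟨h6, h4⟩
  · refine Or.inl ⟨by rw [hu, Finset.card_singleton], u, h3, ?_⟩
    have := (mem_shortWords.1 (hu ▸ Finset.mem_singleton_self u : u ∈ shortWords golayCode w)).1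
    rwa [← neg_mem_iff, neg_sub] at this
  · exact Or.inr ⟨h6, fun v hv h => h4 v (mem_shortWords.2 ⟨by
      rwa [← neg_mem_iff, neg_sub], h⟩)⟩

end Cfsg.Agent.S1635
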