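import Cfsg.Statements.S1636
import Cfsg.Agent.Spor.GolayStd
import Cfsg.Agent.Spor.Golay

set_option autoImplicit false
open Cfsg

namespace Cfsg.Agent.S1636

open Cfsg.Agent.Comp Cfsg.Agent.Spor

theorem norm_restrict (w : GolayPt → ZMod 2) :
    hammingNorm (fun x : ZMod 23 => w (some x)) = ((support₂ w).erase none).card := by
  rw [hammingNorm, ← Finset.card_map ⟨some, Option.some_injective _⟩]
  congr 1
  ext p
  cases p <;> simp [support₂]

theorem seven_le {w : GolayPt → ZMod 2} (hw : w ∈ golayCode) (h0 : w ≠ 0) :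
    7 ≤ hammingNorm (fun x : ZMod 23 => w (some x)) := by
  have h1 := isGolay_golayCode.min w hw h0
  have h2 := Finset.pred_card_le_card_erase (s := support₂ w) (a := none)
  rw [hammingNorm_eq_card_support₂] at h1
  rw [norm_restrict]
  omega

theorem restrict_inj {v w : GolayPt → ZMod 2} (hv : v ∈ golayCode) (hw : w ∈ golayCode)
    (h : ∀ x : ZMod 23, v (some x) = w (some x)) : v = w := by
  by_contra hne
  have := seven_le (golayCode.sub_mem hv hw) (sub_ne_zero.2 hne)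
  have e : (fun x : ZMod 23 => (v - w) (some x)) = 0 := by funext x; simp [h]
  rw [e, hammingNorm_zero] at this
  omega

theorem cnt (P : ℕ → Prop) (Q : ℕ → Bool) (h : ∀ n, Q n = true ↔ P n) :
    {u : ZMod 23 → ZMod 2 | (∃ w ∈ golayCode, ∀ x : ZMod 23, u x = w (some x)) ∧
      P (hammingNorm u)}.ncard =
      cntPow 12 (fun a => force (enc a) fun m => Q (pop 24 (Nat.land m 8388607))) := by
  have e7 : setOf' 8388607 = Finset.univ.erase none := by decide +kernel
  have e : ∀ m, ((setOf' m).erase none).card = pop 24 (Nat.land m 8388607) := fun m => by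
    rw [← card_setOf', show Nat.land m 8388607 = m &&& 8388607 from rfl, setOf'_land, e7]
    congr 1
    ext p; simp [and_comm]
  rw [← ncard_codeSets (fun s => P (s.erase none).card) _ (fun m _ => by rw [h, e])]
  symm
  apply Set.ncard_congr (fun s _ => fun x : ZMod 23 => indWord s (some x))
  · rintro s ⟨hs, hP⟩
    refine ⟨⟨indWord s, ?_, fun _ => rfl⟩, by rwa [norm_restrict, support₂_indWord]⟩
    rw [← support_mem_codeSets_iff, support₂_indWord]; exact hs
  · rintro s t ⟨hs, -⟩ ⟨ht, -⟩ e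
    refine indWord_injective (restrict_inj ?_ ?_ (congrFun e))
    · rw [← support_mem_codeSets_iff, support₂_indWord]; exact hs
    · rw [← support_mem_codeSets_iff, support₂_indWord]; exact ht
  · rintro u ⟨⟨w, hw, e⟩, hP⟩
    obtain rfl : u = fun x => w (some x) := funext e
    exact ⟨support₂ w, ⟨(support_mem_codeSets_iff w).2 hw, by rwa [← norm_restrict]⟩,
      by rw [indWord_support₂]⟩

theorem cnt' (k n : ℕ) (h : cntPow 12 (fun a => force (enc a) fun m =>
    Nat.beq (pop 24 (Nat.land m 8388607)) k) = n) :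
    {u : ZMod 23 → ZMod 2 | u ∈ {u : ZMod 23 → ZMod 2 | ∃ w ∈ golayCode, ∀ x : ZMod 23,
      u x = w (some x)} ∧ hammingNorm u = k}.ncard = n :=
  (cnt (fun i => i = k) (fun i => Nat.beq i k) fun _ => beq_iff _ _).trans h



/-- The punctured length-23 code has weight distribution 0^1 7^253 8^506 11^1288 12^1288 15^506 16^253 23^1. -/
theorem result : {u : ZMod 23 → ZMod 2 | ∃ w ∈ Cfsg.golayCode, ∀ x : ZMod 23, u x = w (some x)}.ncard = 4096 ∧ {u : ZMod 23 → ZMod 2 | u ∈ {u : ZMod 23 → ZMod 2 | ∃ w ∈ Cfsg.golayCode, ∀ x : ZMod 23, u x = w (some x)} ∧ hammingNorm u = 7}.ncard = 253 ∧ {u : ZMod 23 → ZMod 2 | u ∈ {u : ZMod 23 → ZMod 2 | ∃ w ∈ Cfsg.golayCode, ∀ x : ZMod 23, u x = w (some x)} ∧ hammingNorm u = 8}.ncard = 506 ∧ {u : ZMod 23 → ZMod 2 | u ∈ {u : ZMod 23 → ZMod 2 | ∃ w ∈ Cfsg.golayCode, ∀ x : ZMod 23, u x = w (some x)} ∧ hammingNorm u = 11}.ncard = 1288 ∧ {u : ZMod 23 → ZMod 2 | u ∈ {u : ZMod 23 → ZMod 2 | ∃ w ∈ Cfsg.golayCode, ∀ x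 : ZMod 23, u x = w (some x)} ∧ hammingNorm u = 12}.ncard = 1288 ∧ {u : ZMod 23 → ZMod 2 | u ∈ {u : ZMod 23 → ZMod 2 | ∃ w ∈ Cfsg.golayCode, ∀ x : ZMod 23, u x = w (some x)} ∧ hammingNorm u = 15}.ncard = 506 ∧ {u : ZMod 23 → ZMod 2 | u ∈ {u : ZMod 23 → ZMod 2 | ∃ w ∈ Cfsg.golayCode, ∀ x : ZMod 23, u x = w (some x)} ∧ hammingNorm u = 16}.ncard = 253 ∧ ∀ u ∈ {u : ZMod 23 → ZMod 2 | ∃ w ∈ Cfsg.golayCode, ∀ x : ZMod 23, u x = w (some x)}, u ≠ 0 → 7 ≤ hammingNorm u := by
  refine ⟨?_, cnt' _ _ (by decide +kernel), cnt' _ _ (by decide +kernel),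
    cnt' _ _ (by decide +kernel), cnt' _ _ (by decide +kernel), cnt' _ _ (by decide +kernel),
    cnt' _ _ (by decide +kernel), ?_⟩
  · have := cnt (fun _ => True) (fun _ => true) (by simp)
    simp only [and_true] at this
    exact this.trans (by decide +kernel)
  · rintro u ⟨w, hw, e⟩ h0
    obtain rfl : u = fun x => w (some x) := funext e
    exact seven_le hw fun h => h0 (by rw [h]; rfl)

end Cfsg.Agent.S1636
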