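import Cfsg.Statements.S1637
import Cfsg.Agent.S1636

set_option autoImplicit false
open Cfsg

namespace Cfsg.Agent.S1637

open Cfsg.Agent.Comp Cfsg.Agent.Spor

theorem cast_norm (w : GolayPt → ZMod 2) : (hammingNorm w : ZMod 2) = ∑ p, w p := by
  have := sum_mul_eq_card_inter w w
  rw [Finset.inter_self] at this
  rw [hammingNorm_eq_card_support₂, ← this]
  refine Finset.sum_congr rfl fun p _ => ?_
  rcases zmod2_cases (w p) with h | h <;> rw [h] <;> rfl



/-- The punctured length-23 code is a perfect 3-error-correcting code: each word of length 23 is within distance 3 of exactly one codeword. -/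
theorem result (u : ZMod 23 → ZMod 2) : ∃! c : ZMod 23 → ZMod 2, c ∈ {u : ZMod 23 → ZMod 2 | ∃ w ∈ Cfsg.golayCode, ∀ x : ZMod 23, u x = w (some x)} ∧ hammingDist u c ≤ 3 := by
  let w : GolayPt → ZMod 2 := fun p => Option.elim p (1 + ∑ x, u x) u
  have hw : ∑ p, w p = 1 := by
    rw [Fintype.sum_option]
    show 1 + ∑ x, u x + ∑ x, u x = 1
    rw [add_assoc, CharTwo.add_self_eq_zero, add_zero]
  obtain ⟨v, hv, h4⟩ := exists_short_word card_golayPt golayCode isGolay_golayCode.dim
    isGolay_golayCode.min w
  have h1 : ∑ p, (v - w) p = 0 := by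
    have := isGolay_golayCode.orth _ hv 1 (Submodule.subset_span (Or.inr rfl))
    simpa using this
  have h2 : (hammingNorm v : ZMod 2) = 1 := by
    rw [cast_norm, ← hw, ← sub_eq_zero, ← Finset.sum_sub_distrib]; exact h1
  have h3 : hammingNorm v ≤ 3 := by
    by_contra h
    rw [show hammingNorm v = 4 by omega] at h2
    exact absurd h2 (by decide)
  have h8 : hammingDist u (fun x => (w - v) (some x)) ≤ 3 := by
    rw [hammingDist_eq_hammingNorm]
    have e : (-u + fun x => (w - v) (some x)) = fun x => v (some x) := by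
      funext x
      show -u x + (u x - v (some x)) = v (some x)
      rw [sub_eq_add_neg, neg_add_cancel_left, ZMod.neg_eq_self_mod_two]
    rw [e, S1636.norm_restrict]
    exact Finset.card_erase_le.trans h3
  have hwv : w - v ∈ golayCode := by rwa [← neg_mem_iff, neg_sub]
  refine ⟨fun x => (w - v) (some x), ⟨⟨w - v, hwv, fun _ => rfl⟩, h8⟩, ?_⟩
  rintro c ⟨⟨z, hz, e⟩, hd⟩
  obtain rfl : c = fun x => z (some x) := funext e
  by_cases hne : z = w - v
  · rw [hne]
  have h7 := S1636.seven_le (golayCode.sub_mem hz hwv) (sub_ne_zero.2 hne)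
  have h9 := hammingDist_triangle_left (fun x => (w - v) (some x)) (fun x => z (some x)) u
  rw [hammingDist_eq_hammingNorm (fun x => (w - v) (some x))] at h9
  have e : (-(fun x => (w - v) (some x)) + fun x => z (some x)) =
      fun x : ZMod 23 => (z - (w - v)) (some x) := by
    funext x
    exact neg_add_eq_sub _ _
  rw [e] at h9
  omega

end Cfsg.Agent.S1637
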