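import Cfsg.Statements.S1638
import Cfsg.Agent.Spor.M24Six
import Cfsg.Agent.Spor.SubCount

set_option autoImplicit false
open scoped Pointwise
open Cfsg

namespace Cfsg.Agent.S1638

open Cfsg.Agent.Comp Cfsg.Agent.Comp.Idx Cfsg.Agent.Spor Cfsg.Agent.Spor.M24C

theorem oct_iff (p q : GolayPt) (s t : Finset GolayPt) :
    (∃ o ∈ octads, p ∈ o ∧ q ∈ o ∧ s ∪ t ⊆ o) ↔ ∃ o ∈ octads, {p, q} ∪ (s ∪ t) ⊆ o := by
  simp only [Finset.union_subset_iff, Finset.insert_subset_iff, Finset.singleton_subset_iff,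
    and_assoc]

theorem oct15 (t : Finset GolayPt) :
    (∃ o ∈ octads, {pt 0, pt 1} ∪ (setOf' 12 ∪ t) ⊆ o) ↔
      anyL [5279, 3416079, 8536111, 622863, 4196943] (fun w => Nat.beq (Nat.land (maskOf t) w) (maskOf t)) = true := by
  have e : ({pt 0, pt 1} : Finset GolayPt) ∪ setOf' 12 = setOf' 15 := by decide +kernel
  rw [← Finset.union_assoc, e, anyL_iff]
  simp only [beq_iff, Finset.union_subset_iff]
  constructor
  · rintro ⟨o, ho, h1, h2⟩
    have : allB 4096 (fun a => force (enc a) fun m => or' (not' (and' (Nat.beq (pop 24 m) 8)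
        (Nat.beq (Nat.land 15 m) 15))) (anyL [5279, 3416079, 8536111, 622863, 4196943] (Nat.beq m))) = true := by decide +kernel
    simp only [allB_iff, force_eq, or'_eq_true, not'_eq_true, and'_eq_true, beq_iff,
      anyL_iff] at this
    obtain ⟨a, ha, rfl⟩ := (mem_codeSets_iff_enc o).1 ho.1
    obtain ⟨w, hw, e⟩ := (this a ha).resolve_left (not_not.2 ⟨by rw [← card_setOf']; exact ho.2,
      (setOf'_subset_iff (by norm_num)).1 h1⟩)
    exact ⟨w, hw, (setOf'_subset_iff (maskOf_lt t)).1 (by rw [setOf'_maskOf, ← e]; exact h2)⟩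
  · rintro ⟨w, hw, h⟩
    have : allL [5279, 3416079, 8536111, 622863, 4196943] (fun m => and' (and' (isCW m) (Nat.beq (pop 24 m) 8))
        (Nat.beq (Nat.land 15 m) 15)) = true := by decide +kernel
    rw [allL_iff] at this
    have h1 := this w hw
    rw [and'_eq_true, beq_iff] at h1
    exact ⟨setOf' w, setOf'_mem_octads h1.1, (setOf'_subset_iff (by norm_num)).2 h1.2, by
      rw [← setOf'_maskOf t]; exact (setOf'_subset_iff (maskOf_lt t)).2 h⟩

theorem sub_iff (t : Finset GolayPt) (P : Prop) :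
    ((t.card = 2 ∧ pt 0 ∉ t ∧ pt 1 ∉ t) ∧ Disjoint (setOf' 12) t ∧ P) ↔
      (t ⊆ setOf' 16777200 ∧ t.card = 2 ∧ P) := by
  have e : setOf' 16777200 = (({pt 0, pt 1} : Finset GolayPt) ∪ setOf' 12)ᶜ := by decide +kernel
  rw [e, Finset.subset_compl_iff_disjoint_left, Finset.disjoint_union_left,
    Finset.disjoint_insert_left, Finset.disjoint_singleton_left]
  tauto

theorem smul_iff (g : M24) (t : Finset GolayPt) :
    (∃ o ∈ octads, {g • pt 0, g • pt 1} ∪ (g • setOf' 12 ∪ g • t) ⊆ o) ↔
      ∃ o ∈ octads, {pt 0, pt 1} ∪ (setOf' 12 ∪ t) ⊆ o := by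
  rw [← exists_octad_smul_iff g ({pt 0, pt 1} ∪ _), Finset.smul_finset_union,
    Finset.smul_finset_union, Finset.smul_finset_insert, Finset.smul_finset_singleton]

theorem disjoint_smul_iff (g : M24) (s t : Finset GolayPt) :
    Disjoint (g • s) (g • t) ↔ Disjoint s t := by
  rw [Finset.disjoint_iff_inter_eq_empty, Finset.disjoint_iff_inter_eq_empty,
    ← Finset.smul_finset_inter, Finset.smul_finset_eq_empty]



/-- Fix two points p ≠ q and a pair s of two further points. Among the pairs avoiding p, q and disjoint from s, exactly 30 lie in an octad together with p, q and s and exactly 160 do not; and any two pairs other than s that meet s in equally many points and agree on that octad property are carried to one another by an element of the group of the length-24 code fixing p, q and s. -/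
theorem result (p q : Cfsg.GolayPt) (hpq : p ≠ q) (s : Finset Cfsg.GolayPt) (hs : (s.card = 2 ∧ p ∉ s ∧ q ∉ s)) : {t : Finset Cfsg.GolayPt | (t.card = 2 ∧ p ∉ t ∧ q ∉ t) ∧ Disjoint s t ∧ (∃ o ∈ Cfsg.octads, p ∈ o ∧ q ∈ o ∧ s ∪ t ⊆ o)}.ncard = 30 ∧ {t : Finset Cfsg.GolayPt | (t.card = 2 ∧ p ∉ t ∧ q ∉ t) ∧ Disjoint s t ∧ ¬ (∃ o ∈ Cfsg.octads, p ∈ o ∧ q ∈ o ∧ s ∪ t ⊆ o)}.ncard = 160 ∧ ∀ t t' : Finset Cfsg.GolayPt, (t.card = 2 ∧ p ∉ t ∧ q ∉ t) → (t'.card = 2 ∧ p ∉ t' ∧ q ∉ t') → t ≠ s → t' ≠ s → (s ∩ t).card = (s ∩ t').card → ((∃ o ∈ Cfsg.octads, p ∈ o ∧ q ∈ o ∧ s ∪ t ⊆ o) ↔ (∃ o ∈ Cfsg.octads, p ∈ o ∧ q ∈ o ∧ s ∪ t' ⊆ o)) → ∃ g : Equiv.Perm Cfsg.GolayPt, g ∈ Cfsg.M24 ∧ g p = p ∧ g q = q ∧ g • s = s ∧ g • t = t' := by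
  simp only [oct_iff]
  refine ⟨?_, ?_, ?_⟩
  rotate_right
  · intro t t' ht ht' _ _ hi ho
    obtain ⟨σ, h1, h2⟩ := exists_perm_two (s := s) (s' := s) rfl (ht.1.trans ht'.1.symm) hi
    have hn : ∀ a ∈ s ∪ t, ¬ (a = p ∨ a = q) := by
      rintro a ha (rfl | rfl) <;> simp [hs.2.1, hs.2.2, ht.2.1, ht.2.2] at ha
    have hn' : ∀ a ∈ s ∪ t, ¬ (σ a = p ∨ σ a = q) := by
      intro a ha
      have : σ a ∈ s ∪ t' := by
        rw [← h1, ← h2, ← Finset.smul_finset_union]; exact Finset.smul_mem_smul_finset ha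
      rintro (h | h) <;> simp [h, hs.2.1, hs.2.2, ht'.2.1, ht'.2.2] at this
    have himg : ({p, q} ∪ (s ∪ t)).image (fun a => if a = p ∨ a = q then a else σ a) =
        {p, q} ∪ (s ∪ t') := by
      have e1 : ({p, q} : Finset GolayPt).image (fun a => if a = p ∨ a = q then a else σ a) =
          {p, q} := by simp
      have e2 : (s ∪ t).image (fun a => if a = p ∨ a = q then a else σ a) = (s ∪ t).image σ :=
        Finset.image_congr fun a ha => if_neg (hn a ha)
      rw [Finset.image_union, e1, e2]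
      conv_rhs => rw [← h1, ← h2, ← Finset.smul_finset_union]
      rfl
    obtain ⟨g, hg⟩ := exists_agree_six (u := {p, q} ∪ (s ∪ t))
      ((Finset.card_union_le _ _).trans (by
        have := Finset.card_union_le s t
        have := Finset.card_le_two (a := p) (b := q)
        omega)) (fun a => if a = p ∨ a = q then a else σ a) (by
        intro a ha b hb e
        simp only [Finset.coe_union, Set.mem_union, Finset.mem_coe, ← Finset.mem_union] at ha hb
        rw [Finset.mem_union, Finset.mem_insert, Finset.mem_singleton] at ha hb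
        dsimp only at e
        split_ifs at e with h3 h4 h4
        · exact e
        · exact absurd (e ▸ h3) (hn' b (hb.resolve_left h4))
        · exact absurd (e ▸ h4) (hn' a (ha.resolve_left h3))
        · exact σ.injective e) (by rw [himg]; exact ho)
    have hg' : ∀ a ∈ s ∪ t, g • a = σ a := fun a ha => by
      rw [hg a (Finset.mem_union_right _ ha), if_neg (hn a ha)]
    refine ⟨g, g.2, (hg p (by simp)).trans (by simp), (hg q (by simp)).trans (by simp),
      (smul_eq_of_agree hg' Finset.subset_union_left).trans h1,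
      (smul_eq_of_agree hg' Finset.subset_union_right).trans h2⟩
  all_goals
    obtain ⟨a, b, hab, rfl⟩ := Finset.card_eq_two.1 hs.1
    simp only [Finset.mem_insert, Finset.mem_singleton, not_or] at hs
    obtain ⟨g, hg⟩ := exists_map_tuple (k := 4) (by norm_num) ![pt 0, pt 1, pt 2, pt 3] ![p, q, a, b]
      (by decide +kernel) (by
        have := hs.2.1.1; have := hs.2.1.2; have := hs.2.2.1; have := hs.2.2.2
        intro i j; fin_cases i <;> fin_cases j <;> simp [*, Ne.symm])
    have e : g • setOf' 12 = {a, b} := by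
      rw [show setOf' 12 = {pt 2, pt 3} by decide +kernel, Finset.smul_finset_insert,
        Finset.smul_finset_singleton]
      exact congrArg₂ (fun x y => ({x, y} : Finset GolayPt)) (hg 2) (hg 3)
    rw [← e, ← show g • pt 0 = p from hg 0, ← show g • pt 1 = q from hg 1, ncard_smul_eq g]
    simp only [smul_iff, Finset.card_smul_finset, Finset.smul_mem_smul_finset_iff,
      disjoint_smul_iff, sub_iff, oct15]
  · exact (ncard_sub _ _ _ (fun m => anyL [5279, 3416079, 8536111, 622863, 4196943] (fun w => Nat.beq (Nat.land m w) m))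
      fun _ _ _ => Iff.rfl).trans (by decide +kernel)
  · exact (ncard_sub _ _ _ (fun m => not' (anyL [5279, 3416079, 8536111, 622863, 4196943] (fun w => Nat.beq (Nat.land m w) m)))
      fun _ _ _ => (not'_eq_true _).symm).trans (by decide +kernel)

end Cfsg.Agent.S1638
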