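import Cfsg.Statements.S1640
import Cfsg.Agent.Spor.LeechCountPt
-- import your own Cfsg.Agent.* helpers here

set_option autoImplicit false
open Cfsg

namespace Cfsg.Agent.S1640

/-- The stabiliser of a vector of customary norm 6 is transitive on the 11178 minimal vectors of customary inner product −2 with it. -/
theorem result (u : ↥Cfsg.leechLattice) (hu : Cfsg.sqNorm (u : Cfsg.GolayPt → ℤ) = 48) : {x : ↥Cfsg.leechLattice | Cfsg.sqNorm (x : Cfsg.GolayPt → ℤ) = 32 ∧ Cfsg.dotInt (u : Cfsg.GolayPt → ℤ) (x : Cfsg.GolayPt → ℤ) = -16}.ncard = 11178 ∧ ∀ x ∈ {x : ↥Cfsg.leechLattice | Cfsg.sqNorm (x : Cfsg.GolayPt → ℤ) = 32 ∧ Cfsg.dotInt (u : Cfsg.GolayPt → ℤ) (x : Cfsg.GolayPt → ℤ) = -16}, ∀ x' ∈ {x : ↥Cfsg.leechLattice | Cfsg.sqNorm (x : Cfsg.GolayPt → ℤ) = 32 ∧ Cfsg.dotInt (u : Cfsg.GolayPt → ℤ) (x : Cfsg.GolayPt → ℤ) = -16}, ∃ g : ↥Cfsg.Co0, g • u = u ∧ g • x = x' := by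
  have hu' : sqNorm ((-u : leechLattice) : GolayPt → ℤ) = 48 := by
    rw [AddSubgroup.coe_neg, Spor.Leech.sqNorm_neg, hu]
  constructor
  · rw [← Spor.Leech.count_11178 hu']
    congr 1; ext v
    simp only [Set.mem_setOf_eq, AddSubgroup.coe_neg, Spor.Leech.dotInt_neg_left]
    omega
  · intro x hx x' hx'
    obtain ⟨g, a, b⟩ := Spor.Leech.trans_of_std₂
      (Spor.Leech.exists_std_hs hu' hx.1 (by
        rw [AddSubgroup.coe_neg, Spor.Leech.dotInt_neg_left, hx.2]; norm_num))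
      (Spor.Leech.exists_std_hs hu' hx'.1 (by
        rw [AddSubgroup.coe_neg, Spor.Leech.dotInt_neg_left, hx'.2]; norm_num))
    exact ⟨g, by simpa using a, b⟩

end Cfsg.Agent.S1640
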