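import Cfsg.Statements.S1641
import Cfsg.Agent.Spor.LeechConf
-- import your own Cfsg.Agent.* helpers here

set_option autoImplicit false
open Cfsg

namespace Cfsg.Agent.S1641

/-- The third Conway group acts on the 11178 cosets of the Higman–Sims group with rank 5 and subdegrees 1, 352, 1100, 4125, 5600. -/
theorem result (u x : ↥Cfsg.leechLattice) (hu : Cfsg.sqNorm (u : Cfsg.GolayPt → ℤ) = 48) (hx : x ∈ {x : ↥Cfsg.leechLattice | Cfsg.sqNorm (x : Cfsg.GolayPt → ℤ) = 32 ∧ Cfsg.dotInt (u : Cfsg.GolayPt → ℤ) (x : Cfsg.GolayPt → ℤ) = -16}) : ∃ y₁ ∈ {x : ↥Cfsg.leechLattice | Cfsg.sqNorm (x : Cfsg.GolayPt → ℤ) = 32 ∧ Cfsg.dotInt (u : Cfsg.GolayPt → ℤ) (x : Cfsg.GolayPt → ℤ) = -16}, ∃ y₂ ∈ {x : ↥Cfsg.leechLattice | Cfsg.sqNorm (x : Cfsg.GolayPt → ℤ) = 32 ∧ Cfsg.dotInt (u : Cfsg.GolayPt → ℤ) (x : Cfsg.GolayPt → ℤ) = -16}, ∃ y₃ ∈ {x :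 ↥Cfsg.leechLattice | Cfsg.sqNorm (x : Cfsg.GolayPt → ℤ) = 32 ∧ Cfsg.dotInt (u : Cfsg.GolayPt → ℤ) (x : Cfsg.GolayPt → ℤ) = -16}, ∃ y₄ ∈ {x : ↥Cfsg.leechLattice | Cfsg.sqNorm (x : Cfsg.GolayPt → ℤ) = 32 ∧ Cfsg.dotInt (u : Cfsg.GolayPt → ℤ) (x : Cfsg.GolayPt → ℤ) = -16}, (MulAction.orbit ↥(MulAction.stabilizer ↥Cfsg.Co0 u ⊓ MulAction.stabilizer ↥Cfsg.Co0 x) y₁).ncard = 352 ∧ (MulAction.orbit ↥(MulAction.stabilizer ↥Cfsg.Co0 u ⊓ MulAction.stabilizer ↥Cfsg.Co0 x) y₂).ncard = 1100 ∧ (MulAction.orbit ↥(MulAction.stabilizer ↥Cfsg.Co0 u ⊓ MulAction.stabilizer ↥Cfsg.Co0 x) y₃).ncard = 4125 ∧ (MulAction.orbit ↥(MulAction.stabilizer ↥Cfsg.Co0 u ⊓ MulAction.stabilizer ↥Cfsg.Co0 x) y₄).ncard = 5600 ∧ {x : ↥Cfsg.leechLattice | Cfsg.sqNorm (x : Cfsg.GolayPt → ℤ) = 32 ∧ Cfsg.dotInt (u : Cfsg.GolayPt → ℤ) (x : Cfsg.GolayPt → ℤ) = -16} = {x} ∪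 MulAction.orbit ↥(MulAction.stabilizer ↥Cfsg.Co0 u ⊓ MulAction.stabilizer ↥Cfsg.Co0 x) y₁ ∪ MulAction.orbit ↥(MulAction.stabilizer ↥Cfsg.Co0 u ⊓ MulAction.stabilizer ↥Cfsg.Co0 x) y₂ ∪ MulAction.orbit ↥(MulAction.stabilizer ↥Cfsg.Co0 u ⊓ MulAction.stabilizer ↥Cfsg.Co0 x) y₃ ∪ MulAction.orbit ↥(MulAction.stabilizer ↥Cfsg.Co0 u ⊓ MulAction.stabilizer ↥Cfsg.Co0 x) y₄ := by
  have hn : MulAction.stabilizer Co0 u = MulAction.stabilizer Co0 (-u) := by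
    ext g; simp [MulAction.mem_stabilizer_iff]
  obtain ⟨g, a, b⟩ := Spor.Leech.exists_std_hs (u := -u) (w := x)
    (by rw [AddSubgroup.coe_neg, Spor.Leech.sqNorm_neg, hu]) hx.1
    (by rw [AddSubgroup.coe_neg, Spor.Leech.dotInt_neg_left, hx.2]; rfl)
  obtain ⟨e1, c1⟩ := Spor.Leech.orbit_conf₂ a b Spor.ModelCo3B.iff_hs_16_m8
  obtain ⟨e2, c2⟩ := Spor.Leech.orbit_conf₂ a b Spor.ModelCo3B.iff_hs_16_16
  obtain ⟨e3, c3⟩ := Spor.Leech.orbit_conf₂ a b Spor.ModelCo3B.iff_hs_16_0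
  obtain ⟨e4, c4⟩ := Spor.Leech.orbit_conf₂ a b Spor.ModelCo3B.iff_hs_16_8
  rw [Spor.ModelCo3B.orb_hs_16_m8.2] at c1
  rw [Spor.ModelCo3B.orb_hs_16_16.2] at c2
  rw [Spor.ModelCo3B.orb_hs_16_0.2] at c3
  rw [Spor.ModelCo3B.orb_hs_16_8.2] at c4
  simp only [AddSubgroup.coe_neg, Spor.Leech.dotInt_neg_left] at e1 e2 e3 e4
  have f1 := (e1 _).1 (MulAction.mem_orbit_self _)
  have f2 := (e2 _).1 (MulAction.mem_orbit_self _)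
  have f3 := (e3 _).1 (MulAction.mem_orbit_self _)
  have f4 := (e4 _).1 (MulAction.mem_orbit_self _)
  rw [hn]
  refine ⟨_, ⟨f1.1.1, by omega⟩, _, ⟨f2.1.1, by omega⟩, _, ⟨f3.1.1, by omega⟩, _, ⟨f4.1.1, by omega⟩,
    c1, c2, c3, c4, ?_⟩
  ext y
  simp only [Set.mem_union, e1, e2, e3, e4, Set.mem_setOf_eq, Set.mem_singleton_iff]
  constructor
  · rintro ⟨h1, h2⟩
    have : g • y ∈ _ := (Spor.ModelCo3B.iff_co3_16 (g • y)).2 ⟨by rw [Spor.Leech.sqNorm_smul, h1],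
      by rw [Spor.Leech.dot_of_smul a, AddSubgroup.coe_neg, Spor.Leech.dotInt_neg_left, h2]; rfl⟩
    rw [Spor.ModelCo3B.cov_hs16'] at this
    have hd := Spor.Leech.dot_of_smul b y
    rcases this with d | d | d | d | d
    · have := Spor.ModelCo3B.val_hs_16_32 d
      exact Or.inl (Or.inl (Or.inl (Or.inl (Spor.Leech.eq_of_dot_32 hx.1 h1 (hd ▸ this)))))
    · have := Spor.ModelCo3B.val_hs_16_16 d
      exact Or.inl (Or.inl (Or.inr (by omega)))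
    · have := Spor.ModelCo3B.val_hs_16_0 d
      exact Or.inl (Or.inr (by omega))
    · have := Spor.ModelCo3B.val_hs_16_m8 d
      exact Or.inl (Or.inl (Or.inl (Or.inr (by omega))))
    · have := Spor.ModelCo3B.val_hs_16_8 d
      exact Or.inr (by omega)
  · rintro ((((rfl | h) | h) | h) | h)
    · exact hx
    all_goals omega

end Cfsg.Agent.S1641
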