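import Cfsg.Statements.S1642
import Cfsg.Agent.Spor.LeechConf
-- import your own Cfsg.Agent.* helpers here

set_option autoImplicit false
open Cfsg

namespace Cfsg.Agent.S1642

/-- Some involution of the Higman–Sims group acts without fixed points on its 100 points. -/
theorem result (v w : ↥Cfsg.leechLattice) (hv : Cfsg.sqNorm (v : Cfsg.GolayPt → ℤ) = 48) (hw : Cfsg.sqNorm (w : Cfsg.GolayPt → ℤ) = 48) (hvw : Cfsg.dotInt (v : Cfsg.GolayPt → ℤ) (w : Cfsg.GolayPt → ℤ) = -32) : ∃ g : ↥Cfsg.Co0, g • v = v ∧ g • w = w ∧ orderOf g = 2 ∧ ∀ x ∈ {x : ↥Cfsg.leechLattice | Cfsg.sqNorm (x : Cfsg.GolayPt → ℤ) = 32 ∧ Cfsg.dotInt (v : Cfsg.GolayPt → ℤ) (x : Cfsg.GolayPt → ℤ) = 24 ∧ Cfsg.dotInt (w : Cfsg.GolayPt → ℤ) (x : Cfsg.GolayPt → ℤ) = -24}, g • x ≠ x := by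
  obtain ⟨g, a, b⟩ := Spor.Leech.exists_std_hs' hv hw hvw
  obtain ⟨t, ht, hr⟩ := Spor.ModelCo3B.vm_hs.ofG _ Spor.ModelCo3B.invW0_mem
  have hmv : ∀ y ∈ MulAction.orbit ↥(MulAction.stabilizer Co0 Spor.Leech.u5 ⊓
      MulAction.stabilizer Co0 Spor.leechU') (Spor.ModelCo3B.v 0), t • y ≠ y := by
    rw [Spor.ModelCo3B.orb_hs_24_0.1]
    rintro _ ⟨i, hi, rfl⟩ e
    have hi' := (Comp.mem_mset.1 hi).2
    have hl : i < 552 := by
      by_contra hl
      rw [Nat.testBit_eq_false_of_lt (Spor.ModelCo3B.D100_lt.trans_le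
        (Nat.pow_le_pow_right (by norm_num) (not_lt.1 hl)))] at hi'
      exact Bool.false_ne_true hi'
    rw [hr.2 i (by omega)] at e
    have e' := Spor.ModelCo3B.vm_hs.inj _ (hr.1.lt (by omega)) _ (by omega) e
    have := Spor.ModelCo3B.invW0_mv i hl
    rw [e'] at this
    simp [Comp.tb_eq, hi'] at this
  have h2 : t * t = 1 := Spor.Leech.co3B_faithful (mul_mem ht.1 ht.1) fun i hi => by
    rw [(hr.mul hr).2 i hi, ← pow_two, Spor.ModelCo3B.invW0_sq]; rfl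
  have hk : g⁻¹ * t * g ∈ MulAction.stabilizer Co0 v ⊓ MulAction.stabilizer Co0 w := by
    rw [Spor.Leech.stab_add_eq', Comp.conj_stab₂ a b]; simpa [mul_assoc] using ht
  refine ⟨g⁻¹ * t * g, hk.1, hk.2, ?_, fun x hx e => hmv (g • x) ?_ ?_⟩
  · apply orderOf_eq_prime
    · rw [pow_two, show g⁻¹ * t * g * (g⁻¹ * t * g) = g⁻¹ * (t * t) * g by group, h2]; simp
    · intro e
      have : t = 1 := by
        rw [show t = g * (g⁻¹ * t * g) * g⁻¹ by group, e]; simp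
      exact hmv _ (MulAction.mem_orbit_self _) (by rw [this, one_smul])
  · exact (Spor.ModelCo3B.iff_hs_24_0 _).2 ⟨⟨by rw [Spor.Leech.sqNorm_smul, hx.1],
      by rw [Spor.Leech.dot_of_smul a, hx.2.1]⟩, by
        rw [Spor.Leech.dot_of_smul b, AddSubgroup.coe_add, Spor.Leech.dotInt_add_left, hx.2.1, hx.2.2]; rfl⟩
  · rwa [mul_smul, mul_smul, inv_smul_eq_iff] at e

end Cfsg.Agent.S1642
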