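import Cfsg.Statements.S1643
import Cfsg.Agent.Spor.M24Idx3
import Cfsg.Agent.Spor.M24Conj
import Cfsg.Agent.S0370
import Cfsg.Agent.S0371
import Cfsg.Agent.S0372

set_option autoImplicit false
open scoped Pointwise
open Cfsg

namespace Cfsg.Agent.S1643

open Spor Spor.M24C MulAction Subgroup

/-- The translation. -/
abbrev T : Equiv.Perm GolayPt := Equiv.optionCongr (Equiv.addRight (1 : ZMod 23))

/-- The multiplications by squares. -/
abbrev Sq : Set (Equiv.Perm GolayPt) :=
  {g | ∃ u : (ZMod 23)ˣ, IsSquare u ∧ g = Equiv.optionCongr (Units.mulLeft u)}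

/-- The unit `2`. -/
def two : (ZMod 23)ˣ := ⟨2, 12, by decide, by decide⟩

theorem two_sq : IsSquare two := ⟨⟨5, 14, by decide, by decide⟩, Units.ext (by decide)⟩

/-- Determinant of homogeneous coordinates. -/
def det : GolayPt → GolayPt → ZMod 23
  | none, none => 0
  | none, some _ => 1
  | some _, none => -1
  | some x, some y => x - y

/-- The orientation of a triple. -/
def q (a b c : GolayPt) : ZMod 23 := det a b ^ 11 * det b c ^ 11 * det c a ^ 11

/-- Orientation-preserving permutations. -/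
def K : Subgroup (Equiv.Perm GolayPt) where
  carrier := {σ | ∀ a b c, q (σ a) (σ b) (σ c) = q a b c}
  mul_mem' {σ τ} h h' a b c := (h _ _ _).trans (h' a b c)
  one_mem' _ _ _ := rfl
  inv_mem' {σ} h a b c := by simpa using (h (σ⁻¹ a) (σ⁻¹ b) (σ⁻¹ c)).symm

theorem B_le_K : closure ({T, projInv} ∪ Sq) ≤ K := by
  rw [closure_le]
  rintro σ ((rfl | rfl) | ⟨u, ⟨s, rfl⟩, rfl⟩)
  · have : ∀ a b, det (T a) (T b) = det a b := by decide +kernel
    intro a b c
    simp only [q, this]
  · have : ∀ a b c, q (projInvFun a) (projInvFun b) (projInvFun c) = q a b c := by decide +kernel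
    exact this
  · have h1 : ∀ s : ZMod 23, s ≠ 0 → (s * s) ^ 11 = 1 := by decide +kernel
    have : ∀ a b, det (Equiv.optionCongr (Units.mulLeft (s * s)) a)
        (Equiv.optionCongr (Units.mulLeft (s * s)) b) ^ 11 = det a b ^ 11 := by
      rintro (_ | a) (_ | b)
      · rfl
      · rfl
      · rfl
      · change ((s * s : ZMod 23) * a - (s * s : ZMod 23) * b) ^ 11 = (a - b) ^ 11
        haveI : Fact (Nat.Prime 23) := ⟨by norm_num⟩
        rw [← mul_sub, mul_pow, h1 _ s.ne_zero, one_mul]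
    intro a b c
    simp only [q, this]

theorem T_pow (k : ℕ) (x : ZMod 23) : (T ^ k) (some x) = some (x + k) := by
  induction k with
  | zero => simp
  | succ k ih => rw [pow_succ', Equiv.Perm.mul_apply, ih]; simp [add_assoc]

theorem T_pow_none (k : ℕ) : (T ^ k) none = none :=
  Equiv.Perm.pow_apply_eq_self_of_apply_eq_self rfl k

theorem A_le_N : closure ({T} ∪ Sq) ≤ normalizer (zpowers T : Set (Equiv.Perm GolayPt)) := by
  rw [closure_le]
  rintro σ (rfl | ⟨u, -, rfl⟩)
  · exact le_normalizer (mem_zpowers _)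
  · refine (mem_normalizer_zpowers _ _).2 ?_
    have : Equiv.optionCongr (Units.mulLeft u) * T * (Equiv.optionCongr (Units.mulLeft u))⁻¹ =
        T ^ (u : ZMod 23).val := by
      rw [mul_inv_eq_iff_eq_mul]
      ext1 p
      rcases p with _ | x
      · exact (T_pow_none _).symm
      · refine Eq.trans ?_ (T_pow _ _).symm
        simp [mul_add]
    rw [this]
    exact pow_mem (mem_zpowers _) _

theorem A_le : closure ({T} ∪ Sq) ≤ M24 ⊓ stabilizer (Equiv.Perm GolayPt) (none : GolayPt) := by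
  rw [closure_le]
  rintro σ (rfl | ⟨u, hu, rfl⟩)
  · exact ⟨S0370.result, rfl⟩
  · exact ⟨S0371.result u hu, rfl⟩

theorem B_le : closure ({T, projInv} ∪ Sq) ≤ M24 := by
  rw [closure_le]
  rintro σ ((rfl | rfl) | ⟨u, hu, rfl⟩)
  · exact S0370.result
  · exact S0372.result
  · exact S0371.result u hu

/-- The translation in `M24`. -/
def g : M24 := ⟨T, S0370.result⟩

/-- Multiplication by `2` in `M24`. -/
def f : M24 := ⟨Equiv.optionCongr (Units.mulLeft two), S0371.result two two_sq⟩

theorem g_mem : g ∈ (closure ({T} ∪ Sq)).subgroupOf M24 := subset_closure (Or.inl rfl)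

theorem f_mem : f ∈ (closure ({T} ∪ Sq)).subgroupOf M24 :=
  subset_closure (Or.inr ⟨two, two_sq, rfl⟩)

theorem g_ne : g ≠ 1 := fun h => by
  have : T (some 0) = some 0 := congrArg (fun σ : M24 => σ.1 (some 0)) h
  revert this; decide

theorem f_ne : f ≠ 1 := fun h => by
  have : Equiv.optionCongr (Units.mulLeft two) (some 1) = some 1 :=
    congrArg (fun σ : M24 => σ.1 (some 1)) h
  revert this; decide

theorem g_pow : g ^ 23 = 1 := Subtype.ext (by
  change T ^ 23 = 1
  decide +kernel)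

theorem f_pow : f ^ 11 = 1 := Subtype.ext (by
  change Equiv.optionCongr (Units.mulLeft two) ^ 11 = 1
  decide +kernel)

theorem A'_le_N : (closure ({T} ∪ Sq)).subgroupOf M24 ≤ normalizer (zpowers g : Set M24) := by
  intro x hx
  obtain ⟨k, hk⟩ := mem_zpowers_iff.1 ((mem_normalizer_zpowers _ _).1 (A_le_N hx))
  exact (mem_normalizer_zpowers _ _).2 (mem_zpowers_iff.2 ⟨k, Subtype.ext hk⟩)

theorem A'_le : (closure ({T} ∪ Sq)).subgroupOf M24 ≤ stabilizer M24 (none : GolayPt) :=
  fun _ hx => (A_le hx).2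

theorem overA {H : Subgroup M24} (hx : H ≤ stabilizer M24 (none : GolayPt))
    (h : (closure ({T} ∪ Sq)).subgroupOf M24 ≤ H) : Nat.card H = 253 ∨ Nat.card H = 10200960 :=
  over253 hx (h g_mem) g_ne g_pow (h f_mem) f_ne f_pow (A'_le_N f_mem)

theorem card_A' : Nat.card ((closure ({T} ∪ Sq)).subgroupOf M24) = 253 := by
  have := Nat.le_of_dvd (by norm_num) (card_norm23 A'_le g_ne g_pow A'_le_N)
  have := overA A'_le le_rfl
  omega

theorem overB {H : Subgroup M24} (h : (closure ({T, projInv} ∪ Sq)).subgroupOf M24 ≤ H) :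
    Nat.card H = 6072 ∨ H = ⊤ := by
  have h1 : (closure ({T} ∪ Sq)).subgroupOf M24 ≤ H := fun x hx =>
    h (closure_mono (Set.union_subset_union_left _ (by simp)) hx)
  have hw : (⟨projInv, S0372.result⟩ : M24) ∈ H := h (subset_closure (Or.inl (Or.inr rfl)))
  have htr : orb H none = Finset.univ := by
    refine Finset.eq_univ_of_forall ?_
    rintro (_ | x)
    · exact self_mem_orb _ _
    · refine mem_orb.2 ⟨g ^ x.val * ⟨projInv, S0372.result⟩,
        H.mul_mem (H.pow_mem (h1 g_mem) _) hw, ?_⟩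
      refine (T_pow x.val 0).trans ?_
      simp
  have h2 := card_orb_mul H none
  rw [htr, Finset.card_univ, card_golayPt] at h2
  rcases overA inf_le_right (le_inf h1 A'_le) with e | e
  · left; omega
  · right
    exact eq_top_of_card_eq _ (by rw [card_M24]; omega)

theorem B'_ne : (closure ({T, projInv} ∪ Sq)).subgroupOf M24 ≠ ⊤ := fun h => by
  obtain ⟨k, hk⟩ := exists_map_tuple (k := 3) (by norm_num) ![none, some 0, some 1]
    ![none, some 1, some 0] (by decide) (by decide)
  have h1 := B_le_K (show k ∈ (closure ({T, projInv} ∪ Sq)).subgroupOf M24 from h ▸ mem_top k)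
    none (some 0) (some 1)
  have e0 : k.1 none = none := hk 0
  have e1 : k.1 (some 0) = some 1 := hk 1
  have e2 : k.1 (some 1) = some 0 := hk 2
  rw [coe_subtype, e0, e1, e2] at h1
  revert h1; decide

theorem card_B' : Nat.card ((closure ({T, projInv} ∪ Sq)).subgroupOf M24) = 6072 :=
  (overB le_rfl).resolve_right B'_ne

/-- PSL(2, 23) = ⟨t ↦ t+1, t ↦ u t (u square), t ↦ −1/t⟩ is maximal of order 6072 in the group of the length-24 code, and its point stabiliser 23:11 (order 253) is maximal in the Mathieu group of degree 23. -/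
theorem result : (Subgroup.closure ({Equiv.optionCongr (Equiv.addRight (1 : ZMod 23)), Cfsg.projInv} ∪ {g : Equiv.Perm Cfsg.GolayPt | ∃ u : (ZMod 23)ˣ, IsSquare u ∧ g = Equiv.optionCongr (Units.mulLeft u)}) ≤ Cfsg.M24 ∧ Nat.card ↥(Subgroup.closure ({Equiv.optionCongr (Equiv.addRight (1 : ZMod 23)), Cfsg.projInv} ∪ {g : Equiv.Perm Cfsg.GolayPt | ∃ u : (ZMod 23)ˣ, IsSquare u ∧ g = Equiv.optionCongr (Units.mulLeft u)})) = 6072 ∧ IsCoatom ((Subgroup.closure ({Equiv.optionCongr (Equiv.addRight (1 : ZMod 23)), Cfsg.projInv} ∪ {g : Equiv.Perm Cfsg.GolayPt | ∃ u : (ZMod 23)ˣ, IsSquare u ∧ g = Equiv.optionCongr (Units.mulLeft u)})).subgroupOf Cfsg.M24)) ∧ (Subgroup.closure ({Equiv.optionCongr (Equiv.addRight (1 : ZMod 23))} ∪ {g : Equiv.Perm Cfsg.GolayPt | ∃ u : (ZMod 23)ˣ, IsSquare u ∧ g = Equiv.optionCongr (Units.mulLeft u)}) ≤ Cfsg.M24 ⊓ MulAction.stabilizer (Equiv.Perm Cfsg.GolayPt) (none : Cfsg.GolayPt) ∧ Nat.card ↥(Subgroup.closure ({Equiv.optionCongr (Equiv.addRight (1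 : ZMod 23))} ∪ {g : Equiv.Perm Cfsg.GolayPt | ∃ u : (ZMod 23)ˣ, IsSquare u ∧ g = Equiv.optionCongr (Units.mulLeft u)})) = 253 ∧ IsCoatom (((Subgroup.closure ({Equiv.optionCongr (Equiv.addRight (1 : ZMod 23))} ∪ {g : Equiv.Perm Cfsg.GolayPt | ∃ u : (ZMod 23)ˣ, IsSquare u ∧ g = Equiv.optionCongr (Units.mulLeft u)})).subgroupOf Cfsg.M24).subgroupOf (MulAction.stabilizer Cfsg.M24 (none : Cfsg.GolayPt)))) := by
  refine ⟨⟨B_le, ?_, B'_ne, fun H hH => ?_⟩, A_le, ?_, fun h => ?_, fun H hH => ?_⟩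
  · rw [← card_B']; exact (Nat.card_congr (subgroupOfEquivOfLe B_le).toEquiv).symm
  · refine (overB hH.le).resolve_left fun e => hH.ne ?_
    exact eq_of_le_of_card_ge hH.le (by rw [e, card_B'])
  · rw [← card_A']
    exact (Nat.card_congr (subgroupOfEquivOfLe (A_le.trans inf_le_left)).toEquiv).symm
  · have := Subgroup.card_le_of_le (subgroupOf_eq_top.1 h)
    rw [card_stabilizer_pt, card_A'] at this
    omega
  · have h1 : (closure ({T} ∪ Sq)).subgroupOf M24 ≤ H.map (Subgroup.subtype _) := by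
      rw [← map_subgroupOf_eq_of_le A'_le]; exact map_mono hH.le
    have h2 := overA (map_subtype_le H) h1
    rw [card_map_of_injective (subtype_injective _)] at h2
    rcases h2 with e | e
    · refine (hH.ne (eq_of_le_of_card_ge hH.le ?_)).elim
      rw [e, Nat.card_congr (subgroupOfEquivOfLe A'_le).toEquiv, card_A']
    · exact eq_top_of_card_eq _ (by rw [card_stabilizer_pt, e])

end Cfsg.Agent.S1643
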