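import Cfsg.Statements.S1667
import Cfsg.Agent.R3.McLC
import Cfsg.Agent.Spor.ModelU43
import Cfsg.Agent.Class.FieldTransport

set_option autoImplicit false
open Cfsg

namespace Cfsg.Agent.S1667

open Cfsg.Agent.Comp Cfsg.Agent.R3 Cfsg.Agent.R3.McL MulAction
open scoped Pointwise

local notation "H" => gen ns (sTop A_S1)

theorem st0 : IsStab 512 (gen ns [[0], [2]]) H 0 (A_d0.D ns) := A_ex.2.1 ▸ A_ex.1.stab

theorem st1 : IsStab 512 H (gen ns (sTop A_S2)) 1 (A_d1.D ns) := A_ex.1.tail.stab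

theorem cards : (mset 512 (A_d1.D ns)).card = 162 ∧ (mset 512 D1).card = 112 := by
  rw [← pcN_eq ctx.le, ← pcN_eq ctx.le]
  decide +kernel

instance finH : Finite H := Nat.finite_of_card_ne_zero (by rw [hH]; norm_num)

theorem le_H : gen ns fws ≤ H ∧ gen ns U_ss0 ≤ H ∧ gen ns tw1 ≤ H ∧ gen ns tw2 ≤ H := by
  have h := H_in
  simp only [and'_eq_true] at h
  exact ⟨KH.gen_le h.1, KH.gen_le h.2.1, KH.gen_le h.2.2.1, KH.gen_le h.2.2.2⟩

theorem exists_lab {lab : ℕ → ℕ} {u v : List ℕ} (h : gen ns [u, v] ≤ H)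
    (h1 : chkLab 512 9 ns u 128 7 Spor.ModelU43.ns (getL [] Spor.ModelU43.G_ss0 0) 112 lab = true)
    (h2 : chkLab 512 9 ns v 128 7 Spor.ModelU43.ns (getL [] Spor.ModelU43.G_ss0 1) 112 lab = true)
    (h3 : chkSepLab 112 lab 0 = true) :
    ∃ e : H ≃* gen Spor.ModelU43.ns Spor.ModelU43.G_ss0,
      ∀ g : H, RepBy 112 lab (g : Equiv.Perm ℕ) (e g : Equiv.Perm ℕ) := by
  have reps : Reps 112 lab (H).subtype.range Spor.ModelU43.ns Spor.ModelU43.G_ss0 :=
    Reps.cons ⟨_, ⟨⟨_, h (wp_mem_gen ns (by simp))⟩, rfl⟩, repBy_of_chkLab ctx Spor.ModelU43.ctx h1⟩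
    (Reps.cons ⟨_, ⟨⟨_, h (wp_mem_gen ns (by simp))⟩, rfl⟩,
      repBy_of_chkLab ctx Spor.ModelU43.ctx h2⟩ Reps.nil)
  have inj := reps.inj Spor.ModelU43.ctx (ps := [0]) 6 (List.forall_mem_cons.2
    ⟨sep_of_chkSepLab h3, fun _ h => absurd h List.not_mem_nil⟩) (by decide +kernel)
  exact reps.exists_equiv _ inj le_rfl (by rw [hH, Spor.ModelU43.G_card])

theorem mem_al : wp ns [8] ∈ H ∧ wp ns [10] ∈ H ∧ wp ns [12] ∈ H :=
  ⟨KH.word (by decide +kernel), KH.word (by decide +kernel), KH.word (by decide +kernel)⟩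

theorem fix112 {K : Subgroup (Equiv.Perm ℕ)} (hK : K ≤ H) (hU : gen ns U_ss0 ≤ K)
    (hc : Nat.card K = 29160) : ∀ g ∈ K, g 2 = 2 := by
  obtain ⟨X, h1, h2, h3, h4⟩ := exists_orbit_union ctx st2 hK hU U_card (by norm_num)
    (m := 40) hc U_fix
  have h5 := (allL_iff _ _).1 U_un X h1
  simp only [or'_eq_true, not'_eq_true, tb_eq, beq_iff] at h5
  rcases h5 with h5 | h5 | rfl | rfl
  · exact absurd h2 h5
  · exact absurd (Nat.mod_eq_zero_of_dvd h3) h5
  · exact fix_of_orbit h4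
  · have := mul_card_le_of_forest ctx.ok hK (fun g hg => smul_mset_of_orbit h4 hg) mem_al.1
      mem_al.2.1 mem_al.2.2 L_for
    rw [hc, hH] at this
    omega

theorem fws_le {K : Subgroup (Equiv.Perm ℕ)} (hK : K ≤ H) (hS : gen ns S_ss0 ≤ K)
    (hc : Nat.card K = 20160) : ∀ u ∈ fws, wp ns u ∈ K := by
  have e : gen ns [[40]] = Subgroup.zpowers (wp ns [40]) := by
    simp [gen, Subgroup.zpowers_eq_closure]
  have ha : wp ns [40] ∈ K := hS (wp_mem_gen ns (by decide +kernel))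
  have hb : wp ns [56] ∈ H := le_H.1 (wp_mem_gen ns (by decide +kernel))
  obtain ⟨x, hx⟩ := exists_conj_sq hc (a := ⟨_, ha⟩)
    (by rw [Subgroup.orderOf_mk, ← Nat.card_zpowers, ← e]; exact S_card) fun x hx => by
      obtain ⟨k, hk⟩ := e.le (HC.cent x (hK x.2) (congrArg Subtype.val hx))
      exact ⟨k, Subtype.ext hk⟩
  have h1 : (x : Equiv.Perm ℕ) * wp ns [40] * (x : Equiv.Perm ℕ)⁻¹ = wp ns [40] ^ 2 :=
    congrArg Subtype.val hx
  have h2 : wp ns [56] * wp ns [40] = wp ns [40] ^ 2 * wp ns [56] := by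
    simpa [sq, mul_assoc] using wp_eq_of_eqW ctx ab
  have h3 := hS (HC.cent ((x : Equiv.Perm ℕ)⁻¹ * wp ns [56]) (mul_mem (inv_mem (hK x.2)) hb) (by
    change _ * wp ns [40] = wp ns [40] * _
    rw [mul_assoc, h2, ← h1]; group))
  simp only [fws, List.forall_mem_cons]
  exact ⟨ha, by simpa using mul_mem x.2 h3, by simp⟩

theorem fix_of_T {T m t : ℕ} {reps : List (List ℕ × T3)} (hr : mapR Prod.fst reps = [[]])
    (h : and' (invAll ns (sTop A_S2) T) (Nat.ble 162 (pc t
      (forestM 512 m ns [8] [10] [12] T reps))) = true) {g : Equiv.Perm ℕ} (hg : g ∈ H)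
    (hT : ∀ i ∈ mset 512 T, g i ∈ mset 512 T) : g 1 = 1 := by
  rw [and'_eq_true] at h
  refine st1.fix g ((dc_of_forest ctx.ok (A := H) le_rfl st1.le (fun _ hg => smul_mset_of_maskStab
    (gen_le_supp ctx.ok _ hg) (gen_le_maskStab ctx.ok h.1 hg)) mem_al.1 mem_al.2.1 mem_al.2.2
    (fun r hr' => ?_) (by rw [hH, hJ]) h.2).1 g hg (smul_mset_of_maps hT))
  have : r.1 ∈ mapR Prod.fst reps := by rw [mapR_eq]; exact List.mem_map_of_mem hr'
  rw [hr, List.mem_singleton] at this
  rw [this]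
  exact one_mem _

theorem recog {Ω : Type*} [Fintype Ω] (hΩ : Fintype.card Ω = 275) {G : Subgroup (Equiv.Perm Ω)}
    [IsPretransitive G Ω] {a b c : Ω} (e : stabilizer G a ≃* H)
    (hb : (orbit (stabilizer G a) b).ncard = 112) (hc : (orbit (stabilizer G a) c).ncard = 162)
    (hx : ∀ g ∈ img e c, g 1 = 1) : Cfsg.Spor.IsoMcL G := by
  obtain ⟨b', hb1, hb2⟩ := exists_le_img e b (p := 3) (k := 6) (by norm_num) le_H.2.1
    U_card (by rw [card_img_eq e hb (by norm_num) (m := 29160) hH]; norm_num)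
    (by rw [hH]; norm_num)
  have hb' := ncard_of_mem_orbit hb1 hb
  have hy := fix112 (img_le e b') hb2 (card_img_eq e hb' (by norm_num) hH)
  have hs : gen ns [[0], [2]] ≤ suppSub 275 := geq ▸ Spor.ModelMcL.G_supp
  obtain ⟨G', ⟨f⟩, hT, t, ht, t1, t2⟩ := transport e (st0.le.trans hs) st0.fix st1 st2 cards.1
    cards.2 hc hb' (by norm_num) (by norm_num) (by norm_num) hΩ rfl
    (fun i hi => by
      have := of_subB (x := ones 275) (y := Nat.lor (Nat.shiftLeft 1 0) (Nat.lor (A_d1.D ns) D1))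
        (i := i) (by decide +kernel) (by simp [testBit_ones, hi])
      rw [testBit_lor', testBit_lor', testBit_one_shl] at this
      simp only [mem_mset]
      rcases this with h | h | h
      exacts [Or.inl h.symm, Or.inr (Or.inl ⟨by omega, h⟩), Or.inr (Or.inr ⟨by omega, h⟩)]) hx hy
  obtain ⟨f'⟩ := equiv_of_swap ctx (by norm_num) (by norm_num) (by norm_num) hT hs st0 KG st1 Jnorm
    Z_ok (by decide +kernel) sig_ok F_ok ht t1 t2
  exact ⟨f.trans (f'.trans ((MulEquiv.subgroupCongr geq.symm).trans Spor.ModelMcL.equiv.symm))⟩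

/-- Recognition of the McLaughlin group as a rank 3 permutation group: a transitive permutation group on 275 points in which the stabiliser of a point is isomorphic to the unitary group U₄(3) and has two further orbits, of sizes 112 and 162, is isomorphic to the McLaughlin group. -/
theorem result {Ω : Type*} [Fintype Ω] [DecidableEq Ω] (hΩ : Fintype.card Ω = 275) (G : Subgroup (Equiv.Perm Ω)) [MulAction.IsPretransitive G Ω] (a : Ω) (K : Type) [Field K] [Fintype K] (hK : Fintype.card K = 9) (e : MulAction.stabilizer G a ≃* Cfsg.PSU 4 K 3) (b c : Ω) (hb : (MulAction.orbit (MulAction.stabilizer G a) b).ncard = 112) (hc : (MulAction.orbit (MulAction.stabilizer G a) c).ncard = 162) : Cfsg.Spor.IsoMcL G := by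
  obtain ⟨e1, r1⟩ := exists_lab (lab := lab1) le_H.2.2.1 (by decide +kernel) (by decide +kernel)
    (by decide +kernel)
  obtain ⟨e2, r2⟩ := exists_lab (lab := lab2) le_H.2.2.2 (by decide +kernel) (by decide +kernel)
    (by decide +kernel)
  let e' := e.trans ((Class.psuCongr 4 3 (FiniteField.ringEquivOfCardEq
    (hK.trans Class.card_GF9.symm))).trans (Spor.ModelU43.equiv.trans e1.symm))
  obtain ⟨b', hb1, hb2⟩ := exists_le_img e' b (p := 3) (k := 6) (by norm_num) le_H.2.1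
    U_card (by rw [card_img_eq e' hb (by norm_num) (m := 29160) hH]; norm_num)
    (by rw [hH]; norm_num)
  obtain ⟨c', hc1, hc2⟩ := exists_le_img e' c (p := 7) (k := 1) (by norm_num)
    ((gen_le_of_subsetL ns (by decide +kernel)).trans le_H.1) S_card
    (by rw [card_img_eq e' hc (by norm_num) (m := 20160) hH]; norm_num) (by rw [hH]; norm_num)
  have hb' := ncard_of_mem_orbit hb1 hb
  have hc' := ncard_of_mem_orbit hc1 hc
  have hK' := card_img_eq e' hc' (by norm_num) (m := 20160) hH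
  obtain ⟨l, mu, h1, h2, h3, T, h4, h5, h6⟩ := exists_mu e' st2 cards.2 hb' hc' (by norm_num)
    (by norm_num) (by norm_num) hΩ (fix112 (img_le e' b') hb2
      (card_img_eq e' hb' (by norm_num) hH)) (r := 113) (by norm_num) (by norm_num) (by norm_num)
  have hun := T_un
  have hco := T_cor
  rw [and'_eq_true] at hun hco
  obtain ⟨M, h7, rfl⟩ := exists_union ctx.ok (fws_le (img_le e' c') hc2 hK') hun.1 h6 h4
  have h8 := (allL_iff _ _).1 hun.2 M h7
  rw [Set.ncard_coe_finset, ← pcN_eq ctx.le] at h5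
  have key : ∀ {T' : ℕ}, corB 512 112 lab1 lab2 M T' = true →
      ∀ g ∈ img (e'.trans (e1.trans e2.symm)) c', ∀ i ∈ mset 512 T', g i ∈ mset 512 T' := by
    intro T' h g hg
    obtain ⟨x, hx, rfl⟩ := (mem_img _).1 hg
    refine maps_of_corB h (r1 (e' x)) ?_ (h6 _ ((mem_img _).2 ⟨x, hx, rfl⟩))
    simpa using r2 (e2.symm (e1 (e' x)))
  rw [or'_eq_true, or'_eq_true, not'_eq_true, beq_iff] at h8
  rcases h8 with h8 | h8 | h8
  · omega
  · have h9 := mem_of_memB h8
    simp only [List.mem_cons, List.not_mem_nil, or_false] at h9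
    rcases h9 with rfl | rfl | rfl | rfl
    · exact recog hΩ e' hb hc' fun g hg => fix_of_T rfl T1_for (img_le _ _ hg) (h6 g hg)
    · exact recog hΩ e' hb hc' fun g hg => fix_of_T rfl T1c_for (img_le _ _ hg) (h6 g hg)
    · exact recog hΩ _ hb hc' fun g hg => fix_of_T rfl T1_for (img_le _ _ hg) (key hco.1 g hg)
    · exact recog hΩ _ hb hc' fun g hg => fix_of_T rfl T1c_for (img_le _ _ hg) (key hco.2 g hg)
  · have := mul_card_le_of_forest ctx.ok (img_le e' c') (fun g hg => smul_mset_of_maps (h6 g hg))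
      mem_al.1 mem_al.2.1 mem_al.2.2 h8
    rw [hK', hH] at this
    omega

end Cfsg.Agent.S1667
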