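import Cfsg.Statements.S1668
import Cfsg.Agent.R3.SuzSub
import Cfsg.Agent.S1679
import Cfsg.Agent.Chev.Aut

set_option autoImplicit false
open Cfsg

namespace Cfsg.Agent.S1668

open Cfsg.Agent.Comp Cfsg.Agent.R3 Cfsg.Agent.R3.Suz MulAction

theorem exists_model (K : Type) [Field K] [Fintype K] (hK : Fintype.card K = 4) :
    Nonempty (Cfsg.Lie.chevG2.group K ≃* gen ns (sTop A_S1)) := by
  have mem : ∀ u, inK 127 u = true → mapsW ns u 0 0 = true → wp ns u ∈ gen ns (sTop A_S1) :=
    fun u h1 h2 => st0.stab _ (kn_0.word h1) (wp_apply_of_mapsW ctx.ok (by norm_num) h2)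
  have reps : Reps 1365 S1679.lab (gen ns (sTop A_S1)).subtype.range
      Spor.ModelG24.ns Spor.ModelG24.G_ss0 :=
    Reps.cons ⟨wp ns [0, 2, 0], ⟨⟨_, mem [0, 2, 0] (by decide +kernel) (by decide +kernel)⟩, rfl⟩,
      repBy_of_chkLab ctx Spor.ModelG24.ctx (by decide +kernel)⟩
    (Reps.cons ⟨wp ns [4, 2, 6, 0, 8, 10, 10, 4, 6, 10],
      ⟨⟨_, mem [4, 2, 6, 0, 8, 10, 10, 4, 6, 10] (by decide +kernel) (by decide +kernel)⟩, rfl⟩,
      repBy_of_chkLab ctx Spor.ModelG24.ctx (by decide +kernel)⟩ Reps.nil)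
  have inj := reps.inj Spor.ModelG24.ctx (ps := [0]) 14 (List.forall_mem_cons.2
    ⟨sep_of_chkSepLab (by decide +kernel), fun _ h => absurd h List.not_mem_nil⟩)
    (by decide +kernel)
  obtain ⟨e, -⟩ := reps.exists_equiv _ inj le_rfl (by rw [Spor.ModelG24.G_card, hH])
  exact ⟨(Chev.fieldEquiv _ (FiniteField.ringEquivOfCardEq (hK.trans Class.card_GF4.symm))).trans
    (Spor.ModelG24.equiv.trans e.symm)⟩

/-- Recognition of the sporadic Suzuki group as a rank 3 permutation group: a transitive permutation group on 1782 points in which the stabiliser of a point is isomorphic to the Chevalley group G₂(4) and has two further orbits, of sizes 416 and 1365, is isomorphic to the sporadic Suzuki group. -/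
theorem result {Ω : Type*} [Fintype Ω] [DecidableEq Ω] (hΩ : Fintype.card Ω = 1782) (G : Subgroup (Equiv.Perm Ω)) [MulAction.IsPretransitive G Ω] (a : Ω) (K : Type) [Field K] [Fintype K] (hK : Fintype.card K = 4) (e : MulAction.stabilizer G a ≃* Cfsg.Lie.chevG2.group K) (b c : Ω) (hb : (MulAction.orbit (MulAction.stabilizer G a) b).ncard = 416) (hc : (MulAction.orbit (MulAction.stabilizer G a) c).ncard = 1365) : Cfsg.Spor.IsoSuz G := by
  obtain ⟨e0⟩ := exists_model K hK
  let e' := e.trans e0
  obtain ⟨b', hb1, hb2⟩ := exists_le_img e' b (p := 5) (k := 2) (by norm_num) (P_le.trans st1.le)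
    P_card (by rw [card_img_eq e' hb (by norm_num) (m := 604800) hH]; norm_num)
    (by rw [hH]; norm_num)
  obtain ⟨c', hc1, hc2⟩ := exists_le_img e' c (p := 2) (k := 12) (by norm_num) U_le
    U_card (by rw [card_img_eq e' hc (by norm_num) (m := 184320) hH]; norm_num)
    (by rw [hH]; norm_num)
  have hb' := ncard_of_mem_orbit hb1 hb
  have hc' := ncard_of_mem_orbit hc1 hc
  have hx := fix416 (img_le e' b') hb2 (card_img_eq e' hb' (by norm_num) hH)
  have hy := (fix1365 (img_le e' c') hc2 (card_img_eq e' hc' (by norm_num) hH)).resolve_right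
    fun h => by
      obtain ⟨l, mu, h1, h2, h3, T, h4, h5, h6⟩ := exists_mu e' st1 cards.1 hb' hc' (by norm_num)
        (by norm_num) (by norm_num) hΩ hx (r := 139) (by norm_num) (by norm_num) (by norm_num)
      have := h T h4 h6
      omega
  have hs : gen ns [[0], [2], [4], [6], [8], [10], [12]] ≤ suppSub 1782 :=
    geq ▸ Spor.ModelSuz.G_supp
  obtain ⟨G', ⟨f⟩, hT, t, ht, t1, t2⟩ := transport e' (st0.le.trans hs) st0.fix st1 st2 cards.1
    cards.2 hb' hc' (by norm_num) (by norm_num) (by norm_num) hΩ rfl (fun i hi => by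
      have := of_subB (x := ones 1782) (y := Nat.lor (Nat.shiftLeft 1 0) (Nat.lor (A_d1.D ns) D2))
        (i := i) (by decide +kernel) (by simp [testBit_ones, hi])
      rw [testBit_lor', testBit_lor', testBit_one_shl] at this
      simp only [mem_mset]
      rcases this with h | h | h
      exacts [Or.inl h.symm, Or.inr (Or.inl ⟨by omega, h⟩), Or.inr (Or.inr ⟨by omega, h⟩)]) hx hy
  have := eq_of_swap ctx (by norm_num) (by norm_num) (by norm_num) hT hs st0 KG st1 Jnorm Z_ok
    (by decide +kernel) F_ok ht t1 t2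
  exact ⟨f.trans ((MulEquiv.subgroupCongr (this.trans geq.symm)).trans Spor.ModelSuz.equiv.symm)⟩

end Cfsg.Agent.S1668
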