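import Cfsg.Statements.S1691
import Mathlib

set_option autoImplicit false
open Cfsg

namespace Cfsg.Agent.S1691

open Cfsg.Spor in
theorem sgn_rel : ∀ r ∈ (coxRelators Fi24.edges ∪ {r | r ∈ Fi24.extra}),
    FreeGroup.lift (fun _ : Fi24.Gen => (-1 : ℤˣ)) r = 1 := by
  rintro r (⟨x, -, y, -, rfl⟩ | hr)
  · simp
  · simp only [Fi24.extra, List.mem_cons, List.not_mem_nil, or_false, Set.mem_setOf_eq] at hr
    rcases hr with rfl | rfl
    · simp only [map_mul, map_inv, map_pow, FreeGroup.lift_apply_of]; decide
    · simp only [map_mul, map_inv, map_pow, FreeGroup.lift_apply_of]; decide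

open Cfsg.Spor in
theorem cox_rel (x y : Fi24.Gen) : ((PresentedGroup.of x : Fi24) * PresentedGroup.of y) ^
    coxLabel Fi24.edges x y = 1 := by
  have hx : ∀ x : Fi24.Gen, x ∈ coxNodes Fi24.edges := by intro x; cases x <;> decide
  have := PresentedGroup.one_of_mem (rels := coxRelators Fi24.edges ∪ {r | r ∈ Fi24.extra})
    (x := (FreeGroup.of x * FreeGroup.of y) ^ coxLabel Fi24.edges x y)
    (Or.inl ⟨x, hx x, y, hx y, rfl⟩)
  rw [map_pow, map_mul] at this
  exact this



/-- The commutator subgroup of the presented group Fi₂₄ has index 2 (the presented group is Fi₂₄′:2 with Fi₂₄′ its derived subgroup). -/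
theorem result : (commutator Cfsg.Spor.Fi24).index = 2 := by
  let t : Cfsg.Spor.Fi24.Gen → Abelianization Cfsg.Spor.Fi24 :=
    fun x => Abelianization.of (PresentedGroup.of x)
  have hrel : ∀ x y, (t x * t y) ^ Cfsg.Spor.coxLabel Cfsg.Spor.Fi24.edges x y = 1 := by
    intro x y
    have := congrArg (Abelianization.of (G := Cfsg.Spor.Fi24)) (cox_rel x y)
    rwa [map_pow, map_mul, map_one] at this
  have h2 : ∀ x, t x * t x = 1 := by
    intro x
    have := hrel x x
    rwa [Cfsg.Spor.coxLabel, if_pos rfl, pow_one] at this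
  have h3 : ∀ x y, Cfsg.Spor.coxLabel Cfsg.Spor.Fi24.edges x y = 3 → t x = t y := by
    intro x y h
    have := hrel x y
    rw [h, mul_pow, pow_succ, pow_two, h2, one_mul, pow_succ, pow_two, h2, one_mul] at this
    calc t x = t x * (t y * t y) := by rw [h2, mul_one]
      _ = t y := by rw [← mul_assoc, this, one_mul]
  have hall : ∀ x, t x = t .d := by
    have hc := h3 .c .d (by decide)
    have he := h3 .e .d (by decide)
    have hh := h3 .h .d (by decide)
    have hb := (h3 .b .c (by decide)).trans hc
    have ha := (h3 .a .b (by decide)).trans hb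
    have hk := (h3 .k .a (by decide)).trans ha
    have hl := (h3 .l .k (by decide)).trans hk
    have hf := (h3 .f .e (by decide)).trans he
    have hg := (h3 .g .f (by decide)).trans hf
    have hj := (h3 .j .g (by decide)).trans hg
    have hi := (h3 .i .h (by decide)).trans hh
    intro x; cases x <;> first | assumption | rfl
  let sgn : Cfsg.Spor.Fi24 →* ℤˣ := PresentedGroup.toGroup sgn_rel
  have hs : ∀ x, sgn (PresentedGroup.of x) = -1 := fun x => PresentedGroup.toGroup.of sgn_rel
  let ψ : ℤˣ →* Abelianization Cfsg.Spor.Fi24 := MonoidHom.mk' (fun u => if u = 1 then 1 else t .d) (by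
    intro a b
    rcases Int.units_eq_one_or a with rfl | rfl <;> rcases Int.units_eq_one_or b with rfl | rfl <;>
      simp [h2])
  have hψ : ψ.comp sgn = Abelianization.of := by
    apply PresentedGroup.ext
    intro x
    rw [MonoidHom.comp_apply, hs]
    exact (hall x).symm
  have hker : commutator Cfsg.Spor.Fi24 = sgn.ker := by
    apply le_antisymm (Abelianization.commutator_subset_ker sgn)
    intro g hg
    rw [← Abelianization.ker_of, ← hψ, MonoidHom.mem_ker, MonoidHom.comp_apply,
      MonoidHom.mem_ker.1 hg, map_one]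
  have hsurj : sgn.range = ⊤ := by
    rw [eq_top_iff]
    intro u _
    rcases Int.units_eq_one_or u with rfl | rfl
    · exact one_mem _
    · exact ⟨_, hs .d⟩
  rw [hker, Subgroup.index_ker, hsurj]
  simp

end Cfsg.Agent.S1691
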