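import Cfsg.Statements.S1711
import Cfsg.Agent.Spor.J4.Final
import Cfsg.Agent.Spor.J4.H
import Cfsg.Agent.Comp.BitMore4
import Cfsg.Agent.S0365
import Cfsg.Agent.Spor.M24Basic

set_option autoImplicit false
open Cfsg

namespace Cfsg.Agent.S1711

open Cfsg.Agent.Comp.BN Cfsg.Agent.Spor

/-- the codes of `x`, `y`, `y⁻¹` -/
def cs : List ℕ := [603731354958515145439197362393894386, 984450446310371605812572225060580997,
  984509573704980460955349405313509958]

noncomputable def cd (k : ℕ) : ℕ := nth M24C.oneC cs k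

noncomputable def m (k : ℕ) : M24 := M24C.mc (cd k)

theorem code_m (k : ℕ) : M24C.code (m k : Equiv.Perm GolayPt) = cd k := by
  refine M24C.code_mc ?_
  rcases k with _ | _ | _ | k
  · decide +kernel
  · decide +kernel
  · decide +kernel
  · have : cd (k + 1 + 1 + 1) = M24C.oneC := rfl
    rw [this]; decide +kernel

noncomputable def evC (W : List ℕ) : ℕ :=
  List.rec (motive := fun _ => ℕ) M24C.oneC (fun k _ ih => force ih fun v => M24C.mulC (cd k) v) W

theorem code_ev (W : List ℕ) : M24C.code ((ev m W : M24) : Equiv.Perm GolayPt) = evC W := by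
  induction W with
  | nil => exact M24C.code_one
  | cons k W ih =>
    have : evC (k :: W) = force (evC W) fun v => M24C.mulC (cd k) v := rfl
    rw [this, force_eq, ev_cons, ← ih, ← code_m]
    exact M24C.code_mul _ _

theorem ev_eq_one {W : List ℕ} (h : evC W = M24C.oneC) : ev m W = 1 :=
  Subtype.ext (M24C.code_inj.1 ((code_ev W).trans (h.trans M24C.code_one.symm)))

theorem sat : Sat J4C.A.PH m := by
  refine ⟨fun k hk => ?_, fun k => ?_, fun r hr => ?_⟩
  · obtain ⟨k, rfl⟩ : ∃ j, k = j + 3 := ⟨k - 3, by change 3 ≤ k at hk; omega⟩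
    refine Subtype.ext (M24C.code_inj.1 ((code_m _).trans ?_))
    exact M24C.code_one.symm
  · have : ev m [J4C.A.PH.I k, k] = 1 := by
      refine ev_eq_one ?_
      rcases k with _ | _ | _ | k
      · decide +kernel
      · decide +kernel
      · decide +kernel
      · have : evC [J4C.A.PH.I (k + 1 + 1 + 1), k + 1 + 1 + 1] = evC [3, 3] := rfl
        rw [this]; decide +kernel
    simpa using this
  · refine ev_eq_one ?_
    revert r
    decide +kernel

theorem card_gen : 244823040 ≤ Nat.card (M24C.gen [603731354958515145439197362393894386,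
    984450446310371605812572225060580997]) :=
  M24C.card_ge_of_slp (M24C.inH_gen (by decide +kernel))
    [1, 1, 3, 3, 5, 6, 6, 8200, 8, 10, 11, 4, 1, 2, 7, 4, 5, 10250, 7, 8, 9, 10, 15, 16, 7, 8, 9, 10, 4, 5, 13318, 14, 8, 16, 10, 11, 6144, 1, 2050, 9, 4, 11, 6, 13, 14, 7, 1, 2, 10, 11268, 12, 6, 14, 15, 16, 17425, 11, 12, 13, 21, 11269, 6, 2]
    6614517792 6 [[63, 64], [56, 52], [46, 39], [33, 27], [25, 18], [14, 8, 3], [0]] (by decide +kernel)

theorem top : gen m = ⊤ := by
  refine Subgroup.eq_top_of_le_card _ (M24C.card_M24 ▸ card_gen.trans (Subgroup.card_le_of_le ?_))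
  rw [M24C.gen, Subgroup.closure_le]
  rintro _ ⟨c, hc, rfl⟩
  simp only [List.mem_cons, List.not_mem_nil, or_false] at hc
  rcases hc with rfl | rfl
  · exact mem_gen m 0
  · exact mem_gen m 1

theorem x_ne : ev (subT J4C.x J4C.A.wsH) [0] ≠ 1 := by
  obtain ⟨ρ, hρ⟩ := J4C.link.1.hom _ _ J4C.Mat.satR
  intro h
  have h0 : J4C.x 0 = 1 := by simpa [subT, J4C.A.wsH, nth] using h
  have h1 : ev J4C.Mat.R [0] = ev J4C.Mat.R [] := by
    rw [ev_cons, ← hρ, h0, map_one, one_mul]
  exact J4C.Mat.mdl.ne (U := [0]) (V := []) (by decide +kernel) h1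

/-- In the presented fourth Janko group (generators x, y, t), the subgroup generated by the images of x and y is isomorphic to the Mathieu group M₂₄. -/
theorem result : Nonempty ((((Subgroup.closure ({Cfsg.Spor.J4.x, Cfsg.Spor.J4.y} : Set (FreeGroup Cfsg.Spor.J4.Gen))).map (PresentedGroup.mk (Cfsg.Spor.coxRelators Cfsg.Spor.J4.edges ∪ {r | r ∈ Cfsg.Spor.J4.extra})))) ≃* Cfsg.M24) := by
  rw [J4C.subeq_xy, J4C.gen_eq_xy]
  have := S0365.result
  obtain ⟨e⟩ := (link_of_bound J4C.A.boundH sat top M24C.card_M24.ge).equiv_of_simple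
    (J4C.A.implH _ _ J4C.link.1.sat) x_ne
  exact ⟨e.symm⟩

end Cfsg.Agent.S1711
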