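import Cfsg.Statements.S1717
import Cfsg.Agent.S5424
import Cfsg.Agent.Grp.Cores

set_option autoImplicit false
open Cfsg

namespace Cfsg.Agent.S1717

open Subgroup

theorem key {G : Type*} [Group G] [Finite G] (z : G) (hz : orderOf z = 2)
    (T : Sylow 2 (centralizer ({z} : Set G)))
    (h : ∀ a b : centralizer ({z} : Set G), a ≠ 1 → b ≠ 1 → (∀ t ∈ T, t * a = a * t) →
      (∀ t ∈ T, t * b = b * t) → a = b) :
    ¬ 2 ∣ ((T : Subgroup (centralizer ({z} : Set G))).map (centralizer ({z} : Set G)).subtype).index := by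
  have : Fact (Nat.Prime 2) := ⟨Nat.prime_two⟩
  let C := centralizer ({z} : Set G)
  let S := (T : Subgroup C).map C.subtype
  show ¬ 2 ∣ S.index
  have hSp : IsPGroup 2 S := T.isPGroup'.map _
  obtain ⟨P, hP⟩ := hSp.exists_le_sylow
  have hzC : z ∈ C := mem_centralizer_singleton_iff.2 rfl
  have hz1 : z ≠ 1 := by rintro rfl; simp at hz
  have hzT : (⟨z, hzC⟩ : C) ∈ (T : Subgroup C) := by
    have h1 : IsPGroup 2 (zpowers (⟨z, hzC⟩ : C)) :=
      IsPGroup.of_card (n := 1) (by rw [Nat.card_zpowers, orderOf_mk, hz]; rfl)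
    have h2 : (zpowers (⟨z, hzC⟩ : C)).Normal := by
      refine ⟨fun x hx g => ?_⟩
      obtain ⟨k, rfl⟩ := hx
      have : Commute g (⟨z, hzC⟩ : C) := Subtype.ext (mem_centralizer_singleton_iff.1 g.2)
      simp only
      rw [(this.zpow_right k).eq, mul_inv_cancel_right]
      exact zpow_mem (mem_zpowers _) k
    exact h1.le_sylow_of_normal T (mem_zpowers _)
  have hzS : z ∈ S := ⟨_, hzT, rfl⟩
  have hSC : S ≤ C := map_subtype_le _
  suffices hPS : (P : Subgroup G) = S by
    rw [← hPS]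
    exact P.not_dvd_index
  by_contra hne
  have hlt : S.subgroupOf (P : Subgroup G) < ⊤ := by
    rw [lt_top_iff_ne_top, Ne, subgroupOf_eq_top]
    exact fun h => hne (le_antisymm h hP)
  have := P.isPGroup'.isNilpotent
  have hnc := normalizerCondition_of_isNilpotent (G := (P : Subgroup G)) _ hlt
  obtain ⟨g, hgN, hgS⟩ := SetLike.exists_of_lt hnc
  have hconj : ∀ x ∈ S, (g : G) * x * (g : G)⁻¹ ∈ S := fun x hx =>
    (mem_normalizer_iff.1 hgN ⟨x, hP hx⟩).1 hx
  have hconj' : ∀ x ∈ S, (g : G)⁻¹ * x * (g : G) ∈ S := fun x hx => by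
    simpa [mem_subgroupOf] using (mem_normalizer_iff.1 (inv_mem hgN) ⟨x, hP hx⟩).1 hx
  have hgz : (g : G) * z * (g : G)⁻¹ = z := by
    have := h ⟨_, hSC (hconj z hzS)⟩ ⟨z, hzC⟩ (by
      intro h
      have : (g : G) * z * (g : G)⁻¹ = 1 := congrArg Subtype.val h
      exact hz1 (by simpa using this)) (fun h => hz1 (congrArg Subtype.val h)) (by
      intro t ht
      apply Subtype.ext
      have h1 := mem_centralizer_singleton_iff.1 (hSC (hconj' t ⟨t, ht, rfl⟩))
      show (t : G) * (g * z * (g : G)⁻¹) = (g * z * (g : G)⁻¹) * t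
      calc (t : G) * (g * z * (g : G)⁻¹) = g * ((g : G)⁻¹ * t * g * z) * (g : G)⁻¹ := by group
        _ = (g * z * (g : G)⁻¹) * t := by rw [h1]; group) (fun t _ =>
      Subtype.ext (mem_centralizer_singleton_iff.1 t.2))
    exact congrArg Subtype.val this
  have hgC : (g : G) ∈ C := mem_centralizer_singleton_iff.2 (by
    rw [← mul_inv_eq_iff_eq_mul]; exact hgz)
  have hp : IsPGroup 2 ((P : Subgroup G).subgroupOf C) := P.isPGroup'.comap_subtype
  have hle : (T : Subgroup C) ≤ (P : Subgroup G).subgroupOf C := fun t ht => hP ⟨t, ht, rfl⟩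
  have heq := T.is_maximal' hp hle
  apply hgS
  have : (⟨g, hgC⟩ : C) ∈ (T : Subgroup C) := by
    rw [← heq]; exact g.2
  exact ⟨_, this, rfl⟩



/-- Let G be a finite group with an involution z whose centraliser C is isomorphic to the centraliser of a transvection of SL(5, 2). Then a Sylow 2-subgroup of C, viewed in G, is a Sylow 2-subgroup of G (its index in G is odd). -/
theorem result {G : Type*} [Group G] [Finite G] (s : Matrix.SpecialLinearGroup (Fin 5) (ZMod 2)) (hs : (s : Matrix (Fin 5) (Fin 5) (ZMod 2)) = Matrix.transvection 0 1 1) (z : G) (hz : orderOf z = 2) (e : (Subgroup.centralizer ({z} : Set G)) ≃* Subgroup.centralizer ({s} : Set (Matrix.SpecialLinearGroup (Fin 5) (ZMod 2)))) (T : Sylow 2 (Subgroup.centralizer ({z} : Set G))) : ¬ 2 ∣ ((T : Subgroup (Subgroup.centralizer ({z} : Set G))).map (Subgroup.subtype (Subgroup.centralizer ({z} : Set G)))).index := by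
  have : Fact (Nat.Prime 2) := ⟨Nat.prime_two⟩
  obtain ⟨⟨-, h1⟩, -, -, ⟨-, h2, -⟩, -⟩ := Cfsg.Agent.S5424.result 3 (by norm_num) s hs _ rfl
  set C := Subgroup.centralizer ({s} : Set (Matrix.SpecialLinearGroup (Fin 5) (ZMod 2)))
  set Q := (Cfsg.pCore 2 C).map C.subtype with hQ
  refine key z hz T fun a b ha hb hta htb => ?_
  have hle : pCore 2 C ≤ (T : Subgroup _).map e.toMonoidHom :=
    Grp.pCore_le_sylow (T.mapSurjective (f := e.toMonoidHom) e.surjective)
  have mem : ∀ a : centralizer ({z} : Set G), (∀ t ∈ T, t * a = a * t) →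
      ((e a : C) : Matrix.SpecialLinearGroup (Fin 5) (ZMod 2)) ∈ (center Q).map Q.subtype := by
    intro a hta
    rw [← h2, mem_centralizer_iff]
    rintro _ ⟨q, hq, rfl⟩
    obtain ⟨t, ht, rfl⟩ := hle hq
    have := congrArg (fun x => ((e x : C) : Matrix.SpecialLinearGroup (Fin 5) (ZMod 2))) (hta t ht)
    simpa using this
  have hc : Nat.card ((center Q).map Q.subtype) = 2 := by
    rw [card_map_of_injective Q.subtype_injective, h1]
  obtain ⟨y, -, hy⟩ := (Nat.card_eq_two_iff' (1 : (center Q).map Q.subtype)).1 hc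
  have k1 := hy ⟨_, mem a hta⟩ (fun h => ha (by
    have : e a = 1 := Subtype.ext (Subtype.mk.inj h)
    simpa using this))
  have k2 := hy ⟨_, mem b htb⟩ (fun h => hb (by
    have : e b = 1 := Subtype.ext (Subtype.mk.inj h)
    simpa using this))
  exact e.injective (Subtype.ext (Subtype.mk.inj (k1.trans k2.symm)))

end Cfsg.Agent.S1717
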