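import Cfsg.Statements.S1723
import Cfsg.Agent.LES.HJ3

set_option autoImplicit false
open Cfsg

namespace Cfsg.Agent.S1723

open Subgroup Cfsg.Agent.PLocal.Amb in
/-- Sylow 3-structure of a group of Hall–Janko type (large-extraspecial hypothesis with Q of order 32, quotient Ω⁻(4, 2), z not weakly closed in Q, more than one class of involutions): a Sylow 3-subgroup P is extraspecial of order 27, its normaliser has order 216, and the elements of order 3 form exactly two conjugacy classes. -/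
theorem result {G : Type*} [Group G] [Finite G] (z : G) (hz : orderOf z = 2) (Q : Subgroup (Subgroup.centralizer ({z} : Set G))) [Q.Normal] (hF : Cfsg.generalizedFittingSubgroup (Subgroup.centralizer ({z} : Set G)) = Q) (hQ : Cfsg.IsExtraspecial 2 Q) (hcard : Nat.card Q = 2 ^ 5) (e : (Subgroup.centralizer ({z} : Set G)) ⧸ Q ≃* Cfsg.Omega (ZMod 2) (Cfsg.quadFormMinus 1 (ZMod 2) 1 1)) (hnwc : ∃ g : G, (∃ hq : g * z * g⁻¹ ∈ Subgroup.centralizer ({z} : Set G), (⟨g * z * g⁻¹, hq⟩ : Subgroup.centralizer ({z} : Set G)) ∈ Q) ∧ g * z * g⁻¹ ≠ z) (hcl : ∃ x y : G, orderOf x = 2 ∧ orderOf y = 2 ∧ ¬ IsConj x y) (P : Sylow 3 G) : Cfsg.IsExtraspecial 3 (P : Subgroup G) ∧ Nat.card P = 27 ∧ Nat.card (Subgroup.normalizer ((P : Subgroup G) : Set G)) = 216 ∧ ∃ a b : G, orderOf a = 3 ∧ orderOf b = 3 ∧ ¬ IsConj a b ∧ ∀ c : G, orderOf c = 3 → IsConj c a ∨ IsConj c b := by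
  obtain ⟨a, π, t, U, L, x, d⟩ := LES.exists_HJC_of_omega hz Q hF hQ hcard e hnwc hcl
  obtain ⟨W, d⟩ := d.exists_HJN
  obtain ⟨b, hb, h3⟩ := d.exists_b
  obtain ⟨S, hP, hx, hS, hES⟩ := d.exists_three hb h3
  obtain ⟨k, -, hk⟩ := (isSyl_top P).exists_cj_eq hP
  refine ⟨?_, by rw [← hk, card_cj, hS],
    by rw [← hk, normalizer_cj, card_cj, (d.card_NS hb h3 hx hS hES).1], b, x, h3, d.x_ord,
    d.not_isConj_bx hb h3, fun c hc => d.classes_three hb h3 hc⟩
  rw [← hk]
  refine (hES.map_of_injective (MulAut.conj k).toMonoidHom (MulAut.conj k).injective).isExtraspecial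
    fun h => ?_
  have := congrArg (fun X : Subgroup G => Nat.card X) h
  simp only [card_cj, hS, Nat.card_zpowers] at this
  rw [orderOf_injective _ (MulAut.conj k).injective, h3] at this
  omega

end Cfsg.Agent.S1723
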