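import Cfsg.Statements.S1724
import Cfsg.Agent.LES.HJ3

set_option autoImplicit false
open Cfsg

namespace Cfsg.Agent.S1724

open Subgroup Cfsg.Agent.PLocal.Amb in
/-- In a group of Hall–Janko type (large-extraspecial hypothesis with Q of order 32, quotient Ω⁻(4, 2), z not weakly closed in Q, more than one class of involutions), a Sylow 7-subgroup is its own centraliser and its normaliser is non-abelian of order 42. -/
theorem result {G : Type*} [Group G] [Finite G] (z : G) (hz : orderOf z = 2) (Q : Subgroup (Subgroup.centralizer ({z} : Set G))) [Q.Normal] (hF : Cfsg.generalizedFittingSubgroup (Subgroup.centralizer ({z} : Set G)) = Q) (hQ : Cfsg.IsExtraspecial 2 Q) (hcard : Nat.card Q = 2 ^ 5) (e : (Subgroup.centralizer ({z} : Set G)) ⧸ Q ≃* Cfsg.Omega (ZMod 2) (Cfsg.quadFormMinus 1 (ZMod 2) 1 1)) (hnwc : ∃ g : G, (∃ hq : g * z * g⁻¹ ∈ Subgroup.centralizer ({z} : Set G), (⟨g * z * g⁻¹, hq⟩ : Subgroup.centralizer ({z} : Set G)) ∈ Q) ∧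 g * z * g⁻¹ ≠ z) (hcl : ∃ x y : G, orderOf x = 2 ∧ orderOf y = 2 ∧ ¬ IsConj x y) (D : Sylow 7 G) : Subgroup.centralizer ((D : Subgroup G) : Set G) = D ∧ Nat.card (Subgroup.normalizer ((D : Subgroup G) : Set G)) = 42 ∧ ¬ IsMulCommutative (Subgroup.normalizer ((D : Subgroup G) : Set G)) := by
  obtain ⟨a, π, t, U, L, x, d⟩ := LES.exists_HJC_of_omega hz Q hF hQ hcard e hnwc hcl
  obtain ⟨W, d⟩ := d.exists_HJN
  obtain ⟨h1, h2⟩ := d.seven (isSyl_top D)
  refine ⟨h1, h2, fun h => ?_⟩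
  have : Fact (Nat.Prime 7) := ⟨by norm_num⟩
  have h3 := card_le_of_le (H := 𝐍[(D : Subgroup G)]) (K := D) fun c hc => h1.le fun u hu =>
    congrArg Subtype.val (h.is_comm.comm ⟨u, le_normalizer hu⟩ ⟨c, hc⟩)
  rw [h2, Small.card_sylow_subgroup (k := 1) (m := 86400) d.card_G (by norm_num)] at h3
  omega

end Cfsg.Agent.S1724
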