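import Cfsg.Statements.S1753
import Mathlib

set_option autoImplicit false
universe u
open Cfsg

namespace Cfsg.Agent.S1753


/-- Let K be any property of groups. (1) If G is a minimal counterexample relative to K — a finite non-abelian simple group not satisfying K such that every finite non-abelian simple group of smaller order satisfies K — then every proper subgroup of G is a K-group (all its non-abelian simple sections satisfy K), since such sections have smaller order than G. (2) Consequently (induction on the order), if every finite non-abelian simple group all of whose proper subgroups are K-groups satisfies K, then every finite non-abelian simple group satisfies K. -/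
theorem result (K : ∀ (X : Type u) [Group X], Prop) :
    (∀ (G : Type u) [Group G], Cfsg.IsMinCounterexampleWith K G → Cfsg.IsKProperWith K G) ∧
      ((∀ (X : Type u) [Group X] [Finite X], IsSimpleGroup X → ¬ IsMulCommutative X → Cfsg.IsKProperWith K X → K X) →
        ∀ (G : Type u) [Group G] [Finite G], IsSimpleGroup G → ¬ IsMulCommutative G → K G) := by
  have h1 : ∀ (G : Type u) [Group G], Cfsg.IsMinCounterexampleWith K G → Cfsg.IsKProperWith K G := by
    intro G _ hG H hH L N _ hs hna
    obtain ⟨hfin, -, -, -, hmin⟩ := hG
    apply hmin _ hs hna
    have h1 : Nat.card (L ⧸ N) ≤ Nat.card L := Nat.card_le_card_of_surjective _ (QuotientGroup.mk'_surjective N)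
    have h2 : Nat.card L ≤ Nat.card H := Nat.card_le_card_of_injective _ L.subtype_injective
    have h3 : Nat.card H < Nat.card G := by
      have := Subgroup.card_le_card_group H
      rcases this.lt_or_eq with h | h
      · exact h
      · exact absurd (Subgroup.eq_top_of_card_eq H h) hH
    omega
  refine ⟨h1, fun h G _ _ hs hna => ?_⟩
  suffices H : ∀ n : ℕ, ∀ (G : Type u) [Group G] [Finite G], Nat.card G = n → IsSimpleGroup G →
      ¬ IsMulCommutative G → K G from H _ G rfl hs hna
  intro n
  induction n using Nat.strong_induction_on with
  | _ n ih =>
    intro G _ _ hn hs hna
    by_contra hK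
    apply hK
    apply h G hs hna
    apply h1
    exact ⟨inferInstance, hs, hna, hK, fun X _ _ hX hX' hlt => ih _ (hn ▸ hlt) X rfl hX hX'⟩

end Cfsg.Agent.S1753
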