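import Cfsg.Statements.S1754
import Mathlib
import Cfsg.Agent.Inv.Basic
import Cfsg.Agent.PLocal.Component

set_option autoImplicit false
open Cfsg

namespace Cfsg.Agent.S1754

set_option linter.unusedVariables false
set_option linter.style.haveILetI false

/-- Let A be a standard subgroup of the finite group G (A quasisimple, C_G(A) tightly embedded of even order, A commuting elementwise with no other conjugate of itself, and N_G(A) = N_G(C_G(A))), and let t be an involution of G centralizing A. Then the centralizer of t lies in the normalizer of A; in particular A, viewed inside C_G(t), is a component of C_G(t). -/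
theorem result {G : Type*} [Group G] [Finite G]
    (A : Subgroup G) (hA : Cfsg.IsStandardSubgroup A) (t : G) (ht : orderOf t = 2) (htA : t ∈ Subgroup.centralizer (A : Set G)) :
    Subgroup.centralizer ({t} : Set G) ≤ Subgroup.normalizer (A : Set G) ∧
      Cfsg.IsComponent (A.subgroupOf (Subgroup.centralizer ({t} : Set G))) := by
  obtain ⟨hq, ⟨-, hT⟩, -, hN⟩ := hA
  have h1 : Subgroup.centralizer ({t} : Set G) ≤ Subgroup.normalizer (A : Set G) := by
    intro c hc
    rw [hN]
    by_contra hcN
    have hodd := hT c hcN
    rw [Inv.odd_card_iff] at hodd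
    refine hodd t ⟨htA, t, htA, ?_⟩ ht
    rw [Subgroup.mem_centralizer_singleton_iff] at hc
    simp [hc]
  have h2 : A ≤ Subgroup.centralizer ({t} : Set G) := by
    intro a ha
    rw [Subgroup.mem_centralizer_singleton_iff]
    exact htA a ha
  refine ⟨h1, ?_, (PLocal.qsS_subgroupOf_iff h2).2 hq⟩
  haveI : (A.subgroupOf (Subgroup.centralizer ({t} : Set G))).Normal :=
    Subgroup.normal_subgroupOf_of_le_normalizer h1
  exact Subgroup.Normal.isSubnormal this

end Cfsg.Agent.S1754
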