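import Cfsg.Statements.S1755
import Mathlib
import Cfsg.Agent.Inv.SylowTwo
import Cfsg.Agent.PLocal.Component
import Cfsg.Agent.Grp.Fitting
import Cfsg.Agent.FGS.Conj
import Cfsg.Agent.PLocal.Amb
import Cfsg.Agent.Misc.Four

set_option autoImplicit false
open Cfsg

namespace Cfsg.Agent.S1755

set_option linter.unusedVariables false
set_option linter.style.haveILetI false
theorem aux {G : Type*} [Group G] [Finite G] (z : G) (hz : orderOf z = 2) (C : Subgroup G)
    (hC : C = Subgroup.centralizer ({z} : Set G)) (Q : Subgroup C)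
    (hQdef : Q = Cfsg.generalizedFittingSubgroup C) (hQ : Cfsg.IsOfSymplecticType Q)
    (B : Subgroup Q) (hBc : B.Characteristic) (hBa : IsMulCommutative ↥B) (g : G) :
    ((B.map Q.subtype).map C.subtype).map (MulAut.conj g).toMonoidHom =
        (B.map Q.subtype).map C.subtype ∨
      ((B.map Q.subtype).map C.subtype).map (MulAut.conj g).toMonoidHom ⊓
        (B.map Q.subtype).map C.subtype = ⊥ := by
  haveI hQn : Q.Normal := by
    rw [hQdef]; unfold Cfsg.generalizedFittingSubgroup; infer_instance
  have hzC : z ∈ C := hC ▸ Subgroup.mem_centralizer_singleton_iff.2 rfl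
  have hzZ : (⟨z, hzC⟩ : C) ∈ Subgroup.center C := by
    rw [Subgroup.mem_center_iff]
    intro c
    exact Subtype.ext (Subgroup.mem_centralizer_singleton_iff.1 (hC.le c.2))
  have hzQ : (⟨z, hzC⟩ : C) ∈ Q := hQdef.ge (Subgroup.mem_sup_right (Grp.center_le_fitting hzZ))
  have hzZQ : (⟨⟨z, hzC⟩, hzQ⟩ : Q) ∈ Subgroup.center Q := by
    rw [Subgroup.mem_center_iff]
    intro c
    exact Subtype.ext (Subgroup.mem_center_iff.1 hzZ c)
  have hcyc : IsCyclic (B ⊔ Subgroup.center Q : Subgroup Q) := by
    apply hQ.2 _ inferInstance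
    rw [Misc.isMulCommutative_iff']
    intro a ha b hb
    obtain ⟨a1, ha1, a2, ha2, rfl⟩ := Subgroup.mem_sup_of_normal_right.1 ha
    obtain ⟨b1, hb1, b2, hb2, rfl⟩ := Subgroup.mem_sup_of_normal_right.1 hb
    have h1 := Misc.isMulCommutative_iff'.1 hBa a1 ha1 b1 hb1
    have h2 := Subgroup.mem_center_iff.1 ha2
    have h3 := Subgroup.mem_center_iff.1 hb2
    calc a1 * a2 * (b1 * b2) = a1 * (a2 * (b1 * b2)) := by group
      _ = a1 * (b1 * b2 * a2) := by rw [h2]
      _ = (a1 * b1) * b2 * a2 := by group
      _ = b1 * (a1 * b2) * a2 := by rw [h1]; group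
      _ = _ := by rw [h3]; group
  have huniq : ∀ u ∈ (B.map Q.subtype).map C.subtype, orderOf u = 2 → u = z := by
    rintro _ ⟨_, ⟨u, hu, rfl⟩, rfl⟩ h2
    have h3 : orderOf u = 2 := by
      rw [← h2]; simp
    have := Inv.eq_of_orderOf_two_of_mem_cyclic hcyc (Subgroup.mem_sup_left hu)
      (Subgroup.mem_sup_right hzZQ) h3 (by rw [← hz]; simp)
    rw [this]; rfl
  set D := (B.map Q.subtype).map C.subtype with hD
  by_cases h : D.map (MulAut.conj g).toMonoidHom ⊓ D = ⊥
  · right; exact h
  left
  have hD2 : IsPGroup 2 D := ((hQ.1.to_subgroup B).map _).map _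
  obtain ⟨u, ⟨hu1, hu2⟩, hu⟩ := Inv.exists_involution_of_isPGroup (hD2.to_inf_right) h
  have e1 := huniq u hu2 hu
  have e2 := huniq _ (FGS.mem_mapConj.1 hu1) (by rw [Inv.orderOf_conj', hu])
  have hg : g ∈ C := by
    rw [hC, Subgroup.mem_centralizer_singleton_iff]
    rw [e1] at e2
    calc g * z = g * (g⁻¹ * z * g) := by rw [e2]
      _ = _ := by group
  haveI : (B.map Q.subtype).Normal := inferInstance
  exact FGS.mapConj_eq_self_iff.2 (PLocal.Amb.le_normalizer_map_subtype _ hg)


/-- Let G be a finite group and let z be an involution of G such that Q, the generalized Fitting subgroup of the centralizer C of z, is a 2-group of symplectic type (every characteristic abelian subgroup of Q is cyclic). Let B be a characteristic abelian subgroup of Q, viewed as a subgroup of G. Then for every g in G, the conjugate of B by g either equals B or meets B trivially. -/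
theorem result {G : Type*} [Group G] [Finite G] (z : G) (hz : orderOf z = 2) (hQ : Cfsg.IsOfSymplecticType ↥(Cfsg.generalizedFittingSubgroup ↥(Subgroup.centralizer ({z} : Set G))))
    (B : Subgroup ↥(Cfsg.generalizedFittingSubgroup ↥(Subgroup.centralizer ({z} : Set G)))) (hBc : B.Characteristic) (hBa : IsMulCommutative ↥B) (g : G) :
    ((B.map (Cfsg.generalizedFittingSubgroup ↥(Subgroup.centralizer ({z} : Set G))).subtype).map (Subgroup.centralizer ({z} : Set G)).subtype).map (MulAut.conj g).toMonoidHom =
        (B.map (Cfsg.generalizedFittingSubgroup ↥(Subgroup.centralizer ({z} : Set G))).subtype).map (Subgroup.centralizer ({z} : Set G)).subtype ∨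
      ((B.map (Cfsg.generalizedFittingSubgroup ↥(Subgroup.centralizer ({z} : Set G))).subtype).map (Subgroup.centralizer ({z} : Set G)).subtype).map (MulAut.conj g).toMonoidHom ⊓
        (B.map (Cfsg.generalizedFittingSubgroup ↥(Subgroup.centralizer ({z} : Set G))).subtype).map (Subgroup.centralizer ({z} : Set G)).subtype = ⊥ := by
  exact aux z hz _ rfl _ rfl hQ B hBc hBa g

end Cfsg.Agent.S1755
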