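import Cfsg.Statements.S1757
import Mathlib

set_option autoImplicit false
open Cfsg

namespace Cfsg.Agent.S1757

set_option linter.unusedVariables false
set_option linter.style.haveILetI false
open scoped commutatorElement

/-- Let p be a prime and A, B p-subgroups of the finite group G, each of which meets every conjugate of itself other than itself trivially. Suppose the order of A is at most that of B, A and B intersect trivially, and B normalizes A. Then A and B commute elementwise. -/
theorem result {G : Type*} [Group G] [Finite G] (p : ℕ) [Fact p.Prime] (A B : Subgroup G)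
    (hA : IsPGroup p ↥A) (hB : IsPGroup p ↥B)
    (hAti : ∀ g : G, A.map (MulAut.conj g).toMonoidHom = A ∨ A.map (MulAut.conj g).toMonoidHom ⊓ A = ⊥)
    (hBti : ∀ g : G, B.map (MulAut.conj g).toMonoidHom = B ∨ B.map (MulAut.conj g).toMonoidHom ⊓ B = ⊥)
    (hle : Nat.card ↥A ≤ Nat.card ↥B) (hAB : A ⊓ B = ⊥) (hN : B ≤ Subgroup.normalizer (A : Set G)) : ⁅A, B⁆ = ⊥ := by
  have hAN : ∀ a ∈ A, ∀ b ∈ B, a * b * a⁻¹ ∈ B := by
    intro a ha
    by_cases ha1 : a = 1
    · intro b hb; simpa [ha1] using hb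
    have hconj : ∀ b ∈ B, b * a * b⁻¹ ∈ A := fun b hb =>
      (Subgroup.mem_normalizer_iff.mp (hN hb) a).mp ha
    let f : B → {x : A // x ≠ 1} := fun b => ⟨⟨(b : G) * a * (b : G)⁻¹, hconj b b.2⟩, by
      intro h
      apply ha1
      have : (b : G) * a * (b : G)⁻¹ = 1 := congrArg Subtype.val h
      have h2 : a = (b : G)⁻¹ * ((b : G) * a * (b : G)⁻¹) * b := by group
      rw [h2, this]; simp⟩
    have hlt : Nat.card {x : A // x ≠ 1} < Nat.card B := by
      have : Nat.card {x : A // x ≠ 1} < Nat.card A := by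
        classical
        haveI := Fintype.ofFinite A
        rw [Nat.card_eq_fintype_card, Nat.card_eq_fintype_card]
        exact Fintype.card_subtype_lt (x := 1) (by simp)
      omega
    have hninj : ¬ Function.Injective f := fun h => by
      have := Nat.card_le_card_of_injective f h
      omega
    obtain ⟨b1, b2, h12, hne⟩ := Function.not_injective_iff.mp hninj
    have h3 : (b1 : G) * a * (b1 : G)⁻¹ = b2 * a * (b2 : G)⁻¹ :=
      congrArg (fun x : {x : A // x ≠ 1} => ((x.1 : A) : G)) h12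
    have hb : ((b2 : G)⁻¹ * b1) ∈ B := B.mul_mem (B.inv_mem b2.2) b1.2
    have hb1 : ((b2 : G)⁻¹ * b1) ≠ 1 := by
      intro h
      apply hne
      apply Subtype.ext
      rw [inv_mul_eq_one] at h
      exact h.symm
    have hcomm : a * ((b2 : G)⁻¹ * b1) * a⁻¹ = (b2 : G)⁻¹ * b1 := by
      calc a * ((b2 : G)⁻¹ * b1) * a⁻¹ = (b2 : G)⁻¹ * (b2 * a * (b2 : G)⁻¹) * b1 * a⁻¹ := by group
        _ = (b2 : G)⁻¹ * (b1 * a * (b1 : G)⁻¹) * b1 * a⁻¹ := by rw [h3]
        _ = _ := by group
    rcases hBti a with h | h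
    · intro b hb'
      rw [← h]
      exact ⟨b, hb', rfl⟩
    · exfalso
      apply hb1
      rw [← Subgroup.mem_bot, ← h]
      exact ⟨⟨_, hb, hcomm⟩, hb⟩
  rw [eq_bot_iff, ← hAB, Subgroup.commutator_le]
  intro a ha b hb
  refine ⟨?_, ?_⟩
  · have := (Subgroup.mem_normalizer_iff.mp (hN hb) a⁻¹).mp (A.inv_mem ha)
    have h2 : ⁅a, b⁆ = a * (b * a⁻¹ * b⁻¹) := by rw [commutatorElement_def]; group
    rw [h2]; exact A.mul_mem ha this
  · rw [commutatorElement_def]
    exact B.mul_mem (hAN a ha b hb) (B.inv_mem hb)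

end Cfsg.Agent.S1757
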