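import Cfsg.Statements.S1775
import Mathlib
import Cfsg.Agent.PLocal.CoreBar

set_option autoImplicit false
open Cfsg

namespace Cfsg.Agent.S1775

/-- Let G be a finite group whose generalized Fitting subgroup is a non-abelian simple group and in which every proper section (every quotient H/N of a proper subgroup H, or of G by a nontrivial normal subgroup) has the B-property. Let x, y be commuting involutions, let D be the intersection of the 2-layer of C_G(x) with C_G(y), and let J be a 2-component of D. Write Q for the quotient of C_G(y) by its largest normal odd-order subgroup. Then (i) the image of J in Q is a component of the centralizer in Q of the image of x; and (ii) for every J-invariant subgroup E of odd order of C_G(x) ∩ C_G(y), the commutator subgroup [J, E] lies in the largest normal odd-order subgroup of C_G(y). -/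
theorem result {G : Type*} [Group G] [Finite G]
    (hF : IsSimpleGroup ↥(Cfsg.generalizedFittingSubgroup G)) (hF' : ¬ IsMulCommutative ↥(Cfsg.generalizedFittingSubgroup G))
    (hsec : ∀ (H : Subgroup G) (N : Subgroup ↥H) [N.Normal], (H ≠ ⊤ ∨ N ≠ ⊥) → Cfsg.HasBProperty (↥H ⧸ N))
    (x y : G) (hx : orderOf x = 2) (hy : orderOf y = 2) (hxy : x * y = y * x)
    (J : Subgroup ↥((Cfsg.pLayer 2 ↥(Subgroup.centralizer ({x} : Set G))).map (Subgroup.centralizer ({x} : Set G)).subtype ⊓ Subgroup.centralizer ({y} : Set G)))
    (hJ : Cfsg.IsPComponent 2 J) :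
    Cfsg.IsComponent
        ((((J.map (Subgroup.subtype _)).subgroupOf (Subgroup.centralizer ({y} : Set G))).map (QuotientGroup.mk' (Cfsg.oddCore ↥(Subgroup.centralizer ({y} : Set G))))).subgroupOf
          (Subgroup.centralizer ({(QuotientGroup.mk' (Cfsg.oddCore ↥(Subgroup.centralizer ({y} : Set G))) ⟨x, Subgroup.mem_centralizer_singleton_iff.mpr hxy⟩ : ↥(Subgroup.centralizer ({y} : Set G)) ⧸ Cfsg.oddCore ↥(Subgroup.centralizer ({y} : Set G)))} : Set _))) ∧
      ∀ E : Subgroup G, E ≤ Subgroup.centralizer ({x} : Set G) ⊓ Subgroup.centralizer ({y} : Set G) → Odd (Nat.card ↥E) →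
        (∀ j ∈ J.map (Subgroup.subtype _), ∀ e ∈ E, j * e * j⁻¹ ∈ E) →
          ⁅J.map (Subgroup.subtype _), E⁆ ≤ (Cfsg.oddCore ↥(Subgroup.centralizer ({y} : Set G))).map (Subgroup.centralizer ({y} : Set G)).subtype := by
  open Subgroup PLocal PLocal.Amb in
  open scoped commutatorElement in
  let Y := centralizer ({y} : Set G)
  let x' : Y := ⟨x, Subgroup.mem_centralizer_singleton_iff.mpr hxy⟩
  have h1 := IsPComponentOf.trans (isPComponentOf_map_subtype hJ)
    ((Grp.snIn_map_subtype (Normal.isSubnormal (pLayer_normal 2 _))).inf_inf Y)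
  set J' := J.map (Subgroup.subtype _)
  have hJY : J' ≤ Y := h1.1.trans inf_le_right
  have h2 := IsPComponentOf.cb h1 hJY
  have hC := cb_centralizer_singleton (p := 2) (a := x') (k := 1)
    (by rw [pow_one, ← hx, pow_orderOf_eq_one])
  rw [cb_inf_right, hC] at h2
  have hY : Y ≠ ⊤ := by
    intro h
    have h3 : zpowers y ≤ center G := zpowers_le.2 (mem_center_iff.2 fun g =>
      mem_centralizer_singleton_iff.1 (h.ge (mem_top g)))
    haveI : (zpowers y).Normal := ⟨fun n hn g => by
      rwa [mem_center_iff.1 (h3 hn) g, mul_inv_cancel_right]⟩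
    have h4 : zpowers y ≤ generalizedFittingSubgroup G :=
      (Grp.le_pCore inferInstance (isPGroup_zpowers_of_orderOf_eq hy)).trans (pCore_le_fstar 2)
    rcases hF.eq_bot_or_eq_top_of_normal ((zpowers y).subgroupOf _) inferInstance with h6 | h6
    · rw [subgroupOf_eq_bot, disjoint_iff, inf_eq_left.2 h4, zpowers_eq_bot] at h6
      rw [h6, orderOf_one] at hy
      omega
    · exact qsS_not_le_centralizer (qs_of_simple hF hF')
        ((subgroupOf_eq_top.1 h6).trans (h3.trans (center_le_centralizer _)))
  have h3 := (hsec Y (oddCore Y) (Or.inl hY) _ (orderOf_cbHom (a := x') hx)).trans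
    (Grp.pPrimeCore_quotient_pPrimeCore 2 Y).le
  rw [le_bot_iff,
    map_eq_bot_iff_of_injective _ (subtype_injective _), commutator_eq_bot_iff_le_centralizer] at h3
  have h4 : IsComponent ((cb 2 Y J').subgroupOf (centralizer {cbHom 2 Y x'})) :=
    ⟨h2.2.1, (pcomp_qs_iff h2.2).2
      (inf_le_left.trans (le_centralizer_iff.1 ((pcomp_le_pLayer h2.2).trans h3)))⟩
  refine ⟨h4, fun E hE hodd hn => ?_⟩
  have hEY := hE.trans inf_le_right
  have h5 := (comp_subgroupOf_le_or_commute_of_normalizes h2.1
    (cb_le_centralizer_singleton (hE.trans inf_le_left)) h4 (cb_le_normalizer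
      (le_normalizer_iff_cj.2 fun j hj => cj_le_iff_forall.2 (hn j hj)))).resolve_left
    (isPQS_not_le_of_coprime (IsPComponentOf.isPQS h2)
      ((Nat.coprime_two_right.2 hodd).coprime_dvd_left (card_cb_dvd _)))
  rw [← commutator_le_iff_map_mk'_eq_bot] at h5
  rw [← map_subgroupOf_of_le hJY, ← map_subgroupOf_of_le hEY, ← map_commutator]
  exact map_mono h5

end Cfsg.Agent.S1775
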