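import Cfsg.Statements.S1780
import Mathlib

set_option autoImplicit false
open Cfsg

namespace Cfsg.Agent.S1780


/-- Let A be a finite abelian 2-group and t an automorphism of A whose order is a power of 2. If every element of A fixed by t² is fixed by t, then t fixes every element of A. -/
theorem result {A : Type*} [CommGroup A] [Finite A]
    (hA : IsPGroup 2 A) (t : MulAut A) (ht : ∃ k : ℕ, orderOf t = 2 ^ k) (hC : ∀ a : A, t (t a) = a → t a = a) :
    ∀ a : A, t a = a := by
  obtain ⟨k, hk⟩ := ht
  have key : ∀ j : ℕ, ∀ a : A, t (a ^ 2) = a ^ 2 → (t ^ (2 ^ j)) a = a → t a = a := by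
    intro j
    induction j with
    | zero => intro a _ h; simpa using h
    | succ j ih =>
      intro a ha2 h
      set s : MulAut A := t ^ (2 ^ j) with hs
      have hst : ∀ x, s (t x) = t (s x) := by
        intro x
        have : s * t = t * s := by rw [hs]; exact ((Commute.refl t).pow_left _).eq
        have := congrArg (fun f : MulAut A => f x) this
        simpa using this
      have hss : s (s a) = a := by
        have : t ^ (2 ^ (j + 1)) = s * s := by rw [hs, ← pow_add]; congr 1; ring
        rw [this] at h
        simpa using h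
      have hsfix : ∀ x, t x = x → s x = x := by
        intro x hx
        rw [hs]
        generalize 2 ^ j = n
        induction n with
        | zero => simp
        | succ n ihn => rw [pow_succ, MulAut.mul_apply, hx, ihn]
      have hc2 : (s a * a⁻¹) ^ 2 = 1 := by
        rw [mul_pow, ← map_pow, hsfix _ ha2, inv_pow, mul_inv_cancel]
      have hsc : s (s a * a⁻¹) = s a * a⁻¹ := by
        rw [map_mul, map_inv, hss]
        have : (s a * a⁻¹) * (s a * a⁻¹) = 1 := by rw [← pow_two]; exact hc2
        have h2 := eq_inv_of_mul_eq_one_left this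
        rw [h2]; simp [mul_comm]
      have htc : t (s a * a⁻¹) = s a * a⁻¹ := ih _ (by rw [hc2, map_one]) hsc
      have hb2 : (t a * a⁻¹) ^ 2 = 1 := by
        rw [mul_pow, ← map_pow, ha2, inv_pow, mul_inv_cancel]
      have hsb : s (t a * a⁻¹) = t a * a⁻¹ := by
        rw [map_mul, map_inv, hst]
        rw [map_mul, map_inv] at htc
        have : t (s a) = s a * a⁻¹ * t a := by rw [← htc]; group
        rw [this]
        simp [mul_comm, mul_left_comm, mul_assoc]
      have htb : t (t a * a⁻¹) = t a * a⁻¹ := ih _ (by rw [hb2, map_one]) hsb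
      apply hC
      rw [map_mul, map_inv] at htb
      have h1 : t (t a) = t a * a⁻¹ * t a := by rw [← htb]; group
      have h2 : t a * a⁻¹ * (t a * a⁻¹) = 1 := by rw [← pow_two]; exact hb2
      rw [h1]
      calc t a * a⁻¹ * t a = t a * a⁻¹ * (t a * a⁻¹) * a := by group
        _ = a := by rw [h2, one_mul]
  have key2 : ∀ a : A, t (a ^ 2) = a ^ 2 → t a = a := by
    intro a ha
    apply key k a ha
    rw [← hk, pow_orderOf_eq_one]; rfl
  intro a
  obtain ⟨m, hm⟩ := hA a
  induction m generalizing a with
  | zero => simp at hm; simp [hm]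
  | succ m ih =>
    apply key2
    apply ih
    rw [← pow_mul, ← hm]; congr 1; ring

end Cfsg.Agent.S1780
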