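import Cfsg.Statements.S1781
import Mathlib
import Cfsg.Agent.Misc.Four
import Cfsg.Agent.FGS.Conj
import Cfsg.Agent.S1780
import Cfsg.Agent.S1757

set_option autoImplicit false
open Cfsg

namespace Cfsg.Agent.S1781

set_option linter.unusedVariables false
set_option linter.style.haveILetI false
open Misc FGS

/-- Let A be an abelian 2-subgroup of the finite group G such that every conjugate of A equals A or meets A trivially, and let g ∈ G with g A g⁻¹ ≠ A. Then either the subgroup of those elements of A that normalize g A g⁻¹ is an elementary abelian 2-group, or A and g A g⁻¹ commute elementwise. -/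
theorem result {G : Type*} [Group G] [Finite G] (A : Subgroup G)
    (hA2 : IsPGroup 2 ↥A) (hAa : IsMulCommutative ↥A)
    (hti : ∀ h : G, A.map (MulAut.conj h).toMonoidHom = A ∨ A.map (MulAut.conj h).toMonoidHom ⊓ A = ⊥)
    (g : G) (hg : A.map (MulAut.conj g).toMonoidHom ≠ A) :
    Cfsg.IsElementaryAbelian 2 (A ⊓ Subgroup.normalizer ((A.map (MulAut.conj g).toMonoidHom : Subgroup G) : Set G)) ∨
      ⁅A, A.map (MulAut.conj g).toMonoidHom⁆ = ⊥ := by
  set B : Subgroup G := A.map (MulAut.conj g).toMonoidHom with hB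
  have hAB : A ⊓ B = ⊥ := by
    rcases hti g with h | h
    · exact absurd h hg
    · rw [inf_comm]; exact h
  have hAc := isMulCommutative_iff'.1 hAa
  have hBa : IsMulCommutative B := inferInstance
  have hBc := isMulCommutative_iff'.1 hBa
  have hB2 : IsPGroup 2 B := hA2.map _
  -- elements centralizing a nonidentity element of A normalize A
  have hN : ∀ a ∈ A, a ≠ 1 → ∀ b : G, b * a * b⁻¹ = a → b ∈ Subgroup.normalizer (A : Set G) := by
    intro a ha ha1 b hb
    rcases hti b with h | h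
    · exact mapConj_eq_self_iff.1 h
    · exfalso
      apply ha1
      rw [← Subgroup.mem_bot, ← h]
      exact ⟨⟨a, ha, hb⟩, ha⟩
  by_cases hE : ∀ a ∈ A ⊓ Subgroup.normalizer (B : Set G), a ^ 2 = 1
  · left; exact isElementaryAbelian_two_iff.2 hE
  right
  push Not at hE
  obtain ⟨a, ⟨haA, haN⟩, ha2⟩ := hE
  have ha1 : a ≠ 1 := fun h => ha2 (by simp [h])
  letI : CommGroup B := { (inferInstance : Group B) with mul_comm := hBa.is_comm.comm }
  have hfix := S1780.result (A := B) hB2 (B.normalizerMonoidHom ⟨a, haN⟩) ?_ ?_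
  · have hBN : B ≤ Subgroup.normalizer (A : Set G) := by
      intro b hb
      apply hN a haA ha1
      have : a * b * a⁻¹ = b := congrArg Subtype.val (hfix ⟨b, hb⟩)
      calc b * a * b⁻¹ = (a * b * a⁻¹) * a * b⁻¹ := by rw [this]
        _ = a := by group
    refine S1757.result 2 A B hA2 hB2 hti ?_ (by rw [hB, card_mapConj]) hAB hBN
    intro x
    rcases hti (g⁻¹ * x * g) with h | h
    · left
      rw [hB, ← mapConj_mul]
      conv_rhs => rw [← h, ← mapConj_mul]
      congr 3; group
    · right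
      rw [hB, ← mapConj_mul]
      have : x * g = g * (g⁻¹ * x * g) := by group
      rw [this, mapConj_mul, ← mapConj_inf, h, Subgroup.map_bot]
  · obtain ⟨k, hk⟩ := hA2 ⟨a, haA⟩
    have h1 : (⟨a, haN⟩ : Subgroup.normalizer (B : Set G)) ^ 2 ^ k = 1 :=
      Subtype.ext (congrArg (Subtype.val : A → G) hk)
    have h2 : (B.normalizerMonoidHom ⟨a, haN⟩) ^ 2 ^ k = 1 := by rw [← map_pow, h1, map_one]
    obtain ⟨j, -, hj⟩ := (Nat.dvd_prime_pow Nat.prime_two).1 (orderOf_dvd_of_pow_eq_one h2)
    exact ⟨j, hj⟩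
  · intro b hb
    have h1 : a * (a * b * a⁻¹) * a⁻¹ = b := congrArg Subtype.val hb
    have h2 : (b : G) ∈ Subgroup.normalizer (A : Set G) := by
      apply hN (a ^ 2) (A.pow_mem haA 2) ha2
      calc (b : G) * a ^ 2 * (b : G)⁻¹ = (a * (a * b * a⁻¹) * a⁻¹) * a ^ 2 * (b : G)⁻¹ := by rw [h1]
        _ = a ^ 2 := by rw [pow_two]; group
    have h3 : a * b * a⁻¹ * (b : G)⁻¹ ∈ A ⊓ B := by
      refine ⟨?_, ?_⟩
      · have := (Subgroup.mem_normalizer_iff.1 h2 a⁻¹).1 (A.inv_mem haA)
        have h4 : a * b * a⁻¹ * (b : G)⁻¹ = a * (b * a⁻¹ * (b : G)⁻¹) := by group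
        rw [h4]; exact A.mul_mem haA this
      · exact B.mul_mem ((Subgroup.mem_normalizer_iff.1 haN b).1 b.2) (B.inv_mem b.2)
    rw [hAB, Subgroup.mem_bot, mul_inv_eq_one] at h3
    exact Subtype.ext h3

end Cfsg.Agent.S1781
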