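import Cfsg.Statements.S1784
import Cfsg.Agent.TT.LXSimple

set_option autoImplicit false
open Cfsg

namespace Cfsg.Agent.S1784

open Subgroup

/-- Let G be a finite group and let z be an involution of G such that Q, the generalized Fitting subgroup of the centralizer C of z, is a 2-group of symplectic type (every characteristic abelian subgroup of Q is cyclic); suppose Q is extraspecial, and view Q inside G. Let α be an involution of C that is not in Q, and let Q₀ be the subgroup of those q ∈ Q whose commutator with α lies in the subgroup generated by z. Then (a) the subgroup generated by the commutators α q α⁻¹ q⁻¹, q ∈ Q, equals the centre of Q₀; and (b) if Q₀ is not contained in the product of the centralizer of α in Q with the subgroup generated by z, then some element of Q conjugates α to α z. -/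
theorem result {G : Type*} [Group G] [Finite G] (z : G) (hz : orderOf z = 2) (hQ : Cfsg.IsOfSymplecticType ↥(Cfsg.generalizedFittingSubgroup ↥(Subgroup.centralizer ({z} : Set G)))) (hE : Cfsg.IsExtraspecial 2 ↥(Cfsg.generalizedFittingSubgroup ↥(Subgroup.centralizer ({z} : Set G))))
    (α : G) (hα : orderOf α = 2) (hαC : α ∈ Subgroup.centralizer ({z} : Set G)) (hαQ : α ∉ (Cfsg.generalizedFittingSubgroup ↥(Subgroup.centralizer ({z} : Set G))).map (Subgroup.centralizer ({z} : Set G)).subtype)
    (Q₀ : Subgroup G) (hQ₀ : ∀ q : G, q ∈ Q₀ ↔ (q ∈ (Cfsg.generalizedFittingSubgroup ↥(Subgroup.centralizer ({z} : Set G))).map (Subgroup.centralizer ({z} : Set G)).subtype ∧ α * q * α⁻¹ * q⁻¹ ∈ Subgroup.zpowers z)) :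
    Subgroup.closure ((fun q : G => α * q * α⁻¹ * q⁻¹) '' ((Cfsg.generalizedFittingSubgroup ↥(Subgroup.centralizer ({z} : Set G))).map (Subgroup.centralizer ({z} : Set G)).subtype : Set G)) = (Subgroup.center ↥Q₀).map Q₀.subtype ∧
      (¬ Q₀ ≤ ((Cfsg.generalizedFittingSubgroup ↥(Subgroup.centralizer ({z} : Set G))).map (Subgroup.centralizer ({z} : Set G)).subtype ⊓ Subgroup.centralizer ({α} : Set G)) ⊔ Subgroup.zpowers z →
        ∃ q ∈ (Cfsg.generalizedFittingSubgroup ↥(Subgroup.centralizer ({z} : Set G))).map (Subgroup.centralizer ({z} : Set G)).subtype, q * α * q⁻¹ = α * z) := by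
  obtain ⟨y, hy⟩ := TT.exists_XS_of_isExtraspecial (G := centralizer ({z} : Set G)) hE
  obtain ⟨h, -⟩ := TT.LX_of_fstar hz rfl (hy.map _ fun x _ e => Subtype.ext e).isExtraspecial
  generalize (generalizedFittingSubgroup ↥(centralizer ({z} : Set G))).map
    (centralizer ({z} : Set G)).subtype = Q at *
  have hα2 := TT.mul_self_of_orderOf_two hα
  have hαi := TT.inv_eq_of_mul_self hα2
  have hαz : α * z = z * α := mem_centralizer_singleton_iff.1 hαC
  have hn := h.norm α hαz
  simp only [TT.mem_zpowers_invol h.z_sq] at hQ₀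
  have hQ0 : Q₀ ≤ Q := fun q hq => ((hQ₀ q).1 hq).1
  refine ⟨?_, fun hne => ?_⟩
  · set K := closure ((fun q : G => α * q * α⁻¹ * q⁻¹) '' (Q : Set G)) with hK
    have hKQ : K ≤ Q := (closure_le _).2 (by
      rintro _ ⟨q, hq, rfl⟩
      exact mul_mem (hn q hq) (inv_mem hq))
    have hzK : z ∈ K := by
      by_contra hzK
      refine hαQ (h.mem_of_trivial fun q hq => ?_)
      have hk : α * q * α⁻¹ * q⁻¹ ∈ K := subset_closure ⟨q, hq, rfl⟩
      rcases h.cent _ (hKQ hk) (fun y hy => by
        by_contra hne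
        have e := h.toXS.conj_of_ne hy (hKQ hk) (Ne.symm hne)
        have h1 : y * (α * q * α⁻¹ * q⁻¹) * y⁻¹ ∈ K := by
          have := mul_mem (inv_mem (subset_closure ⟨y, hy, rfl⟩ : _ ∈ K))
            (subset_closure ⟨y * q, mul_mem hy hq, rfl⟩ : _ ∈ K)
          convert this using 1
          group
        rw [e] at h1
        exact hzK ((mul_mem_cancel_left hk).1 h1)) with e | e
      · exact Or.inl (mul_inv_eq_one.1 e)
      · exact absurd (e ▸ hk) hzK
    have hK0 : K ≤ Q₀ := (closure_le _).2 (by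
      rintro _ ⟨q, hq, rfl⟩
      have hk : α * q * α⁻¹ * q⁻¹ ∈ Q := mul_mem (hn q hq) (inv_mem hq)
      refine (hQ₀ _).2 ⟨hk, ?_⟩
      have e : α * (α * q * α⁻¹ * q⁻¹) * α⁻¹ = (α * q * α⁻¹ * q⁻¹)⁻¹ := by
        rw [hαi]
        calc _ = (α * α) * q * α * q⁻¹ * α := by group
          _ = _ := by rw [hα2, mul_inv_rev, mul_inv_rev, mul_inv_rev, hαi]; group
      rw [e, ← mul_inv_rev]
      rcases h.toXS.sq hk with e' | e' <;> rw [e']
      exacts [Or.inl inv_one, Or.inr h.toXS.z_inv])
    have hc : ∀ q ∈ Q, q ∈ Q₀ ↔ ∀ k ∈ K, k * q = q * k := by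
      intro q hq
      have hq' := hn q hq
      have e0 : ∀ y ∈ Q, (α * y * α⁻¹ * y⁻¹) * q = q * (α * y * α⁻¹ * y⁻¹) ↔
          (α * q * α⁻¹ * q⁻¹) * y = y * (α * q * α⁻¹ * q⁻¹) := by
        have e1 : ∀ a ∈ Q, ∀ b ∈ Q, ∀ c ∈ Q, a * b⁻¹ * c = c * (a * b⁻¹) ↔
            (a * c = c * a ↔ b * c = c * b) := by
          intro a ha b hb c hc
          by_cases h1 : a * c = c * a <;> by_cases h2 : b * c = c * b
          · exact iff_of_true (TT.comm_mul_left h1 (TT.comm_inv_left h2)) (iff_of_true h1 h2)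
          · refine iff_of_false (fun e => h2 ?_) fun e => h2 (e.1 h1)
            simpa using TT.comm_mul_left (TT.comm_inv_left e) h1
          · refine iff_of_false (fun e => h1 ?_) fun e => h1 (e.2 h2)
            simpa using TT.comm_mul_left e h2
          · exact iff_of_true (h.toXS.mul_comm_of_not_comm hc ha (inv_mem hb) h1
              fun e => h2 (by simpa using TT.comm_inv_left e)) (iff_of_false h1 h2)
        intro y hy
        rw [e1 _ (hn y hy) y hy q hq, e1 _ hq' q hq y hy, eq_comm (a := y * q)]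
        refine iff_congr ?_ Iff.rfl
        rw [← (MulAut.conj α).injective.eq_iff, map_mul _ (α * y * α⁻¹) q, map_mul _ q]
        simp only [MulAut.conj_apply]
        have e2 : α * (α * y * α⁻¹) * α⁻¹ = y := by
          rw [← mul_assoc, ← mul_assoc, hα2, one_mul, mul_assoc, ← mul_inv_rev, hα2, inv_one,
            mul_one]
        rw [e2, eq_comm]
      rw [hQ₀]
      constructor
      · rintro ⟨-, e⟩
        have : K ≤ centralizer ({q} : Set G) := (closure_le _).2 (by
          rintro _ ⟨y, hy, rfl⟩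
          refine mem_centralizer_singleton_iff.2 ((e0 y hy).2 ?_)
          rcases e with e | e <;> rw [e]
          exacts [by simp, (h.z_comm y hy).symm])
        exact fun k hk => mem_centralizer_singleton_iff.1 (this hk)
      · exact fun e => ⟨hq, h.cent _ (mul_mem hq' (inv_mem hq)) fun y hy =>
          (e0 y hy).1 (e _ (subset_closure ⟨y, hy, rfl⟩))⟩
    rw [PLocal.map_center_subtype]
    refine le_antisymm (le_inf hK0 fun k hk q hq => ((hc q (hQ0 hq)).1 hq k hk).symm)
      fun x hx => ?_
    exact h.toXS.mem_of_comm_centralizer hKQ hzK (hQ0 hx.1) fun q hq e => hx.2 q ((hc q hq).2 e)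
  · obtain ⟨q, hq, hq'⟩ := SetLike.not_le_iff_exists.1 hne
    obtain ⟨h1, h2⟩ := (hQ₀ q).1 hq
    refine ⟨q, h1, ?_⟩
    have e := h2.resolve_left fun e => hq' (mem_sup_left ⟨h1, mem_centralizer_singleton_iff.2
      (TT.comm_of_conj_eq (mul_inv_eq_one.1 e)).symm⟩)
    rw [← e, hαi, ← mul_assoc, ← mul_assoc, ← mul_assoc, hα2, one_mul]


end Cfsg.Agent.S1784
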