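import Cfsg.Statements.S1785
import Cfsg.Agent.Misc.Four

set_option autoImplicit false
open Cfsg

namespace Cfsg.Agent.S1785

open Cfsg.Agent.Misc Subgroup

variable {X : Type*} [Group X]

/-- the commuting relation on elementary abelian subgroups of order 8 -/
def R (C D : Subgroup X) : Prop :=
  Cfsg.IsElementaryAbelian 2 C ∧ Nat.card ↥C = 8 ∧ Cfsg.IsElementaryAbelian 2 D ∧ Nat.card ↥D = 8 ∧ ⁅C, D⁆ = ⊥

theorem R.symm {C D : Subgroup X} (h : R C D) : R D C :=
  ⟨h.2.2.1, h.2.2.2.1, h.1, h.2.1, by rw [commutator_comm]; exact h.2.2.2.2⟩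

theorem rtg_symm {C D : Subgroup X} (h : Relation.ReflTransGen R C D) :
    Relation.ReflTransGen R D C := by
  induction h with
  | refl => exact Relation.ReflTransGen.refl
  | tail _ h ih => exact Relation.ReflTransGen.head h.symm ih

theorem comm_bot {C D : Subgroup X} (h : ∀ c ∈ C, ∀ d ∈ D, c * d = d * c) : ⁅C, D⁆ = ⊥ := by
  rw [commutator_eq_bot_iff_le_centralizer]
  intro c hc
  rw [mem_centralizer_iff]
  intro d hd
  exact (h c hc d hd).symm

theorem mul_self_of_sq {a : X} (h : a ^ 2 = 1) : a * a = 1 := by rw [← sq]; exact h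

theorem cent1 [Finite X] {E : Subgroup X} [hn : E.Normal] (hE : ∀ e ∈ E, e ^ 2 = 1)
    (hE32 : 32 ≤ Nat.card ↥E) {a : X} (ha : a * a = 1) :
    2 ^ 3 ∣ Nat.card (E ⊓ centralizer {a} : Subgroup X) := by
  have h1 := card_le_card_inf_centralizer_sq hE ha (fun e he => hn.conj_mem e he a)
  have hp : IsPGroup 2 (E ⊓ centralizer {a} : Subgroup X) :=
    isPGroup_of_isElementaryAbelian (isElementaryAbelian_two_iff.2 fun x hx => hE x hx.1)
  refine pow_succ_dvd_card_of_lt hp (k := 2) ?_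
  by_contra hc
  have : Nat.card (E ⊓ centralizer {a} : Subgroup X) ≤ 4 := by omega
  nlinarith

theorem cent2 [Finite X] {E : Subgroup X} [hn : E.Normal] (hE : ∀ e ∈ E, e ^ 2 = 1)
    (hE32 : 32 ≤ Nat.card ↥E) {a b : X} (ha : a * a = 1) (hb : b * b = 1) (hab : a * b = b * a) :
    2 ^ 2 ∣ Nat.card (E ⊓ centralizer {a} ⊓ centralizer {b} : Subgroup X) := by
  have h0 := Nat.le_of_dvd Nat.card_pos (cent1 hE hE32 ha)
  have h1 := card_le_card_inf_centralizer_sq (E := E ⊓ centralizer {a})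
    (fun e he => hE e he.1) hb (fun e he => ⟨hn.conj_mem e he.1 b, by
      have h2 : e * a = a * e := mem_centralizer_singleton_iff.1 he.2
      refine mem_centralizer_singleton_iff.2 ?_
      have h3 : b⁻¹ * a = a * b⁻¹ := by
        rw [inv_mul_eq_iff_eq_mul, ← mul_assoc, ← hab, mul_inv_cancel_right]
      calc b * e * b⁻¹ * a = b * e * (b⁻¹ * a) := by group
        _ = b * (e * a) * b⁻¹ := by rw [h3]; group
        _ = (b * a) * e * b⁻¹ := by rw [h2]; group
        _ = a * (b * e * b⁻¹) := by rw [← hab]; group⟩)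
  have hp : IsPGroup 2 (E ⊓ centralizer {a} ⊓ centralizer {b} : Subgroup X) :=
    isPGroup_of_isElementaryAbelian (isElementaryAbelian_two_iff.2 fun x hx => hE x hx.1.1)
  refine pow_succ_dvd_card_of_lt hp (k := 1) ?_
  by_contra hc
  have : Nat.card (E ⊓ centralizer {a} ⊓ centralizer {b} : Subgroup X) ≤ 2 := by omega
  nlinarith

theorem exists_le_card [Finite X] {E : Subgroup X} {k : ℕ} (h : 2 ^ k ∣ Nat.card E) :
    ∃ B : Subgroup X, B ≤ E ∧ Nat.card B = 2 ^ k := by
  obtain ⟨B, -, h1, h2⟩ := exists_le_card_eq_pow (p := 2) (A := ⊥) (E := E) bot_le (j := 0)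
    (by simp) (Nat.zero_le k) h
  exact ⟨B, h1, h2⟩

theorem comm_sup {A : Subgroup X} {t x : X} (h1 : ∀ a ∈ A, x * a = a * x) (h2 : x * t = t * x) :
    ∀ y ∈ A ⊔ zpowers t, x * y = y * x := by
  intro y hy
  have : A ⊔ zpowers t ≤ centralizer {x} := by
    refine sup_le (fun a ha => mem_centralizer_singleton_iff.2 (h1 a ha).symm) ?_
    rw [zpowers_le]
    exact mem_centralizer_singleton_iff.2 h2.symm
  exact (mem_centralizer_singleton_iff.1 (this hy)).symm

/-- connected to a subgroup of `E` -/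
def Good (E A : Subgroup X) : Prop :=
  ∃ F : Subgroup X, F ≤ E ∧ Nat.card F = 8 ∧ Relation.ReflTransGen R A F

theorem Good.of_R {E A B : Subgroup X} (h : R A B) (hB : Good E B) : Good E A := by
  obtain ⟨F, h1, h2, h3⟩ := hB
  exact ⟨F, h1, h2, Relation.ReflTransGen.head h h3⟩

theorem good2 [Finite X] {E : Subgroup X} [hn : E.Normal] (hE : ∀ e ∈ E, e ^ 2 = 1)
    (hE32 : 32 ≤ Nat.card ↥E) {A : Subgroup X} (hA : ∀ a ∈ A, a ^ 2 = 1) (hA8 : Nat.card A = 8)
    {U : Subgroup X} (hUA : U ≤ A) (hUE : U ≤ E) (hU : Nat.card U = 4) : Good E A := by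
  obtain ⟨a, haA, haU⟩ := exists_mem_not_mem_of_card_lt (A := U) (B := A) (by omega)
  have ha := mul_self_of_sq (hA a haA)
  have hAc := comm_of_sq hA
  have hc := card_sup_zpowers_two ha haU
    (mem_normalizer_of_comm fun u hu => hAc a haA u (hUA hu))
  have hle : U ⊔ zpowers a ≤ A := sup_le hUA (zpowers_le.2 haA)
  have hAe : U ⊔ zpowers a = A := eq_of_le_of_card_ge hle (by omega)
  obtain ⟨F, hF, hF8⟩ := exists_le_card (cent1 hE hE32 ha)
  refine ⟨F, fun x hx => (hF hx).1, by omega, Relation.ReflTransGen.single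
    ⟨isElementaryAbelian_two_iff.2 hA, hA8,
      isElementaryAbelian_two_iff.2 fun x hx => hE x (hF hx).1, by omega, comm_bot ?_⟩⟩
  intro c hc d hd
  rw [← hAe] at hc
  exact (comm_sup (fun u hu => comm_of_sq hE d (hF hd).1 u (hUE hu))
    (mem_centralizer_singleton_iff.1 (hF hd).2) c hc).symm

theorem good1 [Finite X] {E : Subgroup X} [hn : E.Normal] (hE : ∀ e ∈ E, e ^ 2 = 1)
    (hE32 : 32 ≤ Nat.card ↥E) {A : Subgroup X} (hA : ∀ a ∈ A, a ^ 2 = 1) (hA8 : Nat.card A = 8)
    {e : X} (heA : e ∈ A) (heE : e ∈ E) (he : e ≠ 1) : Good E A := by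
  have hAc := comm_of_sq hA
  have he2 := mul_self_of_sq (hA e heA)
  have hc0 : Nat.card (zpowers e) = 2 := card_zpowers_two (orderOf_eq_prime (hA e heA) he)
  obtain ⟨u, huA, hu⟩ := exists_mem_not_mem_of_card_lt (A := zpowers e) (B := A) (by omega)
  have hu2 := mul_self_of_sq (hA u huA)
  have hzA : zpowers e ≤ A := zpowers_le.2 heA
  have hc1 := card_sup_zpowers_two hu2 hu
    (mem_normalizer_of_comm fun y hy => hAc u huA y (hzA hy))
  have hUA : zpowers e ⊔ zpowers u ≤ A := sup_le hzA (zpowers_le.2 huA)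
  obtain ⟨v, hvA, hv⟩ := exists_mem_not_mem_of_card_lt (A := zpowers e ⊔ zpowers u) (B := A)
    (by omega)
  have hv2 := mul_self_of_sq (hA v hvA)
  have hc2 := card_sup_zpowers_two hv2 hv
    (mem_normalizer_of_comm fun y hy => hAc v hvA y (hUA hy))
  have hAe : zpowers e ⊔ zpowers u ⊔ zpowers v = A :=
    eq_of_le_of_card_ge (sup_le hUA (zpowers_le.2 hvA)) (by omega)
  obtain ⟨F, hF, hF4⟩ := exists_le_card (cent2 hE hE32 hu2 hv2 (hAc u huA v hvA))
  have hFA : ∀ d ∈ F, ∀ c ∈ A, d * c = c * d := by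
    intro d hd c hc
    rw [← hAe] at hc
    refine comm_sup (comm_sup ?_ (mem_centralizer_singleton_iff.1 (hF hd).1.2))
      (mem_centralizer_singleton_iff.1 (hF hd).2) c hc
    intro y hy
    exact comm_of_sq hE d (hF hd).1.1 y (zpowers_le.2 heE hy)
  obtain ⟨a, haA, haF⟩ := exists_mem_not_mem_of_card_lt (A := F) (B := A) (by omega)
  have ha := mul_self_of_sq (hA a haA)
  have haF' : ∀ d ∈ F, a * d = d * a := fun d hd => (hFA d hd a haA).symm
  have hc3 := card_sup_zpowers_two ha haF (mem_normalizer_of_comm haF')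
  have hB := sq_eq_one_sup_zpowers (fun d hd => hE d (hF hd).1.1) ha haF'
  refine Good.of_R (B := F ⊔ zpowers a) ⟨isElementaryAbelian_two_iff.2 hA, hA8,
    isElementaryAbelian_two_iff.2 hB, by omega, comm_bot ?_⟩
    (good2 hE hE32 hB (by omega) le_sup_left (fun d hd => (hF hd).1.1) (by omega))
  intro c hc
  exact comm_sup (fun d hd => (hFA d hd c hc).symm) (hAc c hc a haA)

theorem good0 [Finite X] {E : Subgroup X} [hn : E.Normal] (hE : ∀ e ∈ E, e ^ 2 = 1)
    (hE32 : 32 ≤ Nat.card ↥E) {A : Subgroup X} (hA : ∀ a ∈ A, a ^ 2 = 1) (hA8 : Nat.card A = 8) :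
    Good E A := by
  have hAc := comm_of_sq hA
  obtain ⟨z, hzE, hz1, hz⟩ := exists_mem_centralizer_of_isPGroup (p := 2) (P := A) (N := E)
    (isPGroup_of_isElementaryAbelian (isElementaryAbelian_two_iff.2 hA))
    (isPGroup_of_isElementaryAbelian (isElementaryAbelian_two_iff.2 hE))
    (by rw [normalizer_eq_top]; exact le_top)
    (by rintro rfl; simp at hE32)
  by_cases hzA : z ∈ A
  · exact good1 hE hE32 hA hA8 hzA hzE hz1
  obtain ⟨U, hUA, hU⟩ := exists_le_card (E := A) (k := 2) (by rw [hA8]; norm_num)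
  have hz2 := mul_self_of_sq (hE z hzE)
  have hzU : ∀ u ∈ U, z * u = u * z := fun u hu => (hz u (hUA hu)).symm
  have hc := card_sup_zpowers_two hz2 (fun h => hzA (hUA h)) (mem_normalizer_of_comm hzU)
  have hB := sq_eq_one_sup_zpowers (fun d hd => hA d (hUA hd)) hz2 hzU
  refine Good.of_R (B := U ⊔ zpowers z) ⟨isElementaryAbelian_two_iff.2 hA, hA8,
    isElementaryAbelian_two_iff.2 hB, by omega, comm_bot ?_⟩
    (good1 hE hE32 hB (by omega) (mem_sup_right (mem_zpowers z)) hzE hz1)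
  intro c hc
  exact comm_sup (fun d hd => hAc c hc d (hUA hd)) (hz c hc)

/-- Let X be a finite 2-group having a normal elementary abelian subgroup of order at least 32. Then (a) for any two elementary abelian subgroups A, B of X of order 8 there is a chain A = A₁, A₂, …, Aₙ = B of elementary abelian subgroups of order 8 in which consecutive members commute elementwise; and (b) every elementary abelian subgroup of X of order 4 is contained in an elementary abelian subgroup of order 8. -/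
theorem result {X : Type*} [Group X] [Finite X]
    (hX : IsPGroup 2 X) (E : Subgroup X) [E.Normal] (hE : Cfsg.IsElementaryAbelian 2 E) (hE32 : 32 ≤ Nat.card ↥E) :
    (∀ A B : Subgroup X, Cfsg.IsElementaryAbelian 2 A → Nat.card ↥A = 8 → Cfsg.IsElementaryAbelian 2 B → Nat.card ↥B = 8 →
        Relation.ReflTransGen
          (fun C D : Subgroup X => Cfsg.IsElementaryAbelian 2 C ∧ Nat.card ↥C = 8 ∧ Cfsg.IsElementaryAbelian 2 D ∧ Nat.card ↥D = 8 ∧ ⁅C, D⁆ = ⊥)
          A B) ∧
      (∀ V : Subgroup X, Cfsg.IsElementaryAbelian 2 V → Nat.card ↥V = 4 →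
        ∃ A : Subgroup X, V ≤ A ∧ Cfsg.IsElementaryAbelian 2 A ∧ Nat.card ↥A = 8) := by
  have hE' := isElementaryAbelian_two_iff.1 hE
  refine ⟨fun A B hA hA8 hB hB8 => ?_, fun V hV hV4 => ?_⟩
  · obtain ⟨F₁, h1, h2, h3⟩ := good0 hE' hE32 (isElementaryAbelian_two_iff.1 hA) hA8
    obtain ⟨F₂, h4, h5, h6⟩ := good0 hE' hE32 (isElementaryAbelian_two_iff.1 hB) hB8
    have h7 : Relation.ReflTransGen R F₂ B := rtg_symm h6
    have h8 : R F₁ F₂ := ⟨IsElementaryAbelian.mono' hE h1, h2, IsElementaryAbelian.mono' hE h4, h5,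
      comm_bot fun c hc d hd => comm_of_sq hE' c (h1 hc) d (h4 hd)⟩
    exact h3.trans (Relation.ReflTransGen.head h8 h7)
  · have hV' := isElementaryAbelian_two_iff.1 hV
    have hK : IsKleinFour V := isKleinFour_iff.2 ⟨hV4, hV'⟩
    obtain ⟨a, ha, ha1⟩ := exists_ne_one_of_isKleinFour hK
    obtain ⟨b, hb, -, -, hVe⟩ := exists_eq_closure_pair_of_isKleinFour hK ha ha1
    have hd := Nat.le_of_dvd Nat.card_pos (cent2 hE' hE32 (mul_self_of_sq (hV' a ha))
      (mul_self_of_sq (hV' b hb)) (comm_of_sq hV' a ha b hb))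
    have key : ∃ e ∈ E, e ∉ V ∧ ∀ v ∈ V, e * v = v * e := by
      by_cases hle : E ⊓ centralizer {a} ⊓ centralizer {b} ≤ V
      · have heq := eq_of_le_of_card_ge hle (by omega)
        have hVE : V ≤ E := by rw [← heq]; exact fun x hx => hx.1.1
        obtain ⟨e, he, heV⟩ := exists_mem_not_mem_of_card_lt (A := V) (B := E) (by omega)
        exact ⟨e, he, heV, fun v hv => comm_of_sq hE' e he v (hVE hv)⟩
      · obtain ⟨e, he, heV⟩ := SetLike.not_le_iff_exists.1 hle
        refine ⟨e, he.1.1, heV, fun v hv => ?_⟩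
        have : V ≤ centralizer {e} := by
          rw [hVe, closure_le]
          rintro x (rfl | rfl)
          · exact mem_centralizer_singleton_iff.2 (mem_centralizer_singleton_iff.1 he.1.2).symm
          · exact mem_centralizer_singleton_iff.2 (mem_centralizer_singleton_iff.1 he.2).symm
        exact (mem_centralizer_singleton_iff.1 (this hv)).symm
    obtain ⟨e, he, heV, hc⟩ := key
    have he2 := mul_self_of_sq (hE' e he)
    refine ⟨V ⊔ zpowers e, le_sup_left,
      isElementaryAbelian_two_iff.2 (sq_eq_one_sup_zpowers hV' he2 hc), ?_⟩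
    rw [card_sup_zpowers_two he2 heV (mem_normalizer_of_comm hc), hV4]

end Cfsg.Agent.S1785
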