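import Mathlib
import Cfsg.Statements.S1786
import Cfsg.Agent.PLocal.TimmTI

set_option autoImplicit false
open Cfsg Cfsg.Agent.PLocal.Amb Cfsg.Agent.PLocal.TimmTI

namespace Cfsg.Agent.S1786

/-- Let G be a finite group, V an elementary abelian 2-subgroup of G and M the normalizer of V; write Q for the largest normal 2-subgroup of M. Suppose (1) the generalized Fitting subgroup of M equals Q; (2) V is a maximal abelian normal subgroup of M; (3) every conjugate of V equals V or meets V trivially, and for some g ∈ G the conjugate V' = g V g⁻¹ is different from V and contained in Q. Let P be the centralizer of V in Q, W the subgroup generated by V and V', and H the subgroup generated by P and g P g⁻¹. Then: (a) V is contained in g Q g⁻¹; (b) every non-identity element of W lies in exactly one conjugate of V contained in W, H normalizes W, and H modulo the centralizer of W in H is isomorphic to the special linear group of dimension 2 over the field with |V| elements; (c) P = Q, and V equals the Frattini subgroup,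 the centre and the commutator subgroup of Q. -/
theorem result {G : Type*} [Group G] [Finite G] (V : Subgroup G)
    (hV : Cfsg.IsElementaryAbelian 2 V)
    (h1 : (Cfsg.generalizedFittingSubgroup ↥(Subgroup.normalizer (V : Set G))).map (Subgroup.normalizer (V : Set G)).subtype =
      (Cfsg.pCore 2 ↥(Subgroup.normalizer (V : Set G))).map (Subgroup.normalizer (V : Set G)).subtype)
    (h2 : ∀ A : Subgroup G, V ≤ A → A ≤ Subgroup.normalizer (V : Set G) → IsMulCommutative ↥A →
      (∀ m ∈ Subgroup.normalizer (V : Set G), ∀ a ∈ A, m * a * m⁻¹ ∈ A) → A = V)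
    (hti : ∀ x : G, V.map (MulAut.conj x).toMonoidHom = V ∨ V.map (MulAut.conj x).toMonoidHom ⊓ V = ⊥)
    (g : G) (hg : V.map (MulAut.conj g).toMonoidHom ≠ V)
    (hgQ : V.map (MulAut.conj g).toMonoidHom ≤ (Cfsg.pCore 2 ↥(Subgroup.normalizer (V : Set G))).map (Subgroup.normalizer (V : Set G)).subtype) :
    let Q : Subgroup G := (Cfsg.pCore 2 ↥(Subgroup.normalizer (V : Set G))).map (Subgroup.normalizer (V : Set G)).subtype
    let P : Subgroup G := Q ⊓ Subgroup.centralizer (V : Set G)
    let W : Subgroup G := V ⊔ V.map (MulAut.conj g).toMonoidHom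
    let H : Subgroup G := P ⊔ P.map (MulAut.conj g).toMonoidHom
    V ≤ Q.map (MulAut.conj g).toMonoidHom ∧
      (∀ w ∈ W, w ≠ 1 → ∃! U : Subgroup G, (∃ x : G, U = V.map (MulAut.conj x).toMonoidHom) ∧ U ≤ W ∧ w ∈ U) ∧
      H ≤ Subgroup.normalizer (W : Set G) ∧
      (∀ hN : ((Subgroup.centralizer (W : Set G)).subgroupOf H).Normal, ∃ (F : Type) (_ : Field F) (_ : Fintype F), Fintype.card F = Nat.card ↥V ∧
        Nonempty (↥H ⧸ (Subgroup.centralizer (W : Set G)).subgroupOf H ≃* Matrix.SpecialLinearGroup (Fin 2) F)) ∧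
      P = Q ∧ (frattini ↥Q).map Q.subtype = V ∧ (Subgroup.center ↥Q).map Q.subtype = V ∧ (commutator ↥Q).map Q.subtype = V := by
  intro Q P W H
  have e1 := Subgroup.map_injective (Subgroup.subtype_injective _) h1
  have h1' : 𝐍[V] ⊓ 𝐂[pCoreOf 2 𝐍[V]] ≤ pCoreOf 2 𝐍[V] := by
    rintro x ⟨hx, hc⟩
    have := PLocal.centralizer_fstar_le (↥𝐍[V]) (x := ⟨x, hx⟩)
    rw [e1, centralizer_eq_subgroupOf] at this
    exact ⟨⟨x, hx⟩, this hc, rfl⟩
  have h : Base V P := base_of hV h1' h2 hti
  have hQn : Q ≤ 𝐍[V] := pCoreOf_le 2 _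
  have hP : cj(g, V) ≤ P := le_inf hgQ (h.cj_le_centralizer hg (hgQ.trans hQn))
  have hQ2 : IsPGroup 2 Q := isPGroup_pCoreOf 2 _
  have ePQ : P = Q := inf_eq_left.mpr (le_centralizer_of_trans (h.two.to_le h.le) hQ2 hQn
    (le_normalizer_pCoreOf 2 _) (h.ne_bot hg) fun v hv v1 w hw w1 => h.trans hg hP hv v1 hw w1)
  have hc : (commutator ↥Q).map Q.subtype = V := by
    rw [commutator_def, Subgroup.map_commutator, ← MonoidHom.range_eq_map, Subgroup.range_subtype, ← ePQ]
    exact le_antisymm (Subgroup.commutator_le.mpr fun x hx y hy => h.comm_mem hx hy) (h.le_commutator hg hP)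
  refine ⟨(le_sup_left.trans (h.le_cj hg hP)).trans (cj_mono g inf_le_left),
    fun w hw w1 => h.existsUnique hg hP hw w1, h.sup_le_norm hg hP, fun hN => ?_, ePQ, ?_, ?_, hc⟩
  · obtain ⟨F, _, _, hF, ⟨D⟩⟩ := h.exists_natData hg hP
    have hk : (Subgroup.centralizer (W : Set G)).subgroupOf H = D.φ.ker := by
      ext x
      rw [MonoidHom.mem_ker, D.φ_eq_one_iff, Subgroup.mem_subgroupOf]
      exact forall₂_congr fun u _ => by
        rw [Subgroup.mem_bot, commutatorElement_eq_one_iff_mul_comm, eq_comm]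
    exact ⟨F, _, _, hF, ⟨(QuotientGroup.quotientMulEquivOfEq hk).trans
      (QuotientGroup.quotientKerEquivOfSurjective _ D.φ_surj)⟩⟩
  · refine le_antisymm ?_ (hc.ge.trans (Subgroup.map_mono (Grp.PFrattini.commutator_le_frattini hQ2)))
    rw [Subgroup.map_le_iff_le_comap]
    refine Grp.PFrattini.frattini_le (p := 2) (Subgroup.map_le_iff_le_comap.mp hc.le) fun x => ?_
    rw [pow_two]
    exact h.sq_mem (ePQ.ge x.2)
  · rw [PLocal.map_center_subtype, ← ePQ]
    exact le_antisymm (inf_le_right.trans h.cp) (le_inf h.le (Subgroup.le_centralizer_iff.mp h.cent))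

end Cfsg.Agent.S1786
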