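import Cfsg.Statements.S1850
import Mathlib
import Cfsg.Agent.Misc.CharTwo
import Cfsg.Agent.PLocal.FStar
import Cfsg.Agent.Grp.MinNormal

set_option autoImplicit false
open Cfsg

namespace Cfsg.Agent.S1850

set_option linter.unusedVariables false
set_option linter.style.haveILetI false
open PLocal PLocal.CP

theorem aux {G : Type*} [Group G] [Finite G] {p : ℕ} [Fact p.Prime] {B : Subgroup G}
    (hB : IsPGroup p B) : ∀ (n : ℕ) (C : Subgroup G), Nat.card B - Nat.card C ≤ n → C ≤ B →
      IsCharP p (Subgroup.centralizer (C : Set G)) →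
      IsCharP p (Subgroup.centralizer (B : Set G)) := by
  intro n
  induction n with
  | zero =>
    intro C hc hCB h
    have : C = B := Subgroup.eq_of_le_of_card_ge hCB (by omega)
    exact this ▸ h
  | succ n ih =>
    intro C hc hCB h
    by_cases hCB' : C = B
    · exact hCB' ▸ h
    have hlt := Amb.lt_inf_normalizer hB (lt_of_le_of_ne hCB hCB')
    have h1 := Grp.card_lt_of_lt hlt
    exact ih (B ⊓ Subgroup.normalizer (C : Set G)) (by omega) inf_le_left
      (IsCharP.centralizer_of_le hB.to_inf_left hlt.le inf_le_right h)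


/-- Let G be a non-abelian finite simple QTKE-group and T a Sylow 2-subgroup of G. If U is a nontrivial 2-subgroup of G with U ∩ Z(T) ≠ 1, then F*(N_G(U)) = O₂(N_G(U)). -/
theorem result {G : Type*} [Group G] [Finite G] [IsSimpleGroup G]
    (hG : ¬ IsMulCommutative G) (hQ : Cfsg.IsQTKE G) (T : Sylow 2 G) (U : Subgroup G)
    (hU : IsPGroup 2 ↥U) (hZ : U ⊓ ((T : Subgroup G) ⊓ Subgroup.centralizer ((T : Subgroup G) : Set G)) ≠ ⊥) :
    Subgroup.normalizer (U : Set G) ∈ Cfsg.calHe G := by
  obtain ⟨z, ⟨hzU, hzT, hzc⟩, hz⟩ := Inv.exists_involution_of_isPGroup hU.to_inf_left hZ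
  have hz2 : IsPGroup 2 (Subgroup.zpowers z) := Inv.isPGroup_zpowers_of_orderOf_two hz
  have h1 : IsCharP 2 (Subgroup.normalizer (Subgroup.zpowers z : Set G)) := by
    rw [isCharP_iff]
    refine hQ.2.2 _ ⟨_, hz2, ?_, rfl⟩ ⟨T, ?_⟩
    · rw [Ne, Subgroup.zpowers_eq_bot]; exact Inv.ne_one_of_orderOf_two hz
    · refine le_trans ?_ (Subgroup.centralizer_le_normalizer _)
      rw [Amb.centralizer_zpowers]
      intro t ht
      exact Subgroup.mem_centralizer_singleton_iff.2 (hzc t ht)
  rw [isCharP_normalizer_iff hz2] at h1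
  have h2 := aux hU _ _ le_rfl (by simpa using hzU) h1
  rw [← isCharP_normalizer_iff hU, isCharP_iff] at h2
  exact (fstar_eq_pCore_iff 2).2 h2

end Cfsg.Agent.S1850
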