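import Cfsg.Statements.S1851
import Cfsg.Agent.QT.Basic

set_option autoImplicit false
open Cfsg

namespace Cfsg.Agent.S1851

open Subgroup Cfsg.Agent.PLocal Cfsg.Agent.PLocal.Amb Cfsg.Agent.Grp Cfsg.Agent.QT
open scoped commutatorElement

theorem aux {G : Type*} [Group G] [Finite G] (hE : IsOfEvenCharacteristic G) (T : Sylow 2 G)
    {L K : Subgroup G} (hL : L ∈ calLf (T : Subgroup G)) (hK : K ∈ calL (T : Subgroup G))
    (hLK : L ≤ K) : K ∈ calLf (T : Subgroup G) := by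
  obtain ⟨hL1, -, hV⟩ := hL
  obtain ⟨cL, -⟩ := mem_calL_iff.1 hL1
  obtain ⟨cK, hK2⟩ := mem_calL_iff.1 hK
  have hch : CP.IsCharP 2 (K ⊔ (T : Subgroup G)) := isCharP_of_even hE T le_sup_right hK2
  refine ⟨hK, ⟨cK.ne, by rw [oddGenerated_eq, cK.pRes], mem_calHe_iff.2 (hch.of_snIn cK.sn)⟩, ?_⟩
  set R := pCoreOf 2 (L ⊔ (T : Subgroup G)) with hR
  set Q := pCoreOf 2 (K ⊔ (T : Subgroup G)) with hQ
  set Z := omegaOne 2 (pCoreOf 2 L ⊓ 𝐂[pCoreOf 2 L]) with hZ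
  have hV' : ⁅Z, L⁆ ≠ ⊥ := hV
  have hNZ : 𝐍[L] ≤ 𝐍[Z] :=
    (Amb.le_normalizer_inf (Amb.normalizer_le_normalizer_pCoreOf 2 L)
      (Amb.le_normalizer_centralizer (Amb.normalizer_le_normalizer_pCoreOf 2 L))).trans
      (normalizer_le_normalizer_omegaOne _)
  have hRL : R ≤ 𝐍[L] := cL.pCoreOf_le_normalizer 2
  have hZe : IsElementaryAbelian 2 Z := omegaOne_center_isEA _
  have hZle : Z ≤ pCoreOf 2 L ⊓ 𝐂[pCoreOf 2 L] := omegaOne_le _
  -- an element of odd order of `L` not centralizing `Z`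
  obtain ⟨x, hx, hxo, hxZ⟩ : ∃ x ∈ L, (orderOf x).Coprime 2 ∧ x ∉ 𝐂[Z] := by
    by_contra hcon
    push Not at hcon
    apply hV'
    rw [commutator_comm, commutator_eq_bot_iff_le_centralizer, ← cL.pRes 2]
    exact pRes_le_iff.2 hcon
  obtain ⟨w, hw, hwR, hwx⟩ : ∃ w ∈ Z, w ∈ 𝐂[R] ∧ ¬ Commute x w := by
    by_contra hcon
    push Not at hcon
    refine hxZ (CP.pxq_gen (Amb.isPGroup_pCoreOf 2 _) (isEA_isPGroup hZe) (hRL.trans hNZ) hxo
      (fun a ha => ?_) (hNZ (le_normalizer hx)) hcon)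
    have h1 : ⁅a, x⁆ ∈ L ⊓ R := by
      refine ⟨?_, ?_⟩
      · rw [commutatorElement_def, mul_assoc _ a⁻¹, ← mul_assoc _ a⁻¹]
        exact L.mul_mem (Amb.conj_mem_of_mem_normalizer (hRL ha) hx) (L.inv_mem hx)
      · have := Amb.conj_mem_of_mem_normalizer
          (Amb.le_normalizer_pCoreOf 2 (L ⊔ (T : Subgroup G)) (mem_sup_left hx)) (R.inv_mem ha)
        have e : ⁅a, x⁆ = a * (x * a⁻¹ * x⁻¹) := by simp [commutatorElement_def, mul_assoc]
        rw [e]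
        exact R.mul_mem ha this
    have h2 : L ⊓ R ≤ pCoreOf 2 L := Amb.inf_pCoreOf_le le_sup_left
    exact le_centralizer_iff.1 (hZle.trans inf_le_right) (h2 h1)
  have hLT : L ⊔ (T : Subgroup G) ≤ K ⊔ T := sup_le_sup_right hLK _
  have hQR : Q ≤ R := pCoreOf_le_of_le hLT ((CP.pCoreOf_le_sylow T le_sup_right).trans le_sup_right)
  have hwK : w ∈ K ⊔ (T : Subgroup G) :=
    mem_sup_left (hLK (Amb.pCoreOf_le 2 L (hZle hw).1))
  have hwQ : w ∈ Q ⊓ 𝐂[Q] := ⟨hch ⟨hwK, centralizer_anti hQR hwR⟩, centralizer_anti hQR hwR⟩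
  set Y := omegaOne 2 (Q ⊓ 𝐂[Q]) with hY
  have hwY : w ∈ Y := mem_omegaOne hwQ ((isEA_iff.1 hZe).2 w hw)
  have hYle : Y ≤ Q ⊓ 𝐂[Q] := omegaOne_le _
  have hYe : IsElementaryAbelian 2 Y := omegaOne_center_isEA _
  have hNY : K ⊔ (T : Subgroup G) ≤ 𝐍[Y] :=
    (Amb.le_normalizer_inf (Amb.le_normalizer_pCoreOf 2 _)
      (Amb.le_normalizer_centralizer (Amb.le_normalizer_pCoreOf 2 _))).trans
      (normalizer_le_normalizer_omegaOne _)
  have hYK : ⁅Y, K⁆ ≠ ⊥ := by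
    intro e
    apply hwx
    exact (commutator_eq_bot_iff_le_centralizer.1 e hwY x (hLK hx))
  have h3 : ⁅Y, K⁆ ≤ Y := le_normalizer_iff_commutator_le_left.1 (le_sup_left.trans hNY)
  have h4 : ⁅Y, K⁆ ≤ K := le_normalizer_iff_commutator_le_right.1
    ((hYle.trans inf_le_left).trans (cK.pCoreOf_le_normalizer 2))
  have h5 : ⁅Y, K⁆ ≤ omegaOne 2 (pCoreOf 2 K ⊓ 𝐂[pCoreOf 2 K]) := by
    refine isEA_le_omegaOne (isEA_mono hYe h3) (le_inf ?_ ?_)
    · exact (le_inf h4 (h3.trans (hYle.trans inf_le_left))).trans (Amb.inf_pCoreOf_le le_sup_left)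
    · exact (h3.trans (hYle.trans inf_le_right)).trans
        (centralizer_anti (CP.pCoreOf_le_of_snIn cK.sn))
  intro e
  refine commutator_commutator_ne_bot cK.perf hYK (le_bot_iff.1 ?_)
  rw [← e]
  exact commutator_mono h5 le_rfl

/-- Let G be a non-abelian finite simple QTKE-group and T a Sylow 2-subgroup of G, and let L be a member of ℒ_f(G, T) (a member of ℒ(G, T) that lies in 𝒳 — L ≠ 1, L = O²(L), F*(L) = O₂(L) — and acts nontrivially on Ω₁(Z(O₂(L)))). Then (1) every member K of ℒ(G, T) containing L is again in ℒ_f(G, T) (a sharper form of (1) also compares the modules [Ω₁(Z(R)), L] and [Ω₁(Z(R')), K] for suitable 2-subgroups R, R'; that comparison is not included); and (2) if L is maximal under inclusion among the members of ℒ_f(G, T), then L is a maximal member of ℒ(G, T), hence a member of ℒ_f*(G, T). -/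
theorem result {G : Type*} [Group G] [Finite G] [IsSimpleGroup G]
    (hG : ¬ IsMulCommutative G) (hQ : Cfsg.IsQTKE G) (T : Sylow 2 G) (L : Subgroup G)
    (hL : L ∈ Cfsg.calLf (T : Subgroup G)) :
    (∀ K ∈ Cfsg.calL (T : Subgroup G), L ≤ K → K ∈ Cfsg.calLf (T : Subgroup G)) ∧
    ((∀ K ∈ Cfsg.calLf (T : Subgroup G), L ≤ K → K = L) → L ∈ Cfsg.calLfMax (T : Subgroup G)) := by
  refine ⟨fun K hK hLK => aux hQ.2.2 T hL hK hLK, fun h => ⟨⟨hL.1, fun K hK hLK => ?_⟩, hL.2⟩⟩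
  exact h K (aux hQ.2.2 T hL hK hLK) hLK

end Cfsg.Agent.S1851
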