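import Cfsg.Statements.S1957
import Mathlib
import Cfsg.Agent.PLocal.AmbSyl
import Cfsg.Agent.PLocal.CharP
import Cfsg.Agent.Solv.Coprime3
import Cfsg.Agent.Solv.Coprime2
import Cfsg.Agent.Inv.SylowTwo
import Cfsg.Agent.Inv.Basic
import Cfsg.Agent.Grp.Card

set_option autoImplicit false
open Cfsg

namespace Cfsg.Agent.S1957

open Subgroup Cfsg.Agent.PLocal.Amb
open scoped commutatorElement

variable {G : Type*} [Group G]

theorem four_sq {U : Subgroup G} (hU4 : IsKleinFour ↥U) {x : G} (hx : x ∈ U) : x * x = 1 :=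
  congrArg Subtype.val (IsKleinFour.mul_self (⟨x, hx⟩ : U))

theorem four_comm {U : Subgroup G} (hU4 : IsKleinFour ↥U) {x y : G} (hx : x ∈ U) (hy : y ∈ U) :
    x * y = y * x :=
  congrArg Subtype.val ((IsKleinFour.isMulCommutative (G := U)).is_comm.comm ⟨x, hx⟩ ⟨y, hy⟩)

theorem four_cases {U : Subgroup G} (hU4 : IsKleinFour ↥U) {u z x : G} (hu : u ∈ U) (hz : z ∈ U)
    (hu1 : u ≠ 1) (hz1 : z ≠ 1) (huz : u ≠ z) (hx : x ∈ U) :
    x = 1 ∨ x = u ∨ x = z ∨ x = u * z := by
  by_contra h
  push Not at h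
  have := IsKleinFour.eq_mul_of_ne_all (G := U) (x := ⟨u, hu⟩) (y := ⟨z, hz⟩) (z := ⟨x, hx⟩)
    (fun h => hu1 (congrArg Subtype.val h)) (fun h => hz1 (congrArg Subtype.val h))
    (fun h => huz (congrArg Subtype.val h)) (fun h' => h.1 (congrArg Subtype.val h'))
    (fun h' => h.2.1 (congrArg Subtype.val h')) (fun h' => h.2.2.1 (congrArg Subtype.val h'))
  exact h.2.2.2 (congrArg Subtype.val this)

/-- some Sylow 2-subgroup of `C(u)` normalizes `U` -/
theorem exists_syl [Finite G] (P : Sylow 2 G) (U : Subgroup G) (hUP : U ≤ (P : Subgroup G))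
    (hUn : (P : Subgroup G) ≤ 𝐍[U]) (hU4 : IsKleinFour ↥U)
    (hUZ : ¬ IsCyclic ↥((P : Subgroup G) ⊓ 𝐂[(P : Subgroup G)]) → U ≤ 𝐂[(P : Subgroup G)])
    {u : G} (hu : u ∈ U) (hu1 : u ≠ 1) :
    ∃ T, IsSyl 2 T (centralizer {u}) ∧ T ≤ 𝐍[U] := by
  set P₀ := (P : Subgroup G) ⊓ centralizer {u} with hP₀
  have hP₀p : IsPGroup 2 P₀ := P.isPGroup'.to_le inf_le_left
  obtain ⟨T, hT, hPT⟩ := exists_isSyl_ge hP₀p inf_le_right
  refine ⟨T, hT, ?_⟩
  rcases hPT.eq_or_lt with h | h
  · rw [← h]; exact inf_le_left.trans hUn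
  have hnle : ¬ (P : Subgroup G) ≤ centralizer {u} := by
    intro hle
    have h1 : P₀ = P := inf_eq_left.2 hle
    rw [h1] at h
    exact h.ne' ((isSyl_top P).eq hT.pgrp h.le le_top)
  have hcyc : IsCyclic ↥((P : Subgroup G) ⊓ 𝐂[(P : Subgroup G)]) := by
    by_contra hc
    exact hnle fun x hx => mem_centralizer_singleton_iff.2 (mem_centralizer_iff.1 (hUZ hc hu) x hx)
  have hU2 : IsPGroup 2 U := P.isPGroup'.to_le hUP
  have hUb : U ≠ ⊥ := fun h => hu1 (by rwa [h, mem_bot] at hu)
  obtain ⟨⟨z, hzU, hzc⟩, hz1⟩ :=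
    ne_bot_iff_exists_ne_one.1 (inf_centralizer_ne_bot P.isPGroup' hU2 hUn hUb)
  replace hz1 : z ≠ 1 := fun h => hz1 (Subtype.ext h)
  have hzc' : ∀ x ∈ (P : Subgroup G), x * z = z * x := mem_centralizer_iff.1 hzc
  have huz : u ≠ z := fun h => hnle fun x hx =>
    mem_centralizer_singleton_iff.2 (by rw [h]; exact hzc' x hx)
  have hconj : ∀ t ∈ (P : Subgroup G), t ∉ P₀ → t * u * t⁻¹ = u * z := by
    intro t ht ht0
    rcases four_cases hU4 hu hzU hu1 hz1 huz (conj_mem_of_mem_normalizer (hUn ht) hu)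
      with h | h | h | h
    · exact absurd (by simpa using h) hu1
    · exact absurd ⟨ht, mem_centralizer_singleton_iff.2 (mul_inv_eq_iff_eq_mul.1 h)⟩ ht0
    · refine absurd ?_ huz
      calc u = t⁻¹ * (t * u * t⁻¹) * t := by group
        _ = t⁻¹ * (z * t) := by rw [h]; group
        _ = z := by rw [← hzc' t ht]; group
    · exact h
  obtain ⟨t, ht, htu⟩ := SetLike.not_le_iff_exists.1 hnle
  have ht0 : t ∉ P₀ := fun h => htu h.2
  have hcoset : ∀ s ∈ (P : Subgroup G), s ∉ P₀ → t * s ∈ P₀ := by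
    intro s hs hs0
    refine ⟨(P : Subgroup G).mul_mem ht hs, mem_centralizer_singleton_iff.2 ?_⟩
    calc t * s * u = t * (s * u * s⁻¹) * s := by group
      _ = t * u * (z * s) := by rw [hconj s hs hs0]; group
      _ = (t * u * t⁻¹) * (t * z) * s := by group
      _ = u * (z * z) * t * s := by rw [hconj t ht ht0, hzc' t ht]; group
      _ = u * (t * s) := by rw [four_sq hU4 hzU]; group
  have hidx : P₀.relIndex P = 2 := by
    rw [relIndex, index_eq_two_iff_exists_notMem_and']
    refine ⟨⟨t, ht⟩, ht0, fun b => ?_⟩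
    by_cases hb : (b : G) ∈ P₀
    · exact Or.inr hb
    · exact Or.inl (hcoset b b.2 hb)
  have hTN : T ≤ 𝐍[P₀] := by
    have h1 := lt_inf_normalizer hT.pgrp h
    have h2 : Nat.card P₀ * 2 = Nat.card (P : Subgroup G) := by
      have := Grp.card_mul_relIndex (inf_le_left : P₀ ≤ P)
      rwa [hidx] at this
    have h3 : Nat.card T ≤ Nat.card (P : Subgroup G) := (isSyl_top P).card_le hT.pgrp le_top
    obtain ⟨c, hc⟩ := card_dvd_of_le h1.le
    have hpos : 0 < Nat.card P₀ := Nat.card_pos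
    have h4 : 2 ≤ c := by
      by_contra h5
      have h6 : c = 0 ∨ c = 1 := by omega
      rcases h6 with rfl | rfl
      · exact (Nat.card_pos (α := ↥(T ⊓ 𝐍[P₀]))).ne' (by simpa using hc)
      · exact h1.ne (eq_of_le_of_card_ge h1.le (by rw [hc, mul_one]))
    have h5 : T ⊓ 𝐍[P₀] = T := eq_of_le_of_card_ge inf_le_left (by nlinarith)
    exact inf_eq_left.1 h5
  have hUP₀ : U ≤ P₀ := fun x hx => ⟨hUP hx, mem_centralizer_singleton_iff.2 (four_comm hU4 hx hu)⟩
  have hUc : U ≤ 𝐂[P₀] := by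
    intro x hx
    refine mem_centralizer_iff.2 fun y hy => ?_
    have h1 : y * u = u * y := mem_centralizer_singleton_iff.1 hy.2
    have h2 := hzc' y hy.1
    rcases four_cases hU4 hu hzU hu1 hz1 huz hx with h | h | h | h
    · simp [h]
    · rw [h, h1]
    · rw [h, h2]
    · rw [h, ← mul_assoc, h1, mul_assoc, h2, mul_assoc]
  have hcen : ∀ x ∈ (P : Subgroup G), x ∈ 𝐂[P₀] → t * x = x * t → x * x = 1 → x = 1 ∨ x = z := by
    intro x hx hxc hxt hx2
    by_cases hx1 : x = 1
    · exact Or.inl hx1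
    refine Or.inr (Inv.eq_of_orderOf_two_of_mem_cyclic hcyc ⟨hx, ?_⟩ ⟨hUP hzU, hzc⟩
      (Inv.orderOf_two_of_mul_self hx2 hx1) (Inv.orderOf_two_of_mul_self (four_sq hU4 hzU) hz1))
    refine mem_centralizer_iff.2 fun s hs => ?_
    by_cases hs0 : s ∈ P₀
    · exact mem_centralizer_iff.1 hxc s hs0
    · have := mem_centralizer_iff.1 hxc _ (hcoset s hs hs0)
      calc s * x = t⁻¹ * (t * s * x) := by group
        _ = t⁻¹ * (x * t) * s := by rw [this]; group
        _ = x * s := by rw [← hxt]; group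
  have htN : t ∈ 𝐍[P₀] := by
    refine mem_normalizer_of_cj_le (cj_le_iff_forall.2 fun x hx => ?_)
    by_contra hc
    have hx' := (P : Subgroup G).mul_mem ((P : Subgroup G).mul_mem ht hx.1)
      ((P : Subgroup G).inv_mem ht)
    have h1 := hcoset _ hx' hc
    have h2 := hcoset t ht ht0
    apply ht0
    have := P₀.mul_mem (P₀.mul_mem (P₀.inv_mem h1) h2) hx
    convert this using 1; group
  have hΩ : ∀ x ∈ P₀, x ∈ 𝐂[P₀] → x * x = 1 → x ∈ U := by
    have key : ∀ x ∈ P₀, x ∈ 𝐂[P₀] → x * x = 1 → t * x * t⁻¹ = x ∨ t * x * t⁻¹ = x * z := by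
      intro x hx hxc hx2
      have h1 : t * x * t⁻¹ ∈ P₀ := conj_mem_of_mem_normalizer htN hx
      have h2 : t * x * t⁻¹ ∈ 𝐂[P₀] :=
        conj_mem_of_mem_normalizer (normalizer_le_normalizer_centralizer _ htN) hxc
      have h3 : t * x * t⁻¹ * x = x * (t * x * t⁻¹) := mem_centralizer_iff.1 hxc _ h1
      have h4 : t * t * x = x * (t * t) := mem_centralizer_iff.1 hxc _ (hcoset t ht ht0)
      have h5 := hcen (x * (t * x * t⁻¹)) (P₀.mul_mem hx h1).1 (mul_mem hxc h2) (by
        calc t * (x * (t * x * t⁻¹)) = t * (t * x * t⁻¹ * x) := by rw [h3]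
          _ = (t * t * x) * t⁻¹ * x := by group
          _ = _ := by rw [h4]; group) (by
        calc x * (t * x * t⁻¹) * (x * (t * x * t⁻¹))
            = x * (t * x * t⁻¹ * x) * (t * x * t⁻¹) := by group
          _ = (x * x) * (t * (x * x) * t⁻¹) := by rw [h3]; group
          _ = 1 := by rw [hx2]; group)
      rcases h5 with h5 | h5
      · left
        calc t * x * t⁻¹ = x * x * (t * x * t⁻¹) := by rw [hx2, one_mul]
          _ = x := by rw [mul_assoc, h5, mul_one]
      · right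
        calc t * x * t⁻¹ = x * x * (t * x * t⁻¹) := by rw [hx2, one_mul]
          _ = x * z := by rw [mul_assoc, h5]
    have key2 : ∀ x ∈ P₀, x ∈ 𝐂[P₀] → x * x = 1 → t * x * t⁻¹ = x → x ∈ U := by
      intro x hx hxc hx2 h
      rcases hcen x hx.1 hxc (mul_inv_eq_iff_eq_mul.1 h) hx2 with h | h
      · rw [h]; exact U.one_mem
      · rw [h]; exact hzU
    intro x hx hxc hx2
    rcases key x hx hxc hx2 with h | h
    · exact key2 x hx hxc hx2 h
    · have hxu : x * u = u * x := mem_centralizer_singleton_iff.1 hx.2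
      have := key2 (x * u) (P₀.mul_mem hx (hUP₀ hu)) (mul_mem hxc (hUc hu)) (by
        calc x * u * (x * u) = x * (u * x) * u := by group
          _ = x * x * (u * u) := by rw [← hxu]; group
          _ = 1 := by rw [hx2, four_sq hU4 hu, one_mul]) (by
        calc t * (x * u) * t⁻¹ = (t * x * t⁻¹) * (t * u * t⁻¹) := by group
          _ = x * (z * u) * z := by rw [h, hconj t ht ht0]; group
          _ = x * u * (z * z) := by rw [four_comm hU4 hzU hu]; group
          _ = x * u := by rw [four_sq hU4 hzU, mul_one])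
      simpa using U.mul_mem this (U.inv_mem hu)
  intro g hg
  refine mem_normalizer_of_cj_le (cj_le_iff_forall.2 fun x hx => hΩ _
    (conj_mem_of_mem_normalizer (hTN hg) (hUP₀ hx))
    (conj_mem_of_mem_normalizer (normalizer_le_normalizer_centralizer _ (hTN hg)) (hUc hx)) ?_)
  calc g * x * g⁻¹ * (g * x * g⁻¹) = g * (x * x) * g⁻¹ := by group
    _ = 1 := by rw [four_sq hU4 hx]; group


/-- Let `G` be a finite non-abelian simple group in which every local subgroup is solvable and which is of characteristic 2 type. Let `P` be a Sylow 2-subgroup of `G` and `U` a normal subgroup of `P` that is a four-group, with `U` central in `P` if the centre of `P` is not cyclic. Then `U` centralizes every subgroup of odd order of `G` that it normalizes. -/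
theorem result {G : Type*} [Group G] [Finite G]
    [IsSimpleGroup G] (hna : ¬ IsMulCommutative G) (hN : Cfsg.IsNGroup G) (h2 : Cfsg.IsCharacteristicTwoType G)
    (P : Sylow 2 G) (U : Subgroup G) (hUP : U ≤ (P : Subgroup G)) (hUn : (P : Subgroup G) ≤ Subgroup.normalizer (U : Set G))
    (hU4 : IsKleinFour ↥U)
    (hUZ : ¬ IsCyclic ↥((P : Subgroup G) ⊓ Subgroup.centralizer ((P : Subgroup G) : Set G)) →
      U ≤ Subgroup.centralizer ((P : Subgroup G) : Set G))
    (K : Subgroup G) (hK : Odd (Nat.card K)) (hUK : U ≤ Subgroup.normalizer (K : Set G)) :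
    U ≤ Subgroup.centralizer (K : Set G) := by
  have hU2 : IsPGroup 2 U := P.isPGroup'.to_le hUP
  have hK2 : (Nat.card K).Coprime 2 := Nat.coprime_two_right.2 hK
  have := IsKleinFour.isMulCommutative (G := U)
  rw [le_centralizer_iff]
  refine Solv.le_of_centralizers_le U K IsKleinFour.not_isCyclic hUK
    (Solv.coprime_card_of_isPGroup hU2 hK2).symm _ fun u hu hu1 => ?_
  obtain ⟨T, hT, hTU⟩ := exists_syl P U hUP hUn hU4 hUZ hu hu1
  have hzp : IsPGroup 2 (zpowers u) := hU2.to_le (zpowers_le.2 hu)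
  have hch : PLocal.CP.IsCharP 2 (centralizer ({u} : Set G)) := by
    rw [← centralizer_zpowers, ← PLocal.CP.isCharP_normalizer_iff hzp, PLocal.CP.isCharP_iff]
    exact h2.2 _ hzp (by simpa using hu1)
  have hUC : U ≤ centralizer {u} := fun x hx =>
    mem_centralizer_singleton_iff.2 (four_comm hU4 hx hu)
  have hCz : centralizer {u} ≤ 𝐍[zpowers u] := by
    rw [← centralizer_zpowers]; exact centralizer_le_normalizer' _
  have hUs : U ≤ PLocal.CP.secCent (pCoreOf 2 (centralizer {u})) (zpowers u) := by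
    intro x hx
    refine PLocal.CP.mem_secCent.2 ⟨hCz (hUC hx), fun a ha => ?_⟩
    have haT := hT.pCoreOf_le ha
    have hau : a * u = u * a := mem_centralizer_singleton_iff.1 (hT.le haT)
    have h1 : a * x * a⁻¹ ∈ U := conj_mem_of_mem_normalizer (hTU haT) hx
    have hxi : x⁻¹ = x := inv_eq_of_mul_eq_one_right (four_sq hU4 hx)
    have h3 : ⁅x, a⁆ = x * (a * x * a⁻¹) := by rw [commutatorElement_def, hxi]; group
    rw [h3]
    by_cases hx1 : x = 1
    · simp [hx1]
    by_cases hxu : u = x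
    · rw [← hxu, hau, mul_assoc u a, mul_inv_cancel, mul_one]
      exact mul_mem (mem_zpowers u) (mem_zpowers u)
    rcases four_cases hU4 hu hx hu1 hx1 hxu h1 with h | h | h | h
    · exact absurd (by simpa using h) hx1
    · refine absurd ?_ hxu
      calc u = a⁻¹ * (u * a) := by rw [← hau]; group
        _ = x := by rw [← h]; group
    · rw [h, four_sq hU4 hx]; exact one_mem _
    · rw [h, four_comm hU4 hu hx, ← mul_assoc, four_sq hU4 hx, one_mul]; exact mem_zpowers u
  have hn : K ⊓ centralizer {u} ≤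
      𝐍[PLocal.CP.secCent (pCoreOf 2 (centralizer {u})) (zpowers u)] :=
    inf_le_right.trans (PLocal.CP.le_normalizer_secCent (le_normalizer_pCoreOf 2 _) hCz)
  rw [← commutator_eq_bot_iff_le_centralizer, eq_bot_iff]
  intro x hx
  have h1 : x ∈ K ⊓ centralizer {u} :=
    Solv.commutator_le_of_le_normalizer (le_normalizer_inf hUK (hUC.trans le_normalizer)) hx
  have h3 : x ∈ PLocal.CP.secCent (pCoreOf 2 (centralizer {u})) (zpowers u) := by
    rw [commutator_comm] at hx
    exact Solv.commutator_le_of_le_normalizer hn (commutator_mono hUs le_rfl hx)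
  have hc : (orderOf x).Coprime 2 := Nat.Coprime.coprime_dvd_left (K.orderOf_dvd_natCard h1.1) hK2
  exact hch.eq_one h1.2 hc (PLocal.CP.mem_centralizer_of_commutator_mem hzp hc
    (by rw [centralizer_zpowers]; exact h1.2) (PLocal.CP.mem_secCent.1 h3).2)

end Cfsg.Agent.S1957
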