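import Cfsg.Statements.S1958
import Mathlib
import Cfsg.Agent.PLocal.PrimeCoreAmb

set_option autoImplicit false
open Cfsg

namespace Cfsg.Agent.S1958

open Subgroup Cfsg.Agent.PLocal.Amb

theorem aux {G : Type*} [Group G] [Finite G]
    (p : ℕ) [Fact p.Prime] (x y : G) (hx : orderOf x = p) (hxy : x * y = y * x)
    (hCy : Group.IsSolvable ↥(Subgroup.centralizer ({y} : Set G))) :
    Cfsg.centralizerPPrimeCore p x ⊓ Subgroup.centralizer {y} ≤ Cfsg.centralizerPPrimeCore p y := by
  have hP : IsPGroup p (zpowers x) := isPGroup_zpowers ⟨1, by rw [pow_one, ← hx, pow_orderOf_eq_one]⟩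
  refine PLocal.PCA.le_pPrimeCore_of_normal_in_centralizer (P := zpowers x)
    (PLocal.PCA.isPConstrained_of_isSolvable hCy) ?_ hP ?_ ?_ ?_
  · rw [zpowers_le]; exact mem_centralizer_singleton_iff.2 hxy
  · exact Nat.Coprime.coprime_dvd_left (card_dvd_of_le inf_le_left) (Grp.map_pPrimeCore_coprime p _)
  · rw [centralizer_zpowers]
    exact le_inf inf_le_right (inf_le_left.trans (map_subtype_le _))
  · rw [centralizer_zpowers]
    exact le_normalizer_inf (inf_le_right.trans (le_normalizer_map_subtype _))
      (inf_le_left.trans le_normalizer)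


/-- Let `G` be a finite group, `p` a prime, and `x, y` commuting elements of order `p` whose centralizers `C_G(x)` and `C_G(y)` are both solvable. Then `O_{p'}(C_G(x)) ∩ C_G(y) = O_{p'}(C_G(y)) ∩ C_G(x)` (balance). -/
theorem result {G : Type*} [Group G] [Finite G]
    (p : ℕ) [Fact p.Prime] (x y : G) (hx : orderOf x = p) (hy : orderOf y = p) (hxy : x * y = y * x)
    (hCx : Group.IsSolvable ↥(Subgroup.centralizer ({x} : Set G))) (hCy : Group.IsSolvable ↥(Subgroup.centralizer ({y} : Set G))) :
    Cfsg.centralizerPPrimeCore p x ⊓ Subgroup.centralizer {y} = Cfsg.centralizerPPrimeCore p y ⊓ Subgroup.centralizer {x} := by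
  exact le_antisymm
    (le_inf (aux p x y hx hxy hCy) (inf_le_left.trans (Subgroup.map_subtype_le _)))
    (le_inf (aux p y x hy hxy.symm hCx) (inf_le_left.trans (Subgroup.map_subtype_le _)))

end Cfsg.Agent.S1958
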