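import Mathlib
import Cfsg.Statements.S1961
import Cfsg.Agent.PLocal.CFControl
-- import your own Cfsg.Agent.* helpers here

set_option autoImplicit false
open Cfsg

namespace Cfsg.Agent.S1961

open Subgroup Cfsg.Agent.Fus Cfsg.Agent.FGS Cfsg.Agent.PLocal.CF

/-- Local-to-global control of strong fusion through well-placed subgroups. Let p be a prime, G a finite group with Sylow p-subgroup S, and W a conjugacy functor for p on G. If W controls strong fusion in N_G(T) for every nonidentity subgroup T of S that is well placed in S with respect to W, then W controls strong fusion in G. -/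
theorem result {G : Type*} [Group G] [Finite G] {p : ℕ} [Fact p.Prime] (S : Sylow p G) (W : Subgroup G → Subgroup G) (hW : Cfsg.IsConjugacyFunctor p W) (hloc : ∀ T : Subgroup G, T ≠ ⊥ → Cfsg.IsWellPlaced p W (S : Subgroup G) T → Cfsg.ControlsStrongFusionIn p W (Subgroup.normalizer ((T : Subgroup G) : Set G))) : Cfsg.ControlsStrongFusionIn p W ⊤ := by
  refine controlsSF_iff_family.2 (familySF_iff.2
    ⟨S, syl_top S, fsf_local_global_wp hW (syl_top S) fun U hU hU0 => ?_⟩)
  have h1 := controlsSF_iff_family.1 (hloc U hU0 ((wp_top_iff S.isPGroup').1 hU))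
  have h := hU.syl
  rw [top_inf_eq] at h ⊢
  exact fsf_of_family (by rintro _ rfl; exact hW) h1 h

end Cfsg.Agent.S1961
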