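import Mathlib
import Cfsg.Statements.S1966
import Cfsg.Agent.Grp.Cores
-- import your own Cfsg.Agent.* helpers here

set_option autoImplicit false
open Cfsg

namespace Cfsg.Agent.S1966

open Subgroup

/-- Let p be a prime, G a finite group with Sylow p-subgroup S and 𝓕 a conjugation family for S in G. Then the members of 𝓕 containing O_p(G) still form a conjugation family for S in G. -/
theorem result {G : Type*} [Group G] [Finite G] {p : ℕ} [Fact p.Prime] (S : Sylow p G) (𝓕 : Set (Subgroup G)) (h : Cfsg.IsConjugationFamily 𝓕 (S : Subgroup G)) : Cfsg.IsConjugationFamily {T : Subgroup G | T ∈ 𝓕 ∧ Cfsg.pCore p G ≤ T} (S : Subgroup G) := by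
  refine ⟨fun T hT => h.1 T hT.1, fun A g hA hAS hAg => ?_⟩
  have hn : (Cfsg.pCore p G).Normal := inferInstance
  have hQ : Cfsg.pCore p G ≤ S := Grp.pCore_le_sylow S
  have hQg : ∀ x : G, ∀ a ∈ Cfsg.pCore p G, x⁻¹ * a * x ∈ Cfsg.pCore p G :=
    fun x a ha => hn.conj_mem' a ha x
  obtain ⟨n, T, x, h1, h2, h3, h4, h5⟩ := h.2 (A ∪ Cfsg.pCore p G) g (hA.mono Set.subset_union_left)
    (Set.union_subset hAS hQ) (by
      rw [Set.image_union]
      refine Set.union_subset hAg ?_
      rintro _ ⟨a, ha, rfl⟩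
      exact hQ (hQg g a ha))
  refine ⟨n, T, x, h1, fun i => ⟨h2 i, ?_⟩, h3, fun h0 => Set.subset_union_left.trans (h4 h0),
    fun i hi => (Set.image_mono Set.subset_union_left).trans (h5 i hi)⟩
  obtain ⟨i, hi⟩ := i
  cases i with
  | zero => exact Set.subset_union_right.trans (h4 hi)
  | succ j =>
    intro a ha
    set y := ((List.ofFn x).take (j + 1)).prod
    refine h5 ⟨j, by omega⟩ hi ⟨y * a * y⁻¹, Or.inr (hn.conj_mem a ha y), ?_⟩
    change y⁻¹ * _ * y = a
    group

end Cfsg.Agent.S1966
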