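import Mathlib
import Cfsg.Statements.S1967
import Cfsg.Agent.PLocal.CFControl
-- import your own Cfsg.Agent.* helpers here

set_option autoImplicit false
open Cfsg

namespace Cfsg.Agent.S1967

open Subgroup Cfsg.Agent.Fus Cfsg.Agent.FGS Cfsg.Agent.PLocal.CF

/-- Let p be a prime, G a finite group with Sylow p-subgroup S and W a conjugacy functor for p on G. Then W controls strong fusion in G if and only if, whenever T ≤ S and g ∈ G satisfy gTg⁻¹ ≤ S, one can write g = n c with n ∈ N_G(W(S)) and c ∈ C_G(T). -/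
theorem result {G : Type*} [Group G] [Finite G] {p : ℕ} [Fact p.Prime] (S : Sylow p G) (W : Subgroup G → Subgroup G) (hW : Cfsg.IsConjugacyFunctor p W) : Cfsg.ControlsStrongFusionIn p W ⊤ ↔ ∀ (T : Subgroup G) (g : G), T ≤ (S : Subgroup G) → T.map (MulAut.conj g).toMonoidHom ≤ (S : Subgroup G) → ∃ n ∈ Subgroup.normalizer ((W (S : Subgroup G) : Subgroup G) : Set G), ∃ c ∈ Subgroup.centralizer (T : Set G), g = n * c := by
  rw [controlsSF_iff_family]
  constructor
  · intro h T g hT hgT
    have h1 := fsf_singleton_iff.1 (fsf_of_family (by rintro _ rfl; exact hW) h (syl_top S))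
    obtain ⟨x, hx, e⟩ := h1 T g trivial hT hgT
    refine ⟨x, hx.2, x⁻¹ * g, mem_ce_of_conj_eq fun a ha => ?_, by simp⟩
    calc x⁻¹ * g * a * (x⁻¹ * g)⁻¹ = x⁻¹ * (g * a * g⁻¹) * x := by group
      _ = a := by rw [← e a ha]; group
  · intro h
    refine familySF_iff.2 ⟨S, syl_top S, fsf_singleton_iff.2 fun A g _ hA hA' => ?_⟩
    obtain ⟨n, hn, c, hc, rfl⟩ := h (closure A) g ((closure_le _).2 hA) (cj_closure_le hA')
    refine ⟨n, ⟨trivial, hn⟩, fun a ha => ?_⟩
    conv_lhs => rw [← conj_eq_of_mem_ce hc (subset_closure ha)]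
    group

end Cfsg.Agent.S1967
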