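import Cfsg.Statements.S1989
import Mathlib
import Cfsg.Agent.PLocal.QdFree
import Cfsg.Agent.S1969
import Cfsg.Agent.S1983

set_option autoImplicit false
universe u
open Cfsg

namespace Cfsg.Agent.S1989

open Cfsg.Agent.PLocal

/-- Let p be an odd prime and G a finite group. Then Qd(p) (the natural semidirect product of an elementary abelian group of order p² by SL₂(p)) is not involved in G if and only if, in every section K/R of G and for every Sylow p-subgroup T of K/R, the lower K-infinity subgroup of T controls strong fusion in K/R. -/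
theorem result {G : Type u} [Group G] [Finite G] {p : ℕ} [Fact p.Prime] (hp : p ≠ 2) : ¬ Cfsg.Involves ↥(Cfsg.qd p) G ↔ ∀ (K R : Subgroup G) [hR : (R.subgroupOf K).Normal], ∀ T : Sylow p (↥K ⧸ R.subgroupOf K), Cfsg.ControlsStrongFusion p (Cfsg.inducedFunctor (G := (↥K ⧸ R.subgroupOf K)) Cfsg.kInfLower (T : Subgroup (↥K ⧸ R.subgroupOf K))) := by
  constructor
  · intro h
    refine S1969.result _ (KInf.isCharPFunctor_lower p) fun K R _ hC T => ?_
    by_contra hn
    obtain ⟨-, -, -, -, -, h1⟩ := S1983.result T (Or.inl hn)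
    obtain ⟨N, _, h2⟩ := h1 hC
    exact h2 (Qd.stable_sec_of_qdFree hp h ((CF.sec_quotient N).trans (CF.sec_tmpl K R)))
  · rintro h ⟨K, R, _, ⟨e⟩⟩
    obtain ⟨T⟩ : Nonempty (Sylow p (K ⧸ R.subgroupOf K)) := inferInstance
    exact Qd.not_controls_of_equiv (e.trans (Qd.qdEquiv p)) (KInf.isCharPFunctor_lower p) T (h K R T)

end Cfsg.Agent.S1989
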