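import Cfsg.Statements.S1990
import Mathlib
import Cfsg.Agent.S2005
import Cfsg.Agent.PLocal.NormPStable
import Cfsg.Agent.PLocal.CFSection

set_option autoImplicit false
universe u
open Cfsg

namespace Cfsg.Agent.S1990

open Subgroup Cfsg.Agent.PLocal Cfsg.Agent.PLocal.Amb

/-- Let p be an odd prime, G a finite group with Sylow p-subgroup S, and W an isomorphism-invariant p-group functor (W assigns to every group Q a subgroup W(Q), nontrivial whenever Q is a nontrivial finite p-group, and every isomorphism from a finite p-group Q onto a group R carries W(Q) onto W(R)). Suppose N_G(W(S)) has a normal p-complement, and W(T) controls strong fusion in every section G* = K/R of G all of whose sections are p-stable in the normalizer form, for every Sylow p-subgroup T of G*. Then G has a normal p-complement. -/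
theorem result {G : Type u} [Group G] [Finite G] {p : ℕ} [Fact p.Prime] (hp : p ≠ 2) (W : ∀ (Q : Type u) [Group Q], Subgroup Q) (hW : Cfsg.IsCharPFunctor.{u} p W) (S : Sylow p G) (hN : Cfsg.HasNormalPComplement p ↥(Subgroup.normalizer ((Cfsg.inducedFunctor (G := G) W (S : Subgroup G) : Subgroup G) : Set G))) (hctl : ∀ (K R : Subgroup G) [hR : (R.subgroupOf K).Normal], (∀ (K' R' : Subgroup (↥K ⧸ R.subgroupOf K)) [hR' : (R'.subgroupOf K').Normal], Cfsg.IsNormalizerPStable p (↥K' ⧸ R'.subgroupOf K')) → ∀ T : Sylow p (↥K ⧸ R.subgroupOf K), Cfsg.ControlsStrongFusion p (Cfsg.inducedFunctor (G := (↥K ⧸ R.subgroupOf K)) W (T : Subgroup (↥K ⧸ R.subgroupOf K)))) : Cfsg.HasNormalPComplement p G := by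
  refine S2005.result W hW S hN fun K R hR hC hpc T hT => ?_
  obtain ⟨Q⟩ : Nonempty (Sylow 2 (↥K ⧸ R.subgroupOf K)) := inferInstance
  have htf : TransvFree p (↥K ⧸ R.subgroupOf K) :=
    transvFree_of_sylow_two_comm hp Q (NormPStable.sylow_comm_of_coatom' hpc T hT hp.symm Q)
  obtain ⟨T', -, h⟩ := hctl K R (fun K' R' _ =>
    NormPStable.of_transvFree ((htf.subgroup K').quotient _)) T
  rw [← normalizer_eq_top_iff, eq_top_iff]
  intro g _
  obtain ⟨-, h2⟩ := h (pCore p (↥K ⧸ R.subgroupOf K)) (Grp.pCore_le_sylow T')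
  obtain ⟨x, hx, hx'⟩ := h2 g (by
    rintro _ ⟨a, ha, rfl⟩
    exact Grp.pCore_le_sylow T' (Normal.conj_mem inferInstance a ha g))
  have h3 : x⁻¹ * g ∈ 𝐂[pCore p (↥K ⧸ R.subgroupOf K)] := fun a ha => by
    have := hx' a ha
    calc a * (x⁻¹ * g) = x⁻¹ * (x * a * x⁻¹) * g := by group
      _ = x⁻¹ * g * a := by rw [← this]; group
  have h4 := CF.cf_le_nm (CF.induced_cf hW) T.isPGroup' (Grp.pCore_le_sylow T (hC h3))
  have := mul_mem hx h4
  rwa [mul_inv_cancel_left] at this

end Cfsg.Agent.S1990
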