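import Cfsg.Statements.S2004
import Mathlib
import Cfsg.Agent.PLocal.SecNorm
import Cfsg.Agent.PLocal.NormPStable
import Cfsg.Agent.PLocal.PStableSL2

set_option autoImplicit false
open Cfsg

namespace Cfsg.Agent.S2004

open Subgroup Cfsg.Agent.PLocal Cfsg.Agent.PLocal.Amb

/-- Let p be an odd prime and G a finite group such that SL₂(p) is not involved in N_G(P) for any nonidentity p-subgroup P of G. Then every section of G is p-stable in the normalizer form: in each section, whenever an element of the normalizer of a p-subgroup Q acts quadratically on Q, its image in N(Q)/C(Q) lies in O_p(N(Q)/C(Q)). -/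
theorem result {G : Type*} [Group G] [Finite G] {p : ℕ} [Fact p.Prime] (hp : p ≠ 2) (h : ∀ P : Subgroup G, IsPGroup p ↥P → P ≠ ⊥ → ¬ Cfsg.Involves (Matrix.SpecialLinearGroup (Fin 2) (ZMod p)) ↥(Subgroup.normalizer ((P : Subgroup G) : Set G))) : ∀ (K R : Subgroup G) [hR : (R.subgroupOf K).Normal], Cfsg.IsNormalizerPStable p (↥K ⧸ R.subgroupOf K) := by
  intro K R hR
  refine NormPStable.of_transvFree_normalizer fun P hP hne => ?_
  obtain ⟨P₀, h1, h2, h3⟩ := SecNorm.exists_sec_normalizer (CF.sec_tmpl K R) hP hne
  exact transvFree_of_not_section_sl2 hp fun h4 =>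
    h P₀ h1 h2 (SecNorm.Involves.trans_sec h4 h3)

end Cfsg.Agent.S2004
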