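import Cfsg.Statements.S2008
import Mathlib

set_option autoImplicit false
open Cfsg

namespace Cfsg.Agent.S2008

theorem aux {H : Type*} [Group H] [Finite H] (z : H) (hz : orderOf z = 2) (hN : ∀ N : Subgroup H, N.Normal → N ≠ ⊤ → N ⊓ Subgroup.centralizer ({z} : Set H) = ⊥) (E : Subgroup H) (hE : IsKleinFour ↥E) (hzE : z ∈ E) (hc : ∀ e ∈ E, e ≠ 1 → IsConj z e) (N : Subgroup H) [hn : N.Normal] (hNt : N ≠ ⊤) : N = ⊥ := by
  have hfp : ∀ e ∈ E, e ≠ 1 → ∀ x ∈ N, e * x * e⁻¹ = x → x = 1 := by
    intro e he he1 x hx hex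
    obtain ⟨g, hg⟩ := isConj_iff.1 (hc e he he1)
    have h1 : g⁻¹ * x * g ∈ N ⊓ Subgroup.centralizer ({z} : Set H) := by
      refine Subgroup.mem_inf.2 ⟨by simpa using hn.conj_mem x hx g⁻¹, ?_⟩
      rw [Subgroup.mem_centralizer_singleton_iff]
      rw [← hg] at hex
      calc g⁻¹ * x * g * z = g⁻¹ * (g * z * g⁻¹ * x * (g * z * g⁻¹)⁻¹) * g * z := by rw [hex]
        _ = _ := by group
    rw [hN N hn hNt, Subgroup.mem_bot] at h1
    calc x = g * (g⁻¹ * x * g) * g⁻¹ := by group
      _ = 1 := by rw [h1]; group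
  have hsq : ∀ e ∈ E, e * e = 1 := fun e he =>
    congrArg Subtype.val (IsKleinFour.mul_self (⟨e, he⟩ : E))
  have hinv : ∀ e ∈ E, e ≠ 1 → ∀ x ∈ N, e * x * e⁻¹ = x⁻¹ := by
    intro e he he1 x hx
    let φ : N ≃* N := MulAut.conjNormal e
    have hφ : MonoidHom.FixedPointFree φ := by
      intro y hy
      exact Subtype.ext (hfp e he he1 y y.2 (congrArg Subtype.val hy))
    have h2 : Function.Involutive φ := by
      intro y
      apply Subtype.ext
      change e * (e * y * e⁻¹) * e⁻¹ = y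
      calc e * (e * y * e⁻¹) * e⁻¹ = (e * e) * y * (e * e)⁻¹ := by group
        _ = y := by rw [hsq e he]; group
    have := hφ.coe_eq_inv_of_involutive h2
    have h3 := congrArg Subtype.val (congrFun this ⟨x, hx⟩)
    exact h3
  have hz1 : z ≠ 1 := by rintro rfl; simp at hz
  obtain ⟨e, he1, hez⟩ : ∃ e : E, e ≠ 1 ∧ e ≠ ⟨z, hzE⟩ := by
    by_contra hcon
    push Not at hcon
    have : Nat.card E ≤ ({1, ⟨z, hzE⟩} : Set E).ncard := by
      rw [← Set.ncard_univ]
      refine Set.ncard_le_ncard (fun x _ => ?_)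
      by_cases h : x = 1
      · exact Or.inl h
      · exact Or.inr (hcon x h)
    have h2 : ({1, ⟨z, hzE⟩} : Set E).ncard ≤ 2 := by
      simpa using Set.ncard_insert_le (1 : E) {⟨z, hzE⟩}
    rw [hE.card_four] at this
    omega
  have he1' : (e : H) ≠ 1 := fun h => he1 (Subtype.ext h)
  have hze : z * e ≠ 1 := by
    intro h
    apply hez
    apply Subtype.ext
    calc (e : H) = z * z * e := by rw [hsq z hzE, one_mul]
      _ = z := by rw [mul_assoc, h, mul_one]
  rw [eq_bot_iff]
  intro x hx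
  rw [Subgroup.mem_bot]
  refine hfp (z * e) (E.mul_mem hzE e.2) hze x hx ?_
  calc z * e * x * (z * e)⁻¹ = z * (e * x * (e : H)⁻¹) * z⁻¹ := by group
    _ = z * x⁻¹ * z⁻¹ := by rw [hinv e e.2 he1' x hx]
    _ = x := by rw [hinv z hzE hz1 _ (N.inv_mem hx), inv_inv]


/-- Let H be a finite group and z an involution such that every proper normal subgroup of H meets the centralizer of z trivially, and suppose z lies in a Klein four-subgroup E of H all three of whose involutions are conjugate to z in H. Then H has no non-trivial abelian normal subgroup. -/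
theorem result {H : Type*} [Group H] [Finite H] (z : H) (hz : orderOf z = 2) (hN : ∀ N : Subgroup H, N.Normal → N ≠ ⊤ → N ⊓ Subgroup.centralizer ({z} : Set H) = ⊥) (E : Subgroup H) (hE : IsKleinFour ↥E) (hzE : z ∈ E) (hc : ∀ e ∈ E, e ≠ 1 → IsConj z e) (N : Subgroup H) [N.Normal] (hab : IsMulCommutative ↥N) : N = ⊥ := by
  by_cases hNt : N = ⊤
  · exfalso
    subst hNt
    have hz1 : z ≠ 1 := by rintro rfl; simp at hz
    have hall : ∀ e : E, e = 1 ∨ e = ⟨z, hzE⟩ := by
      intro e
      by_cases he : e = 1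
      · exact Or.inl he
      · right
        obtain ⟨g, hg⟩ := isConj_iff.1 (hc e e.2 (fun h => he (Subtype.ext h)))
        apply Subtype.ext
        have := congrArg Subtype.val (hab.is_comm.comm (⟨g, trivial⟩ : (⊤ : Subgroup H)) ⟨z, trivial⟩)
        change g * z = z * g at this
        rw [← hg, this]; simp
    have : Nat.card E ≤ ({1, ⟨z, hzE⟩} : Set E).ncard := by
      rw [← Set.ncard_univ]
      exact Set.ncard_le_ncard (fun x _ => hall x)
    have h2 : ({1, ⟨z, hzE⟩} : Set E).ncard ≤ 2 := by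
      simpa using Set.ncard_insert_le (1 : E) {⟨z, hzE⟩}
    rw [hE.card_four] at this
    omega
  · exact aux z hz hN E hE hzE hc N hNt

end Cfsg.Agent.S2008
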