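import Cfsg.Statements.S2042
import Cfsg.Agent.Spor.MultJ4
import Cfsg.Agent.Comp.BitMore
import Cfsg.Agent.S1703

set_option autoImplicit false
open Cfsg

namespace Cfsg.Agent.S2042

/-- The Schur multiplier of the Janko group J₄ (the finitely presented group of the definitions) is trivial; here the Schur multiplier is described through stem extensions, as in the definitions: surjective homomorphisms onto the group from a finite group, whose kernel is central in that finite group and contained in that finite group's commutator subgroup. -/
theorem result : Cfsg.HasCyclicSchurMultiplier Cfsg.Spor.J4 1 := by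
  have := S1703.result.1
  obtain ⟨e⟩ := Spor.J4C.link.1.equiv_of_simple Spor.J4C.Mat.satR (Spor.J4C.Mat.mdl.ne Spor.J4C.Mat.ne37)
  exact FGS.HasSchurMultiplier.congr_left (Spor.J4C.Mult.mult (Comp.BN.FM.self _)
      ((Nat.card_congr e.toEquiv).symm.trans S1703.result.2)) e.symm

end Cfsg.Agent.S2042
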