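import Cfsg.Statements.S2053
import Cfsg.Agent.Spor.CovFi22
import Cfsg.Agent.Spor.MultFi22
import Cfsg.Agent.Spor.Fi.Cover23
import Cfsg.Agent.KSG.MultCov
-- import your own Cfsg.Agent.* helpers here

set_option autoImplicit false
open Cfsg

namespace Cfsg.Agent.S2053

/-- The Schur multiplier of the Fischer group Fi₂₂ (the finitely presented group of the definitions) is cyclic of order 6; here the Schur multiplier is described through stem extensions, as in the definitions: surjective homomorphisms onto the group from a finite group, whose kernel is central in that finite group and contained in that finite group's commutator subgroup. -/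
theorem result : Cfsg.HasCyclicSchurMultiplier Cfsg.Spor.Fi22 6 := by
  have := Spor.FiC.M22.simple
  exact FGS.HasSchurMultiplier.congr_left (Spor.MultFi22.mult_of (by simp)
    (((KSG.Pc.multOnto_of_nonsplit Spor.FiC.M23.cover22 (KSG.Pc.commutator_eq_top_of_simple
      (by rw [Spor.FiC.M22.card]; norm_num))).zmod_mul Spor.CovFi22.onto (by norm_num)).congr_left
      Spor.ModelFi22.equiv.symm)) Spor.ModelFi22.equiv.symm

end Cfsg.Agent.S2053
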