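import Cfsg.Statements.S2087
import Cfsg.Agent.Spor.MultL32
import Cfsg.Agent.Spor.CovL32

set_option autoImplicit false
open Cfsg

namespace Cfsg.Agent.S2087

/-- Exceptional Schur multiplier: over the field with 2 elements, PSL₃ has Schur multiplier cyclic of order 2 (here the Schur multiplier is described through stem extensions, as in the definitions). -/
theorem result {F : Type*} [Field F] [Fintype F] (hF : Fintype.card F = 2) : Cfsg.HasCyclicSchurMultiplier (Matrix.ProjectiveSpecialLinearGroup (Fin 3) F) 2 := by
  exact FGS.HasSchurMultiplier.congr_left (Spor.MultL32.mult_of (by simp) Spor.CovL32.onto)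
    ((Class.pslCongr _ (Class.ringEquivZMod hF)).trans Spor.ModelL32.equiv).symm

end Cfsg.Agent.S2087
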