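import Cfsg.Statements.S2091
import Cfsg.Agent.Spor.MultU62
import Cfsg.Agent.Spor.CovU62a
import Cfsg.Agent.Spor.CovU62b

set_option autoImplicit false
open Cfsg

namespace Cfsg.Agent.S2091

/-- Exceptional Schur multiplier: PSU₆(2), realised over the field with 4 elements, has Schur multiplier isomorphic to the product of cyclic groups of orders 3, 2 and 2 (order 12, not cyclic; here the Schur multiplier is described through stem extensions, as in the definitions). -/
theorem result {F : Type*} [Field F] [Fintype F] (hF : Fintype.card F = 4) : Cfsg.HasSchurMultiplier (Cfsg.PSU 6 F 2) (Multiplicative (ZMod 3 × ZMod 2 × ZMod 2)) := by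
  exact FGS.HasSchurMultiplier.congr_left (Spor.MultU62.mult_of (by simp)
    (Spor.CovU62a.onto.prod Spor.CovU62b.onto (by simp; norm_num)).mulProd)
    ((Class.psuCongr 6 2 (Class.ringEquivGF4 hF)).trans Spor.ModelU62.equiv).symm

end Cfsg.Agent.S2091
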