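import Cfsg.Statements.S2093
import Cfsg.Agent.Spor.MultSp62
import Cfsg.Agent.Spor.CovSp62

set_option autoImplicit false
open Cfsg

namespace Cfsg.Agent.S2093

/-- Exceptional Schur multiplier: over the field with 2 elements, PSp₆ has Schur multiplier cyclic of order 2 (here the Schur multiplier is described through stem extensions, as in the definitions). -/
theorem result {F : Type*} [Field F] [Fintype F] (hF : Fintype.card F = 2) : Cfsg.HasCyclicSchurMultiplier (Cfsg.PSp 3 F) 2 := by
  have hc : Subgroup.center (Matrix.symplecticGroup (Fin 3) (ZMod 2)) = ⊥ := by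
    refine eq_bot_iff.2 fun g hg => ?_
    rcases Class.Sp.mem_center_iff.1 hg with h | h
    · exact h
    · rw [h]; exact Subtype.ext (by decide)
  exact FGS.HasSchurMultiplier.congr_left (Spor.MultSp62.mult_of (by simp) Spor.CovSp62.onto)
    (((Class.pspCongr 3 (Class.ringEquivZMod hF)).trans
      ((QuotientGroup.quotientMulEquivOfEq hc).trans QuotientGroup.quotientBot)).trans
      Spor.ModelSp62.equiv).symm

end Cfsg.Agent.S2093
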