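import Cfsg.Statements.S2096
import Mathlib
import Cfsg.Agent.Mult.OFinish

set_option autoImplicit false
open Cfsg

namespace Cfsg.Agent.S2096

/-- Schur multipliers of the even-dimensional orthogonal groups of plus type and odd rank: for odd l ≥ 5 and a field F with q elements, the Schur multiplier of PΩ⁺_2l(F) (for the form Σ xᵢyᵢ) is cyclic of order gcd(4, q^l − 1); here the Schur multiplier is described through stem extensions, as in the definitions. -/
theorem result {F : Type*} [Field F] [Fintype F] {q : ℕ} (hF : Fintype.card F = q) (l : ℕ) (hl : 5 ≤ l) (hodd : Odd l) : Cfsg.HasCyclicSchurMultiplier (Cfsg.POmega F (Cfsg.quadFormPlus l F)) (Nat.gcd 4 (q ^ l - 1)) := by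
  subst hF
  have hQ := Class.Orth.nd_plusQF l F
  have hd : Module.finrank F (Fin l ⊕ Fin l → F) = 2 * l := by simp [two_mul]
  have hq : 0 < Fintype.card F ^ l := pow_pos Fintype.card_pos _
  refine FGS.HasSchurMultiplier.congr_left ?_
    (Class.Orth.pOmegaCongr (Class.Orth.plusEquiv l F)).symm
  rcases Class.Orth.two_eq_zero_or (F := F) with ⟨h2, hc⟩ | ⟨h2, hc⟩
  · have h3 : Fintype.card F ^ l % 2 = 0 := by rw [Nat.pow_mod, hc, zero_pow (by omega), Nat.zero_mod]
    have h4 : Nat.gcd 4 (Fintype.card F ^ l - 1) = 1 := by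
      rw [Nat.gcd_rec]
      have : (Fintype.card F ^ l - 1) % 4 = 1 ∨ (Fintype.card F ^ l - 1) % 4 = 3 := by omega
      rcases this with h | h <;> rw [h] <;> rfl
    rw [h4]
    exact Mult.pOmega_even hQ (by omega) (by omega) (by omega) h2
  have h6 := Class.Orth.negOne_mem_commutator_plus_iff (F := F) h2 l
  rcases Class.Orth.pow_mod_four_of_odd hc l with h3 | h3
  · rw [Nat.gcd_rec, show (Fintype.card F ^ l - 1) % 4 = 0 by omega]
    refine Mult.pOmega_four hQ (by omega) (by omega) h2 (h6.2 h3) ?_
    rw [hd, Nat.choose_two_right, mul_assoc, Nat.mul_div_cancel_left _ two_pos]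
    exact hodd.mul ⟨l - 1, by omega⟩
  · rw [Nat.gcd_rec, show (Fintype.card F ^ l - 1) % 4 = 2 by omega]
    exact Mult.pOmega_two hQ (by omega) (by omega) h2 fun h => by have := h6.1 h; omega

end Cfsg.Agent.S2096
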