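import Cfsg.Statements.S2097
import Mathlib
import Cfsg.Agent.Mult.OFinish

set_option autoImplicit false
open Cfsg

namespace Cfsg.Agent.S2097

/-- Schur multipliers of the even-dimensional orthogonal groups of plus type and even rank: for even l ≥ 4 and a field F with q elements, (l, q) ≠ (4, 2), the Schur multiplier of PΩ⁺_2l(F) (for the form Σ xᵢyᵢ) is the product of two cyclic groups of order gcd(2, q^l − 1) (so trivial for q even and a four-group for q odd; here the Schur multiplier is described through stem extensions, as in the definitions). -/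
theorem result {F : Type*} [Field F] [Fintype F] {q : ℕ} (hF : Fintype.card F = q) (l : ℕ) (hl : 4 ≤ l) (heven : Even l) (hexc : ¬ (l = 4 ∧ q = 2)) : Cfsg.HasSchurMultiplier (Cfsg.POmega F (Cfsg.quadFormPlus l F)) (Multiplicative (ZMod (Nat.gcd 2 (q ^ l - 1)) × ZMod (Nat.gcd 2 (q ^ l - 1)))) := by
  subst hF
  have hQ := Class.Orth.nd_plusQF l F
  have hd : Module.finrank F (Fin l ⊕ Fin l → F) = 2 * l := by simp [two_mul]
  have hq : 0 < Fintype.card F ^ l := pow_pos Fintype.card_pos _
  refine FGS.HasSchurMultiplier.congr_left ?_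
    (Class.Orth.pOmegaCongr (Class.Orth.plusEquiv l F)).symm
  rcases Class.Orth.two_eq_zero_or (F := F) with ⟨h2, hc⟩ | ⟨h2, hc⟩
  · have h3 : Fintype.card F ^ l % 2 = 0 := by rw [Nat.pow_mod, hc, zero_pow (by omega), Nat.zero_mod]
    rw [Nat.gcd_rec, show (Fintype.card F ^ l - 1) % 2 = 1 by omega, Nat.gcd_one_left]
    haveI : Unique (Multiplicative (ZMod 1 × ZMod 1)) := 
      @Unique.mk' _ ⟨1⟩ (inferInstanceAs (Subsingleton (ZMod 1 × ZMod 1)))
    refine FGS.HasSchurMultiplier.congr_right (Mult.pOmega_even hQ (by omega) (by omega)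
      (fun h => ?_) h2) MulEquiv.ofUnique
    rw [Nat.card_eq_fintype_card] at h
    omega
  have h3 : Fintype.card F ^ l % 4 = 1 := by
    obtain ⟨k, rfl⟩ := heven
    rw [← two_mul, pow_mul, Nat.pow_mod, show Fintype.card F ^ 2 % 4 = 1 by
      have : Fintype.card F % 4 = 1 ∨ Fintype.card F % 4 = 3 := by omega
      rcases this with h | h <;> rw [Nat.pow_mod, h]]
    simp
  rw [Nat.gcd_rec, show (Fintype.card F ^ l - 1) % 2 = 0 by omega, Nat.gcd_zero_left]
  refine Mult.pOmega_klein hQ (by omega) (by omega) h2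
    ((Class.Orth.negOne_mem_commutator_plus_iff h2 l).2 h3) ?_
  rw [hd, Nat.choose_two_right, mul_assoc, Nat.mul_div_cancel_left _ two_pos]
  exact heven.mul_right _

end Cfsg.Agent.S2097
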