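import Cfsg.Statements.S2099
import Mathlib
import Cfsg.Agent.Mult.OFinish

set_option autoImplicit false
open Cfsg

namespace Cfsg.Agent.S2099

/-- Schur multipliers of the even-dimensional orthogonal groups of minus type: for l ≥ 4 and a field F with q elements, the Schur multiplier of PΩ⁻_2l(F) (for the form Σ_{i<l−1} xᵢyᵢ + z₁² + a z₁z₂ + b z₂² with the binary part anisotropic) is cyclic of order gcd(4, q^l + 1); here the Schur multiplier is described through stem extensions, as in the definitions. -/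
theorem result {F : Type*} [Field F] [Fintype F] {q : ℕ} (hF : Fintype.card F = q) (l : ℕ) (hl : 4 ≤ l) (a b : F) (hab : ∀ z₁ z₂ : F, z₁ ^ 2 + a * z₁ * z₂ + b * z₂ ^ 2 = 0 → z₁ = 0 ∧ z₂ = 0) : Cfsg.HasCyclicSchurMultiplier (Cfsg.POmega F (Cfsg.quadFormMinus (l - 1) F a b)) (Nat.gcd 4 (q ^ l + 1)) := by
  subst hF
  obtain ⟨m, rfl⟩ : ∃ m, l = m + 1 := ⟨l - 1, by omega⟩
  rw [Nat.add_sub_cancel]
  have hQ := Class.Orth.nd_minusQF m hab
  have hd : Module.finrank F ((Fin m ⊕ Fin m) ⊕ Fin 2 → F) = 2 * (m + 1) := by simp; omega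
  refine FGS.HasSchurMultiplier.congr_left ?_
    (Class.Orth.pOmegaCongr (Class.Orth.minusEquiv m F a b)).symm
  rcases Class.Orth.two_eq_zero_or (F := F) with ⟨h2, hc⟩ | ⟨h2, hc⟩
  · have h3 : Fintype.card F ^ (m + 1) % 2 = 0 := by rw [Nat.pow_mod, hc, zero_pow (by omega), Nat.zero_mod]
    have h4 : Nat.gcd 4 (Fintype.card F ^ (m + 1) + 1) = 1 := by
      rw [Nat.gcd_rec]
      have : (Fintype.card F ^ (m + 1) + 1) % 4 = 1 ∨ (Fintype.card F ^ (m + 1) + 1) % 4 = 3 := by
        omega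
      rcases this with h | h <;> rw [h] <;> rfl
    rw [h4]
    exact Mult.pOmega_even hQ (by omega) (by omega)
      (fun _ _ => Class.Orth.not_isPlus_minusQF m hab) h2
  have h6 := Class.Orth.negOne_mem_commutator_minus_iff (F := F) h2 m hab
  rcases Class.Orth.pow_mod_four_of_odd hc (m + 1) with h3 | h3
  · rw [Nat.gcd_rec, show (Fintype.card F ^ (m + 1) + 1) % 4 = 2 by omega]
    exact Mult.pOmega_two hQ (by omega) (by omega) h2 fun h => by have := h6.1 h; omega
  · rw [Nat.gcd_rec, show (Fintype.card F ^ (m + 1) + 1) % 4 = 0 by omega]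
    refine Mult.pOmega_four hQ (by omega) (by omega) h2 (h6.2 h3) ?_
    rw [hd, Nat.choose_two_right, mul_assoc, Nat.mul_div_cancel_left _ two_pos]
    refine Odd.mul (Nat.not_even_iff_odd.1 ?_) ⟨m, by omega⟩
    rintro ⟨k, hk⟩
    rw [hk, ← two_mul, pow_mul, Nat.pow_mod, show Fintype.card F ^ 2 % 4 = 1 by
      have : Fintype.card F % 4 = 1 ∨ Fintype.card F % 4 = 3 := by omega
      rcases this with h | h <;> rw [Nat.pow_mod, h]] at h3
    simp at h3

end Cfsg.Agent.S2099
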