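import Cfsg.Statements.S2103
import Mathlib
import Cfsg.Agent.Mult.ChevMain

set_option autoImplicit false
open Cfsg

namespace Cfsg.Agent.S2103

/-- Schur multipliers of the Chevalley groups of type F₄: over a finite field with more than 2 elements the Schur multiplier of F₄(q) is trivial (here the Schur multiplier is described through stem extensions, as in the definitions); q = 2 is exceptional. -/
theorem result {F : Type*} [Field F] [Fintype F] (hF : 3 ≤ Fintype.card F) : Cfsg.HasCyclicSchurMultiplier ↥(Cfsg.Lie.chevF4.group F) 1 := by
  have h : Mult.Reg Lie.chevF4 F :=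
    Mult.reg_of_three (by simp) (by rw [Nat.card_eq_fintype_card]; omega)
  exact Mult.trivial_iff_mcard_eq_one.2 (le_antisymm (h.mcard_le.trans
    (Chev.card_ker_tor (p := (Lie.chevF4, 1)) rfl (by simp)).le) Mult.mcard_pos)

end Cfsg.Agent.S2103
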