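import Cfsg.Statements.S2104
import Mathlib
import Cfsg.Agent.Mult.F42Up

set_option autoImplicit false
open Cfsg

namespace Cfsg.Agent.S2104

/-- Exceptional Schur multiplier: over the field with 2 elements the Chevalley group of type F₄ has Schur multiplier cyclic of order 2 (here the Schur multiplier is described through stem extensions, as in the definitions). -/
theorem result {F : Type*} [Field F] [Fintype F] (hF : Fintype.card F = 2) : Cfsg.HasCyclicSchurMultiplier ↥(Cfsg.Lie.chevF4.group F) 2 := by
  have h2 : Nat.card F = 2 := by rw [Nat.card_eq_fintype_card, hF]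
  obtain ⟨Γ, _, _, σ, hσ, e⟩ := Mult.exists_cover (Lie.chevF4.group F)
  have h : Mult.mcard (Lie.chevF4.group F) = 2 :=
    le_antisymm (e ▸ Mult.F42.card_ker_le h2 hσ) (Mult.F42.one_lt_mcard h2)
  exact Mult.hasSchurMultiplier_of_card_le hσ
    (mulEquivOfPrimeCardEq (p := 2) (e.trans h) (by simp)) (by simp [h])

end Cfsg.Agent.S2104
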