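import Cfsg.Statements.S2106
import Mathlib
import Cfsg.Agent.Mult.ChevMain
import Cfsg.Agent.S1079

set_option autoImplicit false
open Cfsg

namespace Cfsg.Agent.S2106

/-- Schur multipliers of the (adjoint, simple) Chevalley groups of type E₇: over a field with q elements the Schur multiplier is cyclic of order gcd(2, q − 1) (here the Schur multiplier is described through stem extensions, as in the definitions). -/
theorem result {F : Type*} [Field F] [Fintype F] {q : ℕ} (hF : Fintype.card F = q) : Cfsg.HasCyclicSchurMultiplier ↥(Cfsg.Lie.chevE7.group F) (Nat.gcd 2 (q - 1)) := by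
  have h : Mult.Reg Lie.chevE7 F := Mult.reg_of_E (by simp)
  have := Mult.finite_steinbergGroup (F := F) h.mem
  obtain ⟨T⟩ := Chev.exists_rootTable h.mem
  obtain ⟨θ, hθ⟩ := (Chev.isSt_xC (D := Lie.chevE7) (F := F)).toIsSt0.exists_lift3 Chev.isR3_xC T
  have hk := (Chev.isSt0_stGen.isSt h.mem).ker_eq_center T θ hθ Chev.Gs_stGen
  have hc : Nat.card θ.ker = Nat.gcd 2 (q - 1) := by
    rw [hk]; exact S1079.result hF (Lie.chevE7, 2) (by simp)
  have hcyc : IsCyclic θ.ker := by
    have := Fact.mk Nat.prime_two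
    exact isCyclic_of_card_dvd_prime (p := 2) (hc ▸ Nat.gcd_dvd_left _ _)
  refine Mult.hasSchurMultiplier_of_card_le (σ := θ) ⟨Chev.surjective_of_hom θ hθ, hk.le,
    h.commutator_eq_top Chev.isSt0_stGen Chev.Gs_stGen ▸ le_top⟩
    (hc ▸ (zmodCyclicMulEquiv hcyc).symm) ?_
  rw [Nat.card_congr Multiplicative.toAdd, Nat.card_zmod]
  exact h.mcard_le.trans
    (Chev.card_ker_tor (p := (Lie.chevE7, Nat.gcd 2 (q - 1))) hF (by simp)).le

end Cfsg.Agent.S2106
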