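import Cfsg.Statements.S2107
import Mathlib
import Cfsg.Agent.Mult.ChevMain

set_option autoImplicit false
open Cfsg

namespace Cfsg.Agent.S2107

/-- Schur multipliers of the Chevalley groups of type E₈: over every finite field the Schur multiplier of E₈(q) is trivial (here the Schur multiplier is described through stem extensions, as in the definitions). -/
theorem result {F : Type*} [Field F] [Fintype F] : Cfsg.HasCyclicSchurMultiplier ↥(Cfsg.Lie.chevE8.group F) 1 := by
  have h : Mult.Reg Lie.chevE8 F := Mult.reg_of_E (by simp)
  exact Mult.trivial_iff_mcard_eq_one.2 (le_antisymm (h.mcard_le.trans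
    (Chev.card_ker_tor (p := (Lie.chevE8, 1)) rfl (by simp)).le) Mult.mcard_pos)

end Cfsg.Agent.S2107
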