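import Cfsg.Statements.S2141
import Cfsg.Agent.Class.MinDegO.SpFour
-- import your own Cfsg.Agent.* helpers here

set_option autoImplicit false
open Cfsg

namespace Cfsg.Agent.S2141

open Cfsg.Agent.Class.MinDegO Cfsg.Agent.Class.Max

/-- Minimal index of a proper subgroup of the symplectic groups over fields with at least 3 elements: for m ≥ 2 and a field F with q ≥ 3 elements, (m, q) ≠ (2, 3), every proper subgroup of PSp_2m(F) has index at least (q^(2m) − 1)/(q − 1), and that index is attained. -/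
theorem result {F : Type*} [Field F] [Fintype F] {q : ℕ} (hF : Fintype.card F = q) (m : ℕ) (hm : 2 ≤ m) (hq : 3 ≤ q) (hexc : ¬ (m = 2 ∧ q = 3)) : (∀ H : Subgroup (Cfsg.PSp m F), H ≠ ⊤ → (q ^ (2 * m) - 1) / (q - 1) ≤ H.index) ∧ (∃ H : Subgroup (Cfsg.PSp m F), H.index = (q ^ (2 * m) - 1) / (q - 1)) := by
  rw [← Nat.card_eq_fintype_card] at hF
  subst hF
  have hΦ : IsSp (fmSpStd F m) := ⟨fun _ => rfl, rfl, fun _ => rfl, fun _ => rfl, rfl⟩
  have hr : Module.finrank F (Fin m ⊕ Fin m → F) = 2 * m := by simp; omega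
  refine transfer_sing _ (spHom_injective m) (range_spHom m) (by rw [hr, hΦ.hd]; omega)
    (by rw [hΦ.ns_eq, hr]) fun H h1 h2 h3 => ?_
  by_cases c : m = 2
  · exact hΦ.four (by omega) (by omega) h1 h2 h3
  · exact absurd (hΦ.six (by omega) hq h1 h2 (by rw [hΦ.ns_eq] at h3; omega)) (not_le.2 h3)

end Cfsg.Agent.S2141
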