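import Cfsg.Statements.S2142
import Cfsg.Agent.Class.MinDegO.SpTwo
-- import your own Cfsg.Agent.* helpers here

set_option autoImplicit false
open Cfsg

namespace Cfsg.Agent.S2142

open Cfsg.Agent.Class.MinDegO Cfsg.Agent.Class.Max Cfsg.Agent.Class

/-- Minimal index of a proper subgroup of the symplectic groups over the field with 2 elements: for m ≥ 3, every proper subgroup of Sp_2m(2) has index at least 2^(m−1)(2^m − 1), and that index is attained. -/
theorem result {F : Type*} [Field F] [Fintype F] (hF : Fintype.card F = 2) (m : ℕ) (hm : 3 ≤ m) : (∀ H : Subgroup (Cfsg.PSp m F), H ≠ ⊤ → 2 ^ (m - 1) * (2 ^ m - 1) ≤ H.index) ∧ (∃ H : Subgroup (Cfsg.PSp m F), H.index = 2 ^ (m - 1) * (2 ^ m - 1)) := by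
  rw [← Nat.card_eq_fintype_card] at hF
  have hΦ := isSp_std (F := F) m
  have hr : Module.finrank F (Fin m ⊕ Fin m → F) = 2 * m := by simp; omega
  have h0 : IsQd (fmSpStd F m) fun v => ∑ i, v (.inl i) * v (.inr i) := fun u v => by
    change _ = _ + sympForm m F u v
    rw [Sp.form_eq, ← Finset.sum_add_distrib, ← Finset.sum_add_distrib]
    refine Finset.sum_congr rfl fun i _ => ?_
    simp only [Pi.add_apply]
    linear_combination (u (.inl i) * v (.inr i)) * two_eq_zero_of_two hF
  obtain ⟨Q, hQ, h1⟩ := h0.exists_minus hΦ hF hr (by omega)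
  have key : 2 * (2 ^ (m - 1) * (2 ^ m - 1)) + 2 ^ m = 2 ^ (2 * m) := by
    rw [← mul_assoc, ← pow_succ', show m - 1 + 1 = m by omega, ← Nat.mul_succ, two_mul, pow_add]
    exact congrArg _ (Nat.succ_pred_eq_of_pos (Nat.two_pow_pos m))
  refine transfer _ (spHom_injective m) (range_spHom m) (fun H hH hE => ?_) (P := stabF Q)
    (fun z hz hc v => ?_) (by rw [hQ.relIndex_eq hΦ hF hr]; omega)
  · by_contra c
    have h2 : 2 ^ (2 * m) = 2 * 2 ^ (2 * m - 1) := by rw [← pow_succ']; congr 1; omega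
    have h3 := hΦ.two (by omega) hF hH hE (by rw [hr]; linarith [Nat.two_pow_pos m])
    have h4 := h3.le_relIndex hΦ hF fun g hg => Qf_conj hH hg
    rcases h3.card hΦ hF hr with h5 | h5 <;> linarith [Nat.two_pow_pos m]
  · by_cases c : v = 0
    · simp [c]
    obtain ⟨t, ht⟩ := (mem_Px.1 (central_mem_Px_sing (by omega) (hΦ.hQ v) c hz hc)).1
    rw [ht, eq_one_of_two hF (smul_ne_of_eq c ht), one_smul]

end Cfsg.Agent.S2142
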