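import Cfsg.Statements.S2143
import Cfsg.Agent.Class.MinDegO.OFin
-- import your own Cfsg.Agent.* helpers here

set_option autoImplicit false
open Cfsg

namespace Cfsg.Agent.S2143

open Cfsg.Agent.Class.MinDegO Cfsg.Agent.Class.Max

/-- Minimal index of a proper subgroup of the odd-dimensional orthogonal groups: for m ≥ 3 and a field F with q elements, q odd and q ≥ 5, every proper subgroup of PΩ_(2m+1)(F) (for the form x₀² + Σ xᵢyᵢ) has index at least (q^(2m) − 1)/(q − 1), and that index is attained. -/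
theorem result {F : Type*} [Field F] [Fintype F] {q : ℕ} (hF : Fintype.card F = q) (hodd : Odd q) (h5 : 5 ≤ q) (m : ℕ) (hm : 3 ≤ m) : (∀ H : Subgroup (Cfsg.POmega F (Cfsg.quadFormOdd m F)), H ≠ ⊤ → (q ^ (2 * m) - 1) / (q - 1) ≤ H.index) ∧ (∃ H : Subgroup (Cfsg.POmega F (Cfsg.quadFormOdd m F)), H.index = (q ^ (2 * m) - 1) / (q - 1)) := by
  have hQ := isNondegenerateQuadraticForm_odd (hF ▸ hodd) m
  rw [← Nat.card_eq_fintype_card] at hF
  subst hF
  have hr : Module.finrank F (Unit ⊕ (Fin m ⊕ Fin m) → F) = 2 * m + 1 := by simp; omega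
  refine transfer_sing _ (omegaHom_injective _) (range_omegaHom hQ (by simp; omega))
    (by rw [hr, (isO_fmO hQ).hd]; omega) (ns_odd hQ) fun H h1 h2 h3 => ?_
  have hN : ns (fmO hQ) ≤ (Nat.card F - 1) * (2 * Nat.card F ^
      (Module.finrank F (Unit ⊕ (Fin m ⊕ Fin m) → F) - 2)) := by
    obtain ⟨q, hq⟩ : ∃ q, Nat.card F = q + 1 := ⟨_, (Nat.sub_add_cancel Nat.card_pos).symm⟩
    obtain ⟨k, hk⟩ : ∃ k, 2 * m = k + 1 := ⟨2 * m - 1, by omega⟩
    rw [ns_odd, hr, hq, hk, pow_succ]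
    refine (Nat.sub_le _ _).trans ?_
    simp only [Nat.add_sub_cancel, show k + 1 + 1 - 2 = k from rfl]
    nlinarith [Nat.mul_le_mul_left ((q + 1) ^ k) (show 1 ≤ q by omega)]
  rcases (isO_fmO hQ).big (by omega) (.inr (two_ne_zero_of_odd hodd)) (by omega) h1
    (lt_two_mul_of_lt h3 hN) with h | h | h
  · exact h2 h
  · omega
  · omega

end Cfsg.Agent.S2143
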