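import Cfsg.Statements.S2144
import Cfsg.Agent.Class.MinDegO.OFin2
-- import your own Cfsg.Agent.* helpers here

set_option autoImplicit false
open Cfsg

namespace Cfsg.Agent.S2144

open Cfsg.Agent.Class.MinDegO Cfsg.Agent.Class.Max

/-- Minimal index of a proper subgroup of the odd-dimensional orthogonal groups over the field with 3 elements: for m ≥ 3, every proper subgroup of PΩ_(2m+1)(3) (for the form x₀² + Σ xᵢyᵢ) has index at least 3^m(3^m − 1)/2, and that index is attained. -/
theorem result {F : Type*} [Field F] [Fintype F] (hF : Fintype.card F = 3) (m : ℕ) (hm : 3 ≤ m) : (∀ H : Subgroup (Cfsg.POmega F (Cfsg.quadFormOdd m F)), H ≠ ⊤ → 3 ^ m * (3 ^ m - 1) / 2 ≤ H.index) ∧ (∃ H : Subgroup (Cfsg.POmega F (Cfsg.quadFormOdd m F)), H.index = 3 ^ m * (3 ^ m - 1) / 2) := by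
  rw [← Nat.card_eq_fintype_card] at hF
  have hodd : Odd (Nat.card F) := by rw [hF]; decide
  have hQ := isNondegenerateQuadraticForm_odd (Nat.card_eq_fintype_card (α := F) ▸ hodd) m
  have hO := isO_fmO hQ
  have hr : Module.finrank F (Unit ⊕ (Fin m ⊕ Fin m) → F) = 2 * m + 1 := by simp; omega
  have h2 := two_ne_zero_of_odd hodd
  obtain ⟨c, hc⟩ := (fmO hQ).big_top (by rw [hr, hO.hd]; omega) |>.exists_norm (e := Pi.single (.inl ()) 1)
    ⟨Pi.single (.inl ()) 1, trivial, by
      rw [fmO_B, ← Cfsg.Agent.Class.Orth.coe_oddQF, Cfsg.Agent.Class.Orth.polar_oddQF]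
      simpa using h2⟩ (-1)
  have hc' : (fmO hQ).Q c = -1 := hc.2.2.2.symm
  have h3 : Nat.card {x : F // x * x = -1} = 0 := by
    have : IsEmpty {x : F // x * x = -1} := ⟨fun ⟨x, hx⟩ => by
      have h0 : x ≠ 0 := fun c => by simp [c] at hx
      rcases small_field hF.le x h0 with rfl | rfl <;> exact h2 (by linear_combination hx)⟩
    simp
  have h4 : 1 ≤ 3 ^ m := Nat.one_le_pow _ _ (by omega)
  refine transfer _ (omegaHom_injective _) (range_omegaHom hQ (by simp; omega))
    (fun H h1 h5 => ?_) (P := Px (fmO hQ) c) (fun z => central_mem_Px (by rw [hr, hO.hd]; omega) c) ?_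
  · refine Nat.div_le_of_le_mul (not_lt.1 fun h6 => ?_)
    rcases hO.small (by omega) (.inr h2) (small_field hF.le) h1 (by
      obtain ⟨k, rfl⟩ : ∃ k, m = k + 1 := ⟨m - 1, by omega⟩
      rw [hr, hF, show 2 * (k + 1) + 1 - 2 = k + k + 1 by omega, pow_succ, pow_add]
      have := h6.trans_le (Nat.mul_le_mul_left _ (Nat.sub_le _ _))
      rw [pow_succ] at this
      nlinarith) with h | h | ⟨w, hw, h⟩ | h
    · exact h5 h
    · rw [ns_odd, hF, two_mul, pow_add] at h
      rw [Nat.mul_sub] at h6
      omega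
    · have := hO.le_of_le_Px (by omega) hF.le hw h
      rw [hF] at this
      have e := card_odd_eq (F := F) m ((fmO hQ).Q w)
      rw [hF] at e
      exact absurd (e.symm.trans_le this) (by omega)
    · omega
  · have := hO.relIndex_Px_small (by omega) hF.le (w := c) (by simp [hc'])
    have e := card_odd_eq (F := F) m (-1)
    rw [h3, hF] at e
    rw [hc', hF] at this
    have := this.trans e
    omega

end Cfsg.Agent.S2144
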