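import Cfsg.Statements.S2145
import Cfsg.Agent.Class.MinDegO.OFin
-- import your own Cfsg.Agent.* helpers here

set_option autoImplicit false
open Cfsg

namespace Cfsg.Agent.S2145

open Cfsg.Agent.Class.MinDegO Cfsg.Agent.Class.Max

/-- Minimal index of a proper subgroup of the even-dimensional orthogonal groups of plus type: for m ≥ 4 and a field F with q ≥ 4 elements, every proper subgroup of PΩ⁺_2m(F) (for the form Σ xᵢyᵢ) has index at least (q^m − 1)(q^(m−1) + 1)/(q − 1), and that index is attained (the singular points). -/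
theorem result {F : Type*} [Field F] [Fintype F] {q : ℕ} (hF : Fintype.card F = q) (hq : 4 ≤ q) (m : ℕ) (hm : 4 ≤ m) : (∀ H : Subgroup (Cfsg.POmega F (Cfsg.quadFormPlus m F)), H ≠ ⊤ → (q ^ m - 1) * (q ^ (m - 1) + 1) / (q - 1) ≤ H.index) ∧ (∃ H : Subgroup (Cfsg.POmega F (Cfsg.quadFormPlus m F)), H.index = (q ^ m - 1) * (q ^ (m - 1) + 1) / (q - 1)) := by
  obtain ⟨m, rfl⟩ : ∃ k, m = k + 1 := ⟨m - 1, by omega⟩
  have hQ := isNondegenerateQuadraticForm_plus (F := F) (m + 1)
  rw [← Nat.card_eq_fintype_card] at hF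
  subst hF
  have hr : Module.finrank F (Fin (m + 1) ⊕ Fin (m + 1) → F) = 2 * m + 2 := by simp; omega
  refine transfer_sing _ (omegaHom_injective _) (range_omegaHom hQ (by simp; omega))
    (by rw [hr, (isO_fmO hQ).hd]; omega) (ns_plus hQ) fun H h1 h2 h3 => ?_
  obtain ⟨q, hq'⟩ : ∃ q, Nat.card F = q + 1 := ⟨_, (Nat.sub_add_cancel Nat.card_pos).symm⟩
  have hN : ns (fmO hQ) ≤ (Nat.card F - 1) * (2 * Nat.card F ^
      (Module.finrank F (Fin (m + 1) ⊕ Fin (m + 1) → F) - 2)) := by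
    rw [ns_plus, hr, hq', pow_succ, Nat.add_sub_cancel, Nat.add_sub_cancel, two_mul m, pow_add]
    have h5 : q + 1 ≤ (q + 1) ^ m := Nat.le_self_pow (by omega) _
    generalize (q + 1) ^ m = X at *
    refine (Nat.mul_le_mul_right _ (Nat.sub_le _ _)).trans ?_
    nlinarith [Nat.mul_le_mul_left X h5, Nat.mul_le_mul_left (X * X) (show 3 ≤ q by omega)]
  rcases (isO_fmO hQ).big (by omega) (.inl (by omega)) hq h1
    (lt_two_mul_of_lt h3 hN) with h | h | ⟨h4, -, h⟩
  · exact h2 h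
  · omega
  · obtain rfl : m = 3 := by omega
    have e : (q + 1) ^ (3 + 1) - 1 = q * (((q + 1) ^ 2 + 1) * (q + 1 + 1)) :=
      Nat.sub_eq_of_eq_add (by ring)
    rw [ns_plus, hq', e, Nat.add_sub_cancel, mul_assoc] at h3
    rw [hq'] at h
    exact absurd (Nat.lt_of_mul_lt_mul_left h3) (not_lt.2 (by linarith))

end Cfsg.Agent.S2145
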