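import Cfsg.Statements.S2146
import Cfsg.Agent.Class.MinDegO.OFin2
-- import your own Cfsg.Agent.* helpers here

set_option autoImplicit false
open Cfsg

namespace Cfsg.Agent.S2146

open Cfsg.Agent.Class.MinDegO Cfsg.Agent.Class.Max

/-- Minimal index of a proper subgroup of the even-dimensional orthogonal groups of plus type over the field with 2 elements: for m ≥ 4, every proper subgroup of Ω⁺_2m(2) (for the form Σ xᵢyᵢ) has index at least 2^(m−1)(2^m − 1), and that index is attained. -/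
theorem result {F : Type*} [Field F] [Fintype F] (hF : Fintype.card F = 2) (m : ℕ) (hm : 4 ≤ m) : (∀ H : Subgroup (Cfsg.POmega F (Cfsg.quadFormPlus m F)), H ≠ ⊤ → 2 ^ (m - 1) * (2 ^ m - 1) ≤ H.index) ∧ (∃ H : Subgroup (Cfsg.POmega F (Cfsg.quadFormPlus m F)), H.index = 2 ^ (m - 1) * (2 ^ m - 1)) := by
  obtain ⟨m, rfl⟩ : ∃ k, m = k + 1 := ⟨m - 1, by omega⟩
  rw [← Nat.card_eq_fintype_card] at hF
  have hQ := isNondegenerateQuadraticForm_plus (F := F) (m + 1)
  have hO := isO_fmO hQ
  have hr : Module.finrank F (Fin (m + 1) ⊕ Fin (m + 1) → F) = 2 * m + 2 := by simp; omega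
  have key : ∀ w, (fmO hQ).Q w ≠ 0 →
      Nat.card {v // (fmO hQ).Q v = (fmO hQ).Q w} = 2 ^ m * (2 ^ (m + 1) - 1) := fun w hw => by
    have := card_plus_eq (F := F) (m + 1) hw
    rw [hF, pow_succ' 2 m, mul_assoc, ← pow_succ' 2 m] at this
    exact Nat.eq_of_mul_eq_mul_left two_pos this
  have hc : (fmO hQ).Q (Pi.single (.inl 0) 1 + Pi.single (.inr 0) 1) ≠ 0 := by
    simp [fmO_Q, quadFormPlus, Pi.single_apply]
  have hc' := hO.relIndex_Px_small (by omega) (by omega) hc
  rw [hF, key _ hc, show 2 - 1 = 1 from rfl, one_mul] at hc'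
  rw [Nat.add_sub_cancel]
  refine transfer _ (omegaHom_injective _) (range_omegaHom hQ (by simp; omega))
    (fun H h1 h5 => not_lt.1 fun h6 => ?_) (P := Px (fmO hQ) _)
    (fun z => central_mem_Px (by rw [hr, hO.hd]; omega) _) hc'
  rcases hO.small (by omega) (.inl (by omega)) (small_field (by omega)) h1 (by
    rw [hr, hF, Nat.add_sub_cancel, two_mul m, pow_add]
    have := h6.trans_le (Nat.mul_le_mul_left _ (Nat.sub_le _ _))
    rw [pow_succ] at this
    nlinarith) with h | h | ⟨w, hw, h⟩ | ⟨h7, -, h⟩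
  · exact h5 h
  · rw [ns_plus, hF] at h
    nlinarith
  · have := hO.le_of_le_Px (by omega) (by omega) hw h
    rw [key w hw, hF] at this
    omega
  · obtain rfl : m = 3 := by omega
    rw [hF] at h
    omega

end Cfsg.Agent.S2146
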