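import Cfsg.Statements.S2147
import Cfsg.Agent.Class.MinDegO.OFin2
-- import your own Cfsg.Agent.* helpers here

set_option autoImplicit false
open Cfsg

namespace Cfsg.Agent.S2147

open Cfsg.Agent.Class.MinDegO Cfsg.Agent.Class.Max

/-- Minimal index of a proper subgroup of the even-dimensional orthogonal groups of minus type: for m ≥ 4 and a field F with q elements, every proper subgroup of PΩ⁻_2m(F) (for the form Σ_{i<m−1} xᵢyᵢ + z₁² + a z₁z₂ + b z₂² with anisotropic binary part) has index at least (q^m + 1)(q^(m−1) − 1)/(q − 1), and that index is attained. -/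
theorem result {F : Type*} [Field F] [Fintype F] {q : ℕ} (hF : Fintype.card F = q) (m : ℕ) (hm : 4 ≤ m) (a b : F) (hab : ∀ z₁ z₂ : F, z₁ ^ 2 + a * z₁ * z₂ + b * z₂ ^ 2 = 0 → z₁ = 0 ∧ z₂ = 0) : (∀ H : Subgroup (Cfsg.POmega F (Cfsg.quadFormMinus (m - 1) F a b)), H ≠ ⊤ → (q ^ m + 1) * (q ^ (m - 1) - 1) / (q - 1) ≤ H.index) ∧ (∃ H : Subgroup (Cfsg.POmega F (Cfsg.quadFormMinus (m - 1) F a b)), H.index = (q ^ m + 1) * (q ^ (m - 1) - 1) / (q - 1)) := by
  obtain ⟨m, rfl⟩ : ∃ k, m = k + 1 := ⟨m - 1, by omega⟩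
  rw [Nat.add_sub_cancel]
  have hQ := isNondegenerateQuadraticForm_minus m hab
  have hO := isO_fmO hQ
  rw [← Nat.card_eq_fintype_card] at hF
  subst hF
  have hr : Module.finrank F ((Fin m ⊕ Fin m) ⊕ Fin 2 → F) = 2 * m + 2 := by simp; omega
  refine transfer_sing _ (omegaHom_injective _) (range_omegaHom hQ (by simp; omega))
    (by rw [hr, hO.hd]; omega) (ns_minus hab hQ) fun H h1 h2 h3 => ?_
  have hN : ns (fmO hQ) ≤ (Nat.card F - 1) * (2 * Nat.card F ^
      (Module.finrank F ((Fin m ⊕ Fin m) ⊕ Fin 2 → F) - 2)) := by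
    obtain ⟨q, hq'⟩ : ∃ q, Nat.card F = q + 1 := ⟨_, (Nat.sub_add_cancel Nat.card_pos).symm⟩
    have h0 := one_lt_card_field (F := F)
    rw [ns_minus hab, hr, hq', pow_succ, Nat.add_sub_cancel, Nat.add_sub_cancel, two_mul m, pow_add]
    obtain ⟨X, hX⟩ : ∃ X, (q + 1) ^ m = X + 1 := ⟨_, (Nat.sub_add_cancel (Nat.one_le_pow _ _ q.succ_pos)).symm⟩
    rw [hX, Nat.add_sub_cancel]
    nlinarith [Nat.mul_le_mul_left (X * X) (show 1 ≤ q by omega),
      Nat.mul_le_mul_left X (show 1 ≤ q by omega)]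
  have hS : ∀ S : Submodule F ((Fin m ⊕ Fin m) ⊕ Fin 2 → F), (fmO hQ).TS S →
      2 * Module.finrank F S ≠ Module.finrank F ((Fin m ⊕ Fin m) ⊕ Fin 2 → F) := fun S h4 h5 =>
    Cfsg.Agent.Class.Orth.not_isPlus_minusQF m hab ⟨S, fun u hu => by
      rw [Cfsg.Agent.Class.Orth.minusQF_apply]; exact h4.1 u hu, h5⟩
  by_cases h4 : 4 ≤ Nat.card F
  · rcases hO.big (by omega) (.inl (by omega)) h4 h1 (lt_two_mul_of_lt h3 hN) with
      h | h | ⟨h5, ⟨S, h6, h7⟩, -⟩
    · exact h2 h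
    · omega
    · exact hS S h6 (by omega)
  · rcases hO.small (by omega) (.inl (by omega)) (small_field (by omega)) h1
      (lt_two_mul_of_lt h3 hN) with h | h | ⟨w, hw, h⟩ | ⟨h5, ⟨S, h6, h7⟩, -⟩
    · exact h2 h
    · omega
    · have := (card_minus_ge m hab _).trans (hO.le_of_le_Px (by omega) (by omega) hw h)
      rw [ns_minus hab] at h3
      omega
    · exact hS S h6 (by omega)

end Cfsg.Agent.S2147
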