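import Cfsg.Statements.S2152
import Cfsg.Agent.Class.MinDegU.Big
-- import your own Cfsg.Agent.* helpers here

set_option autoImplicit false
open Cfsg

namespace Cfsg.Agent.S2152

open Cfsg.Agent.Class Cfsg.Agent.Class.MinDegO Cfsg.Agent.Class.MinDegU

/-- Minimal index of a proper subgroup of the unitary groups of even dimension n ≥ 6: for a field F with q² elements, q ≥ 3, every proper subgroup of PSU_n(q) has index at least (q^n − 1)(q^(n−1) + 1)/(q² − 1), and that index is attained (the isotropic points). -/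
theorem result {F : Type*} [Field F] [Fintype F] (q : ℕ) (hF : Fintype.card F = q ^ 2) (hq : 3 ≤ q) (n : ℕ) (hn : 6 ≤ n) (heven : Even n) : (∀ H : Subgroup (Cfsg.PSU n F q), H ≠ ⊤ → (q ^ n - 1) * (q ^ (n - 1) + 1) / (q ^ 2 - 1) ≤ H.index) ∧ (∃ H : Subgroup (Cfsg.PSU n F q), H.index = (q ^ n - 1) * (q ^ (n - 1) + 1) / (q ^ 2 - 1)) := by
  have := U.UF.of_card hF
  have hr : Module.finrank F (Fin n → F) = n := by simp
  have h := (hm_std (F := F) n q).transfer_sing (by omega) _ (suHom_injective n q)
    (range_suHom n q) (by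
      rw [hr, nI, nN, if_pos heven, if_pos heven, mul_comm, ← mul_assoc]
      have : 1 ≤ q ^ (n - 1) := Nat.one_le_pow _ _ (by omega)
      exact Nat.mul_le_mul_right _ (le_trans (by omega)
        (Nat.mul_le_mul_right _ (show 2 ≤ q - 1 by omega))))
  rwa [hr, nI, if_pos heven] at h

end Cfsg.Agent.S2152
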