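import Cfsg.Statements.S2153
import Cfsg.Agent.Class.MinDegU.Big
-- import your own Cfsg.Agent.* helpers here

set_option autoImplicit false
open Cfsg

namespace Cfsg.Agent.S2153

open Cfsg.Agent.Class Cfsg.Agent.Class.MinDegO Cfsg.Agent.Class.MinDegU

/-- Minimal index of a proper subgroup of the unitary groups PSU_n(2) with n divisible by 6, realised over the field with 4 elements: every proper subgroup has index at least 2^(n−1)(2^n − 1)/3, and that index is attained. -/
theorem result {F : Type*} [Field F] [Fintype F] (hF : Fintype.card F = 4) (n : ℕ) (hn : 6 ∣ n) (hpos : 6 ≤ n) : (∀ H : Subgroup (Cfsg.PSU n F 2), H ≠ ⊤ → 2 ^ (n - 1) * (2 ^ n - 1) / 3 ≤ H.index) ∧ (∃ H : Subgroup (Cfsg.PSU n F 2), H.index = 2 ^ (n - 1) * (2 ^ n - 1) / 3) := by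
  have : U.UF F 2 := U.UF.of_card hF
  have he : Even n := even_iff_two_dvd.2 (dvd_trans (by norm_num) hn)
  have hr : Module.finrank F (Fin n → F) = n := by simp
  have h := (hm_std (F := F) n 2).transfer_nonsing (by omega) _ (suHom_injective n 2)
    (range_suHom n 2) (by
      rw [hr, nI, nN, if_pos he, if_pos he, show 2 - 1 = 1 from rfl, one_mul, mul_comm]
      exact Nat.mul_le_mul_left _ (by omega))
  rwa [hr, nN, if_pos he] at h

end Cfsg.Agent.S2153
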