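import Cfsg.Statements.S2154
import Cfsg.Agent.St.BorelTits
import Cfsg.Agent.Chev.Types

set_option autoImplicit false
open Cfsg

namespace Cfsg.Agent.S2154

open Cfsg.Agent.Chev Cfsg.Agent.St

/-- The Borel–Tits property of the finite Chevalley groups of types G₂, B₂, D₄, F₄, E₆, E₇, E₈ over a finite field of characteristic p: for every non-trivial p-subgroup U of the group G there are an element g of G and a proper set J of fundamental roots such that the normaliser of U in G lies in the conjugate by g of the standard parabolic subgroup P_J and U lies in the conjugate by g of its unipotent radical U_J. -/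
theorem result {F : Type*} [Field F] [Fintype F] (p : ℕ) [Fact p.Prime] [CharP F p] (D : Cfsg.Lie.ChevalleyDatum) (hD : D ∈ [Cfsg.Lie.chevG2, Cfsg.Lie.chevB2, Cfsg.Lie.chevD4, Cfsg.Lie.chevF4, Cfsg.Lie.chevE6, Cfsg.Lie.chevE7, Cfsg.Lie.chevE8]) (U : Subgroup (GL D.Idx F)) (hUG : U ≤ D.group F) (hU : IsPGroup p ↥U) (hne : U ≠ ⊥) : ∃ g ∈ D.group F, ∃ J : Set ℕ, (∃ i, i < D.rank ∧ i ∉ J) ∧ Subgroup.normalizer (U : Set (GL D.Idx F)) ⊓ D.group F ≤ (D.parabolicSubgroup F J).map (MulAut.conj g).toMonoidHom ∧ U ≤ (D.unipotentRadical F J).map (MulAut.conj g).toMonoidHom := by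
  obtain ⟨inst⟩ := good_of_mem hD
  obtain ⟨T⟩ := exists_rootTable hD
  obtain ⟨g, J, h1, h2, h3⟩ := borel_tits_pGroup (isND_xC T) isSt_xC Gs_xC p
    (not_dvd_card_Hs_xC F p) (X := U.subgroupOf (D.group F)) hU.comap_subtype
    (fun e => hne (by rwa [Subgroup.subgroupOf_eq_bot, disjoint_iff, inf_eq_left.2 hUG] at e))
  refine ⟨g, g.2, Fin.val '' J, ?_, fun y hy => ?_, fun u hu => ?_⟩
  · obtain ⟨i, hi⟩ := (Set.ne_univ_iff_exists_notMem J).1 h1
    exact ⟨i, i.2, by simpa [Fin.val_inj] using hi⟩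
  · have h4 := h3 ⟨y, hy.2⟩ (Subgroup.mem_normalizer_iff.2 fun u =>
      Subgroup.mem_normalizer_iff.1 hy.1 u)
    rw [Ps_xC, ← parabolicSubgroup_eq] at h4
    exact ⟨_, h4, by simp [mul_assoc]⟩
  · have h4 := h2 ⟨u, hUG hu⟩ hu
    rw [UJ_xC, ← unipotentRadical_eq] at h4
    exact ⟨_, h4, by simp [mul_assoc]⟩

end Cfsg.Agent.S2154
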