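import Mathlib
import Cfsg.Statements.S2155
import Cfsg.Agent.UL.Chev
import Cfsg.Agent.PLocal.FStar

set_option autoImplicit false
open Cfsg

namespace Cfsg.Agent.S2155
open Cfsg.Agent.Char

/-- In a Chevalley group of type G₂, B₂, D₄, F₄, E₆, E₇ or E₈ over a finite field of characteristic p (for types G₂ and B₂ the field is assumed to have at least 3 elements, so that the group is simple), the generalized Fitting subgroup of every proper standard parabolic subgroup P_J is a p-group (P_J is p-constrained with trivial largest normal subgroup of order prime to p). -/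
theorem result {F : Type*} [Field F] [Fintype F] (p : ℕ) [Fact p.Prime] [CharP F p] (D : Cfsg.Lie.ChevalleyDatum) (hD : D ∈ [Cfsg.Lie.chevG2, Cfsg.Lie.chevB2, Cfsg.Lie.chevD4, Cfsg.Lie.chevF4, Cfsg.Lie.chevE6, Cfsg.Lie.chevE7, Cfsg.Lie.chevE8]) (hq : (D = Cfsg.Lie.chevG2 ∨ D = Cfsg.Lie.chevB2) → 3 ≤ Fintype.card F) (J : Set ℕ) (hJ : ∃ i, i < D.rank ∧ i ∉ J) : IsPGroup p ↥(Cfsg.generalizedFittingSubgroup ↥(D.parabolicSubgroup F J)) := by
  obtain ⟨inst⟩ := Chev.good_of_mem hD
  obtain ⟨T⟩ := Chev.exists_rootTable hD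
  obtain ⟨i, hi, hiJ⟩ := hJ
  have h := UL.isCharP_par (St.chevSplit F T p) (UL.irred_chev F T) (UL.core_chev F T)
    (J := {k | (k : ℕ) ∈ J}) fun h => hiJ (h ▸ Set.mem_univ (⟨i, hi⟩ : Fin D.rank) :
      (⟨i, hi⟩ : Fin D.rank) ∈ {k : Fin D.rank | (k : ℕ) ∈ J})
  have hle : D.parabolicSubgroup F J ≤ D.group F := by
    rw [Chev.parabolicSubgroup_eq, Chev.group_eq]
    exact T.Ps_le_Gs J
  rw [St.chevSplit_toTits, St.chevTits_par, PLocal.CP.isCharP_subgroupOf_iff hle,
    PLocal.CP.isCharP_iff] at h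
  have : Finite (D.parabolicSubgroup F J) :=
    Finite.of_injective _ (Subgroup.inclusion_injective hle)
  rw [PLocal.isPGroup_fstar_iff, PLocal.fstar_eq_pCore_iff]
  exact h

end Cfsg.Agent.S2155
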