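import Cfsg.Statements.S2161
import Cfsg.Agent.Chev.GraphSets
-- import your own Cfsg.Agent.* helpers here

set_option autoImplicit false
open Cfsg

namespace Cfsg.Agent.S2161

open Cfsg.Lie Chev in
theorem cvec_eq_vec {D : ChevalleyDatum} (T : RootTable D) (h : ∀ i j, cm D i j = cm D j i)
    {r : ℕ} (hr : r < 2 * T.N) : cvec D r = T.vec r := by
  refine T.root_induction (P := fun r => cvec D r = T.vec r) (fun i => ?_) (fun i r hr ih => ?_) hr
  · rw [T.cvec_simple, T.vec_simple]
  · rw [T.cvec_refl i r hr, T.vec_refl' i r hr, pairing_eq, T.cartan_eq i r hr, scoroot_apply, ih]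
    congr 2
    exact Finset.sum_congr rfl fun j _ => by rw [h, mul_comm]; rfl

open Cfsg.Lie Chev in
theorem permRoot_eq {D : ChevalleyDatum} (T : RootTable D) (h : ∀ i j, cm D i j = cm D j i)
    (π : Equiv.Perm (Fin D.rank)) {r r' : ℕ} (hr : r < 2 * T.N) (hr' : r' < 2 * T.N)
    (e : ∀ i, T.vec r' (π i) = T.vec r i) : D.permRoot π r = r' := by
  rw [ChevalleyDatum.permRoot]
  cases hf : (List.range D.nroots).find? fun s => (List.finRange D.rank).all fun i =>
      (D.coroot.getD s #[]).getD (π i).val 0 == (D.coroot.getD r #[]).getD i.val 0 with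
  | none =>
    have := List.find?_eq_none.mp hf r' (List.mem_range.mpr (T.lt_iff.mpr hr'))
    refine absurd (List.all_eq_true.mpr fun i _ => beq_iff_eq.mpr ?_) this
    change cvec D r' (π i) = cvec D r i
    rw [cvec_eq_vec T h hr, cvec_eq_vec T h hr', e]
  | some s =>
    have hs := T.lt_iff.mp (List.mem_range.mp (List.mem_of_find?_eq_some hf))
    have h1 := List.find?_some hf
    have h2 := List.all_eq_true.mp h1
    refine T.vec_inj hs hr' (funext fun j => ?_)
    obtain ⟨i, rfl⟩ := π.surjective j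
    have : cvec D s (π i) = cvec D r i := beq_iff_eq.mp (h2 i (List.mem_finRange i))
    rwa [cvec_eq_vec T h hr, cvec_eq_vec T h hs, ← e] at this


/-- For the Chevalley groups of types D₄ and E₆ (one root length) over any field: if `π` is a symmetry of the Dynkin diagram and `φ` is an automorphism sending `x_{p_i}(t)` to `x_{p_{π i}}(t)` and `x_{-p_i}(t)` to `x_{-p_{π i}}(t)` for every fundamental root `p_i`, then for every root `r` there is a sign `ε = ±1` with `φ(x_r(t)) = x_{π·r}(ε t)` for all `t`, where `π·r` is the root whose coefficients are those of `r` permuted by `π`. -/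
theorem result {F : Type*} [Field F] (D : Cfsg.Lie.ChevalleyDatum) (hD : D ∈ [Cfsg.Lie.chevD4, Cfsg.Lie.chevE6])
    (π : Equiv.Perm (Fin D.rank)) (hπ : D.IsDiagramSymmetry π) (φ : ↥(D.group F) ≃* ↥(D.group F))
    (hφ : ∀ (g : ↥(D.group F)) (i : Fin D.rank) (t : F),
      (((g : GL D.Idx F) : Matrix D.Idx D.Idx F) = D.x F (D.simple i) t →
        ((φ g : GL D.Idx F) : Matrix D.Idx D.Idx F) = D.x F (D.simple (π i)) t) ∧
      (((g : GL D.Idx F) : Matrix D.Idx D.Idx F) = D.x F (D.neg (D.simple i)) t →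
        ((φ g : GL D.Idx F) : Matrix D.Idx D.Idx F) = D.x F (D.neg (D.simple (π i))) t))
    (r : ℕ) (hr : r < D.nroots) :
    ∃ ε : F, (ε = 1 ∨ ε = -1) ∧ ∀ (g : ↥(D.group F)) (t : F),
      ((g : GL D.Idx F) : Matrix D.Idx D.Idx F) = D.x F r t →
        ((φ g : GL D.Idx F) : Matrix D.Idx D.Idx F) = D.x F (D.permRoot π r) (ε * t) := by
  have hD' : D ∈ [Lie.chevG2, Lie.chevB2, Lie.chevD4, Lie.chevF4, Lie.chevE6, Lie.chevE7,
      Lie.chevE8] := by
    simp only [List.mem_cons, List.not_mem_nil, or_false] at hD ⊢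
    tauto
  have hs : ∀ i j, Chev.cm D i j = Chev.cm D j i := by
    simp only [List.mem_cons, List.not_mem_nil, or_false] at hD
    rcases hD with rfl | rfl
    exacts [Chev.cm_symm_D4, Chev.cm_symm_E6]
  obtain ⟨G⟩ := Chev.good_of_mem hD'
  obtain ⟨T⟩ := Chev.exists_rootTable hD'
  have h1 : ∀ (i : Fin D.rank) t, φ (Chev.xC D F (D.simple i) t) = Chev.xC D F (D.simple (π i)) t :=
    fun i t => Chev.eq_xC_iff.mp ((hφ _ i t).1 rfl)
  have h2 : ∀ (i : Fin D.rank) t, φ (Chev.xC D F (D.neg (D.simple i)) t) =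
      Chev.xC D F (D.neg (D.simple (π i))) t := fun i t => Chev.eq_xC_iff.mp ((hφ _ i t).2 rfl)
  have key : ∃ r' < 2 * T.N, (∀ i, T.vec r' (π i) = T.vec r i) ∧ ∃ ε : F, (ε = 1 ∨ ε = -1) ∧
      ∀ t, φ (Chev.xC D F r t) = Chev.xC D F r' (ε * t) := by
    refine T.root_induction (P := fun r => ∃ r' < 2 * T.N, (∀ i, T.vec r' (π i) = T.vec r i) ∧
      ∃ ε : F, (ε = 1 ∨ ε = -1) ∧ ∀ t, φ (Chev.xC D F r t) = Chev.xC D F r' (ε * t))
      (fun i => ⟨_, T.simple_lt (π i), fun j => ?_, 1, Or.inl rfl, by simp [h1]⟩) ?_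
      (T.lt_iff.mp hr)
    · simp [T.vec_simple, Chev.sroot, Pi.single_apply]
    · rintro i r hr ⟨r', hr', e, ε, hε, h⟩
      obtain ⟨a, ha, e1, -⟩ := (Chev.isSt_xC (D := D) (F := F)).nconj_nn T i hr
      obtain ⟨b, hb, e2, -⟩ := (Chev.isSt_xC (D := D) (F := F)).nconj_nn T (π i) hr'
      have hn : φ (Chev.nn D (Chev.xC D F) (D.simple i) 1) =
          Chev.nn D (Chev.xC D F) (D.simple (π i)) 1 := by
        simp only [Chev.nn, map_mul, h1, h2]
      refine ⟨_, T.refl_lt (π i) r' hr', fun j => ?_, b * ε * a, ?_, fun t => ?_⟩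
      · have : D.cartan (π i) r' = D.cartan i r := by
          rw [T.cartan_eq _ _ hr, T.cartan_eq _ _ hr', Chev.scoroot_apply, Chev.scoroot_apply,
            ← Equiv.sum_comp π]
          exact Finset.sum_congr rfl fun k _ => by rw [e, Chev.cm_perm_of_symm T hs hπ]
        rw [T.vec_refl' _ _ hr, T.vec_refl' _ _ hr', this]
        simp [e, Chev.sroot, Pi.single_apply]
      · rcases ha with rfl | rfl <;> rcases hb with rfl | rfl <;> rcases hε with rfl | rfl <;> simp
      · have : t = a * (a * t) := by rcases ha with rfl | rfl <;> simp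
        conv_lhs => rw [this, ← e1]
        rw [map_mul, map_mul, map_inv, hn, h, e2]
        congr 1; ring
  obtain ⟨r', hr', e, ε, hε, h⟩ := key
  refine ⟨ε, hε, fun g t hg => ?_⟩
  rw [Chev.eq_xC_iff.mp hg, h, permRoot_eq T hs π (T.lt_iff.mp hr) hr' e]
  rfl

end Cfsg.Agent.S2161
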