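import Cfsg.Statements.S2298
import Mathlib
import Cfsg.Agent.KSG.GL2Char

set_option autoImplicit false
open Cfsg

namespace Cfsg.Agent.S2298

open KSG KSG.GL2 KSG.M2 Char


/-- Over a finite field F with q elements, every irreducible complex character of GL₂ has degree 1, q − 1, q or q + 1; and when q ≥ 3 (so that these four numbers are distinct) there are exactly q − 1 irreducible characters of degree 1, exactly q − 1 of degree q, exactly (q − 1)(q − 2)/2 of degree q + 1 and exactly q(q − 1)/2 of degree q − 1. -/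
theorem result {F : Type*} [Field F] [Fintype F] :
    (∀ χ : Matrix.GeneralLinearGroup (Fin 2) F → ℂ, Cfsg.IsIrrCharacter (Matrix.GeneralLinearGroup (Fin 2) F) χ →
      χ 1 = 1 ∨ χ 1 = (Fintype.card F : ℂ) - 1 ∨ χ 1 = (Fintype.card F : ℂ) ∨ χ 1 = (Fintype.card F : ℂ) + 1) ∧
    (3 ≤ Fintype.card F →
      Nat.card {χ : Cfsg.IrrCharacter (Matrix.GeneralLinearGroup (Fin 2) F) // (χ : Matrix.GeneralLinearGroup (Fin 2) F → ℂ) 1 = 1} = Fintype.card F - 1 ∧
      Nat.card {χ : Cfsg.IrrCharacter (Matrix.GeneralLinearGroup (Fin 2) F) // (χ : Matrix.GeneralLinearGroup (Fin 2) F → ℂ) 1 = (Fintype.card F : ℂ)} = Fintype.card F - 1 ∧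
      Nat.card {χ : Cfsg.IrrCharacter (Matrix.GeneralLinearGroup (Fin 2) F) // (χ : Matrix.GeneralLinearGroup (Fin 2) F → ℂ) 1 = (Fintype.card F : ℂ) + 1} = (Fintype.card F - 1) * (Fintype.card F - 2) / 2 ∧
      Nat.card {χ : Cfsg.IrrCharacter (Matrix.GeneralLinearGroup (Fin 2) F) // (χ : Matrix.GeneralLinearGroup (Fin 2) F → ℂ) 1 = (Fintype.card F : ℂ) - 1} = Fintype.card F * (Fintype.card F - 1) / 2) := by
  classical
  obtain ⟨g0, _⟩ := exists_fact_noEig (F := F)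
  refine ⟨fun χ hχ => ?_, fun hq => ⟨?_, ?_, ?_, ?_⟩⟩
  · rcases irr_cases g0 hχ with ⟨γ, rfl⟩ | ⟨γ, rfl⟩ | ⟨α, β, -, rfl⟩ | ⟨θ, -, rfl⟩
    · simp [lin_apply_one]
    · simp [stw_one]
    · simp [ps_one]
    · simp [cusp_one]
  · rw [← Nat.card_eq_fintype_card, ← card_mulChar]
    refine (Nat.card_eq_of_bijective (fun γ => ⟨⟨lin γ, isIrr_lin γ⟩, lin_apply_one γ⟩)
      ⟨fun γ γ' h => lin_injective (congrArg (fun x => x.1.1) h), ?_⟩).symm
    rintro ⟨⟨χ, hχ⟩, h⟩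
    obtain ⟨γ, rfl⟩ := irr_of_deg_one hq hχ h
    exact ⟨γ, rfl⟩
  · rw [← Nat.card_eq_fintype_card (α := F), ← card_mulChar]
    refine (Nat.card_eq_of_bijective (fun γ => ⟨⟨stw γ, isIrr_stw γ⟩, by
      rw [Nat.card_eq_fintype_card]; exact stw_one γ⟩)
      ⟨fun γ γ' h => stw_injective (congrArg (fun x => x.1.1) h), ?_⟩).symm
    rintro ⟨⟨χ, hχ⟩, h⟩
    obtain ⟨γ, rfl⟩ := irr_of_deg_card hχ (by rw [← Nat.card_eq_fintype_card]; exact h)
    exact ⟨γ, rfl⟩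
  · have := Fintype.ofFinite (MulChar F ℂ)
    have h := two_mul_card_of_fiber
      (Y := {χ : IrrCharacter (GL (Fin 2) F) // (χ : GL (Fin 2) F → ℂ) 1 = (Fintype.card F : ℂ) + 1})
      (fun p : (Finset.univ : Finset (MulChar F ℂ)).offDiag =>
        ⟨⟨ps p.1.1 p.1.2, isIrr_ps (Finset.mem_offDiag.1 p.2).2.2⟩, ps_one _ _⟩) ?_
      (fun p => ⟨p.1.swap, by simpa using (Finset.mem_offDiag.1 p.2).2.2.symm⟩) ?_ ?_
    · rw [Nat.card_eq_fintype_card (α := Finset.offDiag _), Fintype.card_coe, Finset.offDiag_card,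
        Finset.card_univ, ← Nat.card_eq_fintype_card (α := MulChar F ℂ), card_mulChar,
        Nat.card_eq_fintype_card (α := F)] at h
      rw [show Fintype.card F - 2 = Fintype.card F - 1 - 1 by omega, Nat.mul_sub_one, ← h]
      omega
    · rintro ⟨⟨χ, hχ⟩, h⟩
      obtain ⟨α, β, hne, rfl⟩ := irr_of_deg_add_one hχ h
      exact ⟨⟨(α, β), by simpa using hne⟩, rfl⟩
    · rintro ⟨⟨α, β⟩, h⟩ h'
      simp only [Prod.swap_prod_mk, Subtype.mk.injEq, Prod.mk.injEq] at h'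
      exact (Finset.mem_offDiag.1 h).2.2 h'.2
    · rintro ⟨⟨α, β⟩, h⟩ ⟨⟨α', β'⟩, h'⟩
      simp only [Subtype.mk.injEq, ps_eq_ps_iff, Prod.mk.injEq, Prod.swap_prod_mk]
      tauto
  · have h := two_mul_card_of_fiber
      (Y := {χ : IrrCharacter (GL (Fin 2) F) // (χ : GL (Fin 2) F → ℂ) 1 = (Fintype.card F : ℂ) - 1})
      (fun θ : {θ : Tor g0 →* ℂˣ // θ ≠ θ.comp (bar g0)} =>
        ⟨⟨cusp θ.1, isIrr_cusp θ.2⟩, cusp_one _⟩) ?_
      (fun θ => ⟨θ.1.comp (bar g0), fun h => θ.2 (by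
        ext c; rw [h]; simp [bar_bar])⟩) ?_ ?_
    · have h1 : Nat.card {θ : Tor g0 →* ℂˣ // θ = θ.comp (bar g0)} = Fintype.card F - 1 := by
        rw [← Nat.card_eq_fintype_card (α := F), ← card_mulChar]
        refine (Nat.card_eq_of_bijective (fun γ => ⟨detChar g0 γ, eq_comp_bar_iff.2 fun c hc => by
          ext; simp [detChar_apply, hc]⟩)
          ⟨fun γ γ' h => detChar_injective (congrArg Subtype.val h), ?_⟩).symm
        rintro ⟨θ, h⟩
        obtain ⟨γ, rfl⟩ := exists_detChar (eq_comp_bar_iff.1 h)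
        exact ⟨γ, rfl⟩
      have h2 := Nat.card_congr (Equiv.sumCompl fun θ : Tor g0 →* ℂˣ => θ = θ.comp (bar g0))
      rw [Nat.card_sum, h1, card_hom_of_comm tor_comm, card_tor,
        Nat.card_eq_fintype_card (α := F), ← h] at h2
      rw [Nat.mul_sub_one, ← sq]
      have : Fintype.card F ≤ Fintype.card F ^ 2 := Nat.le_self_pow two_ne_zero _
      omega
    · rintro ⟨⟨χ, hχ⟩, h⟩
      obtain ⟨θ, hne, rfl⟩ := irr_of_deg_sub_one g0 hq hχ h
      exact ⟨⟨θ, hne⟩, rfl⟩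
    · rintro ⟨θ, h⟩ h'
      exact h (congrArg Subtype.val h').symm
    · rintro ⟨θ, h⟩ ⟨θ', h'⟩
      simp only [Subtype.mk.injEq]
      rw [eq_comm, cusp_eq_cusp_iff]

end Cfsg.Agent.S2298
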