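import Cfsg.Statements.S2301
import Cfsg.Agent.KSG.SL2Unip

set_option autoImplicit false
open Cfsg

namespace Cfsg.Agent.S2301

open KSG KSG.M2 Matrix


/-- Over a finite field with q elements of odd characteristic p, the elements of order p of SL₂ (the non-identity unipotent elements) fall into exactly two conjugacy classes, each of size (q² − 1)/2; two upper unitriangular matrices with non-zero off-diagonal entries b and b′ are conjugate exactly when bb′ is a square. -/
theorem result {F : Type*} [Field F] [Fintype F] (p : ℕ) [Fact p.Prime] [CharP F p] (hp : p ≠ 2) :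
    Nat.card {C : ConjClasses (Matrix.SpecialLinearGroup (Fin 2) F) // ∃ g : Matrix.SpecialLinearGroup (Fin 2) F, orderOf g = p ∧ ConjClasses.mk g = C} = 2 ∧
    (∀ g : Matrix.SpecialLinearGroup (Fin 2) F, orderOf g = p → Nat.card (ConjClasses.mk g).carrier = (Fintype.card F ^ 2 - 1) / 2) ∧
    ∀ g h : Matrix.SpecialLinearGroup (Fin 2) F, (g : Matrix (Fin 2) (Fin 2) F) 0 0 = 1 → (g : Matrix (Fin 2) (Fin 2) F) 1 1 = 1 → (g : Matrix (Fin 2) (Fin 2) F) 1 0 = 0 → (g : Matrix (Fin 2) (Fin 2) F) 0 1 ≠ 0 →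
      (h : Matrix (Fin 2) (Fin 2) F) 0 0 = 1 → (h : Matrix (Fin 2) (Fin 2) F) 1 1 = 1 → (h : Matrix (Fin 2) (Fin 2) F) 1 0 = 0 → (h : Matrix (Fin 2) (Fin 2) F) 0 1 ≠ 0 →
      (IsConj g h ↔ IsSquare ((g : Matrix (Fin 2) (Fin 2) F) 0 1 * (h : Matrix (Fin 2) (Fin 2) F) 0 1)) := by
  classical
  have h2 : (2 : F) ≠ 0 := two_ne_zero_of_charP p hp
  obtain ⟨ν, hν⟩ := FiniteField.exists_nonsquare (F := F) (ringChar_ne_two h2)
  have hν0 : ν ≠ 0 := by rintro rfl; exact hν ⟨0, by simp⟩
  have h1 : (1 : F) ^ 2 = 1 := by simp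
  have hnc : ¬ IsConj (upar (1 : F) h1 1) (upar 1 h1 ν) := by
    rw [upar_isConj_iff h1 one_ne_zero hν0, one_mul]; exact hν
  have hord : ∀ β : F, β ≠ 0 → orderOf (upar (1 : F) h1 β) = p := by
    intro β hβ
    refine (SL_orderOf_eq_char_iff p).2 ⟨fun h => upar_not_isScal 1 h1 hβ ?_, by rw [trace_upar, mul_one]⟩
    rw [h]; exact isScal_one
  refine ⟨?_, ?_, ?_⟩
  · rw [card_conjClasses_subtype_eq (fun g : Matrix.SpecialLinearGroup (Fin 2) F => orderOf g = p)
      (fun g => IsConj g (upar (1 : F) h1 1))]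
    · simp
    · intro g h hg hh
      obtain ⟨g1, g2⟩ := (SL_orderOf_eq_char_iff p).1 hg
      obtain ⟨h3, h4⟩ := (SL_orderOf_eq_char_iff p).1 hh
      rw [eq_iff_iff]
      constructor
      · intro H
        rcases SL_isConj_upar_or (SL_not_isScal_of_trace_two g1 g2) h1 (by simp [g2]) hν with
          a | a
        · exact a.trans (H.1 a).symm
        · rcases SL_isConj_upar_or (SL_not_isScal_of_trace_two h3 h4) h1 (by simp [h4]) hν with
            b | b
          · exact absurd ((H.2 b).symm.trans a) hnc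
          · exact a.trans b.symm
      · intro H
        exact ⟨fun a => H.symm.trans a, fun a => H.trans a⟩
    · intro x
      by_cases hx : x
      · exact ⟨upar 1 h1 1, hord 1 one_ne_zero, propext ⟨fun _ => hx, fun _ => IsConj.refl _⟩⟩
      · exact ⟨upar 1 h1 ν, hord ν hν0, propext ⟨fun h => absurd h.symm hnc, fun h => absurd h hx⟩⟩
  · intro g hg
    obtain ⟨g1, g2⟩ := (SL_orderOf_eq_char_iff p).1 hg
    have hg' := SL_not_isScal_of_trace_two g1 g2
    have h := card_carrier_mul_card_centralizer g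
    rw [SL_card_centralizer_par hg' (ε := 1) (by simp) (by simp [g2]),
      card_sq_eq_one_of_two_ne h2, card_SL2, Nat.card_eq_fintype_card (α := F), ← mul_assoc,
      mul_comm] at h
    have := Nat.eq_of_mul_eq_mul_left Fintype.card_pos h
    omega
  · intro g h g00 g11 g10 g01 h00 h11 h10 h01
    have hg : g = upar 1 h1 ((g : Matrix (Fin 2) (Fin 2) F) 0 1) :=
      SL_ext_iff.2 (ext2 (by simp [g00]) (by simp) (by simp [g10]) (by simp [g11]))
    have hh : h = upar 1 h1 ((h : Matrix (Fin 2) (Fin 2) F) 0 1) :=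
      SL_ext_iff.2 (ext2 (by simp [h00]) (by simp) (by simp [h10]) (by simp [h11]))
    rw [← upar_isConj_iff h1 g01 h01, ← hg, ← hh]

end Cfsg.Agent.S2301
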