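import Cfsg.Statements.S2307
import Mathlib
import Cfsg.Agent.KSG.SL2Deg

set_option autoImplicit false
open Cfsg

namespace Cfsg.Agent.S2307

open KSG KSG.GL2 KSG.M2 Char

/-- Over a finite field F with q elements, q odd, let α be the multiplicative character of F of order 2. The character of SL₂ induced from the linear character b ↦ α(b₁₁) of the upper triangular subgroup is the sum of two distinct irreducible characters, each of degree (q + 1)/2, which are conjugate under GL₂: some fixed element of GL₂ conjugates the one into the other. -/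
theorem result {F : Type*} [Field F] [Fintype F] [DecidableEq F] (hodd : Odd (Fintype.card F)) (α : MulChar F ℂ)
    (hα : α ^ 2 = 1) (hα1 : α ≠ 1) :
    ∃ χ₁ χ₂ : Matrix.SpecialLinearGroup (Fin 2) F → ℂ, Cfsg.IsIrrCharacter (Matrix.SpecialLinearGroup (Fin 2) F) χ₁ ∧ Cfsg.IsIrrCharacter (Matrix.SpecialLinearGroup (Fin 2) F) χ₂ ∧ χ₁ ≠ χ₂ ∧
      Cfsg.indFun ((Cfsg.upperTriangularGL 2 F).comap Matrix.SpecialLinearGroup.toGL) (fun b => α (((b : Matrix.SpecialLinearGroup (Fin 2) F) : Matrix (Fin 2) (Fin 2) F) 0 0)) = χ₁ + χ₂ ∧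
      χ₁ 1 = (((Fintype.card F + 1) / 2 : ℕ) : ℂ) ∧ χ₂ 1 = (((Fintype.card F + 1) / 2 : ℕ) : ℂ) ∧
      ∃ x : Matrix.GeneralLinearGroup (Fin 2) F, ∀ g h : Matrix.SpecialLinearGroup (Fin 2) F,
        Matrix.SpecialLinearGroup.toGL h = x * Matrix.SpecialLinearGroup.toGL g * x⁻¹ → χ₂ h = χ₁ g := by
  obtain ⟨χ₁, χ₂, h⟩ := exists_halfPair_ps hα hα1
  refine ⟨χ₁, χ₂, h.irr₁, h.irr₂, h.ne, (psS_eq α).trans h.add, ?_, ?_, ?_⟩
  · rw [eq_half_add_iff hodd, h.two_mul_one, ps_one]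
  · rw [eq_half_add_iff hodd, h.symm.two_mul_one, ps_one]
  · obtain ⟨x, hx⟩ := h.swap
    refine ⟨x, fun g k hk => ?_⟩
    rw [← hx g, ← Matrix.SpecialLinearGroup.toGL_injective (hk.trans (toGL_conjS x g).symm)]

end Cfsg.Agent.S2307
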