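import Cfsg.Statements.S2308
import Cfsg.Agent.KSG.GL2Borel

set_option autoImplicit false
open Cfsg

namespace Cfsg.Agent.S2308

open KSG KSG.M2 Matrix


/-- Values of the permutation character of GL₂ over a finite field F with q elements on the cosets of its upper triangular subgroup (equivalently, the number of lines of F² that an element maps to themselves): q + 1 at a scalar matrix, 2 at a diagonal matrix with two different diagonal entries, 0 at an element with no eigenvector in F², and 1 at an upper triangular matrix with equal diagonal entries and non-zero upper right entry. -/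
theorem result {F : Type*} [Field F] [Fintype F] (g : Matrix.GeneralLinearGroup (Fin 2) F) :
    ((∃ a : F, (g : Matrix (Fin 2) (Fin 2) F) = a • (1 : Matrix (Fin 2) (Fin 2) F)) → Cfsg.fixedPointCharacter (Cfsg.upperTriangularGL 2 F) g = Fintype.card F + 1) ∧
    ((g : Matrix (Fin 2) (Fin 2) F) 0 1 = 0 → (g : Matrix (Fin 2) (Fin 2) F) 1 0 = 0 → (g : Matrix (Fin 2) (Fin 2) F) 0 0 ≠ (g : Matrix (Fin 2) (Fin 2) F) 1 1 →
      Cfsg.fixedPointCharacter (Cfsg.upperTriangularGL 2 F) g = 2) ∧
    ((∀ (c : F) (v : Fin 2 → F), v ≠ 0 → (g : Matrix (Fin 2) (Fin 2) F).mulVec v ≠ c • v) → Cfsg.fixedPointCharacter (Cfsg.upperTriangularGL 2 F) g = 0) ∧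
    ((g : Matrix (Fin 2) (Fin 2) F) 1 0 = 0 → (g : Matrix (Fin 2) (Fin 2) F) 0 0 = (g : Matrix (Fin 2) (Fin 2) F) 1 1 → (g : Matrix (Fin 2) (Fin 2) F) 0 1 ≠ 0 →
      Cfsg.fixedPointCharacter (Cfsg.upperTriangularGL 2 F) g = 1) := by
  classical
  unfold fixedPointCharacter
  rw [card_fixedBy_borelGL]
  refine ⟨?_, ?_, ?_, ?_⟩
  · rintro ⟨a, ha⟩
    simp [ha, add_comm]
  · intro h01 h10 hne
    have : ∀ t : F, ((g : Matrix (Fin 2) (Fin 2) F) 1 0 + (g : Matrix (Fin 2) (Fin 2) F) 1 1 * t =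
        ((g : Matrix (Fin 2) (Fin 2) F) 0 0 + (g : Matrix (Fin 2) (Fin 2) F) 0 1 * t) * t) ↔
          t = 0 := by
      intro t
      simp [h01, h10, hne.symm]
    simp only [this]
    simp [h01]
  · intro h
    have h01 : (g : Matrix (Fin 2) (Fin 2) F) 0 1 ≠ 0 := by
      intro h0
      refine h ((g : Matrix (Fin 2) (Fin 2) F) 1 1) ![0, 1] (by simp) ?_
      ext i; fin_cases i <;> simp [mulVec, dotProduct, Fin.sum_univ_two, h0]
    have : ∀ t : F, ¬ ((g : Matrix (Fin 2) (Fin 2) F) 1 0 + (g : Matrix (Fin 2) (Fin 2) F) 1 1 * t =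
        ((g : Matrix (Fin 2) (Fin 2) F) 0 0 + (g : Matrix (Fin 2) (Fin 2) F) 0 1 * t) * t) := by
      intro t ht
      refine h ((g : Matrix (Fin 2) (Fin 2) F) 0 0 + (g : Matrix (Fin 2) (Fin 2) F) 0 1 * t)
        ![1, t] (by simp) ?_
      ext i; fin_cases i <;> simp [mulVec, dotProduct, Fin.sum_univ_two, ht]
    simp [this, h01]
  · intro h10 he h01
    have : ∀ t : F, ((g : Matrix (Fin 2) (Fin 2) F) 1 0 + (g : Matrix (Fin 2) (Fin 2) F) 1 1 * t =
        ((g : Matrix (Fin 2) (Fin 2) F) 0 0 + (g : Matrix (Fin 2) (Fin 2) F) 0 1 * t) * t) ↔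
          t = 0 := by
      intro t
      rw [h10, he]
      constructor
      · intro h
        have : (g : Matrix (Fin 2) (Fin 2) F) 0 1 * t ^ 2 = 0 := by linear_combination -h
        simpa [h01] using this
      · rintro rfl; simp
    simp only [this, h01]
    simp

end Cfsg.Agent.S2308
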