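import Cfsg.Statements.S2309
import Mathlib
import Cfsg.Agent.KSG.GL2Char

set_option autoImplicit false
open Cfsg

namespace Cfsg.Agent.S2309

open KSG KSG.GL2 KSG.M2 Char


/-- Over a finite field F with q elements: every irreducible complex character of GL₂ of degree q − 1 vanishes at every diagonal matrix with two distinct entries, and every irreducible complex character of degree q + 1 vanishes at every element with no eigenvector in F². -/
theorem result {F : Type*} [Field F] [Fintype F] (χ : Matrix.GeneralLinearGroup (Fin 2) F → ℂ) (hχ : Cfsg.IsIrrCharacter (Matrix.GeneralLinearGroup (Fin 2) F) χ) (g : Matrix.GeneralLinearGroup (Fin 2) F) :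
    (χ 1 = (Fintype.card F : ℂ) - 1 → (g : Matrix (Fin 2) (Fin 2) F) 0 1 = 0 → (g : Matrix (Fin 2) (Fin 2) F) 1 0 = 0 → (g : Matrix (Fin 2) (Fin 2) F) 0 0 ≠ (g : Matrix (Fin 2) (Fin 2) F) 1 1 → χ g = 0) ∧
    (χ 1 = (Fintype.card F : ℂ) + 1 → (∀ (c : F) (v : Fin 2 → F), v ≠ 0 → (g : Matrix (Fin 2) (Fin 2) F).mulVec v ≠ c • v) → χ g = 0) := by
  classical
  obtain ⟨g0, _⟩ := exists_fact_noEig (F := F)
  constructor
  · intro h h01 h10 hne
    obtain ⟨a, b, hab, rfl⟩ := exists_eq_diag h01 h10 hne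
    have hq : 3 ≤ Fintype.card F := by
      have h1 : 1 < Fintype.card Fˣ := Fintype.one_lt_card_iff.2 ⟨a, b, hab⟩
      rw [Fintype.card_units] at h1
      omega
    obtain ⟨θ, -, rfl⟩ := irr_of_deg_sub_one g0 hq hχ h
    exact (vals_cusp θ).split a b hab
  · intro h hg
    obtain ⟨α, β, -, rfl⟩ := irr_of_deg_add_one hχ h
    exact ps_of_noEig α β (noEig_iff.2 hg)

end Cfsg.Agent.S2309
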