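import Cfsg.Statements.S2310
import Mathlib
import Cfsg.Agent.KSG.GL2Char

set_option autoImplicit false
open Cfsg

namespace Cfsg.Agent.S2310

open KSG KSG.GL2 KSG.M2 Char


/-- Over a finite field F with q ≥ 3 elements, let u be the upper unitriangular matrix of GL₂ with off-diagonal entry 1. An irreducible complex character χ of GL₂ takes at u the value 1 if χ has degree 1 or q + 1, the value −1 if χ has degree q − 1, and the value 0 if χ has degree q. -/
theorem result {F : Type*} [Field F] [Fintype F] (hq : 3 ≤ Fintype.card F) (χ : Matrix.GeneralLinearGroup (Fin 2) F → ℂ) (hχ : Cfsg.IsIrrCharacter (Matrix.GeneralLinearGroup (Fin 2) F) χ)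
    (u : Matrix.GeneralLinearGroup (Fin 2) F) (hu : (u : Matrix (Fin 2) (Fin 2) F) = !![1, 1; 0, 1]) :
    (χ 1 = 1 → χ u = 1) ∧ (χ 1 = (Fintype.card F : ℂ) + 1 → χ u = 1) ∧
    (χ 1 = (Fintype.card F : ℂ) - 1 → χ u = -1) ∧ (χ 1 = (Fintype.card F : ℂ) → χ u = 0) := by
  classical
  obtain ⟨g0, _⟩ := exists_fact_noEig (F := F)
  obtain rfl : u = up 1 1 1 := Units.ext (by simpa using hu)
  refine ⟨fun h => ?_, fun h => ?_, fun h => ?_, fun h => ?_⟩
  · obtain ⟨γ, rfl⟩ := irr_of_deg_one hq hχ h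
    simpa using (vals_lin g0 γ).jor 1
  · obtain ⟨α, β, -, rfl⟩ := irr_of_deg_add_one hχ h
    simpa using (vals_ps g0 α β).jor 1
  · obtain ⟨θ, -, rfl⟩ := irr_of_deg_sub_one g0 hq hχ h
    simpa using (vals_cusp θ).jor 1
  · obtain ⟨γ, rfl⟩ := irr_of_deg_card hχ h
    exact (vals_stw g0 γ).jor 1

end Cfsg.Agent.S2310
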