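import Cfsg.Statements.S2313
import Cfsg.Agent.St.Chev
import Cfsg.Agent.Chev.Types

set_option autoImplicit false
open Cfsg

namespace Cfsg.Agent.S2313

/-- In a Chevalley group of type G₂, B₂, D₄, F₄, E₆, E₇ or E₈ over a finite field, the restriction of the Steinberg character to the subgroup B = UH is the permutation character of B on the cosets of the diagonal subgroup H: at b ∈ B its value is the number of cosets xH, x ∈ B, with bxH = xH. -/
theorem result {F : Type*} [Field F] [Fintype F] (D : Cfsg.Lie.ChevalleyDatum) (hD : D ∈ [Cfsg.Lie.chevG2, Cfsg.Lie.chevB2, Cfsg.Lie.chevD4, Cfsg.Lie.chevF4, Cfsg.Lie.chevE6, Cfsg.Lie.chevE7, Cfsg.Lie.chevE8]) (b : ↥((D.borelSubgroup F).subgroupOf (D.group F))) :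
    D.steinbergCharacter F ((((D.borelSubgroup F).subgroupOf (D.group F)).subtype) b) =
      Cfsg.fixedPointCharacter (((D.diagonalSubgroup F).subgroupOf (D.group F)).subgroupOf ((D.borelSubgroup F).subgroupOf (D.group F))) b := by
  obtain ⟨inst⟩ := Cfsg.Agent.Chev.good_of_mem hD
  obtain ⟨T⟩ := Cfsg.Agent.Chev.exists_rootTable hD
  have := Fintype.ofFinite (D.group F)
  rw [Cfsg.Agent.St.steinbergCharacter_eq F T]
  obtain ⟨p, hp⟩ := CharP.exists F
  have : Fact p.Prime := ⟨CharP.char_is_prime F p⟩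
  have h := (Cfsg.Agent.St.chevSplit F T p).steinberg_apply_B
  have hB := Cfsg.Agent.St.chevTits_B F T
  have hH := Cfsg.Agent.St.chevTits_H F T
  change ∀ b : (Cfsg.Agent.St.chevTits F T).B, (Cfsg.Agent.St.chevTits F T).steinberg b =
    Cfsg.fixedPointCharacter ((Cfsg.Agent.St.chevTits F T).H.subgroupOf
      (Cfsg.Agent.St.chevTits F T).B) b at h
  rw [hH] at h
  revert b
  rw [← hB]
  exact h

end Cfsg.Agent.S2313
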