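import Cfsg.Statements.S2315
import Mathlib
import Cfsg.Agent.KSG.GLBN
import Cfsg.Agent.KSG.GLUnip
import Cfsg.Agent.St.Dual

set_option autoImplicit false
open Cfsg

namespace Cfsg.Agent.S2315

open KSG KSG.GLn

/-- Steinberg's count of unipotent elements for the general linear group: over a finite field with q elements of characteristic p, the number of elements of GL_n of p-power order (the unipotent matrices) is q^(n(n−1)). -/
theorem result {F : Type*} [Field F] [Fintype F] (p : ℕ) [Fact p.Prime] [CharP F p] (n : ℕ) :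
    Nat.card {g : Matrix.GeneralLinearGroup (Fin n) F // ∃ k : ℕ, orderOf g = p ^ k} = Fintype.card F ^ (n * (n - 1)) := by
  classical
  rcases n with _ | n
  · rw [zero_mul, pow_zero, Nat.card_eq_one_iff_exists]
    exact ⟨⟨1, 0, by simp⟩, fun g => Subtype.ext (Units.ext (Subsingleton.elim _ _))⟩
  have hp : p.Prime := Fact.out
  obtain ⟨k, -, hk⟩ := FiniteField.card F p
  have hq : 1 < Fintype.card F := Fintype.one_lt_card
  have hpq : p ∣ Fintype.card F := hk ▸ dvd_pow_self p k.ne_zero
  have hq1 : ¬ p ∣ Fintype.card F - 1 := fun h => by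
    have := Nat.dvd_sub hpq h
    rw [Nat.sub_sub_self hq.le] at this
    exact hp.one_lt.ne' (Nat.dvd_one.1 this)
  have hr : ¬ p ∣ (Fintype.card F - 1) ^ (n + 1) * qf (Fintype.card F) (n + 1) := by
    rw [hp.dvd_mul, not_or]
    refine ⟨fun h => hq1 (hp.dvd_of_dvd_pow h), ?_⟩
    rw [qf, hp.prime.dvd_finsetProd_iff]
    rintro ⟨j, -, h⟩
    rw [qi, Finset.sum_range_succ', pow_zero, Nat.dvd_add_right
      (Finset.dvd_sum fun i _ => dvd_pow hpq i.succ_ne_zero)] at h
    exact hp.one_lt.ne' (Nat.dvd_one.1 h)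
  rw [(glSplit n F p).card_pElt, St.Split0.card_U, card_GL_eq, Nat.card_fin, mul_assoc,
    Nat.factorization_mul (pow_ne_zero _ (by omega)) (by rintro h; simp [h] at hr),
    Finsupp.add_apply, Nat.factorization_eq_zero_of_not_dvd hr, hk, ← pow_mul p k,
    hp.factorization_pow, Finsupp.single_eq_same, add_zero, ← pow_mul, ← pow_mul, mul_assoc, Nat.choose_two_right,
    Nat.div_mul_cancel (Nat.even_mul_pred_self _).two_dvd]

end Cfsg.Agent.S2315
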