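import Cfsg.Statements.S2316
import Mathlib
import Cfsg.Agent.KSG.SplitSpSU

set_option autoImplicit false
open Cfsg

namespace Cfsg.Agent.S2316

/-- Steinberg's count of unipotent elements for the symplectic group: over a finite field with q elements of characteristic p, the number of elements of Sp_{2m} of p-power order is q^(2m²). -/
theorem result {F : Type*} [Field F] [Fintype F] (p : ℕ) [Fact p.Prime] [CharP F p] (m : ℕ) :
    Nat.card {g : ↥(Matrix.symplecticGroup (Fin m) F) // ∃ k : ℕ, orderOf g = p ^ k} = Fintype.card F ^ (2 * m ^ 2) := by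
  have hp : p.Prime := Fact.out
  obtain ⟨k, -, hk⟩ := FiniteField.card F p
  have hq : 1 < Fintype.card F := Fintype.one_lt_card
  have hpq : p ∣ Fintype.card F := hk ▸ dvd_pow_self p k.ne_zero
  have hr : ¬ p ∣ ∏ i ∈ Finset.range m, (Fintype.card F ^ (2 * (i + 1)) - 1) := by
    rw [hp.prime.dvd_finsetProd_iff]
    rintro ⟨j, -, h⟩
    exact hp.one_lt.ne' (Nat.dvd_one.1 ((Nat.dvd_sub_iff_right (Nat.one_le_pow _ _ (by omega))
      (dvd_pow hpq (by omega))).1 h))
  rw [(KSG.hasSp_Sp p m).card_pElt, Class.Sp.card_Sp, Nat.card_eq_fintype_card,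
    Nat.factorization_mul (pow_ne_zero _ (by omega)) (by rintro h; simp [h] at hr),
    Finsupp.add_apply, Nat.factorization_eq_zero_of_not_dvd hr, hk, ← pow_mul p k,
    hp.factorization_pow, Finsupp.single_eq_same, add_zero, ← pow_mul, ← pow_mul, mul_assoc,
    mul_comm 2]

end Cfsg.Agent.S2316
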