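import Cfsg.Statements.S2318
import Cfsg.Agent.St.Chev
import Cfsg.Agent.St.Dual
import Cfsg.Agent.Chev.Types

set_option autoImplicit false
open Cfsg

namespace Cfsg.Agent.S2318

/-- In a Chevalley group of type G₂, B₂, D₄, F₄, E₆, E₇ or E₈ over a finite field of characteristic p (for types G₂ and B₂ the field is assumed to have at least 3 elements, so that the group is perfect), the Steinberg character is the only irreducible complex character whose degree is divisible by the full power of p dividing the group order (the only irreducible character of p-defect zero). -/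
theorem result {F : Type*} [Field F] [Fintype F] (p : ℕ) [Fact p.Prime] [CharP F p] (D : Cfsg.Lie.ChevalleyDatum) (hD : D ∈ [Cfsg.Lie.chevG2, Cfsg.Lie.chevB2, Cfsg.Lie.chevD4, Cfsg.Lie.chevF4, Cfsg.Lie.chevE6, Cfsg.Lie.chevE7, Cfsg.Lie.chevE8]) (hq : (D = Cfsg.Lie.chevG2 ∨ D = Cfsg.Lie.chevB2) → 3 ≤ Fintype.card F)
    (χ : ↥(D.group F) → ℂ) (hχ : Cfsg.IsIrrCharacter ↥(D.group F) χ)
    (hdeg : ∃ d : ℕ, χ 1 = (d : ℂ) ∧ p ^ (Nat.card ↥(D.group F)).factorization p ∣ d) :
    χ = D.steinbergCharacter F := by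
  obtain ⟨inst⟩ := Cfsg.Agent.Chev.good_of_mem hD
  obtain ⟨T⟩ := Cfsg.Agent.Chev.exists_rootTable hD
  have := Fintype.ofFinite (D.group F)
  rw [Cfsg.Agent.St.steinbergCharacter_eq F T]
  obtain ⟨d, hd, hdvd⟩ := hdeg
  have hp : p.Prime := Fact.out
  refine (Cfsg.Agent.St.chevSplit F T p).eq_steinberg_of_vanish ?_ hχ fun g hg =>
    Cfsg.Agent.Char.Cfsg.IsIrrCharacter.eq_zero_of_pow_dvd hχ hp hd
      (Nat.pow_succ_factorization_not_dvd Nat.card_pos.ne' hp) hdvd hg
  rw [eq_top_iff, ← Cfsg.Agent.Chev.Gs_xC, Cfsg.Agent.Chev.Gs, Cfsg.Agent.Chev.XS_le]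
  intro r hr t
  refine Subgroup.subset_closure (Cfsg.Agent.Block.orderOf_eq_pow_iff.2 ⟨1, ?_⟩)
  have h := (Cfsg.Agent.Chev.isSt_xC (D := D) (F := F)).toIsSt0
  have key : ∀ n : ℕ, Cfsg.Agent.Chev.xC D F r t ^ n = Cfsg.Agent.Chev.xC D F r (n * t) := by
    intro n
    induction n with
    | zero => simp [h.x_zero hr]
    | succ n ih => rw [pow_succ, ih, h.add r hr]; congr 1; push_cast; ring
  rw [pow_one, key, CharP.cast_eq_zero, zero_mul, h.x_zero hr]

end Cfsg.Agent.S2318
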