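import Cfsg.Statements.S2320
import Mathlib
import Cfsg.Agent.KSG.GL2Char

set_option autoImplicit false
open Cfsg

namespace Cfsg.Agent.S2320

open KSG KSG.GL2 KSG.M2 Char


/-- Over a finite field F with q elements, every irreducible complex character of GL₂ of degree q takes a value of absolute value 1 at every diagonal matrix with two different diagonal entries and at every element with no eigenvector in F². -/
theorem result {F : Type*} [Field F] [Fintype F] (χ : Matrix.GeneralLinearGroup (Fin 2) F → ℂ) (hχ : Cfsg.IsIrrCharacter (Matrix.GeneralLinearGroup (Fin 2) F) χ) (hdeg : χ 1 = (Fintype.card F : ℂ)) (g : Matrix.GeneralLinearGroup (Fin 2) F) :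
    ((g : Matrix (Fin 2) (Fin 2) F) 0 1 = 0 → (g : Matrix (Fin 2) (Fin 2) F) 1 0 = 0 → (g : Matrix (Fin 2) (Fin 2) F) 0 0 ≠ (g : Matrix (Fin 2) (Fin 2) F) 1 1 → ‖χ g‖ = 1) ∧
    ((∀ (c : F) (v : Fin 2 → F), v ≠ 0 → (g : Matrix (Fin 2) (Fin 2) F).mulVec v ≠ c • v) → ‖χ g‖ = 1) := by
  classical
  obtain ⟨g0, _⟩ := exists_fact_noEig (F := F)
  obtain ⟨γ, rfl⟩ := irr_of_deg_card hχ hdeg
  constructor
  · intro h01 h10 hne
    obtain ⟨a, b, hab, rfl⟩ := exists_eq_diag h01 h10 hne
    rw [(vals_stw g0 γ).split a b hab, norm_mul, norm_mulChar, norm_mulChar, mul_one]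
  · intro hg
    obtain ⟨c, hc, h⟩ := exists_isConj_tor g0 (noEig_iff.2 hg)
    rw [(vals_stw g0 γ).cls.eq_of_isConj h, (vals_stw g0 γ).ell c hc, norm_neg, norm_mulChar]

end Cfsg.Agent.S2320
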