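import Cfsg.Statements.S2322
import Mathlib
import Cfsg.Agent.KSG.SL2Deg

set_option autoImplicit false
open Cfsg

namespace Cfsg.Agent.S2322

open KSG KSG.GL2 KSG.M2 Char

/-- Over a finite field F with q elements, q odd: every irreducible complex character of SL₂ of degree q − 1 or (q − 1)/2 vanishes at every diagonal matrix whose diagonal entry a has a² ≠ 1, and every irreducible complex character of degree q + 1 or (q + 1)/2 vanishes at every element with no eigenvector in F². -/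
theorem result {F : Type*} [Field F] [Fintype F] (hodd : Odd (Fintype.card F)) (χ : Matrix.SpecialLinearGroup (Fin 2) F → ℂ) (hχ : Cfsg.IsIrrCharacter (Matrix.SpecialLinearGroup (Fin 2) F) χ) (g : Matrix.SpecialLinearGroup (Fin 2) F) :
    ((χ 1 = (Fintype.card F : ℂ) - 1 ∨ χ 1 = (((Fintype.card F - 1) / 2 : ℕ) : ℂ)) →
      (g : Matrix (Fin 2) (Fin 2) F) 0 1 = 0 → (g : Matrix (Fin 2) (Fin 2) F) 1 0 = 0 → (g : Matrix (Fin 2) (Fin 2) F) 0 0 ^ 2 ≠ 1 → χ g = 0) ∧
    ((χ 1 = (Fintype.card F : ℂ) + 1 ∨ χ 1 = (((Fintype.card F + 1) / 2 : ℕ) : ℂ)) →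
      (∀ (c : F) (v : Fin 2 → F), v ≠ 0 → (g : Matrix (Fin 2) (Fin 2) F).mulVec v ≠ c • v) → χ g = 0) := by
  classical
  obtain ⟨g1, _⟩ := exists_fact_noEigS (F := F)
  rw [eq_half_add_iff hodd, eq_half_sub_iff hodd]
  constructor
  · intro hd h01 h10 h
    obtain ⟨a, ha, e0, -, e, ht⟩ := sl_diag h01 h10 h
    have hq := four_le_card_of_sq_ne_one (e0 ▸ a.ne_zero) h
    rcases hd with hd | hd
    · obtain ⟨η, -, rfl⟩ := irrS_of_deg_sub_one g1 hq hχ hd
      rw [cuspS, res_apply, e, (vals_cusp _).split _ _ ha]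
    · obtain ⟨η, χ', -, -, H⟩ := irrS_of_deg_half_sub g1 hq hχ hd
      have := H.two_mul_apply (Or.inr ht)
      rw [e, (vals_cusp _).split _ _ ha] at this
      simpa using this
  · intro hd hg
    have hg' := noEig_iff.2 hg
    rcases hd with hd | hd
    · obtain ⟨α, -, rfl⟩ := irrS_of_deg_add_one hχ hd
      rw [psS_eq, res_apply, ps_of_noEig _ _ hg']
    · rcases irrS_of_deg_half_add' g1 hχ hd with ⟨α, χ', -, -, H⟩ | ⟨h3, η, hη, rfl⟩
      · have := H.two_mul_apply (Or.inr hg'.trace_sq_ne_four)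
        rw [ps_of_noEig _ _ hg'] at this
        simpa using this
      · obtain ⟨c, hc, h⟩ := sl_ell g1 hg'
        rw [hχ.isCharacter.isClassFunction.eq_of_isConj h, cuspS, res_apply, cusp_extT_tor η hc,
          torS_add_inv_of_three (by rw [Nat.card_eq_fintype_card, h3]) hη hc, neg_zero]

end Cfsg.Agent.S2322
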