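import Cfsg.Statements.S2324
import Mathlib
import Cfsg.Agent.KSG.SL2Deg

set_option autoImplicit false
open Cfsg

namespace Cfsg.Agent.S2324

open KSG KSG.GL2 KSG.M2 Char

/-- Over a finite field F with q elements, q odd and q ≥ 5, let u be the upper unitriangular matrix of SL₂ with off-diagonal entry 1 and let δ = (−1)^((q−1)/2). Every irreducible complex character χ of SL₂ of degree (q + 1)/2 satisfies (2χ(u) − 1)² = δq, and every irreducible complex character χ of degree (q − 1)/2 satisfies (2χ(u) + 1)² = δq; that is, χ(u) = (1 ± √(δq))/2 in the first case and χ(u) = (−1 ± √(δq))/2 in the second. Moreover two different irreducible characters of degree (q + 1)/2 take the two different values (their values at u add up to 1), and likewise for degree (q − 1)/2 (values adding up to −1). -/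
theorem result {F : Type*} [Field F] [Fintype F] (hodd : Odd (Fintype.card F)) (hq : 5 ≤ Fintype.card F)
    (u : Matrix.SpecialLinearGroup (Fin 2) F) (hu : (u : Matrix (Fin 2) (Fin 2) F) = !![1, 1; 0, 1]) :
    (∀ χ : Matrix.SpecialLinearGroup (Fin 2) F → ℂ, Cfsg.IsIrrCharacter (Matrix.SpecialLinearGroup (Fin 2) F) χ → χ 1 = (((Fintype.card F + 1) / 2 : ℕ) : ℂ) → (2 * χ u - 1) ^ 2 = (-1 : ℂ) ^ ((Fintype.card F - 1) / 2) * (Fintype.card F : ℂ)) ∧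
    (∀ χ : Matrix.SpecialLinearGroup (Fin 2) F → ℂ, Cfsg.IsIrrCharacter (Matrix.SpecialLinearGroup (Fin 2) F) χ → χ 1 = (((Fintype.card F - 1) / 2 : ℕ) : ℂ) → (2 * χ u + 1) ^ 2 = (-1 : ℂ) ^ ((Fintype.card F - 1) / 2) * (Fintype.card F : ℂ)) ∧
    (∀ χ₁ χ₂ : Matrix.SpecialLinearGroup (Fin 2) F → ℂ, Cfsg.IsIrrCharacter (Matrix.SpecialLinearGroup (Fin 2) F) χ₁ → Cfsg.IsIrrCharacter (Matrix.SpecialLinearGroup (Fin 2) F) χ₂ → χ₁ ≠ χ₂ →
      χ₁ 1 = (((Fintype.card F + 1) / 2 : ℕ) : ℂ) → χ₂ 1 = (((Fintype.card F + 1) / 2 : ℕ) : ℂ) → χ₁ u + χ₂ u = 1) ∧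
    (∀ χ₁ χ₂ : Matrix.SpecialLinearGroup (Fin 2) F → ℂ, Cfsg.IsIrrCharacter (Matrix.SpecialLinearGroup (Fin 2) F) χ₁ → Cfsg.IsIrrCharacter (Matrix.SpecialLinearGroup (Fin 2) F) χ₂ → χ₁ ≠ χ₂ →
      χ₁ 1 = (((Fintype.card F - 1) / 2 : ℕ) : ℂ) → χ₂ 1 = (((Fintype.card F - 1) / 2 : ℕ) : ℂ) → χ₁ u + χ₂ u = -1) := by
  classical
  obtain ⟨g1, _⟩ := exists_fact_noEigS (F := F)
  have h2 : (2 : F) ≠ 0 := two_ne_zero_of_odd (by rwa [Nat.card_eq_fintype_card])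
  obtain rfl : u = upar 1 (one_pow 2) 1 := Subtype.ext hu
  simp only [eq_half_add_iff hodd, eq_half_sub_iff hodd]
  have A : ∀ {α : MulChar F ℂ} {χ₁ χ₂}, HalfPair (ps α 1) χ₁ χ₂ →
      χ₁ (upar 1 (one_pow 2) 1) + χ₂ (upar 1 (one_pow 2) 1) = 1 := by
    intro α χ₁ χ₂ h
    rw [← Pi.add_apply, ← h.add, res_apply, toGL_upar 1 _ 1 rfl,
      (vals_ps (Matrix.SpecialLinearGroup.toGL g1) α 1).jor]
    simp
  have B : ∀ {η : TorS g1 →* ℂˣ} {χ₁ χ₂}, HalfPair (cusp (extT η)) χ₁ χ₂ →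
      χ₁ (upar 1 (one_pow 2) 1) + χ₂ (upar 1 (one_pow 2) 1) = -1 := by
    intro η χ₁ χ₂ h
    rw [← Pi.add_apply, ← h.add, res_apply, toGL_upar 1 _ 1 rfl, (vals_cusp _).jor]
    simp
  refine ⟨fun χ hχ hd => ?_, fun χ hχ hd => ?_, fun χ₁ χ₂ h₁ h₂ hne d₁ d₂ => ?_,
    fun χ₁ χ₂ h₁ h₂ hne d₁ d₂ => ?_⟩
  · obtain ⟨α, χ', -, -, H⟩ := irrS_of_deg_half_add (by omega) hχ hd
    rw [← H.sub_sq h2, ← A H]
    ring
  · obtain ⟨η, χ', -, -, H⟩ := irrS_of_deg_half_sub g1 (by omega) hχ hd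
    rw [← H.sub_sq h2]
    congr 1
    linear_combination B H
  · obtain ⟨α, ψ₁, ψ₂, -, -, H, U⟩ := exists_half_add (F := F) (by omega) h2
    rcases U χ₁ h₁ d₁ with rfl | rfl <;> rcases U χ₂ h₂ d₂ with rfl | rfl
    · exact absurd rfl hne
    · exact A H
    · exact A H.symm
    · exact absurd rfl hne
  · obtain ⟨α, ψ₁, ψ₂, -, -, H, U⟩ := exists_half_sub g1 (by omega) h2
    rcases U χ₁ h₁ d₁ with rfl | rfl <;> rcases U χ₂ h₂ d₂ with rfl | rfl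
    · exact absurd rfl hne
    · exact B H
    · exact B H.symm
    · exact absurd rfl hne

end Cfsg.Agent.S2324
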