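import Cfsg.Statements.S2326
import Cfsg.Agent.Chev.StCent
import Cfsg.Agent.Chev.AutAbs

set_option autoImplicit false
open Cfsg

namespace Cfsg.Agent.S2326

open Cfsg.Lie Cfsg.Agent.Chev

/-- In a Chevalley group of type G₂, B₂, D₄, F₄, E₆, E₇ or E₈ over a finite field of characteristic p, the subgroup U generated by the positive root elements is a Sylow p-subgroup. -/
theorem result {F : Type*} [Field F] [Fintype F] (p : ℕ) [Fact p.Prime] [CharP F p] (D : Cfsg.Lie.ChevalleyDatum) (hD : D ∈ [Cfsg.Lie.chevG2, Cfsg.Lie.chevB2, Cfsg.Lie.chevD4, Cfsg.Lie.chevF4, Cfsg.Lie.chevE6, Cfsg.Lie.chevE7, Cfsg.Lie.chevE8]) :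
    ∃ P : Sylow p ↥(D.group F), (P : Subgroup ↥(D.group F)) = (D.posUnipotent F).subgroupOf (D.group F) := by
  obtain ⟨G⟩ := good_of_mem hD
  obtain ⟨T⟩ := exists_rootTable hD
  refine ⟨(isND_xC T).sylowU isSt_xC Gs_xC p ?_, ?_⟩
  · intro hp
    have h1 := hp.trans (Dvd.intro _ (card_Hs_xC (D := D) (F := F) ▸ card_Hs_mul))
    have hp' : p.Prime := Fact.out
    have h2 := hp'.dvd_of_dvd_pow h1
    rw [Nat.card_units] at h2
    obtain ⟨n, -, hn⟩ := FiniteField.card F p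
    have h3 : p ∣ Nat.card F := by
      rw [Nat.card_eq_fintype_card, hn]; exact dvd_pow_self p n.ne_zero
    have h4 := (Nat.dvd_sub_iff_right (Nat.card_pos) h3).mp h2
    exact hp'.one_lt.ne' (Nat.dvd_one.mp h4)
  · rw [IsND.coe_sylowU, Us_xC, posUnipotent_eq]

end Cfsg.Agent.S2326
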