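import Cfsg.Statements.S2329
import Cfsg.Agent.KSG.SL2Unip

set_option autoImplicit false
open Cfsg

namespace Cfsg.Agent.S2329

open KSG KSG.M2 Matrix


/-- Over a finite field of characteristic p, any two elements of order p of GL₂ are conjugate: there is a single conjugacy class of non-identity unipotent elements. -/
theorem result {F : Type*} [Field F] [Fintype F] (p : ℕ) [Fact p.Prime] [CharP F p] (g h : Matrix.GeneralLinearGroup (Fin 2) F)
    (hg : orderOf g = p) (hh : orderOf h = p) : IsConj g h := by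
  have hp : p.Prime := Fact.out
  have key : ∀ x : Matrix.GeneralLinearGroup (Fin 2) F, orderOf x = p →
      ¬ IsScal (x : Matrix (Fin 2) (Fin 2) F) ∧ (x : Matrix (Fin 2) (Fin 2) F).trace = 2 ∧
        (x : Matrix (Fin 2) (Fin 2) F).det = 1 := by
    intro x hx
    have h1 := (GL_isNilpotent_iff_exists_orderOf p x).2 ⟨1, by rw [hx, pow_one]⟩
    have h2 := unipotent_trace_det h1
    refine ⟨fun hs => ?_, h2⟩
    have : x = 1 := Units.ext (eq_one_of_isScal_of_unipotent h1 hs)
    rw [this, orderOf_one] at hx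
    exact hp.one_lt.ne hx
  obtain ⟨h1, h2, h3⟩ := key g hg
  obtain ⟨h4, h5, h6⟩ := key h hh
  exact (GL_isConj_iff h1 h4).2 ⟨by rw [h2, h5], by rw [h3, h6]⟩

end Cfsg.Agent.S2329
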