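import Cfsg.Statements.S2330
import Cfsg.Agent.KSG.SL2Unip

set_option autoImplicit false
open Cfsg

namespace Cfsg.Agent.S2330

open KSG KSG.M2 Matrix


/-- Over a finite field with q elements, the general linear group GL₂ has exactly q² − 1 conjugacy classes. -/
theorem result {F : Type*} [Field F] [Fintype F] :
    Nat.card (ConjClasses (Matrix.GeneralLinearGroup (Fin 2) F)) = Fintype.card F ^ 2 - 1 := by
  classical
  rw [card_conjClasses_eq (X := Fˣ ⊕ (F × Fˣ)) (fun g : Matrix.GeneralLinearGroup (Fin 2) F =>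
    if h : IsScal (g : Matrix (Fin 2) (Fin 2) F) then
      Sum.inl (Units.mk0 ((g : Matrix (Fin 2) (Fin 2) F) 0 0) (by
        intro h0
        apply g.det_ne_zero
        rw [det_fin_two, h0, h.1]; simp))
    else Sum.inr ((g : Matrix (Fin 2) (Fin 2) F).trace, Matrix.GeneralLinearGroup.det g))]
  · have h : 1 ≤ Fintype.card F := Fintype.card_pos
    rw [Nat.card_sum, Nat.card_prod, Nat.card_units, Nat.card_eq_fintype_card]
    obtain ⟨k, hk⟩ := Nat.exists_eq_add_of_le h
    rw [hk, Nat.add_sub_cancel_left]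
    symm
    apply Nat.sub_eq_of_eq_add
    ring
  · intro g h
    by_cases hg : IsScal (g : Matrix (Fin 2) (Fin 2) F) <;>
      by_cases hh : IsScal (h : Matrix (Fin 2) (Fin 2) F)
    · simp only [hg, hh, dif_pos, Sum.inl.injEq, Units.mk0_inj]
      constructor
      · intro H
        have : g = h := Units.ext (by rw [hg.eq_smul, hh.eq_smul, H])
        rw [this]
      · intro H
        rw [GL_eq_of_isConj_of_isScal H hg]
    · simp only [hg, hh, dif_pos, dif_neg, not_false_eq_true, reduceCtorEq, false_iff]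
      exact fun H => hh ((GL_isScal_iff_of_isConj H).1 hg)
    · simp only [hg, hh, dif_pos, dif_neg, not_false_eq_true, reduceCtorEq, false_iff]
      exact fun H => hg ((GL_isScal_iff_of_isConj H).2 hh)
    · simp only [hg, hh, dif_neg, not_false_eq_true, Sum.inr.injEq, Prod.mk.injEq]
      rw [GL_isConj_iff hg hh, Units.ext_iff]
      rfl
  · rintro (a | ⟨t, d⟩)
    · refine ⟨Matrix.GeneralLinearGroup.mkOfDetNeZero !![(a : F), 0; 0, a] (by simp [det_fin_two]), ?_⟩
      simp [IsScal]
    · refine ⟨Matrix.GeneralLinearGroup.mkOfDetNeZero !![0, -(d : F); 1, t] (by simp [det_fin_two]), ?_⟩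
      simp [IsScal, trace_fin_two, Units.ext_iff, det_fin_two]

end Cfsg.Agent.S2330
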