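import Cfsg.Statements.S2362
import Mathlib
import Cfsg.Agent.Class.Spec.OmegaOdd

set_option autoImplicit false
open Cfsg

namespace Cfsg.Agent.S2362

/-- Let F be a finite field of odd order and n ≥ 3. The simple orthogonal group PΩ(2n+1, F) (type B_n) and the projective symplectic group PSp(2n, F) (type C_n), which have the same order, do not have the same set of element orders. -/
theorem result {F : Type*} [Field F] [Fintype F] (hodd : Odd (Fintype.card F)) (n : ℕ) (hn : 3 ≤ n) :
    Set.range (orderOf : Cfsg.POmega F (Cfsg.quadFormOdd n F) → ℕ) ≠ Set.range (orderOf : Cfsg.PSp n F → ℕ) := by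
  open Cfsg.Agent.Class.Spec in
  obtain ⟨p, hc, -, hp, -⟩ := FiniteField.card' F
  obtain ⟨h2, ht, hq⟩ := odd_card_facts hodd
  obtain ⟨r, hr, hk⟩ := exists_prime_order (n := 2 * (n - 1)) hq (by omega)
  exact range_om_ne_sp (omModels F (AlgebraicClosure F) hp h2 (by omega))
    (models_PSp F (AlgebraicClosure F) p hp n) (isQ_card F (AlgebraicClosure F) hp) ht
    (d := n - 1) (by omega) (by omega) hr hk

end Cfsg.Agent.S2362
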