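import Cfsg.Statements.S2364
import Mathlib
import Cfsg.Agent.Class.Spec.Cent

set_option autoImplicit false
open Cfsg

namespace Cfsg.Agent.S2364

/-- Let F be a finite field of characteristic p, n ≥ 4, and let a, b be commuting elements of PSL(n, F) with a of order p. Then every prime divisor of the order of b divides the order of SL(n − 2, F). -/
theorem result {F : Type*} [Field F] [Fintype F] (p : ℕ) [Fact p.Prime] [CharP F p] (n : ℕ) (hn : 4 ≤ n)
    (a b : Matrix.ProjectiveSpecialLinearGroup (Fin n) F) (ha : orderOf a = p) (hab : Commute a b) :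
    (orderOf b).primeFactors ⊆ (Nat.card (Matrix.SpecialLinearGroup (Fin (n - 2)) F)).primeFactors := by
  open Cfsg.Agent.Class.Spec in
  have hp : p.Prime := Fact.out
  refine (models_PSL F (AlgebraicClosure F) p hp n).primeFactors_subset
    (isQ_card F (AlgebraicClosure F) hp) (fun J h1 h2 => ?_) hn ha hab
  obtain ⟨A, rfl⟩ := exists_SL_jm (ι := Fin (n - 2)) (F := F) (by simpa using h1) h2
  exact ⟨A, fun N hN => (pow_eq_one_iff_KB p hp ((Matrix.isUnit_iff_isUnit_det _).2 (by simp)) N).1
    (congrArg Subtype.val hN)⟩

end Cfsg.Agent.S2364
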