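import Cfsg.Statements.S2365
import Mathlib
import Cfsg.Agent.Class.Spec.Cent

set_option autoImplicit false
open Cfsg

namespace Cfsg.Agent.S2365

/-- Let q be a power of the prime p, F the field with q² elements, m ≥ 4, and let a, b be commuting elements of PSU(m, q) with a of order p. Then every prime divisor of the order of b divides the order of SU(m − 2, q). -/
theorem result {F : Type*} [Field F] [Fintype F] (p : ℕ) [Fact p.Prime] [CharP F p] (m q : ℕ) (hm : 4 ≤ m) (hF : Fintype.card F = q ^ 2)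
    (a b : Cfsg.PSU m F q) (ha : orderOf a = p) (hab : Commute a b) :
    (orderOf b).primeFactors ⊆ (Nat.card ↥(Cfsg.SU (m - 2) F q)).primeFactors := by
  open Cfsg.Agent.Class Cfsg.Agent.Class.Spec in
  have hp : p.Prime := Fact.out
  have := U.UF.of_card hF
  obtain ⟨p', k, hp', hc, hq, hk⟩ := U.exists_prime_pow F q
  obtain rfl : p = p' := CharP.eq F ‹CharP F p› hc
  refine (models_PSU F (AlgebraicClosure F) p hp q (by omega)).primeFactors_subset
    (isQ_units (AlgebraicClosure F) hp ⟨k, hk, by simp [hq]⟩) (fun J h1 h2 => ?_) hm ha hab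
  obtain ⟨A, rfl⟩ := exists_GU_jm (F := F) h1
  exact ⟨U.mkSU _ A.2 ((jdet_jm_eq_one_iff A.1.isUnit).1 h2), fun N hN =>
    (pow_eq_one_iff_KB p hp A.1.isUnit N).1 (congrArg (fun x : Cfsg.SU (m - 2) F q => x.1.1) hN)⟩

end Cfsg.Agent.S2365
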