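import Cfsg.Statements.S2366
import Mathlib
import Cfsg.Agent.Misc.SpecCubic2
import Cfsg.Agent.Class.U.Simple
import Cfsg.Agent.Class.PGL2Dickson

set_option autoImplicit false
open Cfsg

namespace Cfsg.Agent.S2366

open Misc.Spec Matrix _root_.Cfsg.Agent.Class _root_.Cfsg.Agent.Class.U

theorem pow_eq_one_of_dvd' {M : Type*} [Monoid M] {x : M} {m n : ℕ} (h : x ^ m = 1) (hd : m ∣ n) :
    x ^ n = 1 := by
  obtain ⟨k, rfl⟩ := hd
  rw [pow_mul, h, one_pow]

section
variable {F : Type*} [Field F] {q : ℕ} [hU : UF F q]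

theorem adj_trace (g : SU 3 F q) :
    (g.1 : Matrix (Fin 3) (Fin 3) F).adjugate.trace = (g.1 : Matrix (Fin 3) (Fin 3) F).trace ^ q := by
  obtain ⟨g, hg⟩ := g
  have h1 := U.pres_iff.1 (U.mem_SU_iff.1 hg)
  have h2 : g.1.adjugate = (g.1.map (U.conj F q))ᵀ := by
    have h3 : (g.1.map (U.conj F q))ᵀ * g.1 = 1 := by
      rw [← transpose_transpose g.1, ← transpose_mul, transpose_transpose, h1, transpose_one]
    have h4 := mul_adjugate g.1
    rw [g.det_coe, one_smul] at h4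
    rw [← one_mul g.1.adjugate, ← h3, mul_assoc, h4, mul_one]
  show g.1.adjugate.trace = g.1.trace ^ q
  rw [h2, trace_transpose, ← AddMonoidHom.map_trace, U.conj_apply]

theorem mk_pow_eq_one_iff (g : SU 3 F q) (k : ℕ) :
    (g : PSU 3 F q) ^ k = 1 ↔ ∃ e : F, (g.1 : Matrix (Fin 3) (Fin 3) F) ^ k = e • 1 := by
  rw [← QuotientGroup.mk_pow, QuotientGroup.eq_one_iff, U.mem_center_iff (by norm_num)]
  refine exists_congr fun e => ⟨fun h => ?_, fun h x => ?_⟩
  · apply Matrix.toLin'.injective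
    apply LinearMap.ext
    intro x
    have := h x
    rw [SU_smul_def] at this
    rw [Matrix.toLin'_apply, Matrix.toLin'_apply]
    simpa [Matrix.smul_mulVec] using this
  · rw [SU_smul_def]
    show (g.1 : Matrix (Fin 3) (Fin 3) F) ^ k *ᵥ x = _
    rw [h]; simp [Matrix.smul_mulVec]

theorem exists_section (h2 : (2 : F) ≠ 0) (t : F) (ht : t ≠ -1) :
    ∃ g : PSU 3 F q, ∀ k, g ^ k = 1 → ∃ e : F, cubicSeq t (t ^ q) 1 k = (e, 0, 0) := by
  obtain ⟨c, hc⟩ := exists_norm_eq (F := F) (q := q) (μ := -1) (by simp)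
  obtain ⟨a, ha⟩ := exists_norm_eq (F := F) (q := q) (μ := -((t + 1) + conj F q (t + 1))) (by
    rw [map_neg, map_add, conj_conj, add_comm])
  have hc0 : c ≠ 0 := by rintro rfl; simp at hc
  have hcc : conj F q c = -c⁻¹ := by field_simp; linear_combination hc
  let g0 : Matrix (Fin 3) (Fin 3) F := !![0, 0, 1; 0, -1, conj F q a; 1, a, t + 1]
  let J : Matrix (Fin 3) (Fin 3) F := !![0, 0, 1; 0, 1, 0; 1, 0, 0]
  let P : Matrix (Fin 3) (Fin 3) F := !![1, 0, 2⁻¹; 0, 1, 0; c, 0, -c * 2⁻¹]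
  let Q : Matrix (Fin 3) (Fin 3) F := !![2⁻¹, 0, 2⁻¹ * c⁻¹; 0, 1, 0; 1, 0, -c⁻¹]
  have hPQ : P * Q = 1 := by
    ext i j
    fin_cases i <;> fin_cases j <;> simp [P, Q, Matrix.mul_apply, Fin.sum_univ_three] <;>
      field_simp <;> ring
  have hQP : Q * P = 1 := mul_eq_one_comm.1 hPQ
  have hJ : Pᵀ * P.map (conj F q) = J := by
    ext i j
    fin_cases i <;> fin_cases j <;>
      simp [P, J, Matrix.mul_apply, Fin.sum_univ_three, hcc, map_ofNat] <;> field_simp <;> ring
  have hg0 : g0ᵀ * J * g0.map (conj F q) = J := by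
    ext i j
    fin_cases i <;> fin_cases j <;>
      simp [g0, J, Matrix.mul_apply, Fin.sum_univ_three, conj_conj]
    simp only [map_add, map_one] at ha
    linear_combination ha
  have hpres : Pres q (P * g0 * Q) := by
    rw [pres_iff, Matrix.map_mul, Matrix.map_mul, transpose_mul, transpose_mul]
    calc _ = Qᵀ * (g0ᵀ * (Pᵀ * P.map (conj F q)) * g0.map (conj F q)) * Q.map (conj F q) := by
          simp only [Matrix.mul_assoc]
      _ = (P * Q)ᵀ * (P * Q).map (conj F q) := by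
          rw [hJ, hg0, ← hJ, transpose_mul, Matrix.map_mul]; simp only [Matrix.mul_assoc]
      _ = 1 := by rw [hPQ]; simp
  have hd0 : g0.det = 1 := by simp [g0, det_fin_three]
  have hdet : (P * g0 * Q).det = 1 := by
    rw [det_mul, det_mul, hd0, mul_one, ← det_mul, hPQ, det_one]
  refine ⟨(mkSU _ hpres hdet : SU 3 F q), fun k hk => ?_⟩
  obtain ⟨e, he⟩ := (mk_pow_eq_one_iff _ k).1 hk
  have he' : (P * g0 * Q) ^ k = e • 1 := he
  have hpow : ∀ k : ℕ, (P * g0 * Q) ^ k = P * g0 ^ k * Q := by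
    intro k
    induction k with
    | zero => simp [hPQ]
    | succ k ih =>
      rw [pow_succ, ih, pow_succ]
      calc _ = P * g0 ^ k * (Q * P) * g0 * Q := by simp only [Matrix.mul_assoc]
        _ = _ := by rw [hQP]; simp only [Matrix.mul_assoc, Matrix.one_mul, Matrix.mul_one]
  have h0 : g0 ^ k = e • 1 := by
    calc g0 ^ k = (Q * P) * g0 ^ k * (Q * P) := by rw [hQP]; simp
      _ = Q * (P * g0 ^ k * Q) * P := by simp only [Matrix.mul_assoc]
      _ = _ := by rw [← hpow, he']; simp [hQP]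
  have ht0 : g0.trace = t := by simp [g0, trace_fin_three]
  have hs0 : g0.adjugate.trace = t ^ q := by
    rw [adjugate_fin_three, trace_fin_three, ← conj_apply]
    simp only [map_add, map_one] at ha
    simp [g0]
    linear_combination -ha
  rw [pow_eq_cubicSeq, ht0, hs0, hd0] at h0
  refine ⟨e, ?_⟩
  generalize cubicSeq t (t ^ q) 1 k = r at *
  obtain ⟨u, v, w⟩ := r
  have e00 := congrFun (congrFun h0 0) 0
  have e01 := congrFun (congrFun h0 0) 1
  have e02 := congrFun (congrFun h0 0) 2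
  have e11 := congrFun (congrFun h0 1) 1
  simp [g0, Matrix.mul_apply, Fin.sum_univ_three] at e00 e01 e02 e11
  have hw : w = 0 := by
    rcases e01 with h | h
    · exact h
    · rw [h] at e11
      have : w * (t + 1) = 0 := by linear_combination e02 + e11 - e00
      refine (mul_eq_zero.1 this).resolve_right fun h => ht (by linear_combination h)
  rw [hw] at e00 e02
  simp at e00 e02
  rw [hw, e00, e02]

theorem add_pow_q' {K : Type*} [Field K] [Algebra F K] (x y : K) : (x + y) ^ q = x ^ q + y ^ q := by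
  obtain ⟨p, k, hp, hF, hq, -⟩ := exists_prime_pow F q
  haveI := Fact.mk hp
  haveI : CharP K p := charP_of_injective_algebraMap (algebraMap F K).injective p
  rw [hq, add_pow_char_pow]

theorem exists_of_roots (h2 : (2 : F) ≠ 0) {K : Type*} [Field K] [Algebra F K] {a b c : K}
    (habc : a * b * c = 1) (h1 : a ^ q + b ^ q + c ^ q = a⁻¹ + b⁻¹ + c⁻¹)
    (h1' : (a ^ q)⁻¹ + (b ^ q)⁻¹ + (c ^ q)⁻¹ = a + b + c) (ha : a ^ 2 ≠ 1) :
    ∃ g : PSU 3 F q, ∀ k, g ^ k = 1 → ∃ e : K,
      cubicSeq (a + b + c) (a * b + b * c + c * a) (a * b * c) k = (e, 0, 0) ∧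
        a ^ k = e ∧ b ^ k = e ∧ c ^ k = e ∧ e ^ 3 = 1 := by
  haveI := hU.finite
  haveI := Fintype.ofFinite F
  have ha0 : a ≠ 0 := by rintro rfl; simp at habc
  have hb0 : b ≠ 0 := by rintro rfl; simp at habc
  have hc0 : c ≠ 0 := by rintro rfl; simp at habc
  have hs : (a + b + c) ^ q = a * b + b * c + c * a := by
    rw [add_pow_q' (F := F), add_pow_q' (F := F), h1]
    field_simp
    linear_combination (-(b * c + a * c + a * b)) * habc
  obtain ⟨t, ht⟩ := Dickson.mem_range_of_pow_card (F := F) (t := a + b + c) (by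
    rw [← Nat.card_eq_fintype_card, hU.card_eq, pow_two, pow_mul, add_pow_q' (F := F) (a + b) c,
      add_pow_q' (F := F) a b, h1, add_pow_q' (F := F), add_pow_q' (F := F), inv_pow, inv_pow, inv_pow,
      h1'])
  obtain ⟨g, hg⟩ := exists_section (q := q) h2 t (by
    rintro rfl
    have e1 : a + b + c = -1 := by rw [← ht]; simp
    have e2 : a * b + b * c + c * a = -1 := by
      rw [← hs, ← ht, ← map_pow, ← conj_apply]; simp
    have : (a ^ 2 - 1) * (a + 1) = 0 := by
      linear_combination (a ^ 2) * e1 - a * e2 + habc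
    rcases mul_eq_zero.1 this with h | h
    · exact ha (by linear_combination h)
    · exact ha (by linear_combination (a - 1) * h))
  refine ⟨g, fun k hk => ?_⟩
  obtain ⟨e, he⟩ := hg k hk
  have h3 := map_cubicSeq (algebraMap F K) t (t ^ q) 1 k
  rw [he, map_pow, ht, hs, map_one, ← habc] at h3
  simp only [map_zero] at h3
  have r : ∀ x : K, x ^ 3 = (a + b + c) * x ^ 2 - (a * b + b * c + c * a) * x + a * b * c →
      x ^ k = algebraMap F K e := fun x hx => by
    rw [pow_eq_cubicSeq_root hx, h3]; simp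
  have ra := r a (by ring)
  have rb := r b (by ring)
  have rc := r c (by ring)
  refine ⟨_, h3, ra, rb, rc, ?_⟩
  rw [pow_succ, pow_two]
  nth_rewrite 1 [← ra]
  nth_rewrite 1 [← rb]
  rw [← rc, ← mul_pow, ← mul_pow, habc, one_pow]

omit hU in
theorem div_dvd_of {K : Type*} [Field K] {a : K} {N k : ℕ} (ha : IsPrimitiveRoot a N)
    (hd : Nat.gcd 3 (q + 1) ∣ N) (h1 : (a ^ k) ^ 3 = 1) (h2 : (a ^ k) ^ (q + 1) = 1) :
    N / Nat.gcd 3 (q + 1) ∣ k := by
  rw [← pow_mul, ha.pow_eq_one_iff_dvd] at h1 h2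
  have := Nat.dvd_gcd h1 h2
  rw [Nat.gcd_mul_left, mul_comm] at this
  exact (Nat.div_dvd_iff_dvd_mul hd (Nat.gcd_pos_of_pos_left _ three_pos)).2 this

omit hU in
theorem gcd_dvd_a : Nat.gcd 3 (q + 1) ∣ q ^ 2 - 1 := by
  rw [show q ^ 2 - 1 = (q + 1) * (q - 1) by rw [← Nat.sq_sub_sq]]
  exact (Nat.gcd_dvd_right _ _).mul_right _

omit hU in
theorem gcd_dvd_b (hq : 2 ≤ q) : Nat.gcd 3 (q + 1) ∣ q ^ 2 - q + 1 := by
  obtain ⟨r, rfl⟩ := Nat.exists_eq_add_of_le hq
  have : (2 + r) ^ 2 - (2 + r) + 1 = (2 + r + 1) * r + 3 := by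
    have : (2 + r) ^ 2 = (2 + r) + ((2 + r + 1) * r + 2) := by ring
    omega
  rw [this]
  exact Nat.dvd_add ((Nat.gcd_dvd_right _ _).mul_right _) (Nat.gcd_dvd_left _ _)

omit hU in
theorem root_facts {K : Type*} [Field K] {a : K} {N : ℕ} (hd : Nat.gcd 3 (q + 1) ∣ N)
    (h : a ^ N = 1) : (a ^ (N / Nat.gcd 3 (q + 1))) ^ 3 = 1 ∧
      (a ^ (N / Nat.gcd 3 (q + 1))) ^ (q + 1) = 1 := by
  have : (a ^ (N / Nat.gcd 3 (q + 1))) ^ Nat.gcd 3 (q + 1) = 1 := by
    rw [← pow_mul, Nat.div_mul_cancel hd, h]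
  exact ⟨pow_eq_one_of_dvd' this (Nat.gcd_dvd_left _ _), pow_eq_one_of_dvd' this (Nat.gcd_dvd_right _ _)⟩

theorem upper (K : Type*) [Field K] [Algebra F K] [IsAlgClosed K] (p : ℕ) [hp : Fact p.Prime] [CharP F p] (hp2 : p ≠ 2) (x : PSU 3 F q) :
    x ^ (q + 1) = 1 ∨ x ^ (p * ((q + 1) / Nat.gcd 3 (q + 1))) = 1 ∨
      x ^ ((q ^ 2 - 1) / Nat.gcd 3 (q + 1)) = 1 ∨ x ^ ((q ^ 2 - q + 1) / Nat.gcd 3 (q + 1)) = 1 := by
  haveI := hU.finite
  obtain ⟨g, rfl⟩ := QuotientGroup.mk_surjective x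
  let ι := algebraMap F K
  haveI : CharP K p := charP_of_injective_algebraMap ι.injective p
  have hp3 : 3 ≤ p := by have := hp.out.two_le; omega
  have hq2 := two_le_q F q
  set A0 : Matrix (Fin 3) (Fin 3) F := g.1.1 with hA0
  let A : Matrix (Fin 3) (Fin 3) K := ι.mapMatrix A0
  have key : ∀ (N : ℕ) (μ : K), A ^ N = μ • 1 → (g : PSU 3 F q) ^ N = 1 := by
    intro N μ h
    rw [mk_pow_eq_one_iff]
    refine ⟨(A0 ^ N) 0 0, ?_⟩
    rw [← map_pow] at h
    ext i j
    apply ι.injective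
    have h1 := congrFun (congrFun h i) j
    have h2 := congrFun (congrFun h 0) 0
    simp only [RingHom.mapMatrix_apply, Matrix.map_apply, Matrix.smul_apply, Matrix.one_apply_eq,
      smul_eq_mul, mul_one] at h1 h2
    rw [h1, Matrix.smul_apply, smul_eq_mul, map_mul, h2, Matrix.one_apply, Matrix.one_apply]
    split_ifs <;> simp
  set t : K := ι A0.trace with ht
  have htq : (t ^ q) ^ q = t := by
    rw [ht, ← map_pow, ← map_pow, ← conj_apply, ← conj_apply, conj_conj]
  have hA : A ^ 3 = t • A ^ 2 - t ^ q • A + (1 : K) • (1 : Matrix (Fin 3) (Fin 3) K) := by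
    have := congrArg ι.mapMatrix (cayley_three A0)
    rw [adj_trace, g.1.det_coe] at this
    simp only [map_pow, map_add, map_sub, one_smul, map_one] at this ⊢
    rw [this]
    congr 2
    · ext i j; simp [A, ht, ← Matrix.map_pow]
    · ext i j; simp [A, ht, hA0]
  have hroot0 : ∀ x : K, x ^ 3 = t * x ^ 2 - t ^ q * x + 1 → x ≠ 0 := by
    rintro x hx rfl; simp at hx
  have hφ : ∀ x : K, x ^ 3 = t * x ^ 2 - t ^ q * x + 1 →
      ((x ^ q)⁻¹) ^ 3 = t * ((x ^ q)⁻¹) ^ 2 - t ^ q * (x ^ q)⁻¹ + 1 := by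
    intro x hx
    have h0 := pow_ne_zero q (hroot0 x hx)
    have h1 : x ^ 3 + t ^ q * x = t * x ^ 2 + 1 := by linear_combination hx
    have h2 := congrArg (· ^ q) h1
    simp only [add_pow_q' (F := F), mul_pow, htq, one_pow] at h2
    rw [← pow_mul, mul_comm 3, pow_mul, ← pow_mul x 2, mul_comm 2, pow_mul] at h2
    field_simp
    linear_combination -h2
  have hfix : ∀ x : K, x ≠ 0 → ((x ^ q)⁻¹ = x ↔ x ^ (q + 1) = 1) := by
    intro x hx
    rw [pow_succ, inv_eq_iff_eq_inv]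
    exact ⟨fun h => by rw [h, inv_mul_cancel₀ hx], fun h => eq_inv_of_mul_eq_one_left h⟩
  by_cases hall : ∀ x : K, x ^ 3 = t * x ^ 2 - t ^ q * x + 1 → x ^ (q + 1) = 1
  · obtain ⟨a, b, c, e1, e2, e3⟩ := exists_cubic_roots t (t ^ q) 1
    have ha := hall a (by rw [e2]; nth_rewrite 1 [e3]; rw [e1]; ring)
    have hb := hall b (by rw [e2]; nth_rewrite 1 [e3]; rw [e1]; ring)
    have hc := hall c (by rw [e2]; nth_rewrite 1 [e3]; rw [e1]; ring)
    have rep : ∀ a c : K, a ^ (q + 1) = 1 → t = a + a + c → t ^ q = a * a + a * c + c * a →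
        1 = a * a * c → (g : PSU 3 F q) ^ (p * ((q + 1) / Nat.gcd 3 (q + 1))) = 1 := by
      intro a c ha e1 e2 e3
      rw [e2, e3] at hA
      rw [e1] at hA
      obtain ⟨f1, -⟩ := root_facts (Nat.gcd_dvd_right 3 (q + 1)) ha
      refine key _ _ (pow_eq_smul_of_char p hp3 A hA rfl rfl ?_)
      have := congrArg (· ^ ((q + 1) / Nat.gcd 3 (q + 1))) e3
      simp only [one_pow, mul_pow] at this
      linear_combination (-(c ^ ((q + 1) / Nat.gcd 3 (q + 1)))) * f1 -
        a ^ ((q + 1) / Nat.gcd 3 (q + 1)) * this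
    by_cases hab : a = b
    · subst hab
      exact Or.inr (Or.inl (rep a c ha e1 e2 e3))
    by_cases hac : a = c
    · subst hac
      exact Or.inr (Or.inl (rep a b ha (by rw [e1]; ring) (by rw [e2]; ring) (by rw [e3]; ring)))
    by_cases hbc : b = c
    · subst hbc
      exact Or.inr (Or.inl (rep b a hb (by rw [e1]; ring) (by rw [e2]; ring) (by rw [e3]; ring)))
    left
    rw [e2, e3] at hA
    rw [e1] at hA
    exact key _ _ (pow_eq_smul_of_distinct A hA hab hac hbc ha hb hc)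
  · right; right
    push Not at hall
    obtain ⟨a, ha, ha1⟩ := hall
    have ha0 := hroot0 a ha
    have hb := hφ a ha
    set b := (a ^ q)⁻¹ with hbdef
    have hb0 := hroot0 b hb
    have hab : a ≠ b := fun h => ha1 ((hfix a ha0).1 h.symm)
    obtain ⟨e2, e3⟩ := third_root ha hb hab
    set c := t - a - b with hc
    have e1 : t = a + b + c := by rw [hc]; ring
    have main : ∀ N : ℕ, Nat.gcd 3 (q + 1) ∣ N → a ^ N = 1 → a ≠ c → b ≠ c →
        (g : PSU 3 F q) ^ (N / Nat.gcd 3 (q + 1)) = 1 := by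
      intro N hN haN hac hbc
      obtain ⟨f1, f2⟩ := root_facts hN haN
      have hA' := hA
      rw [e2, e3] at hA'
      rw [e1] at hA'
      have hb' : b ^ (N / Nat.gcd 3 (q + 1)) = a ^ (N / Nat.gcd 3 (q + 1)) := by
        rw [hbdef, inv_pow, ← pow_mul, mul_comm, pow_mul]
        exact (hfix _ (pow_ne_zero _ ha0)).2 f2
      refine key _ _ (pow_eq_smul_of_distinct A hA' hab hac hbc rfl hb' ?_)
      have := congrArg (· ^ (N / Nat.gcd 3 (q + 1))) e3
      simp only [one_pow, mul_pow, hb'] at this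
      linear_combination (-(c ^ (N / Nat.gcd 3 (q + 1)))) * f1 -
        a ^ (N / Nat.gcd 3 (q + 1)) * this
    have haq : a ^ q * b = 1 := by rw [hbdef]; exact mul_inv_cancel₀ (pow_ne_zero _ ha0)
    have hb' := hφ b hb
    have hbq0 := pow_ne_zero q hb0
    rw [e2] at hb'
    nth_rewrite 1 [e3] at hb'
    rw [e1] at hb'
    have hinj : (b ^ q)⁻¹ ≠ b := by
      intro h
      apply hab
      have h1 : a ^ q = b ^ q := by rw [← _root_.inv_inj, h]
      have h2 : (a - b) ^ q = 0 := by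
        have := add_pow_q' (F := F) (q := q) (a - b) b
        rw [sub_add_cancel, h1] at this
        linear_combination -this
      have := pow_eq_zero_iff (by omega) |>.1 h2
      linear_combination this
    by_cases h : (b ^ q)⁻¹ = a
    · left
      have hbq : b ^ q * a = 1 := by rw [← h]; exact mul_inv_cancel₀ hbq0
      have hcq : c ^ (q + 1) = 1 := by
        have := congrArg (· ^ q) e3
        simp only [one_pow, mul_pow] at this
        rw [pow_succ]
        linear_combination (-(c ^ q * c * (b ^ q * a))) * haq - c ^ q * c * hbq -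
          (a * b * c) * this - e3
      refine main _ gcd_dvd_a ?_ ?_ ?_
      · have : a ^ (q ^ 2) = a := by
          rw [pow_two, pow_mul, eq_inv_of_mul_eq_one_left haq, inv_pow, h]
        apply mul_right_cancel₀ ha0
        rw [← pow_succ, Nat.sub_add_cancel (Nat.one_le_pow _ _ (by omega)), this, one_mul]
      · intro h1; exact ha1 (h1 ▸ hcq)
      · intro h1; exact hinj ((hfix b hb0).2 (h1 ▸ hcq))
    · have hac' := h
      replace h : (b ^ q)⁻¹ = c := ((root_cases hb').resolve_left hac').resolve_left hinj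
      have hac : a ≠ c := by rw [← h]; exact Ne.symm hac'
      right
      refine main _ (gcd_dvd_b hq2) ?_ hac (by rw [← h]; exact hinj.symm)
      have h1 : c = a ^ (q ^ 2) := by
        rw [← h, hbdef, inv_pow, inv_inv, pow_two, pow_mul]
      apply mul_right_cancel₀ (pow_ne_zero q ha0)
      rw [← pow_add, show q ^ 2 - q + 1 + q = q ^ 2 + 1 by
        have : q ≤ q ^ 2 := Nat.le_self_pow (by norm_num) q
        omega, pow_succ, ← h1]
      linear_combination (-(a ^ q)) * e3 - c * a * haq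

end

theorem aux {F : Type*} [Field F] (K : Type*) [Field K] [Algebra F K] [IsAlgClosed K] [Fintype F] (p : ℕ) [Fact p.Prime] [CharP F p] (hp : p ≠ 2) (q : ℕ) (hF : Fintype.card F = q ^ 2) :
    Set.range (orderOf : Cfsg.PSU 3 F q → ℕ) =
      {s : ℕ | s ∣ q + 1} ∪ {s : ℕ | s ∣ p * (q + 1) / Nat.gcd 3 (q + 1)} ∪
        {s : ℕ | s ∣ (q ^ 2 - 1) / Nat.gcd 3 (q + 1)} ∪ {s : ℕ | s ∣ (q ^ 2 - q + 1) / Nat.gcd 3 (q + 1)} := by
  haveI hU : UF F q := UF.of_card hF
  have hp' : p.Prime := Fact.out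
  have h2 : (2 : F) ≠ 0 := by
    intro h
    have : ((2 : ℕ) : F) = 0 := by exact_mod_cast h
    rw [CharP.cast_eq_zero_iff F p] at this
    exact hp ((Nat.prime_dvd_prime_iff_eq hp' Nat.prime_two).1 this)
  have hpq : p ∣ q := by
    obtain ⟨p', k, -, hF', hq, hk⟩ := exists_prime_pow F q
    rw [CharP.eq F ‹CharP F p› hF', hq]
    exact dvd_pow_self _ hk.ne'
  have hq3 : 3 ≤ q := by
    have := two_le_q F q
    have := Nat.le_of_dvd (by omega) hpq
    have := hp'.two_le
    omega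
  haveI : CharP K p := charP_of_injective_algebraMap (algebraMap F K).injective p
  have prim : ∀ N : ℕ, ¬ p ∣ N → 2 < N → ∃ a : K, IsPrimitiveRoot a N ∧ a ≠ 0 ∧ a ^ 2 ≠ 1 := by
    intro N hN hN2
    haveI : NeZero (N : K) := ⟨by rwa [Ne, CharP.cast_eq_zero_iff K p]⟩
    obtain ⟨a, ha⟩ := HasEnoughRootsOfUnity.exists_primitiveRoot K N
    exact ⟨a, ha, ha.ne_zero (by omega), ha.pow_ne_one_of_pos_of_lt (by norm_num) hN2⟩
  have n1 : ¬ p ∣ q + 1 := fun h => hp'.ne_one (Nat.dvd_one.1 ((Nat.dvd_add_right hpq).1 h))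
  have hqq : 3 * q ≤ q ^ 2 := by nlinarith
  have hpq2 : p ∣ q ^ 2 := hpq.trans (dvd_pow_self _ two_ne_zero)
  have n2 : ¬ p ∣ q ^ 2 - 1 := fun h =>
    hp'.ne_one (Nat.dvd_one.1 ((Nat.dvd_sub_iff_right (by omega) hpq2).1 h))
  have n3 : ¬ p ∣ q ^ 2 - q + 1 := fun h =>
    hp'.ne_one (Nat.dvd_one.1 ((Nat.dvd_add_right (Nat.dvd_sub hpq2 hpq)).1 h))
  have hmul : p * (q + 1) / Nat.gcd 3 (q + 1) = p * ((q + 1) / Nat.gcd 3 (q + 1)) :=
    Nat.mul_div_assoc _ (Nat.gcd_dvd_right _ _)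
  rw [hmul]
  ext n
  simp only [Set.mem_union, Set.mem_setOf_eq, or_assoc]
  constructor
  · rintro ⟨x, rfl⟩
    simp only [orderOf_dvd_iff_pow_eq_one]
    exact upper K p hp x
  · have fin : ∀ (N : ℕ) (g : PSU 3 F q), N ∣ orderOf g → n ∣ N →
        n ∈ Set.range (orderOf : PSU 3 F q → ℕ) := fun N g h1 h2 =>
      mem_range_orderOf_of_dvd ⟨g, rfl⟩ (h2.trans h1)
    rintro (h | h | h | h)
    · obtain ⟨a, ha, ha0, ha2⟩ := prim _ n1 (by omega)
      have haq : a ^ q = a⁻¹ := eq_inv_of_mul_eq_one_left (by rw [← pow_succ, ha.pow_eq_one])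
      obtain ⟨g, hg⟩ := exists_of_roots (F := F) (q := q) h2 (a := a) (b := a⁻¹) (c := 1)
        (by field_simp) (by simp [haq]) (by simp [haq]) ha2
      obtain ⟨e, -, e1, -, e3, -⟩ := hg _ (pow_orderOf_eq_one g)
      refine fin _ g ?_ h
      rw [← ha.pow_eq_one_iff_dvd, e1, ← e3, one_pow]
    · obtain ⟨a, ha, ha0, ha2⟩ := prim _ n1 (by omega)
      have haq : a ^ q = a⁻¹ := eq_inv_of_mul_eq_one_left (by rw [← pow_succ, ha.pow_eq_one])
      obtain ⟨g, hg⟩ := exists_of_roots (F := F) (q := q) h2 (a := a) (b := a) (c := (a * a)⁻¹)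
        (by field_simp) (by simp [haq, mul_pow]) (by simp [haq, mul_pow]) ha2
      obtain ⟨e, e0, e1, -, -, e3⟩ := hg _ (pow_orderOf_eq_one g)
      refine fin _ g ?_ h
      have d1 := cast_eq_zero_of_double_root ha0 e0
      rw [CharP.cast_eq_zero_iff K p] at d1
      have d2 := div_dvd_of (q := q) ha (Nat.gcd_dvd_right _ _) (k := orderOf g) (by rw [e1, e3])
        (by rw [← pow_mul, mul_comm, pow_mul, ha.pow_eq_one, one_pow])
      refine Nat.Coprime.mul_dvd_of_dvd_of_dvd ?_ d1 d2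
      rw [hp'.coprime_iff_not_dvd]
      exact fun h => n1 (h.trans (Nat.div_dvd_of_dvd (Nat.gcd_dvd_right _ _)))
    · obtain ⟨a, ha, ha0, ha2⟩ := prim _ n2 (by omega)
      have haq0 := pow_ne_zero q ha0
      have haq : (a ^ q) ^ q = a := by
        rw [← pow_mul, ← pow_two, ← Nat.sub_add_cancel (show 1 ≤ q ^ 2 by omega), pow_succ,
          ha.pow_eq_one, one_mul]
      obtain ⟨g, hg⟩ := exists_of_roots (F := F) (q := q) h2 (a := a) (b := (a ^ q)⁻¹)
        (c := a ^ q * a⁻¹) (by field_simp) (by simp [haq, mul_pow]; ring)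
        (by simp [haq, mul_pow]; ring) ha2
      obtain ⟨e, -, e1, e2, -, e3⟩ := hg _ (pow_orderOf_eq_one g)
      refine fin _ g (div_dvd_of (q := q) ha gcd_dvd_a (by rw [e1, e3]) ?_) h
      rw [pow_succ, ← pow_mul, mul_comm (orderOf g), pow_mul, e1, ← e2, ← mul_pow,
        mul_inv_cancel₀ haq0, one_pow]
    · obtain ⟨a, ha, ha0, ha2⟩ := prim _ n3 (by omega)
      have haq0 := pow_ne_zero q ha0
      have habc : a * (a ^ q)⁻¹ * (a ^ q) ^ q = 1 := by
        have := ha.pow_eq_one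
        rw [pow_succ, pow_sub₀ _ ha0 (by omega), pow_two, pow_mul] at this
        linear_combination this
      have haq : ((a ^ q) ^ q) ^ q = a⁻¹ := by
        have h1 := congrArg (· ^ q) habc
        simp only [mul_pow, inv_pow, one_pow] at h1
        have h3 := pow_ne_zero q haq0
        field_simp at h1 habc ⊢
        apply mul_left_cancel₀ haq0
        linear_combination a * h1 + habc
      obtain ⟨g, hg⟩ := exists_of_roots (F := F) (q := q) h2 (a := a) (b := (a ^ q)⁻¹)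
        (c := (a ^ q) ^ q) habc (by simp [haq]; ring) (by simp [haq]; ring) ha2
      obtain ⟨e, -, e1, e2, -, e3⟩ := hg _ (pow_orderOf_eq_one g)
      refine fin _ g (div_dvd_of (q := q) ha (gcd_dvd_b (by omega)) (by rw [e1, e3]) ?_) h
      rw [pow_succ, ← pow_mul, mul_comm (orderOf g), pow_mul, e1, ← e2, ← mul_pow,
        mul_inv_cancel₀ haq0, one_pow]



/-- The set of element orders of PSU(3, q) for an odd prime power q = p^n: writing d = gcd(3, q + 1), a positive integer is the order of some element exactly when it divides one of q + 1, p(q + 1)/d, (q² − 1)/d, (q² − q + 1)/d. -/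
theorem result {F : Type*} [Field F] [Fintype F] (p : ℕ) [Fact p.Prime] [CharP F p] (hp : p ≠ 2) (q : ℕ) (hF : Fintype.card F = q ^ 2) :
    Set.range (orderOf : Cfsg.PSU 3 F q → ℕ) =
      {s : ℕ | s ∣ q + 1} ∪ {s : ℕ | s ∣ p * (q + 1) / Nat.gcd 3 (q + 1)} ∪
        {s : ℕ | s ∣ (q ^ 2 - 1) / Nat.gcd 3 (q + 1)} ∪ {s : ℕ | s ∣ (q ^ 2 - q + 1) / Nat.gcd 3 (q + 1)} := by
  exact aux (AlgebraicClosure F) p hp q hF

end Cfsg.Agent.S2366
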