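import Cfsg.Statements.S2367
import Mathlib

set_option autoImplicit false
open Cfsg

namespace Cfsg.Agent.S2367

theorem eight_pow_dvd (k : ℕ) : 2 ^ (3 * k) ∣ (4 * k).factorial := by
  induction k with
  | zero => simp
  | succ k ih =>
    have : (4 * (k + 1)).factorial =
        (4 * k).factorial * 2 ^ 3 * ((k + 1) * (4 * k + 3) * (2 * k + 1) * (4 * k + 1)) := by
      rw [show 4 * (k + 1) = 4 * k + 1 + 1 + 1 + 1 by ring]
      simp only [Nat.factorial_succ]
      ring
    rw [this, mul_add, pow_add]
    exact Dvd.dvd.mul_right (Nat.mul_dvd_mul_right ih _) _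

theorem two_pow_bound (k : ℕ) (hk : 3 ≤ k) : 16 * k + 12 ≤ 9 * 2 ^ k := by
  induction k, hk using Nat.le_induction with
  | base => norm_num
  | succ k hk ih => rw [pow_succ]; omega

theorem spor (N a : ℕ) (h1 : N ∣ (Nat.factorial 71) ^ 2) (h2 : 2 ^ a ∣ N) (h0 : N ≠ 0)
    (h3 : ∀ p < 72, p ≠ 2 → p.Prime → p ^ 3 ∣ N → p ^ 4 ∣ N ∨ p ^ 3 < 2 ^ a)
    (p : ℕ) (hp : p.Prime) (hodd : p ≠ 2) (h : N.factorization p = 3) :
    p ^ 3 < 2 ^ N.factorization 2 := by
  have h4 : p ^ 3 ∣ N := (hp.pow_dvd_iff_le_factorization h0).2 h.ge
  have h5 : ¬ p ^ 4 ∣ N := by rw [hp.pow_dvd_iff_le_factorization h0]; omega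
  have h6 : p ≤ 71 := hp.dvd_factorial.1
    (hp.dvd_of_dvd_pow ((Dvd.dvd.trans (dvd_pow_self p (by norm_num)) h4).trans h1))
  have h7 := (h3 p (by omega) hodd hp h4).resolve_left h5
  exact h7.trans_le (Nat.pow_le_pow_right (by norm_num)
    ((Nat.prime_two.pow_dvd_iff_le_factorization h0).1 h2))


/-- Let G be an alternating group of degree at least 5 or a simple group with the order of one of the 26 sporadic groups, and let p be an odd prime such that p³ is the exact power of p dividing the order of G. Then p³ is less than the 2-part of the order of G. -/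
theorem result {G : Type*} [Group G] [Finite G] (hG : Cfsg.IsAlternating G ∨ Cfsg.IsSporadic G)
    (p : ℕ) (hp : p.Prime) (hodd : p ≠ 2) (h3 : (Nat.card G).factorization p = 3) :
    p ^ 3 < 2 ^ (Nat.card G).factorization 2 := by
  rcases hG with ⟨n, hn, ⟨e⟩⟩ | hG
  · have : Nontrivial (Fin n) := Fin.nontrivial_iff_two_le.2 (by omega)
    have hc : 2 * Nat.card G = n.factorial := by
      rw [Nat.card_congr e.toEquiv, two_mul_nat_card_alternatingGroup]
      simp [Nat.card_eq_fintype_card, Fintype.card_perm]
    have h0 : Nat.card G ≠ 0 := Nat.card_pos.ne'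
    have h4 : p ^ 3 ∣ n.factorial :=
      hc ▸ Dvd.dvd.mul_left ((hp.pow_dvd_iff_le_factorization h0).2 h3.ge) _
    have hp3 : 3 ≤ p := by have := hp.two_le; omega
    have h5 : 3 * p ≤ n := by
      by_contra h
      push Not at h
      have hlog : Nat.log p n < 2 := Nat.log_lt_of_lt_pow (by omega) (by nlinarith)
      rw [hp.pow_dvd_factorial_iff hlog] at h4
      simp only [Nat.Ico_succ_singleton, Finset.sum_singleton, pow_one] at h4
      have := (Nat.le_div_iff_mul_le hp.pos).1 h4
      omega
    obtain ⟨k, hk, hk'⟩ : ∃ k, 4 * k ≤ 3 * p ∧ 3 * p ≤ 4 * k + 3 := ⟨3 * p / 4, by omega, by omega⟩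
    have h6 : 2 ^ (3 * k) ∣ 2 * Nat.card G :=
      hc ▸ (eight_pow_dvd k).trans (Nat.factorial_dvd_factorial (by omega))
    have hk2 : 2 ≤ k := by omega
    have h7 : 2 ^ (3 * k - 1) ∣ Nat.card G := by
      rw [show 3 * k = 1 + (3 * k - 1) by omega, pow_add, pow_one] at h6
      exact Nat.dvd_of_mul_dvd_mul_left (by norm_num) h6
    refine lt_of_lt_of_le ?_ (Nat.pow_le_pow_right (by norm_num)
      ((Nat.prime_two.pow_dvd_iff_le_factorization h0).1 h7))
    have h8 : 4 * p ≤ 3 * 2 ^ k := by
      rcases hk2.eq_or_lt with rfl | hk3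
      · omega
      · have := two_pow_bound k hk3
        omega
    have h9 : 2 * 2 ^ (3 * k - 1) = (2 ^ k) ^ 3 := by
      rw [← pow_mul, ← pow_succ']; congr 1; omega
    have h10 : (4 * p) ^ 3 ≤ (3 * 2 ^ k) ^ 3 := Nat.pow_le_pow_left h8 3
    rw [mul_pow, mul_pow, ← h9] at h10
    have : 0 < p ^ 3 := by positivity
    omega
  · rcases hG with h | h | h | h | h | h | h | h | h | h | h | h | h | h | h | h | h | h | h | h | h | h | h | h | h | h <;>
      rw [h.2] at h3 ⊢
    · exact spor _ 4 (by decide +kernel) (by decide +kernel) (by decide) (by decide +kernel) p hp hodd h3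
    · exact spor _ 6 (by decide +kernel) (by decide +kernel) (by decide) (by decide +kernel) p hp hodd h3
    · exact spor _ 7 (by decide +kernel) (by decide +kernel) (by decide) (by decide +kernel) p hp hodd h3
    · exact spor _ 7 (by decide +kernel) (by decide +kernel) (by decide) (by decide +kernel) p hp hodd h3
    · exact spor _ 10 (by decide +kernel) (by decide +kernel) (by decide) (by decide +kernel) p hp hodd h3
    · exact spor _ 3 (by decide +kernel) (by decide +kernel) (by decide) (by decide +kernel) p hp hodd h3
    · exact spor _ 7 (by decide +kernel) (by decide +kernel) (by decide) (by decide +kernel) p hp hodd h3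
    · exact spor _ 7 (by decide +kernel) (by decide +kernel) (by decide) (by decide +kernel) p hp hodd h3
    · exact spor _ 21 (by decide +kernel) (by decide +kernel) (by decide) (by decide +kernel) p hp hodd h3
    · exact spor _ 21 (by decide +kernel) (by decide +kernel) (by decide) (by decide +kernel) p hp hodd h3
    · exact spor _ 18 (by decide +kernel) (by decide +kernel) (by decide) (by decide +kernel) p hp hodd h3
    · exact spor _ 10 (by decide +kernel) (by decide +kernel) (by decide) (by decide +kernel) p hp hodd h3
    · exact spor _ 17 (by decide +kernel) (by decide +kernel) (by decide) (by decide +kernel) p hp hodd h3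
    · exact spor _ 18 (by decide +kernel) (by decide +kernel) (by decide) (by decide +kernel) p hp hodd h3
    · exact spor _ 21 (by decide +kernel) (by decide +kernel) (by decide) (by decide +kernel) p hp hodd h3
    · exact spor _ 9 (by decide +kernel) (by decide +kernel) (by decide) (by decide +kernel) p hp hodd h3
    · exact spor _ 7 (by decide +kernel) (by decide +kernel) (by decide) (by decide +kernel) p hp hodd h3
    · exact spor _ 10 (by decide +kernel) (by decide +kernel) (by decide) (by decide +kernel) p hp hodd h3
    · exact spor _ 14 (by decide +kernel) (by decide +kernel) (by decide) (by decide +kernel) p hp hodd h3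
    · exact spor _ 13 (by decide +kernel) (by decide +kernel) (by decide) (by decide +kernel) p hp hodd h3
    · exact spor _ 9 (by decide +kernel) (by decide +kernel) (by decide) (by decide +kernel) p hp hodd h3
    · exact spor _ 14 (by decide +kernel) (by decide +kernel) (by decide) (by decide +kernel) p hp hodd h3
    · exact spor _ 8 (by decide +kernel) (by decide +kernel) (by decide) (by decide +kernel) p hp hodd h3
    · exact spor _ 15 (by decide +kernel) (by decide +kernel) (by decide) (by decide +kernel) p hp hodd h3
    · exact spor _ 41 (by decide +kernel) (by decide +kernel) (by decide) (by decide +kernel) p hp hodd h3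
    · exact spor _ 46 (by decide +kernel) (by decide +kernel) (by decide) (by decide +kernel) p hp hodd h3

end Cfsg.Agent.S2367
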