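import Cfsg.Agent.Chev.Aut
import Cfsg.Statements.S2370
-- import your own Cfsg.Agent.* helpers here

set_option autoImplicit false
open Cfsg

namespace Cfsg.Agent.S2370

open Cfsg.Lie Cfsg.Agent.Chev

/-- The height. -/
def ht : (Nd chevF4 → ℤ) →+ ℤ where
  toFun c := ∑ i, c i
  map_zero' := by simp
  map_add' a b := by simp [Finset.sum_add_distrib]

theorem ht_bound : ∀ r : Rt chevF4, -11 ≤ ∑ i, v r i ∧ ∑ i, v r i ≤ 11 ∧
    (24 ≤ (r : ℕ) → 1 ≤ ∑ i, v r i) := by decide +kernel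

theorem ht_wtv (a : chevF4.Idx) : -11 ≤ ht (wtv a) ∧ ht (wtv a) ≤ 11 := by
  rcases a with i | r
  · simp [wtv]
  · exact ⟨(ht_bound r).1, (ht_bound r).2.1⟩

theorem pow_eq_one_of_mem_Us {K : Type*} [Field K] [CharP K 2] {g : GL chevF4.Idx K}
    (hg : g ∈ Us chevF4 (xG chevF4 K)) : g ^ 32 = 1 := by
  obtain ⟨T⟩ := exists_rootTable (D := chevF4) (by simp)
  have hN : T.N = 24 := by
    have h1 := T.nroots_eq
    have h2 : chevF4.nroots = 48 := by decide +kernel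
    omega
  rw [T.Us_eq] at hg
  have h1 := (XS_le_filtSub T ht zero_le_one (fun r h => ⟨h.2, by
    obtain ⟨h1, h2⟩ := h
    lift r to Rt chevF4 using T.lt_iff.mpr h2
    rw [T.vec_eq_v]
    exact (ht_bound r).2.2 (hN ▸ h1)⟩) hg).1
  have h2 : ((g : Matrix chevF4.Idx chevF4.Idx K) - 1) ^ 32 = 0 := by
    ext a b
    by_contra e
    have h3 := h1.pow 32 a b e
    have h4 := ht_wtv a
    have h5 := ht_wtv b
    omega
  have : Nonempty chevF4.Idx := ⟨Sum.inl ⟨0, by decide +kernel⟩⟩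
  have h3 := sub_pow_char_pow_of_commute (R := Matrix chevF4.Idx chevF4.Idx K) 2 5
    (Commute.one_right (g : Matrix chevF4.Idx chevF4.Idx K))
  norm_num at h3
  rw [h2] at h3
  ext1
  rw [Units.val_pow_eq_pow_val, Units.val_one]
  exact sub_eq_zero.mp h3.symm

/-- Let q = 2^(2m+1) with m ≥ 1. Every element of 2-power order of the large Ree group ²F₄(q) has order at most 32. -/
theorem result {K : Type*} [Field K] [Fintype K] (m : ℕ) (hm : 1 ≤ m) (hK : Fintype.card K = 2 ^ (2 * m + 1))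
    (x : ↥(Cfsg.Lie.twistedF4 K (2 ^ m))) (hx : ∃ j : ℕ, orderOf x = 2 ^ j) : orderOf x ≤ 32 := by
  have hc : CharP K 2 := by
    obtain ⟨p, hp⟩ := CharP.exists K
    obtain ⟨n, hpp, hn⟩ := FiniteField.card K p
    have h1 : p ∣ 2 ^ (2 * m + 1) := by rw [← hK, hn]; exact dvd_pow_self p n.ne_zero
    have h2 := (Nat.prime_dvd_prime_iff_eq hpp Nat.prime_two).mp (hpp.dvd_of_dvd_pow h1)
    exact h2 ▸ hp
  obtain ⟨T⟩ := exists_rootTable (D := chevF4) (by simp)
  have hle : twistedF4 K (2 ^ m) ≤ chevF4.group K := by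
    rw [twistedF4, ChevalleyDatum.genSubgroup, Subgroup.closure_le]
    rintro g ⟨w, -, hw⟩
    rw [eq_word_iff] at hw
    subst hw
    exact list_prod_mem fun a ha => by
      obtain ⟨q, -, rfl⟩ := List.mem_map.mp ha
      exact xG_mem_group _ _
  set y : chevF4.group K := ⟨x, hle x.2⟩ with hy
  obtain ⟨j, hj⟩ := hx
  have hoy : orderOf y = orderOf x := by
    rw [← Subgroup.orderOf_coe, ← Subgroup.orderOf_coe x]
  have hP : IsPGroup 2 (Subgroup.zpowers y) :=
    IsPGroup.of_card (n := j) (by rw [Nat.card_zpowers, hoy, hj])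
  obtain ⟨g, hg⟩ := (isND_xC T).exists_conj_le_Us isSt_xC Gs_xC 2 (not_dvd_card_Hs 2) hP
  have h1 := pow_eq_one_of_mem_Us (mem_Us_xC.mp (hg y (Subgroup.mem_zpowers y)))
  have h2 : (g * y * g⁻¹) ^ 32 = 1 := Subtype.ext h1
  rw [conj_pow, mul_inv_eq_one, mul_eq_left] at h2
  rw [← hoy]
  exact Nat.le_of_dvd (by norm_num) (orderOf_dvd_of_pow_eq_one h2)

end Cfsg.Agent.S2370
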