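import Cfsg.Statements.S2372
import Cfsg.Agent.Lang.CycTorus

set_option autoImplicit false
open Cfsg Cfsg.Lie Cfsg.Agent.Chev Cfsg.Agent.Lang

namespace Cfsg.Agent.S2372

/-- The inverse of the matrix of the cyclic vector. -/
def matQ : List (List ℤ) :=
  [[1, 2, 3, 2],
    [1, 1, 2, 1],
    [0, -1, -1, 0],
    [-1, -2, -2, -1]]

theorem cast_eq (q : ℕ) (hq : 2 ≤ q) : ((q ^ 4 + 1 : ℕ) : ℤ) =
    (1) * (q : ℤ) ^ 0 + (1) * (q : ℤ) ^ 4 := by
  push_cast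
  ring

theorem nonDeg (q : ℕ) (hq : 2 ≤ q) :
    NonDeg rootTableF4 (eV chevF4 (aget matQ) q) (q ^ 4 + 1) := by
  by_cases h : 5 ≤ q
  · refine nonDeg_of_big _ (by decide +kernel) h ?_
    change q ^ 4 ≤ _ + q ^ 3
    zify
    have h1 := cast_eq q hq
    push_cast at h1
    have h2 : (5 : ℤ) ≤ q := by exact_mod_cast h
    have h3 : ∀ n : ℕ, (0 : ℤ) < q ^ n := fun n => by positivity
    have h4 : ∀ n : ℕ, (q : ℤ) ^ n * 5 ≤ q ^ (n + 1) := fun n => by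
      rw [pow_succ]; exact mul_le_mul_of_nonneg_left h2 (h3 n).le
    rw [h1]
    have k0 : (q : ℤ) ^ 0 * 5 ≤ q ^ 1 := h4 0
    have k1 : (q : ℤ) ^ 1 * 5 ≤ q ^ 2 := h4 1
    have k2 : (q : ℤ) ^ 2 * 5 ≤ q ^ 3 := h4 2
    have k3 : (q : ℤ) ^ 3 * 5 ≤ q ^ 4 := h4 3
    linarith [h3 0]
  · have h1 : q < 5 := by omega
    interval_cases q <;> exact nonDeg_of_small _ (by decide +kernel)

/-- The group F₄(q) contains a cyclic subgroup of order q⁴ + 1 which is its own centralizer. -/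
theorem result {F : Type*} [Field F] [Fintype F] (q : ℕ) (hF : Fintype.card F = q) :
    ∃ H : Subgroup ↥(Cfsg.Lie.chevF4.group F), IsCyclic ↥H ∧ Nat.card ↥H = q ^ 4 + 1 ∧
      Subgroup.centralizer (H : Set ↥(Cfsg.Lie.chevF4.group F)) = H := by
  have hq2 : 2 ≤ q := hF ▸ Fintype.one_lt_card
  obtain ⟨H, h1, h2, h3⟩ := exists_cyc_torus (D := chevF4) (by simp) rootTableF4 (F := F)
    ([2, 0, 3, 1, 2, 1] : List (Fin 4))
    (P := aget [[-1, 1, 1, -1, 1],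
    [0, -1, 0, -1, 0],
    [0, 1, -1, 1, 0],
    [1, -1, 1, 0, -1]])
    (Q := aget matQ) (χ := fun j => ([1, 0, 0, 0] : List ℤ).getD j 0) (by decide +kernel) rfl
    (N := q ^ 4 + 1) (by
      rw [hF, cast_eq q (by omega)]
      change _ = (q : ℤ) ^ 4 + ∑ j : Fin 4, _
      simp [Fin.sum_univ_succ]
      ring) (by rw [hF]; exact nonDeg q (by omega))
  rw [card_ker_tor hF (p := (chevF4, 1)) (by simp)] at h2
  exact ⟨H, h1, by simpa using h2, h3⟩

end Cfsg.Agent.S2372
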