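import Cfsg.Statements.S2374
import Cfsg.Agent.Lang.CycTorus

set_option autoImplicit false
open Cfsg Cfsg.Lie Cfsg.Agent.Chev Cfsg.Agent.Lang

namespace Cfsg.Agent.S2374

/-- The inverse of the matrix of the cyclic vector. -/
def matQ : List (List ℤ) :=
  [[1, 2, 2, 3, 2, 1, 0],
    [1, 1, 1, 2, 2, 2, 1],
    [-1, -1, -2, -2, -2, -1, 0],
    [0, 0, 0, 0, -1, -1, -1],
    [1, 1, 1, 1, 1, 1, 0],
    [-1, -1, -2, -2, -1, 0, 0],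
    [-1, -1, -2, -2, -2, -2, -1]]

theorem cast_eq (q : ℕ) (hq : 2 ≤ q) : (((q ^ 4 - q ^ 2 + 1) * (q ^ 3 + 1) : ℕ) : ℤ) =
    (1) * (q : ℤ) ^ 0 + (-1) * (q : ℤ) ^ 2 + (1) * (q : ℤ) ^ 3 + (1) * (q : ℤ) ^ 4 + (-1) * (q : ℤ) ^ 5 + (1) * (q : ℤ) ^ 7 := by
  have h1 : q ^ 2 ≤ q ^ 4 := Nat.pow_le_pow_right (by omega) (by omega)
  push_cast [h1]
  ring

theorem nonDeg (q : ℕ) (hq : 2 ≤ q) :
    NonDeg rootTableE7 (eV chevE7 (aget matQ) q) ((q ^ 4 - q ^ 2 + 1) * (q ^ 3 + 1)) := by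
  by_cases h : 5 ≤ q
  · refine nonDeg_of_big _ (by decide +kernel) h ?_
    change q ^ 7 ≤ _ + q ^ 6
    zify
    have h1 := cast_eq q hq
    push_cast at h1
    have h2 : (5 : ℤ) ≤ q := by exact_mod_cast h
    have h3 : ∀ n : ℕ, (0 : ℤ) < q ^ n := fun n => by positivity
    have h4 : ∀ n : ℕ, (q : ℤ) ^ n * 5 ≤ q ^ (n + 1) := fun n => by
      rw [pow_succ]; exact mul_le_mul_of_nonneg_left h2 (h3 n).le
    rw [h1]
    have k0 : (q : ℤ) ^ 0 * 5 ≤ q ^ 1 := h4 0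
    have k1 : (q : ℤ) ^ 1 * 5 ≤ q ^ 2 := h4 1
    have k2 : (q : ℤ) ^ 2 * 5 ≤ q ^ 3 := h4 2
    have k3 : (q : ℤ) ^ 3 * 5 ≤ q ^ 4 := h4 3
    have k4 : (q : ℤ) ^ 4 * 5 ≤ q ^ 5 := h4 4
    have k5 : (q : ℤ) ^ 5 * 5 ≤ q ^ 6 := h4 5
    have k6 : (q : ℤ) ^ 6 * 5 ≤ q ^ 7 := h4 6
    linarith [h3 0]
  · have h1 : q < 5 := by omega
    interval_cases q <;> exact nonDeg_of_small _ (by decide +kernel)

/-- The group E₇(q) (the simple Chevalley group of type E₇) contains a cyclic subgroup of order (q⁴ − q² + 1)(q³ + 1)/gcd(2, q − 1) which is its own centralizer. -/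
theorem result {F : Type*} [Field F] [Fintype F] (q : ℕ) (hF : Fintype.card F = q) :
    ∃ H : Subgroup ↥(Cfsg.Lie.chevE7.group F), IsCyclic ↥H ∧ Nat.card ↥H = (q ^ 4 - q ^ 2 + 1) * (q ^ 3 + 1) / Nat.gcd 2 (q - 1) ∧
      Subgroup.centralizer (H : Set ↥(Cfsg.Lie.chevE7.group F)) = H := by
  have hq2 : 2 ≤ q := hF ▸ Fintype.one_lt_card
  obtain ⟨H, h1, h2, h3⟩ := exists_cyc_torus (D := chevE7) (by simp) rootTableE7 (F := F)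
    ([0, 5, 3, 6, 1, 4, 5, 2, 3, 4, 2] : List (Fin 7))
    (P := aget [[-1, 1, 0, 0, 1, -1, 1, -1],
    [1, -1, 1, -1, 1, 0, 0, 0],
    [0, -1, 0, 0, 0, 0, -1, 0],
    [0, 1, 0, 1, -1, 0, 0, 0],
    [0, 0, -1, -1, 0, 0, 1, 0],
    [0, 0, 0, 1, 0, 1, -1, 0],
    [0, 0, 1, -1, 0, -1, 0, 1]])
    (Q := aget matQ) (χ := fun j => ([1, 0, -1, 1, 1, -1, 0] : List ℤ).getD j 0) (by decide +kernel) rfl
    (N := (q ^ 4 - q ^ 2 + 1) * (q ^ 3 + 1)) (by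
      rw [hF, cast_eq q (by omega)]
      change _ = (q : ℤ) ^ 7 + ∑ j : Fin 7, _
      simp [Fin.sum_univ_succ]
      ring) (by rw [hF]; exact nonDeg q (by omega))
  rw [card_ker_tor hF (p := (chevE7, Nat.gcd 2 (q - 1))) (by simp)] at h2
  exact ⟨H, h1, Nat.eq_div_of_mul_eq_left (Nat.gcd_pos_of_pos_left _ (by omega)).ne' h2, h3⟩

end Cfsg.Agent.S2374
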