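import Cfsg.Statements.S2375
import Cfsg.Agent.Lang.CycTorus

set_option autoImplicit false
open Cfsg Cfsg.Lie Cfsg.Agent.Chev Cfsg.Agent.Lang

namespace Cfsg.Agent.S2375

/-- The inverse of the matrix of the cyclic vector. -/
def matQ : List (List ℤ) :=
  [[0, 1, 0, 1, 0, 0, 0, 0],
    [1, 1, 1, 2, 1, 0, 0, 0],
    [1, 1, 2, 2, 2, 1, 0, 0],
    [0, 0, 1, 1, 2, 2, 1, 0],
    [0, 0, 0, 0, 1, 2, 2, 1],
    [0, 0, 0, 0, 0, 0, 1, 1],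
    [0, 0, 0, 0, -1, -1, -1, 0],
    [0, 0, 0, 0, -1, -1, -1, -1]]

theorem cast_eq (q : ℕ) (hq : 2 ≤ q) : ((q ^ 8 + q ^ 7 - q ^ 5 - q ^ 4 - q ^ 3 + q + 1 : ℕ) : ℤ) =
    (1) * (q : ℤ) ^ 0 + (1) * (q : ℤ) ^ 1 + (-1) * (q : ℤ) ^ 3 + (-1) * (q : ℤ) ^ 4 + (-1) * (q : ℤ) ^ 5 + (1) * (q : ℤ) ^ 7 + (1) * (q : ℤ) ^ 8 := by
  have h0 : ∀ a b : ℕ, a ≤ b → q ^ a ≤ q ^ b := fun a b => Nat.pow_le_pow_right (by omega)
  have h1 := h0 5 7 (by omega)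
  have h2 := h0 4 7 (by omega)
  have h3 := h0 3 7 (by omega)
  have h4 : q ^ 7 * 2 ≤ q ^ 8 := by rw [pow_succ q 7]; gcongr
  rw [Nat.cast_add, Nat.cast_add, Nat.cast_sub (by omega), Nat.cast_sub (by omega),
    Nat.cast_sub (by omega)]
  push_cast
  ring

theorem nd2 : ndSmall chevE8 (eV chevE8 (aget matQ) 2) 331 = true := by decide +kernel

theorem nd3 : ndSmall chevE8 (eV chevE8 (aget matQ) 3) 8401 = true := by decide +kernel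

theorem nd4 : ndSmall chevE8 (eV chevE8 (aget matQ) 4) 80581 = true := by decide +kernel

theorem nonDeg (q : ℕ) (hq : 2 ≤ q) :
    NonDeg rootTableE8 (eV chevE8 (aget matQ) q) (q ^ 8 + q ^ 7 - q ^ 5 - q ^ 4 - q ^ 3 + q + 1) := by
  by_cases h : 5 ≤ q
  · refine nonDeg_of_big _ (by decide +kernel) h ?_
    change q ^ 8 ≤ _ + q ^ 7
    zify
    have h1 := cast_eq q hq
    push_cast at h1
    have h2 : (5 : ℤ) ≤ q := by exact_mod_cast h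
    have h3 : ∀ n : ℕ, (0 : ℤ) < q ^ n := fun n => by positivity
    have h4 : ∀ n : ℕ, (q : ℤ) ^ n * 5 ≤ q ^ (n + 1) := fun n => by
      rw [pow_succ]; exact mul_le_mul_of_nonneg_left h2 (h3 n).le
    rw [h1]
    have k0 : (q : ℤ) ^ 0 * 5 ≤ q ^ 1 := h4 0
    have k1 : (q : ℤ) ^ 1 * 5 ≤ q ^ 2 := h4 1
    have k2 : (q : ℤ) ^ 2 * 5 ≤ q ^ 3 := h4 2
    have k3 : (q : ℤ) ^ 3 * 5 ≤ q ^ 4 := h4 3
    have k4 : (q : ℤ) ^ 4 * 5 ≤ q ^ 5 := h4 4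
    have k5 : (q : ℤ) ^ 5 * 5 ≤ q ^ 6 := h4 5
    have k6 : (q : ℤ) ^ 6 * 5 ≤ q ^ 7 := h4 6
    have k7 : (q : ℤ) ^ 7 * 5 ≤ q ^ 8 := h4 7
    linarith [h3 0]
  · have h1 : q < 5 := by omega
    interval_cases q
    · exact nonDeg_of_small rootTableE8 nd2
    · exact nonDeg_of_small rootTableE8 nd3
    · exact nonDeg_of_small rootTableE8 nd4

/-- The group E₈(q) contains a cyclic subgroup of order q⁸ + q⁷ − q⁵ − q⁴ − q³ + q + 1 which is its own centralizer. -/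
theorem result {F : Type*} [Field F] [Fintype F] (q : ℕ) (hF : Fintype.card F = q) :
    ∃ H : Subgroup ↥(Cfsg.Lie.chevE8.group F), IsCyclic ↥H ∧ Nat.card ↥H = q ^ 8 + q ^ 7 - q ^ 5 - q ^ 4 - q ^ 3 + q + 1 ∧
      Subgroup.centralizer (H : Set ↥(Cfsg.Lie.chevE8.group F)) = H := by
  have hq2 : 2 ≤ q := hF ▸ Fintype.one_lt_card
  obtain ⟨H, h1, h2, h3⟩ := exists_cyc_torus (D := chevE8) (by simp) rootTableE8 (F := F)
    ([7, 6, 2, 5, 0, 3, 4, 1] : List (Fin 8))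
    (P := aget [[-1, 1, 0, -1, 1, -1, 0, 0, -1],
    [1, -1, 1, -1, 0, 0, -1, 0, -1],
    [0, -1, 1, 0, 0, 1, 0, 1, 1],
    [0, 1, -1, 1, 0, 0, 1, 0, 0],
    [0, 0, 0, 0, -1, 0, -1, -1, 0],
    [0, 0, 0, 0, 1, -1, 1, 0, 0],
    [0, 0, 0, 0, 0, 1, -1, 1, 0],
    [0, 0, 0, 0, 0, 0, 1, -1, 1]])
    (Q := aget matQ) (χ := fun j => ([1, 1, 0, -1, -1, -1, 0, 1] : List ℤ).getD j 0) (by decide +kernel) rfl
    (N := q ^ 8 + q ^ 7 - q ^ 5 - q ^ 4 - q ^ 3 + q + 1) (by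
      rw [hF, cast_eq q (by omega)]
      change _ = (q : ℤ) ^ 8 + ∑ j : Fin 8, _
      simp [Fin.sum_univ_succ]
      ring) (by rw [hF]; exact nonDeg q (by omega))
  rw [card_ker_tor hF (p := (chevE8, 1)) (by simp)] at h2
  exact ⟨H, h1, by simpa using h2, h3⟩

end Cfsg.Agent.S2375
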