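import Cfsg.Statements.S2376
import Cfsg.Agent.Lang.TwD4
-- import your own Cfsg.Agent.* helpers here

set_option autoImplicit false
open Cfsg

namespace Cfsg.Agent.S2376

open Cfsg.Lie Cfsg.Agent.Chev Cfsg.Agent.Lang

/-- The images of the cyclic vector. -/
def mP (i j : ℕ) : ℤ :=
  (([[0, 0, 0, 1, -1], [1, -1, 1, -1, 1], [0, 1, -1, 1, 0], [-1, 1, 0, 0, 0]] :
    List (List ℤ)).getD i []).getD j 0

/-- The inverse matrix. -/
def mQ (i j : ℕ) : ℤ :=
  (([[0, 1, 1, 0], [0, 1, 1, 1], [1, 1, 0, 1], [1, 0, 0, 0]] : List (List ℤ)).getD i []).getD j 0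

/-- The characteristic polynomial. -/
def mχ (j : ℕ) : ℤ := ([-1, -1, 0, 1] : List ℤ).getD j 0

/-- The word in the Weyl group. -/
def wd1 : List (Fin chevD4.rank) := ([1] : List (Fin 4))

theorem cert : CycCert (fun i j : Fin chevD4.rank =>
    cvec chevD4 (actL chevD4 wd1 (chevD4.simple i)) (triPerm j)) mP mQ mχ := by decide +kernel

/-- The group ³D₄(q) contains a cyclic subgroup of order (q³ − 1)(q + 1) which is its own centralizer. -/
theorem result {K : Type*} [Field K] [Fintype K] (q : ℕ) (hq : IsPrimePow q) (hK : Fintype.card K = q ^ 3) :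
    ∃ H : Subgroup ↥(Cfsg.Lie.twistedD4 K q), IsCyclic ↥H ∧ Nat.card ↥H = (q ^ 3 - 1) * (q + 1) ∧
      Subgroup.centralizer (H : Set ↥(Cfsg.Lie.twistedD4 K q)) = H := by
  let k := AlgebraicClosure K
  obtain ⟨f, hf, s, hs, hT⟩ := exists_twD4 (algebraMap K k) hq hK
  have h2 := hq.two_le
  have h3 : 1 ≤ q ^ 3 := Nat.one_le_pow _ _ (by omega)
  have hN : (((q ^ 3 - 1) * (q + 1) : ℕ) : ℤ) = q ^ 4 + q ^ 3 - q - 1 := by
    push_cast [h3]; ring
  obtain ⟨H, a1, a2, a3⟩ := exists_cyc_torus_tw (by simp) rootTableD4 (algebraMap K k) hs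
    (twD4_surj _ f hf hK) (fun _ => rfl) (twD4_inj _ f hf hK) wd1 cert
    (N := (q ^ 3 - 1) * (q + 1)) (by
      rw [hN]
      refine Eq.trans ?_ (congrArg _ (Fin.sum_univ_four fun j => mχ j * (q : ℤ) ^ (j : ℕ)).symm)
      change _ = (q : ℤ) ^ 4 + (-1 * q ^ 0 + -1 * q ^ 1 + 0 * q ^ 2 + 1 * q ^ 3)
      ring) (by
      have h4 : (q : k) = 0 := by
        rw [← pow_eq_zero_iff (n := 3) (by decide), ← Nat.cast_pow, ← hK,
          ← map_natCast (algebraMap K k), FiniteField.cast_card_eq_zero, map_zero]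
      rw [Nat.cast_mul, Nat.cast_sub h3]
      simp [h4]) (by
      change NonDeg _ (eV chevD4 mQ q) _
      by_cases h6 : 6 ≤ q
      · refine nonDeg_of_bigB _ (B := 4) (by decide +kernel) h6 ?_
        change q ^ 4 ≤ _ + q ^ 3
        rw [← Nat.cast_le (α := ℤ), Nat.cast_add, hN]
        have : (q : ℤ) < q ^ 3 := by exact_mod_cast lt_self_pow₀ h2 (by decide : 1 < 3)
        push_cast
        omega
      · interval_cases q <;> exact nonDeg_of_small _ (by decide +kernel))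
  obtain ⟨⟨e⟩, a4⟩ := exists_selfCent_comap _ (Subgroup.inclusion_injective D4.le_group) hT a3
  exact ⟨_, isCyclic_of_surjective e.symm e.symm.surjective, (Nat.card_congr e.toEquiv).trans a2, a4⟩

end Cfsg.Agent.S2376
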