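import Cfsg.Statements.S2383
import Cfsg.Agent.St.RichenCount
import Cfsg.Agent.Chev.Types

set_option autoImplicit false
open Cfsg

namespace Cfsg.Agent.S2383

open Cfsg.Lie Cfsg.Agent.Chev Cfsg.Agent.St

/-- Steinberg's count of semisimple classes in characteristic 2 for the types B₂, D₄, E₇, where the finite simply connected group has trivial centre and so coincides with the Chevalley group: for the Chevalley group of type B₂, D₄ or E₇ over a field with `q` elements of characteristic 2, the conjugacy classes of elements of odd order number exactly `q^l`, `l` the rank. -/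
theorem result {F : Type*} [Field F] [Fintype F] {q : ℕ} (hq : Fintype.card F = q) [CharP F 2]
    (D : Cfsg.Lie.ChevalleyDatum) (hD : D ∈ [Cfsg.Lie.chevB2, Cfsg.Lie.chevD4, Cfsg.Lie.chevE7]) :
    Nat.card {c : ConjClasses ↥(D.group F) // ∃ g : ↥(D.group F), ConjClasses.mk g = c ∧ Odd (orderOf g)} = q ^ D.rank := by
  classical
  have hD' : D ∈ [chevG2, chevB2, chevD4, chevF4, chevE6, chevE7, chevE8] := by
    simp only [List.mem_cons, List.not_mem_nil, or_false] at hD ⊢
    tauto
  obtain ⟨inst⟩ := good_of_mem hD'
  obtain ⟨T⟩ := exists_rootTable hD'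
  simp only [← Nat.not_even_iff_odd, even_iff_two_dvd]
  have h2 : Nat.gcd 2 (q - 1) = 1 := by
    obtain ⟨n, -, e⟩ := FiniteField.card F 2
    have h3 : 2 ∣ q := hq ▸ e ▸ dvd_pow_self 2 n.ne_zero
    have h4 : 0 < q := hq ▸ Fintype.card_pos
    exact (Nat.Prime.coprime_iff_not_dvd Nat.prime_two).2 (by omega)
  rw [← hq]
  refine card_pRegular_classes_chev 2 T (card_ker_tor hq (p := (D, 1)) ?_)
  simp only [List.mem_cons, List.not_mem_nil, or_false] at hD
  rcases hD with rfl | rfl | rfl <;> simp [h2]

end Cfsg.Agent.S2383
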