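import Cfsg.Statements.S2391
import Mathlib
import Cfsg.Agent.KSG.AutLin

set_option autoImplicit false
open Cfsg

namespace Cfsg.Agent.S2391

/-- The Borel–Tits property of `SL_n(q)` in flag form: for a field `F` of characteristic `p` with finitely many elements and a non-trivial `p`-subgroup `U` of `SL_n(F)`, there is a flag `0 = V₀ < V₁ < ⋯ < V_{k+1} = F^n` with at least one proper non-zero member such that every element of the normaliser of `U` maps each `V_i` onto itself and every element of `U` acts trivially on each quotient `V_{i+1}/V_i` (so the normaliser lies in the parabolic subgroup of the flag and `U` in its unipotent radical). -/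
theorem result {F : Type*} [Field F] [Fintype F] (p : ℕ) [Fact p.Prime] [CharP F p] (n : ℕ)
    (U : Subgroup (Matrix.SpecialLinearGroup (Fin n) F)) (hU : IsPGroup p ↥U) (hne : U ≠ ⊥) :
    ∃ (k : ℕ) (V : Fin (k + 2) → Submodule F (Fin n → F)), 1 ≤ k ∧ StrictMono V ∧ V 0 = ⊥ ∧ V (Fin.last (k + 1)) = ⊤ ∧
      (∀ g ∈ Subgroup.normalizer (U : Set (Matrix.SpecialLinearGroup (Fin n) F)), ∀ i, (V i).map (Matrix.mulVecLin (g : Matrix (Fin n) (Fin n) F)) = V i) ∧
      (∀ u ∈ U, ∀ i : Fin (k + 1), ∀ v ∈ V i.succ, (u : Matrix (Fin n) (Fin n) F).mulVec v - v ∈ V (Fin.castSucc i)) := by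
  classical
  let ρ : Matrix.SpecialLinearGroup (Fin n) F →* ((Fin n → F) ≃ₗ[F] (Fin n → F)) :=
    Matrix.SpecialLinearGroup.toLin'
  have hρ : ∀ g v, ρ g v = (g : Matrix (Fin n) (Fin n) F).mulVec v := fun g v => rfl
  let C : ℕ → Submodule F (Fin n → F) := fun i => Nat.rec ⊥
    (fun _ A => ⨅ u ∈ U, A.comap ((ρ u).toLinearMap - LinearMap.id)) i
  have hC0 : C 0 = ⊥ := rfl
  have hC : ∀ i v, v ∈ C (i + 1) ↔ ∀ u ∈ U, ρ u v - v ∈ C i := fun i v => by
    simp [C, Submodule.mem_iInf]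
  have hN : ∀ i, ∀ g ∈ Subgroup.normalizer (U : Set (Matrix.SpecialLinearGroup (Fin n) F)),
      ∀ v ∈ C i, ρ g v ∈ C i := by
    intro i
    induction i with
    | zero => intro g _ v hv; rw [hC0, Submodule.mem_bot] at hv ⊢; simp [hv]
    | succ i ih =>
      intro g hg v hv
      rw [hC] at hv ⊢
      intro u hu
      have h1 : g⁻¹ * u * g ∈ U := (Subgroup.mem_normalizer_iff''.1 hg u).1 hu
      have h2 := ih g hg _ (hv _ h1)
      rw [map_sub, ← KSG.rho_mul, ← mul_assoc, ← mul_assoc, mul_inv_cancel, one_mul, KSG.rho_mul] at h2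
      exact h2
  have hlt : ∀ i, C i ≠ ⊤ → C i < C (i + 1) := fun i hi => by
    have hU' : ∀ g ∈ U, ∀ v ∈ C i, ρ g v ∈ C i := fun g hg => hN i g (Subgroup.le_normalizer hg)
    obtain ⟨v, hv⟩ : ∃ v, v ∉ C i := by
      by_contra hc; push Not at hc; exact hi (eq_top_iff.2 fun v _ => hc v)
    obtain ⟨b, -, hb, hb2⟩ := KSG.exists_fixed_mod ρ hU (A := C i) (B := ⊤) hU'
      (fun _ _ _ _ => trivial) (b₀ := v) trivial hv
    refine lt_of_le_of_ne (fun w hw => (hC i w).2 fun u hu => (C i).sub_mem (hU' u hu w hw) hw) fun h => ?_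
    exact hb (h ▸ (hC i b).2 hb2)
  have hex : ∃ i, C i = ⊤ := by
    by_contra hc
    push Not at hc
    have hm : StrictMono C := strictMono_nat_of_lt_succ fun i => hlt i (hc i)
    exact not_injective_infinite_finite C hm.injective
  obtain ⟨K, hk, hk2⟩ : ∃ K, C K = ⊤ ∧ ∀ i, i < K → C i ≠ ⊤ := by
    obtain ⟨K, h1, h2⟩ := WellFounded.has_min (wellFounded_lt (α := ℕ)) {i | C i = ⊤} hex
    exact ⟨K, h1, fun i hi h => h2 i h hi⟩
  have h1 : C 1 ≠ ⊤ := fun h => hne <| eq_bot_iff.2 fun u hu => by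
    refine Subgroup.mem_bot.2 (Subtype.ext (Matrix.toLin'.injective (LinearMap.ext fun v => ?_)))
    have := (hC 0 v).1 (h ▸ trivial) u hu
    rw [hC0, Submodule.mem_bot, sub_eq_zero, hρ] at this
    simpa using this
  have h0 : C 0 ≠ ⊤ := fun h => h1 (eq_top_iff.2 fun v _ => (hC 0 v).2 fun u _ => h ▸ trivial)
  obtain ⟨k, rfl⟩ : ∃ k, K = k + 1 := Nat.exists_eq_succ_of_ne_zero fun h => h0 (h ▸ hk)
  refine ⟨k, fun i => C i, Nat.one_le_iff_ne_zero.2 fun h => h1 (by simpa [h] using hk), ?_, rfl, hk,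
    fun g hg i => ?_, fun u hu i v hv => (hC i v).1 hv u hu⟩
  · exact Fin.strictMono_iff_lt_succ.2 fun i => hlt i (hk2 i i.2)
  · apply le_antisymm
    · rintro _ ⟨v, hv, rfl⟩
      exact hN i g hg v hv
    · intro v hv
      exact ⟨ρ g⁻¹ v, hN i _ (Subgroup.inv_mem _ hg) v hv, KSG.rho_apply_inv ρ g v⟩

end Cfsg.Agent.S2391
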