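import Cfsg.Statements.S2393
import Mathlib
import Cfsg.Agent.KSG.SpSiegel

set_option autoImplicit false
open scoped MatrixGroups
open Cfsg

namespace Cfsg.Agent.S2393

/-- A lower bound for representations in cross characteristic: for `n ≥ 2` and a field `F` with `q` elements, `q` odd, every homomorphism from the symplectic group `Sp_{2n}(F)` to `GL_d(K)`, `K` a field of characteristic different from that of `F`, whose kernel is central has `d ≥ q^(n-1)(q-1)/2`. -/
theorem result {F : Type*} [Field F] [Fintype F] {q : ℕ} (hq : Fintype.card F = q) (hodd : Odd q) (n : ℕ) (hn : 2 ≤ n)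
    {K : Type*} [Field K] (hK : ringChar K ≠ ringChar F) {d : ℕ}
    (ρ : ↥(Matrix.symplecticGroup (Fin n) F) →* GL (Fin d) K) (hker : ρ.ker ≤ Subgroup.center ↥(Matrix.symplecticGroup (Fin n) F)) :
    q ^ (n - 1) * (q - 1) / 2 ≤ d := by
  obtain ⟨ψ, hψ⟩ := KSG.exists_addChar_ne_one F K hK
  have h2 : (2 : F) ≠ 0 := by
    intro h
    have : ringChar F = 2 := CharP.ringChar_of_prime_eq_zero Nat.prime_two (by exact_mod_cast h)
    have := FiniteField.even_card_of_char_two this
    rw [hq] at this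
    obtain ⟨k, hk⟩ := hodd
    omega
  have hK' : ringChar (AlgebraicClosure K) ≠ ringChar F := by
    rwa [Algebra.ringChar_eq K (AlgebraicClosure K)] at hK
  have hv : (Pi.single ⟨0, by omega⟩ 1 : Fin n → F) ≠ 0 := by simp
  have := KSG.sp_bound_odd h2 hψ hK' (KSG.glExtend (AlgebraicClosure K) ρ)
    (KSG.glExtend_ne_one _ ρ fun h => KSG.spUpper_not_mem_center (KSG.symSq_ne_zero hv) (hker h))
  rw [Nat.card_eq_fintype_card, hq, Module.finrank_fin_fun] at this
  have hq0 : 0 < q := hq ▸ Fintype.card_pos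
  obtain ⟨m, rfl⟩ : ∃ m, n = m + 1 := ⟨n - 1, by omega⟩
  have h1 : q ^ m * (q - 1) ≤ q ^ (m + 1) - 1 := by
    rw [Nat.mul_sub, mul_one, pow_succ]
    exact Nat.sub_le_sub_left (Nat.one_le_pow _ _ hq0) _
  simp only [add_tsub_cancel_right]
  omega

end Cfsg.Agent.S2393
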