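import Cfsg.Statements.S2394
import Mathlib
import Cfsg.Agent.Class.Sp.Gen
import Cfsg.Agent.Misc.Zsigmondy

set_option autoImplicit false
open scoped MatrixGroups
open Cfsg

namespace Cfsg.Agent.S2394

/-- The smallest degree of a faithful representation of the symplectic group `Sp_{2n}(q)` over its own field `F_q` is `2n`: every injective homomorphism from `Sp_{2n}(F)` to `GL_d(F)`, `F` the field with `q` elements, has `d ≥ 2n`. -/
theorem result {F : Type*} [Field F] [Fintype F] (n : ℕ) {d : ℕ}
    (ρ : ↥(Matrix.symplecticGroup (Fin n) F) →* GL (Fin d) F) (hρ : Function.Injective ρ) : 2 * n ≤ d := by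
  classical
  have h := Subgroup.card_dvd_of_injective ρ hρ
  have hq : 1 < Fintype.card F := Fintype.one_lt_card
  rw [Class.Sp.card_Sp, Matrix.card_GL_field, Nat.card_eq_fintype_card] at h
  generalize Fintype.card F = q at *
  by_contra! hd
  by_cases h6 : q = 2 ∧ 2 * n = 6
  · obtain ⟨rfl, h6⟩ := h6
    obtain rfl : n = 3 := by omega
    interval_cases d <;> revert h <;> decide +kernel
  by_cases h1 : n = 1
  · subst h1
    have : q ≤ q ^ 2 - 1 := Nat.le_sub_one_of_lt (by nlinarith)
    interval_cases d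
    · simp at h; omega
    · have := Nat.le_of_dvd (by simp; omega) h
      simp at this
      have := Nat.mul_le_mul_left q ‹q ≤ q ^ 2 - 1›
      have : q ≤ q * q := Nat.le_mul_self q
      omega
  obtain ⟨r, hr, h2, h3⟩ := Misc.Zsig.zsigmondy hq (by omega) h6 (by omega)
  obtain ⟨n, rfl⟩ := Nat.exists_eq_succ_of_ne_zero (show n ≠ 0 by omega)
  obtain ⟨i, -, hi⟩ := (hr.prime.dvd_finsetProd_iff _).1 (h2.trans (((Finset.dvd_prod_of_mem _
    (Finset.self_mem_range_succ n)).mul_left _).trans h))
  rw [show q ^ d - q ^ i.val = q ^ i.val * (q ^ (d - i) - 1) by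
    rw [Nat.mul_sub_one, ← pow_add, Nat.add_sub_cancel' i.2.le], hr.dvd_mul] at hi
  obtain hi | hi := hi
  · exact hr.one_lt.ne' (Nat.dvd_one.1 ((Nat.dvd_sub_iff_right (Nat.one_le_pow _ _ (by omega))
      (dvd_pow (hr.dvd_of_dvd_pow hi) (by omega))).1 h2))
  · exact h3 _ (by have := i.2; omega) (by omega) hi

end Cfsg.Agent.S2394
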