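import Cfsg.Statements.S2397
import Mathlib
import Cfsg.Agent.Mult.ChevR3

set_option autoImplicit false
open Cfsg

namespace Cfsg.Agent.S2397

/-- Over a finite field the relators (R3) h̄_r(t₁) h̄_r(t₂) = h̄_r(t₁ t₂) are consequences of (R1) and (R2): for each of the types G₂, B₂, D₄, F₄, E₆, E₇, E₈ (for types B₂ and G₂ the field must have more than two elements — the cases where the Chevalley group is not simple are set aside) the group presented by (R1), (R2) is canonically isomorphic to the one presented by (R1)–(R3), by an isomorphism matching the generators x̄_r(t). -/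
theorem result {K : Type*} [Field K] [Finite K] (D : Cfsg.Lie.ChevalleyDatum) (hD : D ∈ [Cfsg.Lie.chevG2, Cfsg.Lie.chevB2, Cfsg.Lie.chevD4, Cfsg.Lie.chevF4, Cfsg.Lie.chevE6, Cfsg.Lie.chevE7, Cfsg.Lie.chevE8]) (hK : D ∈ [Cfsg.Lie.chevB2, Cfsg.Lie.chevG2] → ∃ x : K, x ≠ 0 ∧ x ≠ 1) :
    ∃ e : D.SteinbergCover K ≃* D.SteinbergGroup K, ∀ (r : ℕ) (t : K), e (D.scGen K r t) = D.stGen K r t := by
  obtain ⟨T⟩ := Chev.exists_rootTable hD
  obtain ⟨φ, hφ⟩ := (Chev.isSt0_stGen (D := D) (F := K)).exists_lift T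
  obtain ⟨ψ, hψ⟩ := (Chev.isSt0_scGen (D := D) (F := K)).exists_lift3
    (Mult.isR3_of_finite hD Chev.isSt0_scGen) T
  refine ⟨MonoidHom.toMulEquiv φ ψ
    (Mult.hom_ext_of_Gs Chev.Gs_scGen fun r hr t => by simp [hφ r hr, hψ r hr])
    (Mult.hom_ext_of_Gs Chev.Gs_stGen fun r hr t => by simp [hφ r hr, hψ r hr]), fun r t => ?_⟩
  by_cases hr : r < D.nroots
  · exact hφ r hr t
  · simp [Cfsg.Lie.ChevalleyDatum.scGen, Cfsg.Lie.ChevalleyDatum.stGen,
      Cfsg.Lie.ChevalleyDatum.stX, hr]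

end Cfsg.Agent.S2397
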