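import Cfsg.Statements.S2399
import Mathlib
import Cfsg.Agent.Mult.ChevMain

set_option autoImplicit false
open scoped MatrixGroups
open Cfsg

namespace Cfsg.Agent.S2399

/-- Projective representations in the natural characteristic lift: for each of the types G₂, B₂, D₄, F₄, E₆, E₇, E₈ over any field `K` (for types B₂ and G₂ the field must have more than two elements — the cases where the Chevalley group is not simple are set aside), every homomorphism from the Chevalley group to `PGL_n(L) = GL_n(L)/Z`, `L` a field of the same characteristic as `K`, lifts uniquely to a homomorphism from the group Δ presented by (R1), (R2) to `GL_n(L)`, compatibly with the projection Δ → Chevalley group sending x̄_r(t) to x_r(t). -/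
theorem result {K : Type*} [Field K] (D : Cfsg.Lie.ChevalleyDatum) (hD : D ∈ [Cfsg.Lie.chevG2, Cfsg.Lie.chevB2, Cfsg.Lie.chevD4, Cfsg.Lie.chevF4, Cfsg.Lie.chevE6, Cfsg.Lie.chevE7, Cfsg.Lie.chevE8]) (hK : D ∈ [Cfsg.Lie.chevB2, Cfsg.Lie.chevG2] → ∃ x : K, x ≠ 0 ∧ x ≠ 1)
    (θ : D.SteinbergCover K →* ↥(D.group K))
    (hθ : ∀ (r : ℕ) (t : K), r < D.nroots → ((θ (D.scGen K r t) : GL D.Idx K) : Matrix D.Idx D.Idx K) = D.x K r t)
    {L : Type*} [Field L] (hL : ringChar L = ringChar K) {n : ℕ}
    (φ : ↥(D.group K) →* GL (Fin n) L ⧸ Subgroup.center (GL (Fin n) L)) :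
    ∃! ψ : D.SteinbergCover K →* GL (Fin n) L, (QuotientGroup.mk' (Subgroup.center (GL (Fin n) L))).comp ψ = φ.comp θ := by
  classical
  have hc : (QuotientGroup.mk' (Subgroup.center (GL (Fin n) L))).ker ≤ Subgroup.center _ :=
    (QuotientGroup.ker_mk' _).le
  by_cases h5 : ∃ s : Finset K, 4 < s.card
  · exact Mult.Reg.existsUnique_lift (Or.inl ⟨h5, hD⟩) _ hc _
      fun g _ => QuotientGroup.mk'_surjective _ g
  have hfin : Finite K := by
    by_contra hinf
    rw [not_finite_iff_infinite] at hinf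
    obtain ⟨s, hs⟩ := Infinite.exists_subset_card_eq K 5
    exact h5 ⟨s, by omega⟩
  obtain ⟨_⟩ := Chev.good_of_mem hD
  obtain ⟨T⟩ := Chev.exists_rootTable hD
  have h2 : D = Lie.chevG2 ∨ D = Lie.chevB2 → ∃ a : K, a ≠ 0 ∧ a ≠ 1 := fun h => hK (by
    rcases h with rfl | rfl <;> simp)
  refine existsUnique_of_exists_of_unique ?_ fun a b ha hb => Mult.hom_eq_of_perfect hc
    ((Chev.isSt0_scGen.isSt hD).commutator_eq_top_of_mem hD h2 Chev.Gs_scGen) (ha.trans hb.symm)
  have hp : (ringChar K).Prime := CharP.char_is_prime K _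
  have := Fact.mk hp
  have : CharP L (ringChar K) := hL ▸ ringChar.charP L
  let π : Matrix.SpecialLinearGroup (Fin n) L →* GL (Fin n) L ⧸ Subgroup.center (GL (Fin n) L) :=
    (QuotientGroup.mk' _).comp Matrix.SpecialLinearGroup.toGL
  have hπ : π.ker ≤ Subgroup.center _ := fun g hg => Subgroup.mem_center_iff.2 fun k =>
    Matrix.SpecialLinearGroup.toGL_injective (by
      rw [map_mul, map_mul]
      exact Subgroup.mem_center_iff.1 ((QuotientGroup.eq_one_iff _).1 hg) _)
  let e := Matrix.SpecialLinearGroup.center_equiv_rootsOfUnity (n := Fin n) (R := L)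
  have : NeZero (max (Fintype.card (Fin n)) 1) := ⟨by omega⟩
  have : Finite (Subgroup.center (Matrix.SpecialLinearGroup (Fin n) L)) :=
    Finite.of_equiv _ e.symm.toEquiv
  let Δ : Subgroup (D.group K × Matrix.SpecialLinearGroup (Fin n) L) :=
    (φ.comp (MonoidHom.fst _ _)).eqLocus (π.comp (MonoidHom.snd _ _))
  let a : Δ →* D.group K := (MonoidHom.fst _ _).comp Δ.subtype
  have ha : Function.Surjective a := fun g => by
    have : commutator (D.group K) ≤ π.range.comap φ := by
      refine Subgroup.commutator_le.2 fun u _ w _ => ?_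
      obtain ⟨u', hu⟩ := QuotientGroup.mk'_surjective _ (φ u)
      obtain ⟨w', hw⟩ := QuotientGroup.mk'_surjective _ (φ w)
      refine ⟨⟨(u' * w' * u'⁻¹ * w'⁻¹ : GL (Fin n) L), ?_⟩, ?_⟩
      · rw [← Matrix.GeneralLinearGroup.val_det_apply, map_mul, map_mul, map_mul, map_inv, map_inv,
          mul_inv_cancel_comm, mul_inv_cancel, Units.val_one]
      · rw [map_commutatorElement, ← hu, ← hw, ← map_commutatorElement]
        exact congrArg (QuotientGroup.mk' _) (Units.ext rfl)
    obtain ⟨k, hk⟩ := this (Chev.isSt_xC.commutator_eq_top_of_mem hD h2 Chev.Gs_xC ▸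
      Subgroup.mem_top g)
    exact ⟨⟨(g, k), hk.symm⟩, rfl⟩
  have hker : ∀ z ∈ a.ker, z.1.1 = 1 ∧ z.1.2 ∈ Subgroup.center _ := fun z hz =>
    ⟨hz, hπ ((show φ (a z) = π z.1.2 from z.2).symm.trans (by rw [show a z = 1 from hz, map_one]))⟩
  have hac : a.ker ≤ Subgroup.center Δ := fun z hz => Subgroup.mem_center_iff.2 fun w =>
    Subtype.ext (Prod.ext (by simp [(hker z hz).1]) (Subgroup.mem_center_iff.1 (hker z hz).2 _))
  let b : a.ker →* Subgroup.center (Matrix.SpecialLinearGroup (Fin n) L) :=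
    (((MonoidHom.snd _ _).comp Δ.subtype).comp a.ker.subtype).codRestrict _
      fun z => (hker z z.2).2
  have hb : Function.Injective b := (injective_iff_map_eq_one b).2 fun z hz =>
    Subtype.ext (Subtype.ext (Prod.ext (hker z z.2).1 (congrArg Subtype.val hz)))
  have : Finite a.ker := Finite.of_injective b hb
  have : Finite Δ := Nat.finite_of_card_ne_zero (by
    rw [← Subgroup.card_mul_index a.ker, Subgroup.index_ker]
    exact mul_ne_zero Nat.card_pos.ne' Nat.card_pos.ne')
  have hA : (Nat.card a.ker).Coprime (ringChar K) := by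
    rw [Nat.coprime_comm, hp.coprime_iff_not_dvd]
    intro hd
    obtain ⟨z, hz⟩ := exists_prime_orderOf_dvd_card' _ hd
    have h1 : (((e (b z) : Lˣ) : L)) ^ ringChar K = 1 := by
      rw [← Units.val_pow_eq_pow_val, ← Subgroup.coe_pow, ← map_pow, ← map_pow, ← hz,
        pow_orderOf_eq_one, map_one, map_one]; rfl
    have h3 : ((e (b z) : Lˣ) : L) = 1 :=
      frobenius_inj L (ringChar K) (by rw [frobenius_def, h1, map_one])
    have h4 : z = 1 := hb (e.injective (by
      rw [map_one, map_one]; exact Subtype.ext (Units.ext h3)))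
    rw [h4, orderOf_one] at hz
    exact hp.one_lt.ne hz
  obtain ⟨y, h0, hy⟩ := Mult.exists_lift_coprime T Chev.isSt_xC.toIsSt0 (Chev.isND_xC T) ha hac hA
  obtain ⟨ψ, hψ⟩ := h0.exists_lift T
  refine ⟨Matrix.SpecialLinearGroup.toGL.comp (((MonoidHom.snd _ _).comp Δ.subtype).comp ψ),
    Mult.hom_ext_of_Gs Chev.Gs_scGen fun r hr t => ?_⟩
  have h6 : θ (D.scGen K r t) = a (ψ (D.scGen K r t)) := by
    rw [hψ r hr, hy r hr]; exact Chev.eq_xC_iff.1 (hθ r t hr)
  exact (show φ (a (ψ _)) = _ from (ψ (D.scGen K r t)).2).symm.trans (congrArg φ h6.symm)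

end Cfsg.Agent.S2399
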