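import Cfsg.Statements.S2400
import Mathlib
import Cfsg.Agent.Mult.ChevMain

set_option autoImplicit false
open Cfsg

namespace Cfsg.Agent.S2400

/-- Over a finite field `K`, the group presented by Steinberg's relators (R1)–(R3) (the universal Chevalley group) of type E₆ or E₇, or of type B₂ or D₄ with `K` of more than two elements, has trivial Schur multiplier: every finite stem extension of it is an isomorphism (Schur multiplier described through stem extensions as in the definitions). Types G₂, F₄ and E₈ are not covered here. -/
theorem result {K : Type*} [Field K] [Fintype K] (e : Cfsg.Lie.ChevalleyDatum × ℕ)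
    (he : e ∈ [(Cfsg.Lie.chevE6, 0), (Cfsg.Lie.chevE7, 0), (Cfsg.Lie.chevB2, 2), (Cfsg.Lie.chevD4, 2)]) (hK : Fintype.card K ≠ e.2) :
    Cfsg.HasCyclicSchurMultiplier (e.1.SteinbergGroup K) 1 := by
  have h : Mult.Reg e.1 K := by
    rw [← Nat.card_eq_fintype_card] at hK
    simp only [List.mem_cons, List.not_mem_nil, or_false] at he
    rcases he with rfl | rfl | rfl | rfl
    exacts [Mult.reg_of_E (by simp), Mult.reg_of_E (by simp), Mult.reg_of_three (by simp) hK,
      Mult.reg_of_three (by simp) hK]
  have := Mult.finite_steinbergGroup (F := K) h.mem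
  exact Mult.trivial_iff_mcard_eq_one.2 h.mcard_steinbergGroup

end Cfsg.Agent.S2400
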