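import Cfsg.Statements.S2401
import Cfsg.Agent.KSG.StSL2

set_option autoImplicit false
open Cfsg

namespace Cfsg.Agent.S2401

open KSG Matrix

/-- The Steinberg presentation of `SL_n` over a finite field for `n ≥ 3`: the group generated by symbols `x_ij(t)` (`i ≠ j`, `t` in the field) subject to `x_ij(t) x_ij(u) = x_ij(t + u)` and, for `i ≠ l`, `x_ij(t) x_kl(u) x_ij(t)⁻¹ x_kl(u)⁻¹ = x_il(tu)` if `j = k` and `= 1` if `j ≠ k`, is isomorphic to `SL_n` by an isomorphism sending `x_ij(t)` to the elementary matrix `1 + t E_ij`. -/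
theorem result {K : Type*} [Field K] [Finite K] (n : ℕ) (hn : 3 ≤ n) :
    ∃ e : PresentedGroup
        ({g : FreeGroup ({ij : Fin n × Fin n // ij.1 ≠ ij.2} × K) | ∃ (a : {ij : Fin n × Fin n // ij.1 ≠ ij.2}) (t u : K),
            g = FreeGroup.of (a, t) * FreeGroup.of (a, u) * (FreeGroup.of (a, t + u))⁻¹} ∪
          {g | ∃ (a b : {ij : Fin n × Fin n // ij.1 ≠ ij.2}) (t u : K), a.1.1 ≠ b.1.2 ∧ a.1.2 ≠ b.1.1 ∧
            g = FreeGroup.of (a, t) * FreeGroup.of (b, u) * (FreeGroup.of (a, t))⁻¹ * (FreeGroup.of (b, u))⁻¹} ∪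
          {g | ∃ (a b : {ij : Fin n × Fin n // ij.1 ≠ ij.2}) (h : a.1.1 ≠ b.1.2) (t u : K), a.1.2 = b.1.1 ∧
            g = FreeGroup.of (a, t) * FreeGroup.of (b, u) * (FreeGroup.of (a, t))⁻¹ * (FreeGroup.of (b, u))⁻¹ *
              (FreeGroup.of (⟨(a.1.1, b.1.2), h⟩, t * u))⁻¹}) ≃* Matrix.SpecialLinearGroup (Fin n) K,
      ∀ (a : {ij : Fin n × Fin n // ij.1 ≠ ij.2}) (t : K), ((e (PresentedGroup.of (a, t)) : Matrix (Fin n) (Fin n) K)) = Matrix.transvection a.1.1 a.1.2 t := by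
  set rels : Set (FreeGroup ({ij : Fin n × Fin n // ij.1 ≠ ij.2} × K)) := _ ∪ _ ∪ _ with hrels
  let x : Fin n → Fin n → K → PresentedGroup rels := fun i j t =>
    if h : i ≠ j then PresentedGroup.of (⟨(i, j), h⟩, t) else 1
  have hx : ∀ i j (h : i ≠ j) t, x i j t = PresentedGroup.of (⟨(i, j), h⟩, t) :=
    fun i j h t => dif_pos h
  have R : StSL x :=
    { add := fun i j h a b => by
        rw [hx i j h, hx i j h, hx i j h]
        exact mul_inv_eq_one.mp (PresentedGroup.one_of_mem (rels := rels)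
          (Or.inl (Or.inl ⟨⟨(i, j), h⟩, a, b, rfl⟩)))
      comm := fun i j k l h1 h2 h3 h4 a b => by
        rw [hx i j h1, hx k l h2, ← commutatorElement_eq_one_iff_commute, commutatorElement_def]
        exact PresentedGroup.one_of_mem (rels := rels)
          (Or.inl (Or.inr ⟨⟨(i, j), h1⟩, ⟨(k, l), h2⟩, a, b, h3, h4, rfl⟩))
      cmt := fun i j l h1 h2 h3 a b => by
        rw [hx i j h1, hx j l h2, hx i l h3]
        exact mul_inv_eq_one.mp (PresentedGroup.one_of_mem (rels := rels)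
          (Or.inr ⟨⟨(i, j), h1⟩, ⟨(j, l), h2⟩, h3, a, b, rfl, rfl⟩)) }
  obtain ⟨f, hf⟩ := R.exists_hom (by simpa using hn)
  have S := stSL_tvE (ι := Fin n) (F := K)
  let π : PresentedGroup rels →* SpecialLinearGroup (Fin n) K :=
    PresentedGroup.toGroup (f := fun p => tvE p.1.1.1 p.1.1.2 p.2) (by
      rintro _ ((⟨a, t, u, rfl⟩ | ⟨a, b, t, u, h1, h2, rfl⟩) | ⟨a, b, h, t, u, h1, rfl⟩) <;>
        simp only [map_mul, map_inv, FreeGroup.lift_apply_of, mul_inv_eq_one]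
      · exact S.add _ _ a.2 t u
      · rw [(S.comm _ _ _ _ a.2 b.2 h1 h2 t u).eq, mul_inv_cancel_right]
      · rw [← h1]; exact S.cmt _ _ _ a.2 (h1 ▸ b.2) h t u)
  have hπ : ∀ p, π (PresentedGroup.of p) = tvE p.1.1.1 p.1.1.2 p.2 :=
    fun p => PresentedGroup.toGroup.of _
  have h1 : f.comp π = MonoidHom.id _ := PresentedGroup.ext fun p => by
    rw [MonoidHom.comp_apply, hπ, hf _ _ p.1.2, hx _ _ p.1.2]; rfl
  have inj : Function.Injective π := Function.LeftInverse.injective (g := f)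
    fun g => DFunLike.congr_fun h1 g
  have surj : Function.Surjective π := by
    rw [← MonoidHom.range_eq_top]
    exact eq_top_of_tvE _ fun i j h a => ⟨_, hπ (⟨(i, j), h⟩, a)⟩
  refine ⟨MulEquiv.ofBijective π ⟨inj, surj⟩, fun a t => ?_⟩
  change (π _).1 = _
  rw [hπ, tvE_coe a.2]; rfl

end Cfsg.Agent.S2401
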