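import Cfsg.Statements.S2408
import Cfsg.Agent.Chev.TwoGenTw

set_option autoImplicit false
open Cfsg

namespace Cfsg.Agent.S2408

/-- The large Ree group ²F₄(2^(2m+1)) with `m ≥ 1` is generated by two of its elements. -/
theorem result {K : Type*} [Field K] [Fintype K] {m : ℕ} (hm : 1 ≤ m) (hK : Fintype.card K = 2 ^ (2 * m + 1)) :
    ∃ a b : ↥(Cfsg.Lie.twistedF4 K (2 ^ m)), Subgroup.closure ({a, b} : Set ↥(Cfsg.Lie.twistedF4 K (2 ^ m))) = ⊤ := by
  obtain ⟨_, S, θ, hθ, h, e⟩ := Chev.F4.exists_data hK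
  exact TwoGen.exists_gen_sub Chev.F4.le_group e (TwoGen.gen_tF4 S θ hθ (Chev.F4.two_lt hm hK))

end Cfsg.Agent.S2408
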