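import Cfsg.Statements.S2409
import Cfsg.Agent.Ree.Conc
import Cfsg.Agent.Ree.Gen

set_option autoImplicit false
open Cfsg

namespace Cfsg.Agent.S2409

/-- The small Ree group ²G₂(3^(2m+1)) with `m ≥ 1` is generated by two of its elements. -/
theorem result {K : Type*} [Field K] [Fintype K] {m : ℕ} (hm : 1 ≤ m) (hK : Fintype.card K = 3 ^ (2 * m + 1)) :
    ∃ a b : ↥(Cfsg.Lie.twistedG2 K (3 ^ m)), Subgroup.closure ({a, b} : Set ↥(Cfsg.Lie.twistedG2 K (3 ^ m))) = ⊤ := by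
  obtain ⟨R, -⟩ := Ree.exists_sys hK
  exact R.exists_two_generators hm

end Cfsg.Agent.S2409
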