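import Cfsg.Statements.S2410
import Mathlib
import Cfsg.Agent.Chev.SzNorm

set_option autoImplicit false
open Cfsg

namespace Cfsg.Agent.S2410

/-- The Suzuki group over the field with `2^(2m+1)` elements, `m ≥ 1` (realised as the stabiliser in `SL₄` of the Suzuki–Tits ovoid), is generated by two of its elements. -/
theorem result {F : Type*} [Field F] [Fintype F] {m : ℕ} (hm : 1 ≤ m) (hF : Fintype.card F = 2 ^ (2 * m + 1)) :
    ∃ a b : ↥(Cfsg.Sz F m), Subgroup.closure ({a, b} : Set ↥(Cfsg.Sz F m)) = ⊤ := by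
  have hF' := Chev.SzField.of_fintype hm hF
  obtain ⟨x, y, hx, hy, cx, cy⟩ := Chev.Suz.exists_tori F
  obtain ⟨a, ha⟩ := (Subgroup.isCyclic_iff_exists_zpowers_eq_top _).1 hx.isTorus.1
  have hax : a ∈ Chev.Suz.tor x := ha ▸ Subgroup.mem_zpowers a
  have ho : orderOf a = 2 ^ (2 * m + 1) + 2 ^ (m + 1) + 1 := by rw [← Nat.card_zpowers, ha, cx]
  have ha1 : a ≠ 1 := by rintro rfl; simp at ho
  refine ⟨a, y, ?_⟩
  have h1 : a ∈ Subgroup.closure ({a, y} : Set ↥(Cfsg.Sz F m)) := Subgroup.subset_closure (by simp)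
  have h2 : y ∈ Subgroup.closure ({a, y} : Set ↥(Cfsg.Sz F m)) := Subgroup.subset_closure (by simp)
  rcases Chev.Suz.subgroup_cases (Subgroup.closure ({a, y} : Set ↥(Cfsg.Sz F m))) with
    ⟨p, hp⟩ | ⟨U, hU, h⟩ | ⟨K₀, h0, g, hg⟩
  · exact absurd (hp h2) (hy p)
  · have h3 := hU.mem_of_odd (h h1) (hx.isTorus.odd_orderOf hax)
    have h4 := hU.mem_of_odd (h h2) (hy.isTorus.odd_orderOf (Chev.Suz.self_mem_tor y))
    rw [← hU.eq_of_mem hx.isTorus ha1 h3 hax] at cx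
    rw [← hU.eq_tor h4 hy.ne_one, cx] at cy
    have : 0 < 2 ^ (m + 1) := by positivity
    omega
  obtain ⟨k, hk⟩ := Chev.Suz.exists_szField_subfield K₀ h0
  have hd := Nat.le_of_dvd (by omega) (Chev.Suz.dvd_of_ringHom K₀.subtype)
  rw [hg] at h1 ⊢
  obtain ⟨b, hb, hba⟩ := h1
  rw [← Subfield.fieldRange_subtype K₀, ← Chev.Suz.range_mapSz] at hb
  obtain ⟨c, rfl⟩ := hb
  have hc : orderOf c = 2 ^ (2 * m + 1) + 2 ^ (m + 1) + 1 := by
    rw [← ho, ← hba, orderOf_injective _ (MulAut.conj g).injective,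
      orderOf_injective _ (Chev.Suz.mapSz_injective _)]
  have hkm : k = m := by
    by_contra hne
    have e1 : 2 ^ (2 * k + 1) < 2 ^ (2 * m + 1) := Nat.pow_lt_pow_right (by norm_num) (by omega)
    have e2 : 2 ^ (k + 1) < 2 ^ (m + 1) := Nat.pow_lt_pow_right (by norm_num) (by omega)
    have e3 := Chev.Suz.eight_le_q F
    have e4 := Chev.Suz.eight_le_q K₀
    have h := Chev.Suz.orderOf_dvd_cases c
    generalize 2 ^ (2 * k + 1) = a1, 2 ^ (k + 1) = a2, 2 ^ (2 * m + 1) = a3, 2 ^ (m + 1) = a4 at *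
    rcases h with h | h | h | h <;> have := Nat.le_of_dvd (by omega) h <;> omega
  subst hkm
  have h3 : K₀ = ⊤ := Chev.Suz.subfield_eq_of_card_eq (by
    rw [hk.card_eq, Nat.card_congr Subfield.topEquiv.toEquiv, hF'.card_eq])
  rw [h3, Chev.Suz.subSz_top, Subgroup.map_top_of_surjective _ (MulAut.conj g).surjective]

end Cfsg.Agent.S2410
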