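import Cfsg.Statements.S2416
import Cfsg.Agent.Chev.StGen

set_option autoImplicit false
open scoped MatrixGroups
open Cfsg

namespace Cfsg.Agent.S2416

open Cfsg.Lie Cfsg.Agent.Chev

theorem not_long {D : ChevalleyDatum} (T : RootTable D) (h1 : DomIn D [D.nroots - 1])
    (h2 : D.isLong (D.nroots - 1) = false) {r : ℕ} (hr : r < 2 * T.N) : D.isLong r = false := by
  obtain ⟨w, hw⟩ := T.exists_dominant hr
  rw [← T.isLong_act w hr, List.mem_singleton.mp (h1 _ (T.lt_iff.mpr (T.act_lt w hr)) hw), h2]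

theorem ne_zero {K : Type*} [Field K] {p : ℕ} (hp : p.Prime) (h : ringChar K ≠ p) :
    ((p : ℤ) : K) ≠ 0 := fun e => by
  rw [Int.cast_natCast, ringChar.spec] at e
  rcases (Nat.dvd_prime hp).mp e with h1 | h1
  · exact CharP.ringChar_ne_one h1
  · exact h h1

/-- A Chevalley group of type G₂, B₂, D₄, F₄, E₆, E₇ or E₈ over a finite field lies in (indeed equals) the subgroup generated by its monomial subgroup `N` and a single fundamental root subgroup `X_p`, where `p` is a short fundamental root if there are two root lengths (any fundamental root otherwise), provided the characteristic is not 2 for types B₂, F₄ and not 3 for type G₂ (and the field has more than two elements for B₂, G₂). -/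
theorem result {K : Type*} [Field K] [Finite K] (D : Cfsg.Lie.ChevalleyDatum) (hD : D ∈ [Cfsg.Lie.chevG2, Cfsg.Lie.chevB2, Cfsg.Lie.chevD4, Cfsg.Lie.chevF4, Cfsg.Lie.chevE6, Cfsg.Lie.chevE7, Cfsg.Lie.chevE8])
    (hK : D ∈ [Cfsg.Lie.chevB2, Cfsg.Lie.chevG2] → ∃ x : K, x ≠ 0 ∧ x ≠ 1)
    (h2 : D ∈ [Cfsg.Lie.chevB2, Cfsg.Lie.chevF4] → ringChar K ≠ 2) (h3 : D = Cfsg.Lie.chevG2 → ringChar K ≠ 3)
    (i : ℕ) (hi : i < D.rank) (hshort : D.isLong (D.simple i) = false) :
    D.group K ≤ D.monomialSubgroup K ⊔ D.rootSubgroup K (D.simple i) := by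
  obtain ⟨G⟩ := good_of_mem hD
  obtain ⟨T⟩ := exists_rootTable hD
  have h := isSt_xG (D := D) (F := K)
  rw [group_eq, monomialSubgroup_eq, rootSubgroup_eq]
  have h1 : ∀ r < D.nroots, D.isLong r = false → ∀ t,
      xG D K r t ∈ Ns D (xG D K) ⊔ XS (xG D K) {D.simple i} := fun r hr hl t =>
    h.x_mem_of_isLong_eq T hD le_sup_left (T.simple_lt ⟨i, hi⟩) (T.lt_iff.mp hr)
      (hshort.trans hl.symm) (fun t => Subgroup.mem_sup_right (mem_XS (Set.mem_singleton _) t)) t
  have h4 : ∀ (r s k : ℕ) (c : ℤ), r < D.nroots ∧ s < D.nroots ∧ k < D.nroots ∧ s ≠ r ∧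
      s ≠ D.neg r ∧ D.commTerms r s = [(k, c, 1, 1)] ∧ D.isLong r = false ∧ D.isLong s = false ∧
      D.isLong k = true → (c : K) ≠ 0 → ∀ u < D.nroots, D.isLong u = true → ∀ t,
      xG D K u t ∈ Ns D (xG D K) ⊔ XS (xG D K) {D.simple i} := by
    rintro r s k c ⟨a1, a2, a3, a4, a5, a6, a7, a8, a9⟩ hc u hu hl t
    exact h.x_mem_of_isLong_eq T hD le_sup_left (T.lt_iff.mp a3) (T.lt_iff.mp hu)
      (a9.trans hl.symm) (h.toIsSt0.x_mem_of_single a1 a2 a4 a5 a6 hc (h1 r a1 a7) (h1 s a2 a8)) t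
  refine XS_le.mpr fun r hr t => ?_
  rcases hl : D.isLong r with _ | _
  · exact h1 r hr hl t
  have hr' := T.lt_iff.mp hr
  simp only [List.mem_cons, List.not_mem_nil, or_false] at hD
  rcases hD with rfl | rfl | rfl | rfl | rfl | rfl | rfl
  · exact h4 8 9 11 3 (by decide +kernel) (ne_zero Nat.prime_three (h3 rfl)) r hr hl t
  · exact h4 5 6 7 2 (by decide +kernel) (ne_zero Nat.prime_two (h2 (by simp))) r hr hl t
  · exact absurd (hl.symm.trans (not_long T domInD4 (by decide +kernel) hr')) (by simp)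
  · exact h4 29 44 47 2 (by decide +kernel) (ne_zero Nat.prime_two (h2 (by simp))) r hr hl t
  · exact absurd (hl.symm.trans (not_long T domInE6 (by decide +kernel) hr')) (by simp)
  · exact absurd (hl.symm.trans (not_long T domInE7 (by decide +kernel) hr')) (by simp)
  · exact absurd (hl.symm.trans (not_long T domInE8 (by decide +kernel) hr')) (by simp)

end Cfsg.Agent.S2416
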