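import Cfsg.Statements.S2417
import Cfsg.Agent.Chev.StGen

set_option autoImplicit false
open scoped MatrixGroups
open Cfsg

namespace Cfsg.Agent.S2417

open Cfsg.Lie Cfsg.Agent.Chev

/-- In the characteristics with an exceptional graph symmetry — type B₂ or F₄ in characteristic 2 (field of more than two elements for B₂) and type G₂ in characteristic 3 — the Chevalley group lies in the subgroup generated by its monomial subgroup `N` and the two fundamental root subgroups `X_a`, `X_b` of a short root `a` and a long root `b` joined in the Dynkin diagram. -/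
theorem result {K : Type*} [Field K] [Finite K] (e : Cfsg.Lie.ChevalleyDatum × ℕ)
    (he : e ∈ [(Cfsg.Lie.chevB2, 2), (Cfsg.Lie.chevF4, 2), (Cfsg.Lie.chevG2, 3)]) [CharP K e.2]
    (hK : e.1 = Cfsg.Lie.chevB2 → ∃ x : K, x ≠ 0 ∧ x ≠ 1)
    (i j : ℕ) (hi : i < e.1.rank) (hj : j < e.1.rank) (hshort : e.1.isLong (e.1.simple i) = false)
    (hlong : e.1.isLong (e.1.simple j) = true) (hbond : e.1.bonds i j ≠ 0) :
    e.1.group K ≤ e.1.monomialSubgroup K ⊔ e.1.rootSubgroup K (e.1.simple i) ⊔ e.1.rootSubgroup K (e.1.simple j) := by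
  have hD : e.1 ∈ [chevG2, chevB2, chevD4, chevF4, chevE6, chevE7, chevE8] := by
    simp only [List.mem_cons, List.not_mem_nil, or_false] at he
    rcases he with rfl | rfl | rfl <;> simp
  obtain ⟨G⟩ := good_of_mem hD
  obtain ⟨T⟩ := exists_rootTable hD
  have h := isSt_xG (D := e.1) (F := K)
  rw [group_eq, monomialSubgroup_eq, rootSubgroup_eq, rootSubgroup_eq]
  refine XS_le.mpr fun r hr t => ?_
  rcases hl : e.1.isLong r with _ | _
  · exact h.x_mem_of_isLong_eq T hD (le_sup_of_le_left le_sup_left) (T.simple_lt ⟨i, hi⟩)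
      (T.lt_iff.mp hr) (hshort.trans hl.symm)
      (fun t => Subgroup.mem_sup_left (Subgroup.mem_sup_right (mem_XS (Set.mem_singleton _) t))) t
  · exact h.x_mem_of_isLong_eq T hD (le_sup_of_le_left le_sup_left) (T.simple_lt ⟨j, hj⟩)
      (T.lt_iff.mp hr) (hlong.trans hl.symm) (fun t => Subgroup.mem_sup_right (mem_XS (Set.mem_singleton _) t)) t

end Cfsg.Agent.S2417
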