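import Mathlib
import Cfsg.Statements.S2419
import Cfsg.Agent.Chev.CoxCenter
-- import your own Cfsg.Agent.* helpers here

set_option autoImplicit false
open Cfsg

namespace Cfsg.Agent.S2419

theorem aux1 {n : ℕ} {M : CoxeterMatrix (Fin n)} {a : List (List ℤ)}
    (h : Chev.IsCartanFor M (Chev.amat n a)) (ha : ∀ i < n, (a.getD i []).length = n) (j : Fin n)
    (ws : List (List ℕ))
    (hws : ∀ i : Fin n, Chev.lact a (List.replicate n 1)
        (((ws.getD i []).flatMap fun k =>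
          [List.finRange n, (List.finRange n).reverse, [j]].getD k []).map Fin.val) =
      Chev.lact a (List.replicate n 1) ([i].map Fin.val)) :
    ∃ T : Finset M.Group, T.card = 1 ∧ (∀ t ∈ T, ∃ (g : M.Group) (i : Fin n), t = g * M.simple i * g⁻¹) ∧
      Subgroup.closure (({((List.finRange n).map M.simple).prod} : Set M.Group) ∪ ↑T) = ⊤ := by
  refine ⟨{M.simple j}, rfl, fun t ht => ⟨1, j, by simpa using ht⟩, ?_⟩
  refine Chev.eq_top_of_words M.toCoxeterSystem h ha _ _ ?_ ws hws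
  intro ω hω
  simp only [List.mem_cons, List.not_mem_nil, or_false] at hω
  rcases hω with rfl | rfl | rfl
  · exact Subgroup.subset_closure (Or.inl rfl)
  · rw [CoxeterSystem.wordProd_reverse]; exact inv_mem (Subgroup.subset_closure (Or.inl rfl))
  · exact Subgroup.subset_closure (Or.inr (by simp))

theorem aux2 {n : ℕ} {M : CoxeterMatrix (Fin n)} {a : List (List ℤ)}
    (h : Chev.IsCartanFor M (Chev.amat n a)) (ha : ∀ i < n, (a.getD i []).length = n) (j j' : Fin n)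
    (hj : Chev.lact a (List.replicate n 1) ([j].map Fin.val) ≠
      Chev.lact a (List.replicate n 1) ([j'].map Fin.val))
    (ws : List (List ℕ))
    (hws : ∀ i : Fin n, Chev.lact a (List.replicate n 1)
        (((ws.getD i []).flatMap fun k =>
          [List.finRange n, (List.finRange n).reverse, [j], [j']].getD k []).map Fin.val) =
      Chev.lact a (List.replicate n 1) ([i].map Fin.val)) :
    ∃ T : Finset M.Group, T.card = 2 ∧ (∀ t ∈ T, ∃ (g : M.Group) (i : Fin n), t = g * M.simple i * g⁻¹) ∧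
      Subgroup.closure (({((List.finRange n).map M.simple).prod} : Set M.Group) ∪ ↑T) = ⊤ := by
  classical
  have hne : M.simple j ≠ M.simple j' := fun e =>
    hj ((Chev.wordProd_eq_iff_lact M.toCoxeterSystem h ha _ _).1 (by simpa using e))
  refine ⟨{M.simple j, M.simple j'}, Finset.card_pair hne, fun t ht => ?_, ?_⟩
  · rcases Finset.mem_insert.1 ht with rfl | ht
    · exact ⟨1, j, by simp⟩
    · exact ⟨1, j', by simpa using ht⟩
  refine Chev.eq_top_of_words M.toCoxeterSystem h ha _ _ ?_ ws hws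
  intro ω hω
  simp only [List.mem_cons, List.not_mem_nil, or_false] at hω
  rcases hω with rfl | rfl | rfl | rfl
  · exact Subgroup.subset_closure (Or.inl rfl)
  · rw [CoxeterSystem.wordProd_reverse]; exact inv_mem (Subgroup.subset_closure (Or.inl rfl))
  · exact Subgroup.subset_closure (Or.inr (by simp))
  · exact Subgroup.subset_closure (Or.inr (by simp))

/-- The Coxeter groups of types B₂, G₂, E₆, E₇, E₈ are generated by the Coxeter element `s₁ s₂ ⋯ s_l` together with one suitable reflection (a conjugate of a simple reflection); for types D₄ and F₄ the Coxeter element together with two suitable reflections suffices. -/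
theorem result (c : (Σ n : ℕ, CoxeterMatrix (Fin n)) × ℕ)
    (hc : c ∈ [(⟨2, CoxeterMatrix.B 2⟩, 1), (⟨2, CoxeterMatrix.G₂⟩, 1), (⟨4, Cfsg.Lie.coxeterD4⟩, 2), (⟨4, CoxeterMatrix.F₄⟩, 2),
      (⟨6, CoxeterMatrix.E₆⟩, 1), (⟨7, CoxeterMatrix.E₇⟩, 1), (⟨8, CoxeterMatrix.E₈⟩, 1)]) :
    ∃ T : Finset c.1.2.Group, T.card = c.2 ∧ (∀ t ∈ T, ∃ (g : c.1.2.Group) (i : Fin c.1.1), t = g * c.1.2.simple i * g⁻¹) ∧
      Subgroup.closure (({((List.finRange c.1.1).map c.1.2.simple).prod} : Set c.1.2.Group) ∪ ↑T) = ⊤ := by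
  classical
  simp only [List.mem_cons, List.not_mem_nil, or_false] at hc
  rcases hc with rfl | rfl | rfl | rfl | rfl | rfl | rfl
  · exact aux1 Chev.isCartanForB2 Chev.length_cartanB2 1 [[0, 2], [2]] (by decide +kernel)
  · exact aux1 Chev.isCartanForG2 Chev.length_cartanG2 1 [[0, 2], [2]] (by decide +kernel)
  · exact aux2 Chev.isCartanForD4 Chev.length_cartanD4 1 2 (by decide +kernel) [[1, 2, 0], [2], [3], [0, 3, 2, 3, 1]]
      (by decide +kernel)
  · exact aux2 Chev.isCartanForF4 Chev.length_cartanF4 0 2 (by decide +kernel) [[2], [0, 2, 1], [3], [0, 3, 1]]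
      (by decide +kernel)
  · exact aux1 Chev.isCartanForE6 Chev.length_cartanE6 3 [[1, 1, 1, 1, 1, 2, 0, 0, 0, 0, 0], [2, 1, 1, 1, 2, 0, 0, 0, 2], [1, 1, 1, 1, 2, 0, 0, 0, 0], [2], [0, 2, 1], [0, 0, 2, 1, 1]] (by decide +kernel)
  · exact aux1 Chev.isCartanForE7 Chev.length_cartanE7 3 [[1, 2, 1, 1, 1, 1, 2, 0, 0, 0, 0, 2, 0], [2, 0, 2, 1, 1, 1, 1, 2, 0, 0, 0, 0, 2, 1, 2], [2, 1, 1, 1, 1, 2, 0, 0, 0, 0, 2], [2], [0, 2, 1], [0, 0, 2, 1, 1], [0, 0, 0, 2, 1, 1, 1]] (by decide +kernel)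
  · exact aux1 Chev.isCartanForE8 Chev.length_cartanE8 3 [[1, 2, 0, 2, 1, 1, 1, 1, 1, 2, 0, 0, 0, 0, 0, 2, 1, 2, 0], [2, 0, 2, 0, 2, 1, 1, 1, 1, 1, 2, 0, 0, 0, 0, 0, 2, 1, 2, 1, 2], [2, 0, 2, 1, 1, 1, 1, 1, 2, 0, 0, 0, 0, 0, 2, 1, 2], [2], [0, 2, 1], [0, 0, 2, 1, 1], [0, 0, 0, 2, 1, 1, 1], [0, 0, 0, 0, 2, 1, 1, 1, 1]] (by decide +kernel)

end Cfsg.Agent.S2419
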