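import Cfsg.Statements.S2425
import Mathlib
import Cfsg.Agent.KSG.StVal

set_option autoImplicit false
open scoped MatrixGroups
open Cfsg

namespace Cfsg.Agent.S2425

/-- Values of the Steinberg character of `GL_n(q)` (the partition-indexed character for `ν = (1,…,1)`, of degree `q^(n(n−1)/2)`) at elements of order prime to the characteristic: if the characteristic polynomial of such an element is `∏ f^(m_f)` over distinct monic irreducible `f`, the value is `∏_f (−1)^((deg f − 1) m_f) q^(deg f · m_f (m_f − 1)/2)`. (At elements of order divisible by the characteristic the value is 0; that is not part of this statement.) -/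
theorem result {F : Type*} [Field F] [Fintype F] [DecidableEq F] {q : ℕ} (hq : Fintype.card F = q) (p : ℕ) [Fact p.Prime] [CharP F p]
    {n : ℕ} (x : GL (Fin n) F) (hx : (orderOf x).Coprime p) :
    Cfsg.unipotentCharacterGL n F (fun _ => 1) x =
      ∏ f ∈ (UniqueFactorizationMonoid.normalizedFactors (x : Matrix (Fin n) (Fin n) F).charpoly).toFinset,
        (-1 : ℂ) ^ ((f.natDegree - 1) * (UniqueFactorizationMonoid.normalizedFactors (x : Matrix (Fin n) (Fin n) F).charpoly).count f) *
          (q : ℂ) ^ (f.natDegree * (UniqueFactorizationMonoid.normalizedFactors (x : Matrix (Fin n) (Fin n) F).charpoly).count f *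
            ((UniqueFactorizationMonoid.normalizedFactors (x : Matrix (Fin n) (Fin n) F).charpoly).count f - 1) / 2) := by
  open Cfsg.Agent.KSG Polynomial in
  have hN := squarefree_X_pow_sub_one (F := F) p hx Fact.out
  have h1 : x.1 ^ orderOf x = 1 := by rw [← Units.val_pow_eq_pow_val, pow_orderOf_eq_one, Units.val_one]
  have h2 := (KSG.GL_coprime_orderOf_iff p x).1 hx
  have h3 : UniqueFactorizationMonoid.normalizedFactors x.1.charpoly = KSG.mdiv x.1 := by
    rw [← KSG.prod_mdiv, UniqueFactorizationMonoid.normalizedFactors_prod_eq _ h2,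
      Multiset.map_congr rfl fun b hb => (KSG.isPP_of_mem_mdiv hb).monic.normalize_eq_self,
      Multiset.map_id']
  rw [h3, ← hq, ← Nat.card_eq_fintype_card]
  exact KSG.HC.ev_St p hN _ (fun f hf => ⟨h2 f hf, (KSG.isPP_of_mem_mdiv hf).monic,
    (KSG.isUnit_iff_mdiv _).1 x.isUnit f hf, (KSG.pow_eq_one_iff_mdiv _ _).1 h1 f hf⟩) x h1
    (KSG.prod_mdiv _).symm

end Cfsg.Agent.S2425
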