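import Cfsg.Statements.S2427
import Cfsg.Agent.S0257
import Cfsg.Agent.Class.SL2Sylow

set_option autoImplicit false
open Cfsg

namespace Cfsg.Agent.S2427

open Matrix S0257
open scoped commutatorElement

abbrev G3 := Matrix.SpecialLinearGroup (Fin 2) (ZMod 3)

theorem h1 : ∀ g h : G3, ∃ y, f y * (h * g) = g * h := by decide +kernel
theorem h2 : ∀ y, ∃ g h : G3, f y * (h * g) = g * h := by decide +kernel
theorem h3 : ∀ g : G3, (∀ y, f y ≠ g) → ∃ h : G3, g * h * g⁻¹ * h⁻¹ ≠ 1 ∧ g * h * g⁻¹ * h⁻¹ ≠ -1 := by
  decide +kernel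
theorem h4 : ∀ x y, f x ≠ 1 → f x ≠ -1 → f y = 1 ∨ f y = f x * f x ∨ ∃ h : G3, f y * h = h * f x := by
  decide +kernel

theorem comm_eq : commutator G3 = φ.range := by
  apply le_antisymm
  · rw [commutator_def, Subgroup.commutator_le]
    intro g _ h _
    obtain ⟨y, hy⟩ := h1 g h
    exact ⟨y, by rw [commutatorElement_def, ← hy]; change f y = _; group⟩
  · rintro _ ⟨y, rfl⟩
    obtain ⟨g, h, hy⟩ := h2 y
    have : φ y = ⁅g, h⁆ := by rw [commutatorElement_def, ← hy]; change f y = _; group
    rw [this]
    exact Subgroup.commutator_mem_commutator (Subgroup.mem_top _) (Subgroup.mem_top _)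

theorem card_G3 : Nat.card G3 = 24 := by rw [Class.card_SL2, ZMod.card]; norm_num

theorem card_comm : Nat.card (commutator G3) = 8 := by
  rw [comm_eq, ← Nat.card_congr (MonoidHom.ofInjective (f := φ) f_inj).toEquiv,
    Nat.card_eq_fintype_card, QuaternionGroup.card]

theorem card_center : Nat.card (Subgroup.center G3) = 2 := (S0257.result (ZMod.card 3)).2

theorem range_le {N : Subgroup G3} (hN : N.Normal) {x : QuaternionGroup 2} (hx : f x ∈ N)
    (a : f x ≠ 1) (b : f x ≠ -1) : φ.range ≤ N := by
  rintro _ ⟨y, rfl⟩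
  change f y ∈ N
  rcases h4 x y a b with h | h | ⟨h, hh⟩
  · rw [h]; exact N.one_mem
  · rw [h]; exact N.mul_mem hx hx
  · rw [← eq_mul_inv_iff_mul_eq] at hh
    rw [hh]; exact hN.conj_mem _ hx _


/-- The group SL₂ over the field with 3 elements has order 24 and centre of order 2; its commutator subgroup has order 8, is isomorphic to the quaternion group of order 8 and is complemented by every Sylow 3-subgroup (so the group is a semidirect product of a quaternion group of order 8 by a cyclic group of order 3); and its only normal subgroups besides the trivial subgroup and the whole group are the centre and the commutator subgroup. -/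
theorem result :
    Nat.card (Matrix.SpecialLinearGroup (Fin 2) (ZMod 3)) = 24 ∧
    Nat.card (Subgroup.center (Matrix.SpecialLinearGroup (Fin 2) (ZMod 3))) = 2 ∧
    Nat.card (commutator (Matrix.SpecialLinearGroup (Fin 2) (ZMod 3))) = 8 ∧
    Nonempty (commutator (Matrix.SpecialLinearGroup (Fin 2) (ZMod 3)) ≃* QuaternionGroup 2) ∧
    (∀ P : Sylow 3 (Matrix.SpecialLinearGroup (Fin 2) (ZMod 3)),
      Subgroup.IsComplement' (commutator (Matrix.SpecialLinearGroup (Fin 2) (ZMod 3)))
        (P : Subgroup (Matrix.SpecialLinearGroup (Fin 2) (ZMod 3)))) ∧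
    ∀ N : Subgroup (Matrix.SpecialLinearGroup (Fin 2) (ZMod 3)), N.Normal →
      N = ⊥ ∨ N = ⊤ ∨ N = Subgroup.center (Matrix.SpecialLinearGroup (Fin 2) (ZMod 3)) ∨
        N = commutator (Matrix.SpecialLinearGroup (Fin 2) (ZMod 3)) := by
  refine ⟨card_G3, card_center, card_comm, ?_, fun P => ?_, fun N hN => ?_⟩
  · rw [comm_eq]
    exact ⟨(MonoidHom.ofInjective (f := φ) f_inj).symm⟩
  · have hP : Nat.card P = 3 ^ 1 :=
      Class.card_sylow_of_card_eq P (a := 1) (m := 8) (by rw [card_G3]; norm_num) (by norm_num)
    apply Subgroup.isComplement'_of_coprime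
    · rw [card_comm, hP, card_G3]; norm_num
    · rw [card_comm, hP]; norm_num
  · by_cases hle : N ≤ φ.range
    · by_cases hc : N ≤ Subgroup.center G3
      · have hd := Subgroup.card_dvd_of_le hc
        rw [card_center] at hd
        rcases (Nat.dvd_prime Nat.prime_two).1 hd with h | h
        · exact Or.inl (Subgroup.card_eq_one.1 h)
        · exact Or.inr (Or.inr (Or.inl (Subgroup.eq_of_le_of_card_ge hc
            (by rw [h, card_center]))))
      · obtain ⟨g, hg, hg'⟩ := SetLike.not_le_iff_exists.1 hc
        obtain ⟨x, rfl⟩ := hle hg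
        refine Or.inr (Or.inr (Or.inr ?_))
        rw [comm_eq]
        refine le_antisymm hle (range_le hN hg (fun h => hg' ?_) (fun h => hg' ?_))
        · change f x ∈ _
          rw [h]; exact Subgroup.one_mem _
        · change f x ∈ _
          rw [h, Subgroup.mem_center_iff]; intro g; simp
    · obtain ⟨g, hg, hg'⟩ := SetLike.not_le_iff_exists.1 hle
      obtain ⟨h, a, b⟩ := h3 g (fun y hy => hg' ⟨y, hy⟩)
      obtain ⟨y, hy⟩ := h1 g h
      have hy' : f y = g * h * g⁻¹ * h⁻¹ := by rw [← hy]; group
      have hmem : f y ∈ N := by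
        rw [hy', mul_assoc, mul_assoc, ← mul_assoc h]
        exact N.mul_mem hg (hN.conj_mem _ (N.inv_mem hg) _)
      have hle' := range_le hN hmem (hy' ▸ a) (hy' ▸ b)
      refine Or.inr (Or.inl ?_)
      have hi : φ.range.index = 3 := by
        have := φ.range.card_mul_index
        rw [← comm_eq, card_comm, card_G3] at this
        rw [← comm_eq]; omega
      have hd := Subgroup.index_dvd_of_le hle'
      rw [hi] at hd
      rcases (Nat.dvd_prime Nat.prime_three).1 hd with h | h
      · exact Subgroup.index_eq_one.1 h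
      · exfalso
        apply hle
        have h5 := Subgroup.relIndex_mul_index hle'
        rw [h, hi] at h5
        exact Subgroup.relIndex_eq_one.1 (by omega)

end Cfsg.Agent.S2427
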