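import Cfsg.Statements.S2428
import Cfsg.Agent.KSG.SL2Torus

set_option autoImplicit false
open Cfsg

namespace Cfsg.Agent.S2428

open KSG KSG.M2 Matrix


/-- Let F be a finite field with q elements, q odd, and let d be a diagonal element of SL₂ over F whose diagonal entry a has a² ≠ 1 (such d exist exactly when q > 3). Then the centraliser of d is precisely the diagonal subgroup T; the normaliser of T has order 2(q − 1) and exactly (q + 5)/2 conjugacy classes; and every element of that normaliser outside T has square equal to −1. -/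
theorem result {F : Type*} [Field F] [Fintype F] (hodd : Odd (Fintype.card F))
    (d : Matrix.SpecialLinearGroup (Fin 2) F) (hd01 : (d : Matrix (Fin 2) (Fin 2) F) 0 1 = 0) (hd10 : (d : Matrix (Fin 2) (Fin 2) F) 1 0 = 0) (hda : (d : Matrix (Fin 2) (Fin 2) F) 0 0 ^ 2 ≠ 1) :
    (∀ g : Matrix.SpecialLinearGroup (Fin 2) F, g ∈ Subgroup.centralizer ({d} : Set (Matrix.SpecialLinearGroup (Fin 2) F)) ↔ ((g : Matrix (Fin 2) (Fin 2) F) 0 1 = 0 ∧ (g : Matrix (Fin 2) (Fin 2) F) 1 0 = 0)) ∧
    Nat.card (Subgroup.normalizer ((Subgroup.centralizer ({d} : Set (Matrix.SpecialLinearGroup (Fin 2) F))) : Set (Matrix.SpecialLinearGroup (Fin 2) F))) = 2 * (Fintype.card F - 1) ∧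
    Nat.card (ConjClasses (Subgroup.normalizer ((Subgroup.centralizer ({d} : Set (Matrix.SpecialLinearGroup (Fin 2) F))) : Set (Matrix.SpecialLinearGroup (Fin 2) F)))) = (Fintype.card F + 5) / 2 ∧
    ∀ g : Matrix.SpecialLinearGroup (Fin 2) F, g ∈ Subgroup.normalizer ((Subgroup.centralizer ({d} : Set (Matrix.SpecialLinearGroup (Fin 2) F))) : Set (Matrix.SpecialLinearGroup (Fin 2) F)) →
      g ∉ Subgroup.centralizer ({d} : Set (Matrix.SpecialLinearGroup (Fin 2) F)) → ((g * g) : Matrix (Fin 2) (Fin 2) F) = -1 := by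
  have hodd' : Odd (Nat.card F) := by rwa [Nat.card_eq_fintype_card]
  have h2 := two_ne_zero_of_odd hodd'
  have hdet := d.det_coe
  rw [det_fin_two, hd01, zero_mul, sub_zero] at hdet
  have ha0 : (d : Matrix (Fin 2) (Fin 2) F) 0 0 ≠ 0 := left_ne_zero_of_mul_eq_one hdet
  have ht : (d : Matrix (Fin 2) (Fin 2) F).trace = (Units.mk0 _ ha0 : Fˣ) + ((Units.mk0 _ ha0 : Fˣ) : F)⁻¹ := by
    rw [trace_fin_two, Units.val_mk0, eq_inv_of_mul_eq_one_right hdet]
  have hreg : (d : Matrix (Fin 2) (Fin 2) F).trace ^ 2 ≠ 4 := by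
    rw [ht]; exact add_inv_sq_ne_four ha0 hda
  have hc := SL_card_centralizer_split (a := Units.mk0 _ ha0) hda ht
  have hne : (d : Matrix (Fin 2) (Fin 2) F) 0 0 - (d : Matrix (Fin 2) (Fin 2) F) 1 1 ≠ 0 := by
    intro h
    apply hda
    linear_combination hdet + (d : Matrix (Fin 2) (Fin 2) F) 0 0 * h
  refine ⟨fun g => ?_, ?_, ?_, fun g h1 h2 => ?_⟩
  · rw [Subgroup.mem_centralizer_singleton_iff, SL_ext_iff, ext2_iff]
    simp only [Matrix.SpecialLinearGroup.coe_mul, mul_apply2, hd01, hd10]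
    constructor
    · rintro ⟨-, h1, h2, -⟩
      constructor
      · refine (mul_eq_zero.1 ?_).resolve_right hne
        linear_combination -h1
      · refine (mul_eq_zero.1 ?_).resolve_right hne
        linear_combination h2
    · rintro ⟨h1, h2⟩
      simp [h1, h2, mul_comm]
  · rw [card_normalizer_cent hreg, hc, Nat.card_eq_fintype_card]
  · have := card_conjClasses_normalizer_cent h2 hreg
    rw [hc, Nat.card_eq_fintype_card (α := F)] at this
    have h3 : 0 < Fintype.card F := Fintype.card_pos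
    omega
  · exact SL_ext_iff.1 (mul_self_eq_neg_one_of_mem_normalizer hreg h1 h2)

end Cfsg.Agent.S2428
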