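import Cfsg.Statements.S2429
import Cfsg.Agent.KSG.SL2Torus

set_option autoImplicit false
open Cfsg

namespace Cfsg.Agent.S2429

open KSG KSG.M2 Matrix

theorem not_isSquare_of_noEig {F : Type*} [Field F] (h2 : (2 : F) ≠ 0)
    {g : Matrix.SpecialLinearGroup (Fin 2) F} (hg : NoEig (g : Matrix (Fin 2) (Fin 2) F)) :
    ¬ IsSquare ((g : Matrix (Fin 2) (Fin 2) F).trace ^ 2 - 4) := by
  rintro ⟨r, hr⟩
  apply hg (((g : Matrix (Fin 2) (Fin 2) F).trace + r) / 2)
  rw [g.det_coe]
  field_simp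
  linear_combination -hr

theorem exists_conj_mem_cent {F : Type*} [Field F] [Finite F] (h2 : (2 : F) ≠ 0)
    {g g₀ : Matrix.SpecialLinearGroup (Fin 2) F} (hg : NoEig (g : Matrix (Fin 2) (Fin 2) F))
    (hg₀ : NoEig (g₀ : Matrix (Fin 2) (Fin 2) F)) :
    ∃ h : Matrix.SpecialLinearGroup (Fin 2) F,
      h * g * h⁻¹ ∈ Subgroup.centralizer ({g₀} : Set (Matrix.SpecialLinearGroup (Fin 2) F)) := by
  have h1 := not_isSquare_of_noEig h2 hg
  have h0 := not_isSquare_of_noEig h2 hg₀
  have n1 := sub_ne_zero.2 hg.trace_sq_ne_four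
  have n0 := sub_ne_zero.2 hg₀.trace_sq_ne_four
  obtain ⟨r, hr⟩ := (isSquare_mul_iff n1 n0).2 (by tauto)
  set s := (g : Matrix (Fin 2) (Fin 2) F).trace with hs
  set t := (g₀ : Matrix (Fin 2) (Fin 2) F).trace with ht
  let A : Matrix (Fin 2) (Fin 2) F := ((s - t * (r / (t ^ 2 - 4))) / 2) • (1 : Matrix _ _ F) +
    (r / (t ^ 2 - 4)) • (g₀ : Matrix (Fin 2) (Fin 2) F)
  have hA : A.det = 1 := by
    simp only [A]
    rw [det_smul_add, g₀.det_coe, ← ht]
    field_simp
    linear_combination (t ^ 2 - 4) * hr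
  have hAt : A.trace = s := by
    simp only [A]
    rw [trace_smul_add, ← ht]
    field_simp
    ring
  obtain ⟨h, hh⟩ := isConj_iff.1 (SL_isConj_of_trace' (g := g) (h := mkSL A hA) hAt.symm
    hg.trace_sq_ne_four)
  exact ⟨h, by rw [hh]; exact (SL_mem_centralizer_iff hg₀.not_isScal).2 ⟨_, _, rfl⟩⟩


/-- Let F be a finite field with q elements, q odd. Then SL₂ over F contains a cyclic subgroup T′ of order q + 1 (a non-split torus) with the following properties: T′ is its own centraliser, and indeed the centraliser of each element of T′ other than 1 and −1 is exactly T′; every element of SL₂ having no eigenvector in F² is conjugate to an element of T′; the normaliser of T′ has order 2(q + 1) and exactly (q + 7)/2 conjugacy classes; and every element of that normaliser outside T′ has square −1. -/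
theorem result {F : Type*} [Field F] [Fintype F] (hodd : Odd (Fintype.card F)) :
    ∃ T' : Subgroup (Matrix.SpecialLinearGroup (Fin 2) F), IsCyclic T' ∧ Nat.card T' = Fintype.card F + 1 ∧
      Subgroup.centralizer ((T' : Set (Matrix.SpecialLinearGroup (Fin 2) F))) = T' ∧
      (∀ g : Matrix.SpecialLinearGroup (Fin 2) F, g ∈ T' → (g : Matrix (Fin 2) (Fin 2) F) ≠ 1 → (g : Matrix (Fin 2) (Fin 2) F) ≠ -1 → Subgroup.centralizer ({g} : Set (Matrix.SpecialLinearGroup (Fin 2) F)) = T') ∧
      (∀ g : Matrix.SpecialLinearGroup (Fin 2) F, (∀ (c : F) (v : Fin 2 → F), v ≠ 0 → (g : Matrix (Fin 2) (Fin 2) F).mulVec v ≠ c • v) → ∃ h : Matrix.SpecialLinearGroup (Fin 2) F, h * g * h⁻¹ ∈ T') ∧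
      Nat.card (Subgroup.normalizer (T' : Set (Matrix.SpecialLinearGroup (Fin 2) F))) = 2 * (Fintype.card F + 1) ∧
      Nat.card (ConjClasses (Subgroup.normalizer (T' : Set (Matrix.SpecialLinearGroup (Fin 2) F)))) = (Fintype.card F + 7) / 2 ∧
      ∀ g : Matrix.SpecialLinearGroup (Fin 2) F, g ∈ Subgroup.normalizer (T' : Set (Matrix.SpecialLinearGroup (Fin 2) F)) → g ∉ T' → ((g * g) : Matrix (Fin 2) (Fin 2) F) = -1 := by
  have hodd' : Odd (Nat.card F) := by rwa [Nat.card_eq_fintype_card]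
  have h2 := two_ne_zero_of_odd hodd'
  obtain ⟨g₀, hg₀⟩ := exists_noEig (F := F)
  have hreg := hg₀.trace_sq_ne_four
  have hc := SL_card_centralizer_noEig hg₀
  rw [Nat.card_eq_fintype_card (α := F)] at hc
  refine ⟨Subgroup.centralizer {g₀}, isCyclic_cent hreg, hc,
    centralizer_eq_cent hg₀.not_isScal (self_mem_cent g₀) le_rfl, fun g hg h1 h3 => ?_,
    fun g hg => exists_conj_mem_cent h2 (noEig_iff.2 hg) hg₀, ?_, ?_, fun g h1 h2 => ?_⟩
  · refine cent_eq_of_mem hg₀.not_isScal (fun hs => ?_) hg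
    rcases SL_isScal_iff.1 hs with rfl | rfl
    · exact h1 rfl
    · exact h3 rfl
  · rw [card_normalizer_cent hreg, hc]
  · have := card_conjClasses_normalizer_cent h2 hreg
    rw [hc] at this
    omega
  · exact SL_ext_iff.1 (mul_self_eq_neg_one_of_mem_normalizer hreg h1 h2)

end Cfsg.Agent.S2429
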