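import Cfsg.Statements.S2434
import Mathlib
import Cfsg.Agent.KSG.SL2Deg

set_option autoImplicit false
open Cfsg

namespace Cfsg.Agent.S2434

open KSG KSG.GL2 KSG.M2 Char

/-- Let F be a finite field with q elements, q odd, and C a cyclic subgroup of order q + 1 of SL₂ over F (a non-split torus; it contains the centre). For every homomorphism θ from C to the non-zero complex numbers with θ² ≠ 1 there is an irreducible complex character χ of degree q − 1 such that χ(c) = −θ(c) − θ(c)⁻¹ for every non-central c in C, χ(zg) = θ(z)χ(g) for central z in C, χ vanishes at diagonal elements with entry a, a² ≠ 1, and χ takes the value −1 at every upper unitriangular element other than 1. Conversely every irreducible character of degree q − 1 has, for some such θ, the values −θ(c) − θ(c)⁻¹ at the non-central elements c of C (for q ≥ 5 these are exactly the cuspidal characters of degree q − 1). -/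
theorem result {F : Type*} [Field F] [Fintype F] (hodd : Odd (Fintype.card F))
    (C : Subgroup (Matrix.SpecialLinearGroup (Fin 2) F)) (hC : IsCyclic C) (hcard : Nat.card C = Fintype.card F + 1) :
    (∀ θ : C →* ℂˣ, (∃ c : C, θ c ^ 2 ≠ 1) →
      ∃ χ : Matrix.SpecialLinearGroup (Fin 2) F → ℂ, Cfsg.IsIrrCharacter (Matrix.SpecialLinearGroup (Fin 2) F) χ ∧ χ 1 = (Fintype.card F : ℂ) - 1 ∧
        (∀ c : C, (c : Matrix.SpecialLinearGroup (Fin 2) F) ∉ Subgroup.center (Matrix.SpecialLinearGroup (Fin 2) F) → χ c = -((θ c).val + (θ c)⁻¹.val)) ∧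
        (∀ c : C, (c : Matrix.SpecialLinearGroup (Fin 2) F) ∈ Subgroup.center (Matrix.SpecialLinearGroup (Fin 2) F) → ∀ g : Matrix.SpecialLinearGroup (Fin 2) F, χ ((c : Matrix.SpecialLinearGroup (Fin 2) F) * g) = (θ c).val * χ g) ∧
        (∀ g : Matrix.SpecialLinearGroup (Fin 2) F, (g : Matrix (Fin 2) (Fin 2) F) 0 1 = 0 → (g : Matrix (Fin 2) (Fin 2) F) 1 0 = 0 → (g : Matrix (Fin 2) (Fin 2) F) 0 0 ^ 2 ≠ 1 → χ g = 0) ∧
        (∀ g : Matrix.SpecialLinearGroup (Fin 2) F, (g : Matrix (Fin 2) (Fin 2) F) 1 0 = 0 → (g : Matrix (Fin 2) (Fin 2) F) 0 0 = 1 → (g : Matrix (Fin 2) (Fin 2) F) 1 1 = 1 → (g : Matrix (Fin 2) (Fin 2) F) 0 1 ≠ 0 → χ g = -1)) ∧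
    (∀ χ : Matrix.SpecialLinearGroup (Fin 2) F → ℂ, Cfsg.IsIrrCharacter (Matrix.SpecialLinearGroup (Fin 2) F) χ → χ 1 = (Fintype.card F : ℂ) - 1 →
      ∃ θ : C →* ℂˣ, (∃ c : C, θ c ^ 2 ≠ 1) ∧
        ∀ c : C, (c : Matrix.SpecialLinearGroup (Fin 2) F) ∉ Subgroup.center (Matrix.SpecialLinearGroup (Fin 2) F) → χ c = -((θ c).val + (θ c)⁻¹.val)) := by
  classical
  have hq : 3 ≤ Fintype.card F := by
    have : 1 < Fintype.card F := Fintype.one_lt_card
    obtain ⟨k, hk⟩ := hodd
    omega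
  have h2 : (2 : F) ≠ 0 := two_ne_zero_of_odd (by rwa [Nat.card_eq_fintype_card])
  obtain ⟨⟨g1, hg1⟩, hgen⟩ := IsCyclic.exists_generator (α := C)
  have hle : C ≤ TorS g1 := by
    intro c hc
    obtain ⟨k, hk⟩ := hgen ⟨c, hc⟩
    obtain rfl : g1 ^ k = c := congrArg Subtype.val hk
    exact Subgroup.mem_centralizer_singleton_iff.2 (Commute.zpow_self g1 k)
  have hd := Subgroup.card_dvd_of_le hle
  rw [hcard] at hd
  have hns : ¬ IsScal (g1 : Matrix (Fin 2) (Fin 2) F) := by
    intro h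
    have h1 : orderOf (⟨g1, hg1⟩ : C) ∣ 2 := orderOf_dvd_of_pow_eq_one (Subtype.ext (by
      rcases SL_isScal_iff.1 h with rfl | rfl <;> simp))
    rw [orderOf_eq_card_of_forall_mem_zpowers hgen, hcard] at h1
    have := Nat.le_of_dvd two_pos h1
    omega
  have hne : NoEig (g1 : Matrix (Fin 2) (Fin 2) F) := by
    rcases trace_cases g1 with ⟨ε, hε, ht⟩ | ⟨a, ha, ht⟩ | h
    · rw [SL_card_centralizer_par hns hε ht, card_sq_eq_one_of_two_ne h2,
        Nat.card_eq_fintype_card] at hd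
      have := (Nat.dvd_sub (dvd_mul_left (Fintype.card F + 1) 2) hd)
      have := Nat.le_of_dvd (by omega) this
      omega
    · rw [SL_card_centralizer_split ha ht, Nat.card_eq_fintype_card] at hd
      have := Nat.le_of_dvd (by omega) hd
      omega
    · exact h
  have _i : Fact (NoEig (g1 : Matrix (Fin 2) (Fin 2) F)) := ⟨hne⟩
  obtain rfl : C = TorS g1 := Subgroup.eq_of_le_of_card_ge hle (by
    rw [hcard, card_torS, Nat.card_eq_fintype_card])
  have hsq : ∀ θ : TorS g1 →* ℂˣ, (∃ c, θ c ^ 2 ≠ 1) ↔ θ ^ 2 ≠ 1 := fun θ => by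
    rw [Ne, MonoidHom.ext_iff, not_forall]
    rfl
  simp only [hsq, SL_mem_center_iff]
  constructor
  · intro θ hθ
    refine ⟨cuspS θ, isIrr_cuspS hθ, cuspS_one θ, fun c hc => cusp_extT_tor θ hc,
      fun c hc g => ?_, fun g h01 h10 h => ?_, fun g h10 h0 h1 h01 => ?_⟩
    · have h1 := irr_central_mul (isIrr_cuspS hθ) (SL_mem_center_iff.2 hc) g
      obtain ⟨a, -, e⟩ := sl_scal hc
      have h3 : cuspS θ c = ((Fintype.card F : ℂ) - 1) * θ c := by
        rw [cuspS, res_apply, e, (vals_cusp _).scal, ← extT_apply]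
        congr 3
        exact Subtype.ext e.symm
      rw [h3, cuspS_one] at h1
      apply mul_right_cancel₀ (card_sub_one_ne_zero (F := F))
      linear_combination h1
    · obtain ⟨a, ha, -, -, e, -⟩ := sl_diag h01 h10 h
      rw [cuspS, res_apply, e, (vals_cusp _).split _ _ ha]
    · obtain ⟨a, e0, e⟩ := sl_par h10 (h0.trans h1.symm) h01
      obtain rfl : a = 1 := Units.ext (e0.symm.trans h0)
      rw [cuspS, res_apply, (vals_cusp _).cls.eq_of_isConj e, (vals_cusp _).jor]
      simp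
  · intro χ hχ hdeg
    rcases irrS_of_deg_sub_one' g1 (by omega) hχ hdeg with ⟨η, hη, rfl⟩ | ⟨h3, α, χ', -, -, H⟩
    · exact ⟨η, hη, fun c hc => cusp_extT_tor η hc⟩
    · have h3' : Nat.card F = 3 := by rw [Nat.card_eq_fintype_card, h3]
      obtain ⟨η, hη⟩ : ∃ η : TorS g1 →* ℂˣ, η ^ 2 ≠ 1 := by
        by_contra! h
        have := card_torS_hom_sq_one (g1 := g1)
        rw [Nat.card_congr (Equiv.subtypeUnivEquiv h), card_hom_of_comm torS_comm, card_torS,
          card_sq_eq_one_of_two_ne h2] at this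
        omega
      refine ⟨η, hη, fun c hc => ?_⟩
      have hc' := tor_noEig (c := torIncl g1 c) hc
      have := H.two_mul_apply (g := c) (Or.inr (NoEig.trace_sq_ne_four hc'))
      rw [ps_of_noEig (g := Matrix.SpecialLinearGroup.toGL (c : Matrix.SpecialLinearGroup (Fin 2) F))
        _ _ hc'] at this
      rw [torS_add_inv_of_three h3' hη hc]
      simpa using this

end Cfsg.Agent.S2434
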