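import Cfsg.Statements.S2435
import Mathlib
import Cfsg.Agent.KSG.SL2Deg

set_option autoImplicit false
open Cfsg

namespace Cfsg.Agent.S2435

open KSG KSG.GL2 KSG.M2 Char

/-- Let F be a finite field with q elements, q odd and q ≥ 5, and χ an irreducible complex character of SL₂ over F. If χ has degree (q + 1)/2, then at a diagonal element with entry a, a² ≠ 1, χ takes the value 1 when a is a square in F and −1 otherwise. If χ has degree (q − 1)/2, then at an element g with no eigenvector in F² (so g has order dividing q + 1), χ takes the value −1 when g raised to the power (q + 1)/2 is the identity and the value 1 otherwise. -/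
theorem result {F : Type*} [Field F] [Fintype F] (hodd : Odd (Fintype.card F)) (hq : 5 ≤ Fintype.card F)
    (χ : Matrix.SpecialLinearGroup (Fin 2) F → ℂ) (hχ : Cfsg.IsIrrCharacter (Matrix.SpecialLinearGroup (Fin 2) F) χ) (g : Matrix.SpecialLinearGroup (Fin 2) F) :
    (χ 1 = (((Fintype.card F + 1) / 2 : ℕ) : ℂ) → (g : Matrix (Fin 2) (Fin 2) F) 0 1 = 0 → (g : Matrix (Fin 2) (Fin 2) F) 1 0 = 0 → (g : Matrix (Fin 2) (Fin 2) F) 0 0 ^ 2 ≠ 1 →
      (IsSquare ((g : Matrix (Fin 2) (Fin 2) F) 0 0) → χ g = 1) ∧ (¬ IsSquare ((g : Matrix (Fin 2) (Fin 2) F) 0 0) → χ g = -1)) ∧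
    (χ 1 = (((Fintype.card F - 1) / 2 : ℕ) : ℂ) → (∀ (c : F) (v : Fin 2 → F), v ≠ 0 → (g : Matrix (Fin 2) (Fin 2) F).mulVec v ≠ c • v) →
      (((g ^ ((Fintype.card F + 1) / 2)) : Matrix (Fin 2) (Fin 2) F) = 1 → χ g = -1) ∧ (((g ^ ((Fintype.card F + 1) / 2)) : Matrix (Fin 2) (Fin 2) F) ≠ 1 → χ g = 1)) := by
  classical
  obtain ⟨g1, _⟩ := exists_fact_noEigS (F := F)
  rw [eq_half_add_iff hodd, eq_half_sub_iff hodd]
  constructor
  · intro hd h01 h10 h
    obtain ⟨a, ha, e0, -, e, ht⟩ := sl_diag h01 h10 h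
    obtain ⟨α, χ', a2, a1, H⟩ := irrS_of_deg_half_add (by omega) hχ hd
    have h1 := H.two_mul_apply (Or.inr ht)
    rw [e, (vals_ps (Matrix.SpecialLinearGroup.toGL g1) α 1).split _ _ ha, MulChar.one_apply_coe,
      MulChar.one_apply_coe, mul_one, mul_one] at h1
    have h2 := mulChar_sq_one_apply a2 a1 a
    have h3 := mulChar_sq_one_apply a2 a1 a⁻¹
    rw [Units.val_inv_eq_inv_val, isSquare_inv, ← Units.val_inv_eq_inv_val] at h3
    rw [e0]
    constructor
    · intro hs
      rw [h2.1 hs, h3.1 hs] at h1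
      linear_combination h1 / 2
    · intro hs
      rw [h2.2 hs, h3.2 hs] at h1
      linear_combination h1 / 2
  · intro hd hg
    have hg' := noEig_iff.2 hg
    obtain ⟨η, χ', a2, a1, H⟩ := irrS_of_deg_half_sub g1 (by omega) hχ hd
    obtain ⟨c, hc, h⟩ := sl_ell g1 hg'
    have h1 := H.two_mul_apply (Or.inr hg'.trace_sq_ne_four)
    rw [H.cls.eq_of_isConj (Matrix.SpecialLinearGroup.toGL.map_isConj h), cusp_extT_tor η hc] at h1
    have h2 := hom_sq_one_apply a2 a1 c
    have h3 : IsSquare c ↔ ((g : Matrix (Fin 2) (Fin 2) F) ^ ((Fintype.card F + 1) / 2)) = 1 := by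
      rw [isSquare_iff_pow_eq_one (m := (Fintype.card F + 1) / 2) (by
        rw [card_torS, Nat.card_eq_fintype_card]
        obtain ⟨k, hk⟩ := hodd
        omega), ← Matrix.SpecialLinearGroup.coe_pow, ← Matrix.SpecialLinearGroup.coe_one,
        ← SL_ext_iff, Subtype.ext_iff (a1 := c ^ _)]
      have := h.pow ((Fintype.card F + 1) / 2)
      constructor
      · intro e
        rw [Subgroup.coe_pow, Subgroup.coe_one] at e
        rwa [e, isConj_one_left] at this
      · intro e
        rwa [e, isConj_one_right] at this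
    constructor
    · intro hs
      rw [h2.1 (h3.2 hs)] at h1
      simp only [Units.val_one, inv_one] at h1
      linear_combination h1 / 2
    · intro hs
      rw [h2.2 (mt h3.1 hs)] at h1
      simp only [Units.val_neg, Units.val_one, inv_neg, inv_one] at h1
      linear_combination h1 / 2

end Cfsg.Agent.S2435
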