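import Cfsg.Statements.S2437
import Cfsg.Agent.KSG.SL2Borel

set_option autoImplicit false
open Cfsg

namespace Cfsg.Agent.S2437

open KSG KSG.M2 Matrix


/-- Over a finite field F with q elements, q odd, the upper triangular subgroup of SL₂ (a Borel subgroup, of order q(q − 1)) has exactly q + 3 conjugacy classes. -/
theorem result {F : Type*} [Field F] [Fintype F] (hodd : Odd (Fintype.card F)) :
    Nat.card (ConjClasses ((Cfsg.upperTriangularGL 2 F).comap Matrix.SpecialLinearGroup.toGL)) = Fintype.card F + 3 := by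
  classical
  have hodd' : Odd (Nat.card F) := by rwa [Nat.card_eq_fintype_card]
  have h2 := two_ne_zero_of_odd hodd'
  have h := card_conjClasses_mul_card_eq_sum
    (G := ((upperTriangularGL 2 F).comap Matrix.SpecialLinearGroup.toGL :
      Subgroup (Matrix.SpecialLinearGroup (Fin 2) F)))
  rw [← borEquiv.sum_comp, Fintype.sum_prod_type, card_borelSL,
    Nat.card_eq_fintype_card (α := F)] at h
  set q := Fintype.card F with hq
  have h1 : ∀ (a : Fˣ) (β : F), Nat.card (Subgroup.centralizer ({borEquiv (a, β)} : Set _)) =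
      if (a : F) ^ 2 = 1 then (if β = 0 then (q - 1) * q else 2 * q) else q - 1 := by
    intro a β
    rw [card_centralizer_subgroup, coe_borEquiv]
    split_ifs with ha hβ
    · have : Subgroup.centralizer ({bor a β} : Set (Matrix.SpecialLinearGroup (Fin 2) F)) = ⊤ := by
        rw [Subgroup.centralizer_eq_top_iff_subset, Set.singleton_subset_iff, SetLike.mem_coe,
          SL_mem_center_iff]
        simp only [IsScal, coe_bor, hβ]
        simpa [sq] using eq_inv_of_mul_eq_one_left (by rw [← sq]; exact ha)
      rw [this, top_inf_eq, card_borelSL, Nat.card_eq_fintype_card]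
    · have hs : ¬ IsScal (bor a β : Matrix (Fin 2) (Fin 2) F) := by simp [IsScal, hβ]
      rw [inf_eq_left.2 (cent_le_borelSL hs (by simp)), SL_card_centralizer_par hs ha,
        card_sq_eq_one_of_two_ne h2, Nat.card_eq_fintype_card]
      have : (a : F)⁻¹ = a := (eq_inv_of_mul_eq_one_left (by rw [← sq]; exact ha)).symm
      simp [trace_fin_two, this, two_mul]
    · have ht : (bor a β : Matrix (Fin 2) (Fin 2) F).trace = a + (a : F)⁻¹ := by
        simp [trace_fin_two]
      have hs : ¬ IsScal (bor a β : Matrix (Fin 2) (Fin 2) F) :=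
        SL_not_isScal_of_trace (by rw [ht]; exact add_inv_sq_ne_four a.ne_zero ha)
      rw [inf_eq_left.2 (cent_le_borelSL hs (by simp)), SL_card_centralizer_split ha ht,
        Nat.card_eq_fintype_card]
  simp only [h1] at h
  have h3 : ∀ a : Fˣ, (∑ β : F, if (a : F) ^ 2 = 1 then (if β = 0 then (q - 1) * q else 2 * q)
      else q - 1) = (q - 1) * q + if (a : F) ^ 2 = 1 then 2 * ((q - 1) * q) else 0 := by
    intro a
    split_ifs with ha
    · rw [Finset.sum_ite, Finset.filter_eq' Finset.univ (0 : F)]
      simp only [Finset.sum_const, smul_eq_mul, Finset.mem_univ, if_true,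
        Finset.card_singleton, Finset.filter_ne', Finset.card_erase_of_mem, Finset.card_univ, ← hq]
      ring
    · simp [mul_comm, hq]
  simp only [h3] at h
  rw [Finset.sum_add_distrib, ← Finset.sum_filter, Finset.sum_const, Finset.sum_const,
    Finset.card_univ, Fintype.card_units] at h
  have h4 : (Finset.univ.filter fun a : Fˣ => (a : F) ^ 2 = 1).card = 2 := by
    refine Eq.trans ?_ (card_sq_eq_one_of_two_ne h2)
    rw [← Fintype.card_subtype, ← Nat.card_eq_fintype_card]
    refine Nat.card_congr ⟨fun a => ⟨a.1, a.2⟩, fun x => ⟨Units.mk0 x.1 ?_, x.2⟩, ?_, ?_⟩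
    · intro h0
      have := x.2
      rw [h0] at this; simp at this
    · intro a; ext; rfl
    · intro x; rfl
  rw [h4, smul_eq_mul, smul_eq_mul, ← hq] at h
  have h5 : 1 < q := Fintype.one_lt_card
  apply Nat.eq_of_mul_eq_mul_right (show 0 < (q - 1) * q from Nat.mul_pos (by omega) (by omega))
  rw [h]
  obtain ⟨k, hk⟩ : ∃ k, q = k + 1 := ⟨q - 1, by omega⟩
  rw [hk, Nat.add_sub_cancel]
  ring

end Cfsg.Agent.S2437
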