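import Cfsg.Statements.S2439
import Mathlib
import Cfsg.Agent.KSG.SL2Deg
import Cfsg.Agent.KSG.PSL2
import Cfsg.Agent.KSG.SL2Unip
import Cfsg.Agent.KSG.SL2Sylow2
import Cfsg.Agent.Char.Degrees
import Cfsg.Agent.Block.Count
import Cfsg.Agent.Block.Induce
import Cfsg.Agent.Block.PPart

set_option autoImplicit false
open Cfsg

namespace Cfsg.Agent.S2439

open KSG KSG.GL2 KSG.M2 Char Block

theorem sameBlock_of {G : Type*} [Group G] [Finite G] {p : ℕ} [Fact p.Prime] {M : Ideal AlgInt}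
    (hM : IsPModular p M) {χ ψ : G → ℂ} (hχ : IsIrrCharacter G χ) (hψ : IsIrrCharacter G ψ)
    (dχ : ¬ p ∣ charDegree χ) (dψ : ¬ p ∣ charDegree ψ)
    (h : ∀ g : G, p ∣ (Subgroup.centralizer {g}).index ∨ ∃ x z, g = x * z ∧ Commute x z ∧
      (∃ k, orderOf x = p ^ k) ∧ χ z / χ 1 = ψ z / ψ 1) : SameBlock M χ ψ := by
  have v : ∀ {χ : G → ℂ}, IsIrrCharacter G χ → ¬ p ∣ charDegree χ → val M (χ 1)⁻¹ ≤ 1 := by
    intro χ hχ d
    rw [← coe_charDegree_of_isCharacter hχ.isCharacter]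
    exact (val_inv_of_eq_one ((val_natCast_eq_one_iff hM _).2 d)).le
  rw [sameBlock_iff_val hM hχ hψ]
  intro g
  rcases h g with h | ⟨x, z, rfl, hc, hx, hz⟩
  · have := (val_natCast_lt_one_iff hM _).2 h
    exact val_sub_lt_one
      (val_mul_lt_one_left (val_mul_lt_one_left this (val_char_le_one hχ.isCharacter g)) (v hχ dχ))
      (val_mul_lt_one_left (val_mul_lt_one_left this (val_char_le_one hψ.isCharacter g)) (v hψ dψ))
  · have : centralChar χ (x * z) - centralChar ψ (x * z) =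
        ((Subgroup.centralizer {x * z}).index : ℂ) * ((χ (x * z) - χ z) * (χ 1)⁻¹ -
          (ψ (x * z) - ψ z) * (ψ 1)⁻¹) := by
      simp only [centralChar, div_eq_mul_inv] at hz ⊢
      linear_combination ((Subgroup.centralizer {x * z}).index : ℂ) * hz
    rw [this]
    exact val_mul_lt_one_right (val_natCast_le_one _) (val_sub_lt_one
      (val_mul_lt_one_left (val_char_mul_sub_lt_one hM hχ.isCharacter hc hx) (v hχ dχ))
      (val_mul_lt_one_left (val_char_mul_sub_lt_one hM hψ.isCharacter hc hx) (v hψ dψ)))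

theorem eq_stS_of_dvd {F : Type*} [Field F] [Fintype F] [DecidableEq F] {p : ℕ} (hp : p.Prime)
    (hq : p ∣ Fintype.card F) {χ : Matrix.SpecialLinearGroup (Fin 2) F → ℂ}
    (hχ : IsIrrCharacter _ χ) (hd : p ∣ charDegree χ) : χ = stS F := by
  obtain ⟨g1, _⟩ := exists_fact_noEigS (F := F)
  have e := coe_charDegree_of_isCharacter hχ.isCharacter
  have hp1 : ∀ {m : ℕ}, p ∣ m → m = Fintype.card F + 1 ∨ m + 1 = Fintype.card F → False := by
    rintro m hm (h | h)
    · exact hp.one_lt.ne' (Nat.dvd_one.1 ((Nat.dvd_add_right hq).1 (h ▸ hm)))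
    · exact hp.one_lt.ne' (Nat.dvd_one.1 ((Nat.dvd_add_right hm).1 (h ▸ hq)))
  rcases irrS_cases_deg g1 hχ with ⟨-, h⟩ | ⟨h, -⟩ | ⟨-, h⟩ | ⟨-, h⟩ | ⟨-, h⟩ | ⟨-, h⟩
  · rw [← e, Nat.cast_eq_one] at h
    exact absurd (Nat.dvd_one.1 (h ▸ hd)) hp.one_lt.ne'
  · exact h
  · exact (hp1 hd (Or.inl (by rw [← e] at h; exact_mod_cast h))).elim
  · exact (hp1 hd (Or.inr (by rw [← e, eq_sub_iff_add_eq] at h; exact_mod_cast h))).elim
  · exact (hp1 (hd.mul_left 2) (Or.inl (by rw [← e] at h; exact_mod_cast h))).elim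
  · exact (hp1 (hd.mul_left 2) (Or.inr (by
      rw [← e, eq_sub_iff_add_eq] at h; exact_mod_cast h))).elim

/-- Let F be a finite field with q elements of odd characteristic p, and M a maximal ideal of the algebraic integers containing p. Then SL₂ over F has exactly three p-blocks relative to M: the irreducible character of degree q (the Steinberg character) alone; the other irreducible characters taking the same value at −1 as at 1 (the principal block); and the irreducible characters χ with χ(−1) = −χ(1). Every Sylow p-subgroup is a defect group of each of the last two blocks. -/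
theorem result {F : Type*} [Field F] [Fintype F] (p : ℕ) [Fact p.Prime] [CharP F p] (hp : p ≠ 2)
    (M : Ideal Cfsg.AlgInt) (hM : Cfsg.IsPModular p M) :
    (∀ B : Set (Cfsg.IrrCharacter (Matrix.SpecialLinearGroup (Fin 2) F)), Cfsg.IsPBlock M B ↔
      (B = {χ : Cfsg.IrrCharacter (Matrix.SpecialLinearGroup (Fin 2) F) | (χ : Matrix.SpecialLinearGroup (Fin 2) F → ℂ) 1 = (Fintype.card F : ℂ)} ∨
       B = {χ : Cfsg.IrrCharacter (Matrix.SpecialLinearGroup (Fin 2) F) | (χ : Matrix.SpecialLinearGroup (Fin 2) F → ℂ) (-1) = (χ : Matrix.SpecialLinearGroup (Fin 2) F → ℂ) 1 ∧ (χ : Matrix.SpecialLinearGroup (Fin 2) F → ℂ) 1 ≠ (Fintype.card F : ℂ)} ∨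
       B = {χ : Cfsg.IrrCharacter (Matrix.SpecialLinearGroup (Fin 2) F) | (χ : Matrix.SpecialLinearGroup (Fin 2) F → ℂ) (-1) = -(χ : Matrix.SpecialLinearGroup (Fin 2) F → ℂ) 1})) ∧
    Nat.card {B : Set (Cfsg.IrrCharacter (Matrix.SpecialLinearGroup (Fin 2) F)) // Cfsg.IsPBlock M B} = 3 ∧
    ∀ P : Sylow p (Matrix.SpecialLinearGroup (Fin 2) F),
      Cfsg.IsDefectGroup p M {χ : Cfsg.IrrCharacter (Matrix.SpecialLinearGroup (Fin 2) F) | (χ : Matrix.SpecialLinearGroup (Fin 2) F → ℂ) (-1) = (χ : Matrix.SpecialLinearGroup (Fin 2) F → ℂ) 1 ∧ (χ : Matrix.SpecialLinearGroup (Fin 2) F → ℂ) 1 ≠ (Fintype.card F : ℂ)} (P : Subgroup (Matrix.SpecialLinearGroup (Fin 2) F)) ∧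
      Cfsg.IsDefectGroup p M {χ : Cfsg.IrrCharacter (Matrix.SpecialLinearGroup (Fin 2) F) | (χ : Matrix.SpecialLinearGroup (Fin 2) F → ℂ) (-1) = -(χ : Matrix.SpecialLinearGroup (Fin 2) F → ℂ) 1} (P : Subgroup (Matrix.SpecialLinearGroup (Fin 2) F)) := by
  classical
  have hp' : p.Prime := Fact.out
  have h2 : (2 : F) ≠ 0 := two_ne_zero_of_charP p hp
  have hq : p ∣ Fintype.card F := by
    obtain ⟨n, -, hn⟩ := FiniteField.card F p
    rw [hn]
    exact dvd_pow_self p n.ne_zero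
  obtain ⟨g1, _⟩ := exists_fact_noEigS (F := F)
  have hz : (-1 : Matrix.SpecialLinearGroup (Fin 2) F) ∈ Subgroup.center _ :=
    SL_mem_center_iff'.2 (Or.inr rfl)
  have h0 : ∀ χ : IrrCharacter (Matrix.SpecialLinearGroup (Fin 2) F), χ.1 1 ≠ 0 := fun χ => by
    rw [← coe_charDegree_irr]
    exact_mod_cast charDegree_irr_ne_zero χ
  have hpm : ∀ χ : IrrCharacter (Matrix.SpecialLinearGroup (Fin 2) F),
      χ.1 (-1) = χ.1 1 ∨ χ.1 (-1) = -χ.1 1 := fun χ => by
    have := irr_central_mul χ.2 hz (-1)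
    rw [neg_mul_neg, one_mul] at this
    exact sq_eq_sq_iff_eq_or_eq_neg.1 (by linear_combination -this)
  have hst : stS F (-1) = stS F 1 := by
    obtain ⟨a, -, e⟩ := sl_scal (SL_mem_center_iff.1 hz)
    rw [stS_one, stS, res_apply, e, (vals_stw (Matrix.SpecialLinearGroup.toGL g1) 1).scal,
      MulChar.one_apply_coe, mul_one, mul_one]
  set St : IrrCharacter (Matrix.SpecialLinearGroup (Fin 2) F) := ⟨stS F, isIrr_stS⟩ with hSt
  have hSt1 : ∀ χ : IrrCharacter (Matrix.SpecialLinearGroup (Fin 2) F),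
      χ.1 1 = (Fintype.card F : ℂ) ↔ χ = St := fun χ =>
    ⟨fun h => Subtype.ext (irrS_of_deg_card χ.2 h), by rintro rfl; exact stS_one⟩
  have hb0 : blockOf M (St : Matrix.SpecialLinearGroup (Fin 2) F → ℂ) = {St} := by
    refine blockOf_eq_singleton_of_factorization hM ((not_dvd_div_charDegree_iff St.2).1 ?_)
    rw [card_SL2, charDegree_eq_of_one_eq (χ := St.1) stS_one, Nat.card_eq_fintype_card,
      Nat.mul_div_cancel_left _ Fintype.card_pos]
    intro h
    have h1 := Nat.dvd_sub (dvd_pow hq two_ne_zero) h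
    rw [Nat.sub_sub_self (Nat.one_le_pow _ _ Fintype.card_pos)] at h1
    exact hp'.one_lt.ne' (Nat.dvd_one.1 h1)
  have hdeg : ∀ χ : IrrCharacter (Matrix.SpecialLinearGroup (Fin 2) F), χ ≠ St →
      ¬ p ∣ charDegree χ.1 := fun χ h hd => h (Subtype.ext (eq_stS_of_dvd hp' hq χ.2 hd))
  have hsame : ∀ χ ψ : IrrCharacter (Matrix.SpecialLinearGroup (Fin 2) F), χ ≠ St →
      (SameBlock M χ.1 ψ.1 ↔ ψ ≠ St ∧ χ.1 (-1) / χ.1 1 = ψ.1 (-1) / ψ.1 1) := by
    intro χ ψ hχ
    constructor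
    · intro h
      refine ⟨?_, ?_⟩
      · rintro rfl
        have : χ ∈ blockOf M (St : Matrix.SpecialLinearGroup (Fin 2) F → ℂ) := sameBlock_symm hM h
        rw [hb0] at this
        exact hχ this
      · have h1 := (sameBlock_iff_val hM χ.2 ψ.2).1 h (-1)
        have h3 : Subgroup.centralizer {(-1 : Matrix.SpecialLinearGroup (Fin 2) F)} = ⊤ :=
          Subgroup.centralizer_eq_top_iff_subset.2 (by simpa using hz)
        simp only [centralChar, h3, Subgroup.index_top, Nat.cast_one, one_mul] at h1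
        have h4 : ¬ val M (2 : ℕ) < 1 := by
          rw [val_natCast_lt_one_iff hM]
          exact fun h => hp ((Nat.prime_dvd_prime_iff_eq hp' Nat.prime_two).1 h)
        rcases hpm χ with e | e <;> rcases hpm ψ with e' | e' <;>
          simp only [e, e', neg_div, div_self (h0 χ), div_self (h0 ψ)] at h1 ⊢
        · exact absurd (by convert h1 using 2; norm_num) h4
        · rw [val_sub_comm] at h1
          exact absurd (by convert h1 using 2; norm_num) h4
    · rintro ⟨hψ, h⟩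
      refine sameBlock_of hM χ.2 ψ.2 (hdeg χ hχ) (hdeg ψ hψ) fun g => ?_
      by_cases ht : (g : Matrix (Fin 2) (Fin 2) F).trace ^ 2 = 4
      · right
        rcases sq_eq_sq_iff_eq_or_eq_neg.1 (ht.trans (by norm_num : (4 : F) = 2 ^ 2)) with t | t
        · exact ⟨g, 1, (mul_one g).symm, Commute.one_right g, (SL_exists_orderOf_iff p).2 t,
            by rw [div_self (h0 χ), div_self (h0 ψ)]⟩
        · exact ⟨-g, -1, by simp, Commute.neg_one_right _, (SL_exists_orderOf_iff p).2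
            (by rw [SL_trace_neg, t, neg_neg]), h⟩
      · left
        by_cases hn : NoEig (g : Matrix (Fin 2) (Fin 2) F)
        · rw [index_cent_noEig hn, Nat.card_eq_fintype_card]
          exact hq.mul_right _
        · rw [index_cent_split ht hn, Nat.card_eq_fintype_card]
          exact hq.mul_right _
  have hne : ∀ χ : IrrCharacter (Matrix.SpecialLinearGroup (Fin 2) F), χ.1 (-1) = χ.1 1 →
      χ.1 (-1) ≠ -χ.1 1 := fun χ h h' => h0 χ (by linear_combination (h' - h) / 2)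
  have hb1 : ∀ χ : IrrCharacter (Matrix.SpecialLinearGroup (Fin 2) F), χ.1 (-1) = χ.1 1 →
      χ ≠ St → blockOf M χ.1 = {χ | χ.1 (-1) = χ.1 1 ∧ χ.1 1 ≠ (Fintype.card F : ℂ)} := by
    intro χ h h'
    ext ψ
    change SameBlock M χ.1 ψ.1 ↔ _ ∧ _
    rw [hsame χ ψ h', h, div_self (h0 χ), eq_div_iff (h0 ψ), one_mul, Ne, Ne, hSt1, and_comm,
      eq_comm]
  have hb2 : ∀ χ : IrrCharacter (Matrix.SpecialLinearGroup (Fin 2) F), χ.1 (-1) = -χ.1 1 →
      blockOf M χ.1 = {χ | χ.1 (-1) = -χ.1 1} := by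
    intro χ h
    have h' : ∀ ψ : IrrCharacter (Matrix.SpecialLinearGroup (Fin 2) F), ψ.1 (-1) = -ψ.1 1 →
        ψ ≠ St := by
      rintro _ h rfl
      exact hne St hst h
    ext ψ
    change SameBlock M χ.1 ψ.1 ↔ ψ.1 (-1) = _
    rw [hsame χ ψ (h' χ h), h, neg_div, div_self (h0 χ), eq_div_iff (h0 ψ), neg_one_mul]
    exact ⟨fun h => h.2.symm, fun h => ⟨h' ψ h, h.symm⟩⟩
  have hb0' : ({St} : Set (IrrCharacter (Matrix.SpecialLinearGroup (Fin 2) F))) =
      {χ | χ.1 1 = (Fintype.card F : ℂ)} := by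
    ext ψ
    exact (hSt1 ψ).symm
  set T : IrrCharacter (Matrix.SpecialLinearGroup (Fin 2) F) := ⟨_, isIrrCharacter_one⟩ with hT
  have hT1 : T ≠ St := by
    rw [Ne, ← hSt1]
    change ¬ (1 : ℂ) = _
    exact_mod_cast (Fintype.one_lt_card (α := F)).ne
  obtain ⟨X, hX⟩ : ∃ χ : IrrCharacter (Matrix.SpecialLinearGroup (Fin 2) F),
      χ.1 (-1) = -χ.1 1 := by
    obtain ⟨χ, hχ⟩ := not_forall.1 (mt eq_one_of_forall_irr (neg_one_ne_one_SL h2))
    exact ⟨χ, (hpm χ).resolve_left hχ⟩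
  have hX1 : X ≠ St := by
    rintro rfl
    exact hne St hst hX
  have hall : ∀ B : Set (IrrCharacter (Matrix.SpecialLinearGroup (Fin 2) F)), IsPBlock M B ↔
      (B = {χ | χ.1 1 = (Fintype.card F : ℂ)} ∨
        B = {χ | χ.1 (-1) = χ.1 1 ∧ χ.1 1 ≠ (Fintype.card F : ℂ)} ∨
        B = {χ | χ.1 (-1) = -χ.1 1}) := by
    intro B
    constructor
    · rintro ⟨χ, rfl⟩
      by_cases h : χ = St
      · rw [h, hb0, hb0']; exact Or.inl rfl
      · exact Or.inr ((hpm χ).imp (hb1 χ · h) (hb2 χ))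
    · rintro (rfl | rfl | rfl)
      · exact ⟨St, by rw [hb0, hb0']⟩
      · exact ⟨T, (hb1 T rfl hT1).symm⟩
      · exact ⟨X, (hb2 X hX).symm⟩
  have hdef : ∀ χ : IrrCharacter (Matrix.SpecialLinearGroup (Fin 2) F), χ ≠ St →
      ∀ P : Sylow p (Matrix.SpecialLinearGroup (Fin 2) F),
        IsDefectGroup p M (blockOf M χ.1) (P : Subgroup _) := by
    intro χ h P
    rw [isDefectGroup_sylow_iff hM (isPBlock_blockOf χ), blockDefect,
      Nat.sInf_eq_zero.2 (Or.inl ?_), Nat.sub_zero]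
    exact ⟨χ, self_mem_blockOf hM χ, Nat.factorization_eq_zero_of_not_dvd (hdeg χ h)⟩
  refine ⟨hall, ?_, fun P => ⟨hb1 T rfl hT1 ▸ hdef T hT1 P, hb2 X hX ▸ hdef X hX1 P⟩⟩
  rw [Nat.card_congr (Equiv.subtypeEquivRight (q := fun B => B ∈
    ({{χ | χ.1 1 = (Fintype.card F : ℂ)},
      {χ | χ.1 (-1) = χ.1 1 ∧ χ.1 1 ≠ (Fintype.card F : ℂ)},
      {χ | χ.1 (-1) = -χ.1 1}} : Set (Set (IrrCharacter (Matrix.SpecialLinearGroup (Fin 2) F)))))
      hall), Nat.card_coe_set_eq, Set.ncard_eq_three]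
  refine ⟨_, _, _, fun h => ?_, fun h => ?_, fun h => ?_, rfl⟩
  · exact ((Set.ext_iff.1 h St).1 stS_one).2 stS_one
  · exact hne St hst ((Set.ext_iff.1 h St).1 stS_one)
  · exact hne T rfl ((Set.ext_iff.1 h T).1 ⟨rfl, by rwa [Ne, hSt1]⟩)

end Cfsg.Agent.S2439
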