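import Cfsg.Statements.S2436
import Mathlib
import Cfsg.Agent.S2431
import Cfsg.Agent.S2437
import Cfsg.Agent.S2439
import Cfsg.Agent.S2325
import Cfsg.Agent.S2299
import Cfsg.Agent.Char.Degrees
import Cfsg.Agent.Class.SL2Sylow

set_option autoImplicit false
open Cfsg

namespace Cfsg.Agent.S2436

open KSG KSG.M2 Char Matrix Subgroup
open scoped commutatorElement

section
variable {G : Type*} [Group G]

/-- The number of irreducible characters of `p'`-degree. -/
noncomputable def cnt (p : ℕ) (G : Type*) [Group G] : ℕ :=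
  Nat.card {χ : IrrCharacter G // ¬ p ∣ charDegree (χ : G → ℂ)}

theorem cnt_congr (p : ℕ) {H : Type*} [Group H] (e : G ≃* H) : cnt p H = cnt p G :=
  Nat.card_congr ((irrCongr e).subtypeEquiv fun ψ => by
    rw [charDegree_congr_one (χ := (irrCongr e ψ).1) (ψ := ψ.1) (by simp)])

variable [Finite G] {p : ℕ} [hp : Fact p.Prime]

omit hp in
theorem dvd_of_map {Q : Type*} [Group Q] (P : Subgroup G) [P.Normal]
    (f : G →* Q) (hf : Function.Surjective f) (hc : ⁅P, P⁆ ≤ f.ker) (ψ : IrrCharacter Q) :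
    charDegree ψ.1 ∣ P.index := by
  have := Finite.of_surjective f hf
  have := Subgroup.Normal.map ‹P.Normal› f hf
  refine (ψ.2.deg_dvd_index_of_comm (coe_charDegree_irr ψ).symm (P.map f) ?_).trans
    (index_map_dvd _ hf)
  rintro _ ⟨a, ha, rfl⟩ _ ⟨b, hb, rfl⟩
  rw [← commutatorElement_eq_one_iff_mul_comm, ← map_commutatorElement]
  exact hc (commutator_mem_commutator ha hb)

theorem cnt_eq {P : Subgroup G} [P.Normal] (hP : IsPGroup p P) (hi : ¬ p ∣ P.index) :
    cnt p G = Nat.card (IrrCharacter (G ⧸ ⁅P, P⁆)) := by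
  classical
  have := Fintype.ofFinite G
  refine (Nat.card_congr ((inflateEquiv _ (QuotientGroup.mk'_surjective _)).trans
    (Equiv.subtypeEquivRight fun χ => ⟨fun h hd => ?_, fun h => ?_⟩))).symm
  · obtain ⟨ψ, rfl⟩ := (mem_range_inflateIrr _ (QuotientGroup.mk'_surjective ⁅P, P⁆) χ).2 h
    rw [charDegree_inflateIrr] at hd
    exact hi (hd.trans (dvd_of_map P _ (QuotientGroup.mk'_surjective _) (QuotientGroup.ker_mk' _).ge ψ))
  obtain ⟨θ, hθ, h1⟩ := exists_irr_inner_restrict_ne_zero P χ.2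
  obtain ⟨e, -, -, he⟩ := exists_charDegree_eq_of_over P χ.2 hθ h1
  obtain ⟨k, hk⟩ := hP.exists_card_eq
  obtain ⟨j, -, hj⟩ := (Nat.dvd_prime_pow hp.out).1 (hk ▸ charDegree_irr_dvd_card ⟨θ, hθ⟩)
  obtain rfl : j = 0 := by_contra fun h0 => h (he ▸ (hj ▸ dvd_pow_self p h0).mul_left _)
  have h2 := (charDegree_eq_one_iff hθ.isCharacter).1 hj
  rw [QuotientGroup.ker_mk', ← map_subtype_commutator]
  rintro _ ⟨n, hn, rfl⟩
  refine (congrFun (clifford P χ.2 hθ h1) n).trans (Eq.trans ?_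
    (congrFun (clifford P χ.2 hθ h1) 1).symm)
  simp only [Finset.sum_apply, Pi.smul_apply]
  congr 1
  refine Finset.sum_congr rfl fun φ hφ => ?_
  obtain ⟨g, rfl⟩ := (mem_conjugates P).1 hφ
  exact (mem_charKer_iff (hθ.conjChar g).isCharacter).1 (commutator_le_charKer_of_one
    (hθ.conjChar g).isCharacter ((conjChar_apply_one P θ g).trans h2) hn)

theorem not_dvd_index (S : Sylow p G) :
    ¬ p ∣ ((S : Subgroup G).subgroupOf (normalizer ((S : Subgroup G) : Set G))).index := fun h =>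
  S.not_dvd_index (h.trans (relIndex_dvd_index_of_le le_normalizer))

theorem cnt_of_comm (S : Sylow p G) (hc : ∀ a ∈ (S : Subgroup G), ∀ b ∈ (S : Subgroup G), a * b = b * a) :
    cnt p (normalizer ((S : Subgroup G) : Set G)) =
      Nat.card (ConjClasses (normalizer ((S : Subgroup G) : Set G))) := by
  rw [← card_irr]
  exact Nat.card_congr (Equiv.subtypeUnivEquiv fun χ h => not_dvd_index S (h.trans
    (χ.2.deg_dvd_index_of_comm (coe_charDegree_irr χ).symm _ fun a ha b hb =>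
      Subtype.ext (hc _ ha _ hb))))

omit hp in
theorem card_irr_four (h : ∀ χ : IrrCharacter G, charDegree χ.1 ∣ 3)
    (hG : Nat.card G = 4 ∨ Nat.card G = 12 ∧ ∃ a b : G, a * b ≠ b * a) :
    Nat.card (IrrCharacter G) = 4 := by
  classical
  have h1 := sum_charDegree_sq (G := G)
  rw [← Finset.sum_filter_add_sum_filter_not _ (fun χ => charDegree χ.1 = 1),
    Finset.sum_const_nat (m := 1) fun χ hχ => by simp [(Finset.mem_filter.1 hχ).2],
    Finset.sum_const_nat (m := 3 ^ 2) fun χ hχ => by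
      rw [((Nat.dvd_prime Nat.prime_three).1 (h χ)).resolve_left (Finset.mem_filter.1 hχ).2]] at h1
  rw [Nat.card_eq_fintype_card, ← Finset.card_univ,
    ← Finset.card_filter_add_card_filter_not fun χ : IrrCharacter G => charDegree χ.1 = 1]
  obtain h2 | ⟨h2, h3⟩ := hG
  · omega
  obtain ⟨χ, hχ⟩ := exists_charDegree_ne_one h3
  have := Finset.card_pos.2 ⟨χ, (Finset.mem_filter (p := fun χ : IrrCharacter G =>
    ¬charDegree χ.1 = 1)).2 ⟨Finset.mem_univ _, hχ⟩⟩
  omega

end

variable {F : Type*} [Field F] [Fintype F]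

local notation "M₂" => Matrix (Fin 2) (Fin 2) F
local notation "SL₂" => Matrix.SpecialLinearGroup (Fin 2) F

theorem card_comm (h2 : (2 : F) ≠ 0) (S : Sylow 2 SL₂) :
    Nat.card S = 4 * Nat.card (⁅(S : Subgroup SL₂), (S : Subgroup SL₂)⁆ : Subgroup SL₂) ∧
    ∀ o : SL₂, (∀ x ∈ (S : Subgroup SL₂), ⁅o, x⁆ ∈ ⁅(S : Subgroup SL₂), (S : Subgroup SL₂)⁆) →
      o ^ 4 ∈ (S : Subgroup SL₂) := by
  obtain ⟨z, hzS, w, hwS, hz, hS, hw⟩ := sylow_two_structure h2 S
  have hreg := trace_zero_sq_ne h2 hz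
  have := isCyclic_cent hreg
  have : IsCyclic ↥(centralizer {z} ⊓ (S : Subgroup SL₂)) := isCyclic_of_le inf_le_left
  obtain ⟨⟨c, hc⟩, hg⟩ := this.exists_generator
  have h1 : ∀ t ∈ centralizer {z}, t ∈ (S : Subgroup SL₂) → t * t ∈ zpowers (c ^ 2) := fun t h h' => by
    obtain ⟨k, hk⟩ := hg ⟨t, h, h'⟩
    exact ⟨k, by rw [← show c ^ k = t from congrArg Subtype.val hk]; group⟩
  have h3 : ⁅(S : Subgroup SL₂), (S : Subgroup SL₂)⁆ = zpowers (c ^ 2) := by
    refine le_antisymm (commutator_le.2 fun a ha b hb => ?_) (zpowers_le.2 ?_)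
    · have key : ∀ a ∈ (S : Subgroup SL₂), ∀ t ∈ (S : Subgroup SL₂), t ∈ centralizer {z} →
          ⁅a, t⁆ ∈ zpowers (c ^ 2) := fun a ha t ht h => by
        by_cases h' : a ∈ centralizer {z}
        · rw [commutatorElement_eq_one_iff_mul_comm.2 (cent_comm (SL_not_isScal_of_trace hreg) h' h)]
          exact one_mem _
        · rw [commutatorElement_def, conj_eq_inv_of_mem_normalizer hreg (hS ha) h' h]
          exact h1 _ (inv_mem h) (inv_mem ht)
      by_cases h : b ∈ centralizer {z}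
      · exact key a ha b hb h
      by_cases h' : a ∈ centralizer {z}
      · simpa using inv_mem (key b hb a ha h')
      have h4 : b * a⁻¹ ∈ centralizer {z} := mem_centralizer_singleton_iff.2 (by
        have e1 := conj_eq_inv_of_mem_normalizer hreg (hS hb) h (inv_mem (self_mem_cent z))
        have e2 := conj_eq_inv_of_mem_normalizer hreg (hS (inv_mem ha)) (by simpa) (self_mem_cent z)
        calc b * a⁻¹ * z = b * (a⁻¹ * z * a⁻¹⁻¹) * b⁻¹ * (b * a⁻¹) := by group
          _ = _ := by rw [e2, e1, inv_inv])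
      simpa [commutatorElement_def, mul_assoc] using key a ha _ (mul_mem hb (inv_mem ha)) h4
    · have := commutator_mem_commutator hwS (inv_mem hc.2)
      rwa [commutatorElement_def, conj_eq_inv_of_mem_normalizer hreg (hS hwS) hw (inv_mem hc.1),
        inv_inv, ← sq] at this
  have h4 := orderOf_eq_card_of_forall_mem_zpowers hg
  have h5 : 4 ∣ orderOf c := by
    rw [← orderOf_of_trace_zero h2 hz, show orderOf c = _ from (orderOf_coe ⟨c, hc⟩).trans h4]
    exact orderOf_dvd_natCard _ (show z ∈ _ ⊓ _ from ⟨self_mem_cent z, hzS⟩)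
  refine ⟨?_, fun o ho => ?_⟩
  · rw [card_eq_two_mul_card_inf hreg hS (fun h => hw (h hwS)), ← h4, ← orderOf_coe, h3,
      Nat.card_zpowers, orderOf_pow_of_dvd two_ne_zero (dvd_trans (by norm_num) h5)]
    simp only
    omega
  by_cases h : o ∈ centralizer {z}
  · have := zpowers_le.2 (pow_mem hc.2 2) (h3 ▸ inv_mem (ho w hwS))
    rw [commutatorElement_inv, commutatorElement_def,
      conj_eq_inv_of_mem_normalizer hreg (hS hwS) hw h] at this
    convert inv_mem (mul_mem this this) using 1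
    group
  have h6 : o * z * o⁻¹ ∈ centralizer {z} := by
    have := mul_mem (zpowers_le.2 (pow_mem hc.1 2) (h3 ▸ ho z hzS)) (self_mem_cent z)
    rwa [commutatorElement_def, inv_mul_cancel_right] at this
  have h7 := (mem_normalizer_cent_iff hreg).2 ((eq_or_eq_inv_of_mem_cent hreg h6
    (SL_trace_eq_of_isConj (isConj_iff.2 ⟨o, rfl⟩)).symm).imp_left fun e =>
      mem_centralizer_singleton_iff.2 (mul_inv_eq_iff_eq_mul.1 e))
  rw [show 4 = 2 * 2 from rfl, pow_mul, sq o, mul_self_eq_neg_one_of_mem_normalizer hreg h7 h]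
  simp

theorem cnt_two (hodd : Odd (Fintype.card F)) (S : Sylow 2 SL₂) :
    cnt 2 (normalizer ((S : Subgroup SL₂) : Set SL₂)) = 4 := by
  have h2 : (2 : F) ≠ 0 := two_ne_zero_of_odd (by rwa [Nat.card_eq_fintype_card])
  obtain ⟨-, h4, h5⟩ := S2431.result hodd S
  set N := normalizer ((S : Subgroup SL₂) : Set SL₂)
  set P := (S : Subgroup SL₂).subgroupOf N
  have e1 : Nat.card P = Nat.card S := Nat.card_congr (subgroupOfEquivOfLe le_normalizer).toEquiv
  have e2 : Nat.card (⁅P, P⁆ : Subgroup N) = Nat.card (⁅(S : Subgroup SL₂), (S : Subgroup SL₂)⁆ :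
      Subgroup SL₂) := by
    rw [← card_map_of_injective N.subtype_injective, map_commutator,
      map_subgroupOf_eq_of_le le_normalizer]
  have e3 := card_eq_card_quotient_mul_card_subgroup ⁅P, P⁆
  have e4 := P.index_mul_card
  have e5 : 0 < Nat.card (⁅P, P⁆ : Subgroup N) := Nat.card_pos
  rw [e1, (card_comm h2 S).1, ← e2, e3, ← mul_assoc, Nat.mul_left_inj e5.ne'] at e4
  have e6 := P.index_mul_card
  have h6 : P.index = 1 ∨ P.index = 3 := by
    have := Nat.odd_iff.1 hodd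
    by_cases h : Fintype.card F % 8 = 1 ∨ Fintype.card F % 8 = 7
    · exact .inl (index_eq_one.2 (subgroupOf_eq_top.2 (h4 h).le))
    · exact .inr (by rwa [h5 (by omega), e1, Nat.mul_left_inj Nat.card_pos.ne'] at e6)
  rw [cnt_eq (P := P) (S.isPGroup'.comap_subtype) (not_dvd_index S)]
  refine card_irr_four (fun ψ => (dvd_of_map P _ (QuotientGroup.mk'_surjective _)
    (QuotientGroup.ker_mk' _).ge ψ).trans (by obtain h | h := h6 <;> simp [h])) ?_
  refine h6.imp (fun h => by omega) fun h => ⟨by omega, by_contra fun hc => ?_⟩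
  have := Fact.mk Nat.prime_three
  obtain ⟨o, ho⟩ := exists_prime_orderOf_dvd_card' (G := N) 3 ⟨_, by rw [← e6, h]⟩
  have h7 := (card_comm h2 S).2 o fun x hx => by
    have : ⁅o, ⟨x, le_normalizer hx⟩⁆ ∈ ⁅P, P⁆ := by
      rw [← QuotientGroup.eq_one_iff, ← QuotientGroup.mk'_apply, map_commutatorElement,
        commutatorElement_eq_one_iff_mul_comm]
      exact by_contra fun e => hc ⟨_, _, e⟩
    have := mem_map_of_mem N.subtype this
    rwa [map_commutator, map_subgroupOf_eq_of_le le_normalizer] at this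
  rw [show (o : SL₂) ^ 4 = o by rw [pow_succ', ← ho, ← orderOf_coe, pow_orderOf_eq_one, mul_one]] at h7
  obtain ⟨k, hk⟩ := IsPGroup.iff_orderOf.1 S.isPGroup' ⟨o, h7⟩
  rw [← orderOf_coe, orderOf_coe o, ho] at hk
  exact absurd (Nat.prime_three.dvd_of_dvd_pow hk.dvd) (by norm_num)


open Classical in
theorem cnt_SL {k : ℕ} (hq : Fintype.card F = 2 * k + 1) (hk : 2 ≤ k) (p : ℕ) : cnt p SL₂ =
    (if p ∣ 1 then 0 else 1) + ((if p ∣ 2 * k + 1 then 0 else 1) + ((if p ∣ 2 * k + 2 then 0 else k - 1) +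
      ((if p ∣ 2 * k then 0 else k) + ((if p ∣ k + 1 then 0 else 2) + if p ∣ k then 0 else 2)))) := by
  obtain ⟨h, h'⟩ := S2299.result (F := F) ⟨k, hq⟩
  have e : ∀ (χ : IrrCharacter SL₂) (d : ℕ), χ.1 1 = d ↔ charDegree χ.1 = d := fun χ d => by
    rw [← coe_charDegree_irr, Nat.cast_inj]
  simp only [hq, show (2 * k + 1 + 1) / 2 = k + 1 by omega, show (2 * k + 1 - 1) / 2 = k by omega,
    show (2 * k + 1 - 3) / 2 = k - 1 by omega, show ((2 * k + 1 : ℕ) : ℂ) + 1 = (2 * k + 2 : ℕ) by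
      push_cast; ring, show ((2 * k + 1 : ℕ) : ℂ) - 1 = (2 * k : ℕ) by push_cast; ring] at h h'
  simp only [e, ← Nat.cast_one (R := ℂ), Nat.card_eq_fintype_card, Fintype.card_subtype] at h'
  obtain ⟨h1, h2, h3, h4, h5, h6⟩ := h' (by omega)
  rw [cnt, Nat.card_eq_fintype_card, Fintype.card_subtype, Finset.card_eq_sum_card_fiberwise
    (f := fun χ => charDegree χ.1) (t := {1, 2 * k + 1, 2 * k + 2, 2 * k, k + 1, k})
    fun χ _ => by simpa [← e] using h χ.1 χ.2]
  have key : ∀ d, ((Finset.univ.filter fun χ : IrrCharacter SL₂ => ¬p ∣ charDegree χ.1).filter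
      fun χ => charDegree χ.1 = d).card = if p ∣ d then 0 else
        (Finset.univ.filter fun χ : IrrCharacter SL₂ => charDegree χ.1 = d).card := fun d => by
    rw [Finset.filter_filter]
    split_ifs with hd
    · exact Finset.card_eq_zero.2 (Finset.filter_false_of_mem fun χ _ h => h.1 (h.2 ▸ hd))
    · exact congrArg _ (Finset.filter_congr fun χ _ => and_iff_right_of_imp fun h => h ▸ hd)
  simp only [key]
  repeat rw [Finset.sum_insert (by simp; omega)]
  rw [Finset.sum_pair (by omega), h1, h2, h3, h4, h5, h6]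

theorem main (hodd : Odd (Fintype.card F)) (ℓ : ℕ) [Fact ℓ.Prime] (S : Sylow ℓ SL₂) :
    cnt ℓ SL₂ = cnt ℓ (normalizer ((S : Subgroup SL₂) : Set SL₂)) := by
  classical
  have hℓ : ℓ.Prime := Fact.out
  have h2 : (2 : F) ≠ 0 := two_ne_zero_of_odd (by rwa [Nat.card_eq_fintype_card])
  have top : normalizer ((S : Subgroup SL₂) : Set SL₂) = ⊤ →
      cnt ℓ SL₂ = cnt ℓ (normalizer ((S : Subgroup SL₂) : Set SL₂)) := fun h =>
    cnt_congr ℓ ((MulEquiv.subgroupCongr h).trans topEquiv)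
  obtain ⟨k, hq⟩ := id hodd
  have hk : 1 ≤ k := by have := Fintype.one_lt_card (α := F); omega
  obtain rfl | h3 := eq_or_ne ℓ 2
  · obtain rfl | hk := hk.eq_or_lt
    · refine top (eq_top_of_card_eq _ ?_)
      have : Nat.card SL₂ = 2 ^ 3 * 3 := by rw [Class.card_SL2, hq]; rfl
      rw [(S2431.result hodd S).2.2 (by omega), Class.card_sylow_of_card_eq S this (by norm_num), this]
      rfl
    rw [cnt_two hodd, cnt_SL hq hk]
    split_ifs <;> omega
  obtain ⟨p, hp⟩ := CharP.exists F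
  have := Fact.mk (CharP.char_is_prime F p)
  obtain rfl | h4 := eq_or_ne ℓ p
  · obtain ⟨Q, hQ⟩ := Class.exists_sylow_SL2_eq_lineStab ℓ (Class.pointE0 F)
    obtain ⟨g, rfl⟩ := MulAction.exists_smul_eq SL₂ Q S
    have h5 : ∀ x, x ∈ (Q : Subgroup SL₂) ↔ ∃ c, x = SpecialLinearGroup.transvection zero_ne_one c :=
      fun x => by rw [hQ, Class.pointE0_submodule, Class.mem_lineStab_single_zero_iff]
    have h6 : normalizer ((Q : Subgroup SL₂) : Set SL₂) =
        (upperTriangularGL 2 F).comap SpecialLinearGroup.toGL := by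
      ext n
      rw [mem_borelSL_iff]
      refine ⟨fun h => ?_, fun h => mem_normalizer_fintype fun x hx => ?_⟩
      · obtain ⟨c, hc⟩ := (h5 _).1 ((mem_normalizer_iff.1 h _).1 ((h5 _).2 ⟨1, rfl⟩))
        have := SL_ext_iff.1 (mul_inv_eq_iff_eq_mul.1 hc)
        simp only [Matrix.SpecialLinearGroup.coe_mul, SpecialLinearGroup.transvection_coe] at this
        simpa [mul_apply, Matrix.one_apply] using congrFun (congrFun this 1) 1
      · obtain ⟨c, rfl⟩ := (h5 x).1 hx
        obtain ⟨a, b, rfl⟩ := exists_eq_bor h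
        refine (h5 _).2 ⟨a ^ 2 * c, mul_inv_eq_iff_eq_mul.2 (SL_ext_iff.2 ?_)⟩
        simp only [Matrix.SpecialLinearGroup.coe_mul, SpecialLinearGroup.transvection_coe]
        apply ext2 <;> simp [mul_apply, Matrix.one_apply]
        field_simp; ring
    refine Eq.trans ?_ (cnt_congr ℓ ((MulEquiv.subgroupCongr (map_equiv_normalizer_eq
      (Q : Subgroup SL₂) (MulAut.conj g)).symm).trans ((MulAut.conj g).subgroupMap _).symm))
    rw [cnt_of_comm Q fun a ha b hb => ?_, h6, S2437.result hodd]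
    · have h7 := Nat.card_congr (Equiv.sumCompl fun χ : IrrCharacter SL₂ => ℓ ∣ charDegree χ.1)
      obtain ⟨m, -, hm⟩ := FiniteField.card F ℓ
      have h8 : ℓ ∣ Fintype.card F := hm ▸ dvd_pow_self ℓ m.ne_zero
      rw [Nat.card_sum, card_irr, S2325.result hodd, Nat.card_eq_one_iff_exists.2
        ⟨⟨⟨_, GL2.isIrr_stS⟩, by rwa [charDegree_eq_of_one_eq GL2.stS_one]⟩, fun χ =>
          Subtype.ext (Subtype.ext (S2439.eq_stS_of_dvd hℓ h8 χ.1.2 χ.2))⟩] at h7
      rw [cnt]; omega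
    obtain ⟨c, rfl⟩ := (h5 a).1 ha
    obtain ⟨d, rfl⟩ := (h5 b).1 hb
    rw [← SpecialLinearGroup.transvection_add, add_comm, SpecialLinearGroup.transvection_add]
  by_cases hS : (S : Subgroup SL₂) = ⊥
  · exact top (by rw [hS]; exact normalizer_eq_top ⊥)
  have := (nontrivial_iff_ne_bot _).2 hS
  have := S.isPGroup'.center_nontrivial
  obtain ⟨⟨z, hz⟩, hz1⟩ := exists_ne (1 : center S)
  obtain ⟨j, hj⟩ := IsPGroup.iff_orderOf.1 S.isPGroup' z
  have h5 : ℓ ∣ orderOf (z : SL₂) := by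
    rw [orderOf_coe, hj]
    exact dvd_pow_self _ fun h => hz1 (Subtype.ext (orderOf_eq_one_iff.1 (by simpa [h] using hj)))
  have h6 : ((z : SL₂) : M₂).trace ^ 2 ≠ 4 := fun h => by
    have : (z : SL₂) ^ (p * 2) = 1 := by
      obtain h | h := sq_eq_sq_iff_eq_or_eq_neg.1 (h.trans (show (4 : F) = 2 ^ 2 by norm_num))
      · rw [pow_mul, SL_pow_char_eq_one p h, one_pow]
      · rw [← Even.neg_pow (by simp), pow_mul, SL_pow_char_eq_one p (by simp [h]), one_pow]
    obtain h | h := hℓ.dvd_mul.1 (h5.trans (orderOf_dvd_of_pow_eq_one this))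
    exacts [h4 ((Nat.prime_dvd_prime_iff_eq hℓ Fact.out).1 h),
      h3 ((Nat.prime_dvd_prime_iff_eq hℓ Nat.prime_two).1 h)]
  have h7 : (S : Subgroup SL₂) ≤ centralizer {z.1} := fun x hx => mem_centralizer_singleton_iff.2
    (congrArg Subtype.val (mem_center_iff.1 hz ⟨x, hx⟩))
  have h8 := card_conjClasses_normalizer_cent h2 h6
  have h9 := h5.trans (orderOf_dvd_natCard _ (self_mem_cent z.1))
  have h10 : ∀ {a b}, ℓ ∣ a → ℓ ∣ b → b = a + 1 ∨ b = a + 2 → False := by
    rintro a b ha hb (rfl | rfl)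
    exacts [hℓ.not_dvd_one ((Nat.dvd_add_right ha).1 hb),
      h3 ((Nat.prime_dvd_prime_iff_eq hℓ Nat.prime_two).1 ((Nat.dvd_add_right ha).1 hb))]
  have h11 : ∀ {a}, ℓ ∣ 2 * a → ℓ ∣ a := fun h => (hℓ.dvd_mul.1 h).resolve_left fun h =>
    h10 (dvd_zero _) h (by simp)
  rw [cnt_of_comm S fun a ha b hb => cent_comm (SL_not_isScal_of_trace h6) (h7 ha) (h7 hb),
    normalizer_eq_of_le_cent h6 z.2 h7]
  obtain ⟨-, h⟩ | ⟨-, h⟩ := card_cent_cases h6 <;> rw [h, Nat.card_eq_fintype_card (α := F), hq] at h8 h9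
  · rw [Nat.add_sub_cancel] at h9
    have := Nat.le_of_dvd hk (h11 h9)
    have := hℓ.two_le
    rw [cnt_SL hq (by omega), if_neg hℓ.not_dvd_one, if_neg fun h => h10 h9 h (by simp),
      if_neg fun h => h10 h9 h (by simp), if_pos h9, if_neg fun h => h10 (h11 h9) h (by simp),
      if_pos (h11 h9)]
    omega
  · have h12 : ℓ ∣ k + 1 := h11 h9
    have := Nat.le_of_dvd k.succ_pos h12
    have := hℓ.two_le
    rw [cnt_SL hq (by omega), if_neg hℓ.not_dvd_one, if_neg fun h => h10 h h9 (by simp),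
      if_pos h9, if_neg fun h => h10 h h9 (by simp), if_pos h12, if_neg fun h => h10 h h12 (by simp)]
    omega


/-- Let F be a finite field with q elements, q odd, ℓ any prime and S a Sylow ℓ-subgroup of SL₂ over F with normaliser N. Then SL₂ and N have the same number of irreducible complex characters of degree not divisible by ℓ (the McKay equality holds for SL₂ over F at every prime). -/
theorem result {F : Type*} [Field F] [Fintype F] (hodd : Odd (Fintype.card F)) (ℓ : ℕ) [Fact ℓ.Prime] (S : Sylow ℓ (Matrix.SpecialLinearGroup (Fin 2) F)) :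
    Nat.card {χ : Cfsg.IrrCharacter (Matrix.SpecialLinearGroup (Fin 2) F) // ¬ ℓ ∣ Cfsg.charDegree (χ : Matrix.SpecialLinearGroup (Fin 2) F → ℂ)} =
      Nat.card {ψ : Cfsg.IrrCharacter (Subgroup.normalizer ((S : Subgroup (Matrix.SpecialLinearGroup (Fin 2) F)) : Set (Matrix.SpecialLinearGroup (Fin 2) F))) //
        ¬ ℓ ∣ Cfsg.charDegree (ψ : Subgroup.normalizer ((S : Subgroup (Matrix.SpecialLinearGroup (Fin 2) F)) : Set (Matrix.SpecialLinearGroup (Fin 2) F)) → ℂ)} := by
  exact main hodd ℓ S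

end Cfsg.Agent.S2436
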