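import Cfsg.Statements.S2438
import Mathlib
import Cfsg.Agent.KSG.SL2Deg

set_option autoImplicit false
open Cfsg

namespace Cfsg.Agent.S2438

open KSG KSG.GL2 KSG.M2 Char

theorem sum_U {F : Type*} [Field F] [Fintype F] [DecidableEq F]
    (χ : Matrix.SpecialLinearGroup (Fin 2) F → ℂ) :
    (∑ g : Matrix.SpecialLinearGroup (Fin 2) F, if (g : Matrix (Fin 2) (Fin 2) F) 1 0 = 0 ∧ (g : Matrix (Fin 2) (Fin 2) F) 0 0 = 1 ∧ (g : Matrix (Fin 2) (Fin 2) F) 1 1 = 1 then χ g else 0) =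
      χ 1 + ∑ β : Fˣ, χ (upar 1 (one_pow 2) β) := by
  rw [← Finset.sum_filter, ← Finset.sum_bij (s := Finset.univ)
    (fun (β : F) _ => upar 1 (one_pow 2) β) (f := fun β => χ (upar 1 (one_pow 2) β))]
  · rw [← Finset.add_sum_erase _ _ (Finset.mem_univ (0 : F))]
    congr 1
    · congr 1
      exact Subtype.ext (by ext i j; fin_cases i <;> fin_cases j <;> simp)
    · refine (Finset.sum_bij (fun (β : Fˣ) _ => (β : F)) (by simp) (fun a _ b _ h => Units.ext h)
        (fun b hb => ⟨Units.mk0 b (by simpa using hb), Finset.mem_univ _, rfl⟩) fun _ _ => rfl).symm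
  · simp
  · intro a _ b _ h
    simpa using congrArg (fun g : Matrix.SpecialLinearGroup (Fin 2) F =>
      (g : Matrix (Fin 2) (Fin 2) F) 0 1) h
  · intro g hg
    simp only [Finset.mem_filter, Finset.mem_univ, true_and] at hg
    exact ⟨(g : Matrix (Fin 2) (Fin 2) F) 0 1, Finset.mem_univ _,
      Subtype.ext (ext2 (by simp [hg]) (by simp) (by simp [hg]) (by simp [hg]))⟩
  · intros; rfl

theorem sum_res {F : Type*} [Field F] [Fintype F] [DecidableEq F]
    {φ : Matrix.GeneralLinearGroup (Fin 2) F → ℂ} (hφ : IsClassFunction _ φ) :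
    ∑ β : Fˣ, res φ (upar 1 (one_pow 2) β) = ((Fintype.card F : ℂ) - 1) * φ (up 1 1 1) := by
  rw [Finset.sum_congr rfl (g := fun _ => φ (up 1 1 1)), Finset.sum_const, Finset.card_univ,
    nsmul_eq_mul, ← Nat.card_eq_fintype_card, cast_card_units]
  intro β _
  obtain ⟨a, e0, e⟩ := sl_par (g := upar (1 : F) (one_pow 2) β) (by simp) (by simp) (by simp)
  obtain rfl : a = 1 := Units.ext (by simpa using e0.symm)
  exact hφ.eq_of_isConj e

theorem sum_half {F : Type*} [Field F] [Fintype F] [DecidableEq F] (h2 : (2 : F) ≠ 0)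
    {φ : Matrix.GeneralLinearGroup (Fin 2) F → ℂ}
    {χ₁ χ₂ : Matrix.SpecialLinearGroup (Fin 2) F → ℂ} (h : HalfPair φ χ₁ χ₂) :
    2 * ∑ β : Fˣ, χ₁ (upar 1 (one_pow 2) β) = ((Fintype.card F : ℂ) - 1) * φ (up 1 1 1) := by
  classical
  obtain ⟨α, a2, a1, -⟩ := exists_unique_of_card_sq_one
    (card_mulChar_sq_one.trans (card_sq_eq_one_of_two_ne h2))
  have h0 := sum_mulChar_units α
  rw [if_neg a1] at h0
  have h1 : ∀ β : Fˣ, 2 * χ₁ (upar 1 (one_pow 2) β) = res φ (upar 1 (one_pow 2) β) +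
      α β * (χ₁ (upar 1 (one_pow 2) 1) - χ₂ (upar 1 (one_pow 2) 1)) := by
    intro β
    have h3 := h.sub_upar h2 β.ne_zero
    have h4 := mulChar_sq_one_apply a2 a1 β
    rw [h.add, Pi.add_apply]
    split_ifs at h3 with h5
    · rw [h4.1 h5]; linear_combination h3
    · rw [h4.2 h5]; linear_combination h3
  rw [Finset.mul_sum, Finset.sum_congr rfl fun β _ => h1 β, Finset.sum_add_distrib,
    ← Finset.sum_mul, h0, sum_res h.cls, zero_mul, add_zero]

/-- Let F be a finite field with q elements, q odd, q ≥ 5, U the upper unitriangular subgroup of SL₂ over F, and χ an irreducible complex character. The sum of the values of χ over U equals 2q, q, 0, q, 0 according as the degree of χ is q + 1, q, q − 1, (q + 1)/2, (q − 1)/2; so among these five degrees the sum vanishes exactly for the degrees q − 1 and (q − 1)/2, i.e. the irreducible characters of those two degrees are the ones whose restriction to U does not contain the trivial character (the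 cuspidal characters), while those of degree q + 1, q and (q + 1)/2 are not cuspidal. -/
theorem result {F : Type*} [Field F] [Fintype F] [DecidableEq F] (hodd : Odd (Fintype.card F)) (hq : 5 ≤ Fintype.card F)
    (χ : Matrix.SpecialLinearGroup (Fin 2) F → ℂ) (hχ : Cfsg.IsIrrCharacter (Matrix.SpecialLinearGroup (Fin 2) F) χ) :
    (χ 1 = (Fintype.card F : ℂ) + 1 →
      (∑ g : Matrix.SpecialLinearGroup (Fin 2) F, if (g : Matrix (Fin 2) (Fin 2) F) 1 0 = 0 ∧ (g : Matrix (Fin 2) (Fin 2) F) 0 0 = 1 ∧ (g : Matrix (Fin 2) (Fin 2) F) 1 1 = 1 then χ g else 0) = 2 * (Fintype.card F : ℂ)) ∧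
    (χ 1 = (Fintype.card F : ℂ) →
      (∑ g : Matrix.SpecialLinearGroup (Fin 2) F, if (g : Matrix (Fin 2) (Fin 2) F) 1 0 = 0 ∧ (g : Matrix (Fin 2) (Fin 2) F) 0 0 = 1 ∧ (g : Matrix (Fin 2) (Fin 2) F) 1 1 = 1 then χ g else 0) = (Fintype.card F : ℂ)) ∧
    (χ 1 = (Fintype.card F : ℂ) - 1 →
      (∑ g : Matrix.SpecialLinearGroup (Fin 2) F, if (g : Matrix (Fin 2) (Fin 2) F) 1 0 = 0 ∧ (g : Matrix (Fin 2) (Fin 2) F) 0 0 = 1 ∧ (g : Matrix (Fin 2) (Fin 2) F) 1 1 = 1 then χ g else 0) = 0) ∧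
    (χ 1 = (((Fintype.card F + 1) / 2 : ℕ) : ℂ) →
      (∑ g : Matrix.SpecialLinearGroup (Fin 2) F, if (g : Matrix (Fin 2) (Fin 2) F) 1 0 = 0 ∧ (g : Matrix (Fin 2) (Fin 2) F) 0 0 = 1 ∧ (g : Matrix (Fin 2) (Fin 2) F) 1 1 = 1 then χ g else 0) = (Fintype.card F : ℂ)) ∧
    (χ 1 = (((Fintype.card F - 1) / 2 : ℕ) : ℂ) →
      (∑ g : Matrix.SpecialLinearGroup (Fin 2) F, if (g : Matrix (Fin 2) (Fin 2) F) 1 0 = 0 ∧ (g : Matrix (Fin 2) (Fin 2) F) 0 0 = 1 ∧ (g : Matrix (Fin 2) (Fin 2) F) 1 1 = 1 then χ g else 0) = 0) := by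
  obtain ⟨g1, _⟩ := exists_fact_noEigS (F := F)
  have h2 : (2 : F) ≠ 0 := two_ne_zero_of_odd (by rwa [Nat.card_eq_fintype_card])
  rw [sum_U, eq_half_add_iff hodd, eq_half_sub_iff hodd]
  have A := fun α : MulChar F ℂ => vals_ps (Matrix.SpecialLinearGroup.toGL g1) α 1
  refine ⟨fun hd => ?_, fun hd => ?_, fun hd => ?_, fun hd => ?_, fun hd => ?_⟩
  · obtain ⟨α, -, rfl⟩ := irrS_of_deg_add_one hχ hd
    rw [hd, psS_eq, sum_res (A α).cls, (A α).jor]
    simp only [Units.val_one, map_one]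
    ring
  · obtain rfl := irrS_of_deg_card hχ hd
    rw [hd, stS, sum_res (vals_stw (Matrix.SpecialLinearGroup.toGL g1) 1).cls,
      (vals_stw (Matrix.SpecialLinearGroup.toGL g1) 1).jor]
    ring
  · obtain ⟨η, -, rfl⟩ := irrS_of_deg_sub_one g1 (by omega) hχ hd
    rw [hd, cuspS, sum_res (vals_cusp _).cls, (vals_cusp _).jor]
    simp
  · obtain ⟨α, χ', -, -, H⟩ := irrS_of_deg_half_add (by omega) hχ hd
    have := sum_half h2 H
    rw [(A α).jor] at this
    simp only [Units.val_one, map_one] at this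
    linear_combination (hd + this) / 2
  · obtain ⟨η, χ', -, -, H⟩ := irrS_of_deg_half_sub g1 (by omega) hχ hd
    have := sum_half h2 H
    rw [(vals_cusp _).jor] at this
    simp only [Units.val_one, map_one] at this
    linear_combination (hd + this) / 2

end Cfsg.Agent.S2438
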