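import Cfsg.Statements.S2442
import Mathlib
import Cfsg.Agent.KSG.GGCount

set_option autoImplicit false
open scoped MatrixGroups
open Cfsg

namespace Cfsg.Agent.S2442

open Classical in
/-- Let F be a finite field with q elements and n ≥ 2. Call a complex character χ of GL_n over F cuspidal when, for every 0 < m < n, the sum of χ over the subgroup of matrices that agree with the identity outside the upper right m × (n − m) block vanishes (the restriction of χ to the unipotent radical of each maximal standard parabolic subgroup contains no principal constituent). Then GL_n has at least φ(qⁿ − 1)/n distinct cuspidal irreducible characters of degree (q − 1)(q² − 1)⋯(q^(n−1) − 1), φ being Euler's function (in particular at least one). -/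
theorem result {F : Type*} [Field F] [Fintype F] [DecidableEq F] (n : ℕ) (hn : 2 ≤ n) :
    Nat.totient (Fintype.card F ^ n - 1) / n ≤
      Nat.card {χ : Cfsg.IrrCharacter (GL (Fin n) F) //
        (χ : GL (Fin n) F → ℂ) 1 = ∏ i ∈ Finset.Ico 1 n, ((Fintype.card F : ℂ) ^ i - 1) ∧
        ∀ m : ℕ, 0 < m → m < n →
          (∑ g : GL (Fin n) F,
            if (∀ i j : Fin n, ¬ (i.val < m ∧ m ≤ j.val) → (g : Matrix (Fin n) (Fin n) F) i j = (1 : Matrix (Fin n) (Fin n) F) i j)
            then (χ : GL (Fin n) F → ℂ) g else 0) = 0} := by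
  obtain ⟨ψ, hψ⟩ : ∃ ψ : AddChar F ℂ, ψ ≠ 1 := by
    obtain ⟨ψ, h⟩ := (AddChar.exists_apply_ne_zero (α := F) (a := 1)).2 one_ne_zero
    exact ⟨ψ, fun e => h (by simp [e])⟩
  refine (Nat.div_le_of_le_mul (KSG.HC.totient_le hn)).trans ?_
  rw [← Nat.card_congr (KSG.HC.card_cusp hψ n).some, ← Nat.card_eq_of_bijective
    (fun χ : {χ // KSG.HC.Cusp (F := F) ⟨n, χ⟩} => (⟨⟨n, χ.1⟩, χ.2, rfl⟩ : {ρ // KSG.HC.Cusp ρ ∧ ρ.1 = n}))
    ⟨fun _ _ h => by simpa [Subtype.ext_iff] using h, fun ⟨⟨_, χ⟩, h, e⟩ => by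
      obtain rfl := e; exact ⟨⟨χ, h⟩, rfl⟩⟩]
  refine Nat.card_le_card_of_injective (Subtype.map id fun χ h => ⟨h.degree_eq hψ, fun m h0 hm => ?_⟩)
    (Subtype.map_injective _ Function.injective_id)
  have : Nonempty {i : Fin n // i.val < m} := ⟨⟨0, by omega⟩, h0⟩
  have : Nonempty {i : Fin n // ¬i.val < m} := ⟨⟨m, hm⟩, lt_irrefl m⟩
  let e := (Equiv.sumCompl fun i : Fin n => i.val < m).symm
  refine (Finset.sum_of_injOn (fun u => KSG.HC.rx e (KSG.HC.un u)) (fun u _ v _ huv => ?_) (by simp)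
    (fun g _ hg => if_neg fun c => hg ⟨(g.1.submatrix e.symm e.symm).toBlocks₁₂, by simp, ?_⟩)
    fun u _ => ?_).symm.trans (h.sum_un e 1)
  · simpa [KSG.HC.un, Units.ext_iff] using (KSG.HC.rx e).injective huv
  · ext i j
    obtain ⟨i | i, rfl⟩ := e.symm.surjective i <;> obtain ⟨j | j, rfl⟩ := e.symm.surjective j
    all_goals have := i.2; have := j.2
    · simpa [KSG.HC.un, Matrix.one_apply, e, Subtype.ext_iff] using (c i j (by omega)).symm
    · simp [KSG.HC.un, Matrix.toBlocks₁₂]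
    · simpa [KSG.HC.un, e, Matrix.one_apply_ne (show i.1 ≠ j.1 by rintro h; simp_all)] using
        (c i j (by omega)).symm
    · simpa [KSG.HC.un, Matrix.one_apply, e, Subtype.ext_iff] using (c i j (by omega)).symm
  rw [one_mul, KSG.HC.ev_fin (KSG.HC.cl_fam _), if_pos fun i j hij => ?_]
  · exact congrFun (KSG.HC.fam_self ⟨n, χ⟩) _
  obtain ⟨i | i, rfl⟩ := e.symm.surjective i <;> obtain ⟨j | j, rfl⟩ := e.symm.surjective j
  · simp [KSG.HC.un, Matrix.one_apply]
  · exact absurd ⟨i.2, not_lt.1 j.2⟩ hij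
  · simp [KSG.HC.un, Matrix.one_apply]
  · simp [KSG.HC.un, Matrix.one_apply]

end Cfsg.Agent.S2442
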