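import Cfsg.Statements.S2531
import Cfsg.Agent.Perm.DoubleCount

set_option autoImplicit false
open Cfsg

namespace Cfsg.Agent.S2531

open Perm.DoubleCount Projectivization

theorem mk_mem {F V : Type*} [Field F] [AddCommGroup V] [Module F V] (W : Submodule F V) {v : V}
    (hv : v ≠ 0) : (Projectivization.mk F v hv).rep ∈ W ↔ v ∈ W := by
  obtain ⟨a, ha⟩ := exists_smul_eq_mk_rep F v hv
  rw [← ha, Units.smul_def, W.smul_mem_iff a.ne_zero]

theorem card_points {F V : Type*} [Field F] [Finite F] [AddCommGroup V] [Module F V] [Finite V]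
    (W : Submodule F V) (hW : W ≠ ⊥) :
    (Nat.card {x : Projectivization F V // x.rep ∈ W} : F) = 1 := by
  have h1 : Nat.card (Projectivization F W) = Nat.card {x : Projectivization F V // x.rep ∈ W} := by
    refine Nat.card_eq_of_bijective (fun x => ⟨x.map W.subtype W.subtype_injective, ?_⟩)
      ⟨fun x y h => map_injective _ W.subtype_injective (congrArg Subtype.val h), fun x => ?_⟩
    · induction x using Projectivization.ind with
      | h v hv => rw [map_mk, mk_mem]; exact v.2
    · refine ⟨Projectivization.mk F ⟨x.1.rep, x.2⟩ fun h => x.1.rep_nonzero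
        (congrArg Subtype.val h), Subtype.ext ?_⟩
      simp [map_mk]
  have h2 := Projectivization.card F W
  have h3 : (Nat.card F : F) = 0 := by
    have := Fintype.ofFinite F
    rw [Nat.card_eq_fintype_card, FiniteField.cast_card_eq_zero]
  have h4 : (Nat.card W : F) = 0 := by
    rw [Module.natCard_eq_pow_finrank (K := F), Nat.cast_pow, h3,
      zero_pow fun h => hW (Submodule.finrank_eq_zero.1 h)]
  have h5 := congrArg (Nat.cast : ℕ → F) h2
  rw [Nat.cast_mul, Nat.cast_sub Nat.card_pos, Nat.cast_sub Nat.card_pos, h3, h4, h1] at h5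
  linear_combination h5


/-- Let `F` be a finite field and `n ≥ 3`. No set of permutations of the points of the projective space of `Fⁿ`, each induced by an invertible semilinear transformation of `Fⁿ` (so a subset of the full projective semilinear group), is sharply 2-transitive on the points: it is impossible that for all pairs of distinct points `(a, b)` and `(c, d)` exactly one member of the set sends `a` to `c` and `b` to `d`. -/
theorem result {F : Type*} [Field F] [Finite F]
    (n : ℕ) (hn : 3 ≤ n) (S : Set (Equiv.Perm (Projectivization F (Fin n → F))))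
    (hS : ∀ s ∈ S, ∃ (σ : F ≃+* F) (f : (Fin n → F) →ₛₗ[(σ : F →+* F)] (Fin n → F)) (hf : Function.Injective f),
      ∀ x, s x = Projectivization.map f hf x) :
    ¬ (∀ a b c d : Projectivization F (Fin n → F), a ≠ b → c ≠ d →
        ∃! s, s ∈ S ∧ s a = c ∧ s b = d) := by
  classical
  intro h
  obtain ⟨m, rfl⟩ : ∃ m, n = m + 3 := ⟨n - 3, by omega⟩
  let W : Submodule F (Fin (m + 3) → F) := LinearMap.ker (LinearMap.proj 0)
  let a := Projectivization.mk F (Pi.single 0 1 : Fin (m + 3) → F) (by simp)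
  let b := Projectivization.mk F (Pi.single 1 1 : Fin (m + 3) → F) (by simp)
  have ha : a.rep ∉ W := by rw [mk_mem]; simp [W]
  have hb : b.rep ∈ W := by rw [mk_mem]; simp [W]
  have hne : ∀ x : Projectivization F (Fin (m + 3) → F), x.rep ∈ W → a ≠ x := fun x hx e => ha (e ▸ hx)
  have hW : W ≠ ⊥ := fun h => b.rep_nonzero ((Submodule.mem_bot F).1 (h ▸ hb))
  have := Fintype.ofFinite {s // s ∈ S ∧ s a = a}
  have h1 : Nat.card {s // s ∈ S ∧ s a = a} = Nat.card {y // y ≠ a} := by
    refine Nat.card_eq_of_bijective (fun s => ⟨s.1 b, fun e => hne b hb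
      (s.1.injective (s.2.2.trans e.symm))⟩) ⟨fun s t e => ?_, fun y => ?_⟩
    · have e' : s.1 b = t.1 b := congrArg Subtype.val e
      exact Subtype.ext ((h a b a (s.1 b) (hne b hb) fun e => hne b hb
        (s.1.injective (s.2.2.trans e))).unique ⟨s.2.1, s.2.2, rfl⟩ ⟨t.2.1, t.2.2, e'.symm⟩)
    · obtain ⟨s, h1, h2, h3⟩ := (h a b a y (hne b hb) y.2.symm).exists
      exact ⟨⟨s, h1, h2⟩, Subtype.ext h3⟩
  have h2 := card_rel_eq_sum_left fun (s : {s // s ∈ S ∧ s a = a})
    (x : Projectivization F (Fin (m + 3) → F)) => x.rep ∈ W ∧ (s.1 x).rep ∈ W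
  have h3 : Nat.card {p : {s // s ∈ S ∧ s a = a} × Projectivization F (Fin (m + 3) → F) //
      p.2.rep ∈ W ∧ (p.1.1 p.2).rep ∈ W} = Nat.card ({x : Projectivization F (Fin (m + 3) → F) //
        x.rep ∈ W} × {x : Projectivization F (Fin (m + 3) → F) // x.rep ∈ W}) := by
    refine Nat.card_eq_of_bijective (fun p => (⟨p.1.2, p.2.1⟩, ⟨p.1.1.1 p.1.2, p.2.2⟩))
      ⟨?_, fun q => ?_⟩
    · rintro ⟨⟨s, x⟩, h3, h4⟩ ⟨⟨t, y⟩, h5, h6⟩ e
      simp only [Prod.mk.injEq, Subtype.mk.injEq] at e ⊢
      obtain ⟨rfl, e⟩ := e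
      exact ⟨Subtype.ext ((h a x a (s.1 x) (hne _ h3) (hne _ h4)).unique ⟨s.2.1, s.2.2, rfl⟩
        ⟨t.2.1, t.2.2, e.symm⟩), rfl⟩
    · obtain ⟨s, h4, h5, h6⟩ := (h a q.1 a q.2 (hne _ q.1.2) (hne _ q.2.2)).exists
      exact ⟨⟨(⟨s, h4, h5⟩, q.1), q.1.2, h6 ▸ q.2.2⟩, Prod.ext rfl (Subtype.ext h6)⟩
  have h4 : ∀ s : {s // s ∈ S ∧ s a = a}, (Nat.card {x : Projectivization F (Fin (m + 3) → F) //
      x.rep ∈ W ∧ (s.1 x).rep ∈ W} : F) = 1 := by
    intro s
    obtain ⟨σ, f, hf, hs⟩ := hS s s.2.1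
    rw [← card_points (W ⊓ W.comap f) ?_]
    · congr 1
      refine Nat.card_congr (Equiv.subtypeEquivRight fun x => ?_)
      induction x using Projectivization.ind with
      | h v hv => rw [hs, map_mk, mk_mem, mk_mem, mk_mem]; rfl
    · intro h0
      have h5 := Nat.card_le_card_of_injective (fun v : Fin (m + 3) → F => (v 0, f v 0))
        fun v w e => by
          rw [Prod.mk.injEq] at e
          have : v - w ∈ W ⊓ W.comap f := ⟨by simp [W, e.1], by simp [W, e.2]⟩
          rwa [h0, Submodule.mem_bot, sub_eq_zero] at this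
      rw [Nat.card_fun, Nat.card_prod, Nat.card_fin, ← sq] at h5
      have := (Nat.pow_le_pow_iff_right (Finite.one_lt_card (α := F))).1 h5
      omega
  have h5 := congrArg (Nat.cast : ℕ → F) (h3.symm.trans h2)
  have h6 := card_points (F := F) (⊤ : Submodule F (Fin (m + 3) → F)) top_ne_bot
  simp only [Submodule.mem_top, Nat.card_congr (Equiv.subtypeUnivEquiv fun _ => trivial)] at h6
  have : Nonempty (Projectivization F (Fin (m + 3) → F)) := ⟨a⟩
  rw [Nat.card_prod, Nat.cast_mul, card_points W hW, Nat.cast_sum, Finset.sum_congr rfl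
    fun s _ => h4 s, Finset.sum_const, Finset.card_univ, ← Nat.card_eq_fintype_card, h1, card_ne,
    nsmul_eq_mul, Nat.cast_sub Nat.card_pos, h6] at h5
  simp at h5

end Cfsg.Agent.S2531
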