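import Cfsg.Statements.S2532
import Mathlib
import Cfsg.Agent.KSG.SymEmbed

set_option autoImplicit false
open Cfsg

namespace Cfsg.Agent.S2532

open Equiv Equiv.Perm MulAction in
theorem exists_points {H X : Type*} [Group H] [Finite H] [Finite X] [MulAction H X] (r : ℕ)
    (h : Nat.card H * (2 ^ Nat.card H * r) < Nat.card X) :
    ∃ (S : Subgroup H) (x : Fin r → X), (∀ i, stabilizer H (x i) = S) ∧
      ∀ i j (g : H), g • x i = x j → i = j := by
  classical
  have := Fintype.ofFinite H
  have := Fintype.ofFinite (orbitRel.Quotient H X)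
  have := Fintype.ofFinite (Subgroup H)
  have h1 : Nat.card X ≤ Nat.card H * Nat.card (orbitRel.Quotient H X) := by
    rw [← Nat.card_prod]
    refine Nat.card_le_card_of_surjective (fun p : H × orbitRel.Quotient H X => p.1 • p.2.out) ?_
    intro x
    have : (orbitRel H X) x (Quotient.mk (orbitRel H X) x).out :=
      (orbitRel H X).symm (Quotient.mk_out (s := orbitRel H X) x)
    obtain ⟨g, hg⟩ := this
    exact ⟨(g, Quotient.mk (orbitRel H X) x), hg⟩
  have h2 : Nat.card (Subgroup H) ≤ 2 ^ Nat.card H := by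
    rw [Nat.card_eq_fintype_card (α := H), ← Fintype.card_set, ← Nat.card_eq_fintype_card]
    exact Nat.card_le_card_of_injective _ SetLike.coe_injective
  have h3 : Fintype.card (Subgroup H) * r < Fintype.card (orbitRel.Quotient H X) := by
    rw [← Nat.card_eq_fintype_card, ← Nat.card_eq_fintype_card]
    exact (Nat.mul_le_mul_right r h2).trans_lt (Nat.lt_of_mul_lt_mul_left (h.trans_le h1))
  obtain ⟨S, hS⟩ := Fintype.exists_lt_card_fiber_of_mul_lt_card
    (fun ω : orbitRel.Quotient H X => stabilizer H ω.out) h3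
  obtain ⟨e⟩ := Function.Embedding.nonempty_of_card_le (α := Fin r)
    (β := (Finset.univ.filter fun ω : orbitRel.Quotient H X => stabilizer H ω.out = S))
    (by rw [Fintype.card_coe, Fintype.card_fin]; exact hS.le)
  refine ⟨S, fun i => (e i).1.out, fun i => (Finset.mem_filter.1 (e i).2).2, fun i j g hg => ?_⟩
  apply e.injective
  apply Subtype.ext
  rw [← Quotient.out_eq (e i).1, ← Quotient.out_eq (e j).1]
  exact (Quotient.sound (s := orbitRel H X) ⟨g, hg⟩).symm


/-- There is a function `f` of two natural-number arguments such that, whenever `m ≥ f(n, r)`, every subgroup of order `n` of the alternating group of degree `m` centralizes some subgroup of that alternating group isomorphic to the alternating group of degree `r`. -/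
theorem result :
    ∃ f : ℕ → ℕ → ℕ, ∀ (m r : ℕ) (H : Subgroup ↥(alternatingGroup (Fin m))), f (Nat.card H) r ≤ m →
      ∃ K : Subgroup ↥(alternatingGroup (Fin m)), Nonempty (↥K ≃* ↥(alternatingGroup (Fin r))) ∧
        K ≤ Subgroup.centralizer (H : Set ↥(alternatingGroup (Fin m))) := by
  classical
  refine ⟨fun n r => n * (2 ^ n * r) + 1, fun m r H hm => ?_⟩
  obtain ⟨S, x, hS, hx⟩ := exists_points (H := H) (X := Fin m) r (by simpa using hm)
  have := Fintype.ofFinite (H ⧸ S)
  let ι0 : (H ⧸ S) × Fin r → Fin m := fun p => Quotient.liftOn' p.1 (fun g : H => g • x p.2) (by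
    intro a b hab
    rw [QuotientGroup.leftRel_apply, ← hS p.2, MulAction.mem_stabilizer_iff, mul_smul,
      inv_smul_eq_iff] at hab
    exact hab.symm)
  have hι0 : ∀ (g : H) (i : Fin r), ι0 (g, i) = g • x i := fun g i => rfl
  have hinj : Function.Injective ι0 := by
    rintro ⟨a, i⟩ ⟨b, j⟩ h
    induction a using QuotientGroup.induction_on with | H a => ?_
    induction b using QuotientGroup.induction_on with | H b => ?_
    rw [hι0, hι0] at h
    have h1 : (b⁻¹ * a) • x i = x j := by rw [mul_smul, h, inv_smul_smul]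
    obtain rfl := hx i j _ h1
    rw [← MulAction.mem_stabilizer_iff, hS] at h1
    rw [QuotientGroup.eq.2 h1]
  let ι : (H ⧸ S) × Fin r ↪ Fin m := ⟨ι0, hinj⟩
  let ψ : Equiv.Perm (Fin r) →* Equiv.Perm ((H ⧸ S) × Fin r) :=
    MonoidHom.mk' (fun σ => Equiv.prodCongrRight fun _ => σ) (fun a b => by ext <;> simp)
  have hψ : Function.Injective ψ := by
    intro a b h
    ext i
    have := congrArg Prod.snd (congrFun (congrArg (⇑) h) (((1 : H) : H ⧸ S), i))
    exact congrArg Fin.val this
  let φ : alternatingGroup (Fin r) →* alternatingGroup (Fin m) :=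
    ((Equiv.Perm.viaEmbeddingHom ι).comp (ψ.comp (alternatingGroup (Fin r)).subtype)).codRestrict _
      fun σ => by
        rw [Equiv.Perm.mem_alternatingGroup]
        refine (KSG.sign_viaEmbedding ι _).trans ?_
        change Equiv.Perm.sign (Equiv.prodCongrRight fun _ => (σ : Equiv.Perm (Fin r))) = 1
        rw [Equiv.Perm.sign_prodCongrRight]
        simp [Equiv.Perm.mem_alternatingGroup.1 σ.2]
  have hφ : Function.Injective φ := fun a b h =>
    Subtype.ext (hψ (Equiv.Perm.viaEmbeddingHom_injective ι (congrArg Subtype.val h)))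
  refine ⟨φ.range, ⟨(MonoidHom.ofInjective hφ).symm⟩, ?_⟩
  rintro _ ⟨σ, rfl⟩ g hg
  apply Subtype.ext
  ext1 y
  change (⟨g, hg⟩ : H) • ((ψ σ).viaEmbedding ι y) = (ψ σ).viaEmbedding ι ((⟨g, hg⟩ : H) • y)
  generalize (⟨g, hg⟩ : H) = g
  have hmul : ∀ (g a : H) (i : Fin r), g • ι (a, i) = ι ((g * a : H), i) := fun g a i =>
    (mul_smul g a (x i)).symm
  by_cases hy : y ∈ Set.range ι
  · obtain ⟨⟨a, i⟩, rfl⟩ := hy
    induction a using QuotientGroup.induction_on with | H a => ?_
    rw [hmul, Equiv.Perm.viaEmbedding_apply, Equiv.Perm.viaEmbedding_apply]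
    exact hmul g a _
  · rw [Equiv.Perm.viaEmbedding_apply_of_notMem _ _ _ hy,
      Equiv.Perm.viaEmbedding_apply_of_notMem]
    rintro ⟨⟨a, i⟩, h⟩
    induction a using QuotientGroup.induction_on with | H a => ?_
    exact hy ⟨((g⁻¹ * a : H), i), by rw [← hmul, h, inv_smul_smul]⟩

end Cfsg.Agent.S2532
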