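import Cfsg.Statements.S2533


set_option autoImplicit false
open Cfsg

namespace Cfsg.Agent.S2533

open Matrix

/-- The generalized dihedral group of `F³`. -/
@[ext]
structure GD (F : Type) where
  a : Fin 3 → F
  e : ℤˣ

variable {F : Type} [Field F]

instance : Mul (GD F) := ⟨fun x y => ⟨y.a + y.e • x.a, x.e * y.e⟩⟩
instance : One (GD F) := ⟨⟨0, 1⟩⟩
instance : Inv (GD F) := ⟨fun x => ⟨-(x.e⁻¹ • x.a), x.e⁻¹⟩⟩

theorem mul_a (x y : GD F) : (x * y).a = y.a + y.e • x.a := rfl
theorem mul_e (x y : GD F) : (x * y).e = x.e * y.e := rfl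

instance : Group (GD F) := Group.ofLeftAxioms
  (fun x y z => GD.ext (by simp only [mul_a, mul_e, smul_add, mul_comm y.e, mul_smul, add_assoc])
    (mul_assoc _ _ _))
  (fun x => GD.ext ((congrArg (x.a + ·) (smul_zero _)).trans (add_zero _)) (one_mul _))
  (fun x => GD.ext ((congrArg (x.a + ·) ((smul_neg _ _).trans
    (congrArg Neg.neg (smul_inv_smul _ _)))).trans (add_neg_cancel _)) (inv_mul_cancel _))

/-- The underlying set. -/
def GD.equiv : GD F ≃ (Fin 3 → F) × ℤˣ := ⟨fun x => (x.a, x.e), fun x => ⟨x.1, x.2⟩, fun _ => rfl,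
  fun _ => rfl⟩

variable {m : ℕ}

/-- The three shift maps. -/
def sh (m : ℕ) (a : Fin 3 → F) : Matrix (Fin (m + 1)) (Fin m) F :=
  of fun i j => ∑ k : Fin 3, if (i : ℕ) = j + k then a k else 0

/-- The representation. -/
def rep (m : ℕ) : GD F →* Matrix (Fin (m + 1) ⊕ Fin m) (Fin (m + 1) ⊕ Fin m) F where
  toFun x := fromBlocks 1 (sh m x.a) 0 (x.e • 1)
  map_one' := by
    rw [← fromBlocks_one]
    congr 1
    · ext; simp [sh, show (1 : GD F).a = 0 from rfl]
    · exact one_smul _ _
  map_mul' x y := by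
    rw [fromBlocks_multiply]
    congr 1
    · simp
    · ext
      simp only [sh, mul_a, of_apply, Matrix.one_mul, Matrix.mul_smul, Matrix.mul_one,
        Matrix.add_apply, Matrix.smul_apply, Finset.smul_sum, ← Finset.sum_add_distrib]
      exact Finset.sum_congr rfl fun k _ => by split_ifs <;> simp
    · simp
    · simp [mul_e, mul_smul, smul_comm y.e]

theorem det_rep (hm : Even m) (x : GD F) : (rep m x).det = 1 := by
  rcases Int.units_eq_one_or x.e with h | h <;>
    simp [rep, h, det_neg, hm.neg_one_pow]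

theorem scalar_of_comm {A : Matrix (Fin (m + 1)) (Fin (m + 1)) F} {D : Matrix (Fin m) (Fin m) F}
    (h : ∀ a : Fin 3 → F, A * sh m a = sh m a * D) : A = A 0 0 • 1 ∧ D = A 0 0 • 1 := by
  have e0 : ∀ (i : Fin (m + 1)) (j : Fin m), sh m (Pi.single 0 (1 : F)) i j =
      if i = j.castSucc then 1 else 0 := fun i j => by
    simp only [sh, of_apply, Fin.sum_univ_three, Fin.ext_iff]; simp
  have e1 : ∀ (i : Fin (m + 1)) (j : Fin m), sh m (Pi.single 1 (1 : F)) i j =
      if i = j.succ then 1 else 0 := fun i j => by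
    simp only [sh, of_apply, Fin.sum_univ_three, Fin.ext_iff]; simp
  have h0 := fun i j => congrFun₂ (h (Pi.single 0 1)) i j
  have h1 := fun i j => congrFun₂ (h (Pi.single 1 1)) i j
  simp only [mul_apply, e0, e1, mul_ite, mul_one, mul_zero, Finset.sum_ite_eq', Finset.mem_univ,
    if_true, ite_mul, one_mul, zero_mul] at h0 h1
  have a0 : ∀ i j, A i.castSucc j.castSucc = D i j := fun i j => by simp [h0]
  have a1 : ∀ i j, A i.succ j.succ = D i j := fun i j => by simp [h1]
  have up : ∀ i j, i ≤ j → A i j = if i = j then A 0 0 else 0 := fun i => by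
    induction i using Fin.induction with
    | zero => exact fun j _ => by cases j using Fin.cases <;> simp [h1, (Fin.succ_ne_zero _).symm]
    | succ i ih =>
      intro j hj
      cases j using Fin.cases with
      | zero => exact absurd hj (by simp)
      | succ j => rw [a1, ← a0, ih _ (by simpa using hj)]; simp
  have lo : ∀ i j, j < i → A i j = 0 := fun i => by
    induction i using Fin.reverseInduction with
    | last =>
      intro j hj
      obtain ⟨j, rfl⟩ := Fin.exists_castSucc_eq.2 hj.ne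
      simp [h0, (Fin.castSucc_ne_last _).symm]
    | cast i ih =>
      intro j hj
      obtain ⟨j, rfl⟩ := Fin.exists_castSucc_eq.2 (hj.trans (Fin.castSucc_lt_last i)).ne
      rw [a0, ← a1, ih _ (by simpa using hj)]
  have hA : ∀ i j, A i j = if i = j then A 0 0 else 0 := fun i j => by
    rcases le_or_gt i j with h | h
    · exact up i j h
    · rw [lo i j h, if_neg h.ne']
  refine ⟨?_, ?_⟩ <;> ext i j
  · rw [hA i j]; simp [one_apply]
  · rw [← a0, hA]; simp [one_apply]

theorem scalar_of_proj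
    {G : Matrix (Fin (m + 1) ⊕ Fin m) (Fin (m + 1) ⊕ Fin m) F} (hG : G.det ≠ 0)
    (h : ∀ x, ∃ c : F, c ≠ -1 ∧ G * rep m x = c • (rep m x * G)) : ∃ c : F, G = c • 1 := by
  rw [← fromBlocks_toBlocks G] at hG h ⊢
  generalize G.toBlocks₁₁ = A, G.toBlocks₁₂ = B, G.toBlocks₂₁ = C, G.toBlocks₂₂ = D at hG h ⊢
  obtain ⟨c, hc, e⟩ := h ⟨0, -1⟩
  have s0 : sh m (0 : Fin 3 → F) = 0 := by ext; simp [sh]
  have hc' : c + 1 ≠ 0 := fun h => hc (eq_neg_of_add_eq_zero_left h)
  simp [rep, fromBlocks_multiply, s0, fromBlocks_smul] at e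
  obtain rfl : B = 0 := (smul_eq_zero.1 (show (c + 1) • B = 0 by
    rw [add_smul, ← e.2.1]; simp)).resolve_left hc'
  obtain rfl : C = 0 := (smul_eq_zero.1 (show (c + 1) • C = 0 by
    rw [add_smul, one_smul, ← neg_eq_iff_add_eq_zero, ← e.2.2.1])).resolve_left hc'
  obtain ⟨h1, h3⟩ := scalar_of_comm (A := A) (D := D) fun a => by
    obtain ⟨d, -, e⟩ := h ⟨a, 1⟩
    simp [rep, fromBlocks_multiply, fromBlocks_smul] at e
    have : d = 1 := by
      by_contra hd
      have : A = 0 := (smul_eq_zero.1 (show (d - 1) • A = 0 by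
        rw [sub_smul, ← e.1]; simp)).resolve_left (sub_ne_zero.2 hd)
      simp [this] at hG
    simpa [this] using e.2.1
  exact ⟨A 0 0, by rw [← fromBlocks_one, fromBlocks_smul, ← h1, ← h3]; simp⟩

theorem eq_one_of_scalar (h2 : (2 : F) ≠ 0) (hm : 2 ≤ m) {x : GD F} {c : F}
    (h : rep m x = c • 1) : x = 1 := by
  have e := fun i j => congrFun₂ h i j
  have h0 := e (.inl 0) (.inl 0)
  have h1 := e (.inr ⟨0, by omega⟩) (.inr ⟨0, by omega⟩)
  have h3 := fun i : Fin 3 => e (.inl ⟨i, by omega⟩) (.inr ⟨0, by omega⟩)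
  refine GD.ext (funext fun i => ?_) ((Int.units_eq_one_or x.e).resolve_right fun he => h2 ?_)
  · exact (by simpa [rep, sh, ← Fin.ext_iff] using h3 i : x.a i = 0)
  · simp [rep, he] at h0 h1
    linear_combination h0 - h1

/-- For every odd prime `p` there is a finite group `H` of order `2p³` which, for infinitely many `n`, embeds in the projective special linear group `PSL(n, p)` as a subgroup with trivial centralizer. -/
theorem result
    (p : ℕ) [Fact p.Prime] (hp : p ≠ 2) :
    ∃ (H : Type) (_ : Group H) (_ : Finite H), Nat.card H = 2 * p ^ 3 ∧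
      ∀ N : ℕ, ∃ n, N ≤ n ∧ ∃ φ : H →* Matrix.ProjectiveSpecialLinearGroup (Fin n) (ZMod p),
        Function.Injective φ ∧ Subgroup.centralizer (φ.range : Set (Matrix.ProjectiveSpecialLinearGroup (Fin n) (ZMod p))) = ⊥ := by
  have h2 : (2 : ZMod p) ≠ 0 := fun h => hp ((Nat.prime_dvd_prime_iff_eq Fact.out Nat.prime_two).1
    ((ZMod.natCast_eq_zero_iff 2 p).1 h))
  refine ⟨GD (ZMod p), inferInstance, Finite.of_equiv _ GD.equiv.symm, ?_, fun N => ?_⟩
  · rw [Nat.card_congr GD.equiv, Nat.card_prod, mul_comm]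
    simp
  obtain ⟨m, h1, h3, hm⟩ : ∃ m, N ≤ m ∧ 2 ≤ m ∧ Even m := ⟨2 * (N + 1), by omega, by omega, by simp⟩
  let R := reindexAlgEquiv (ZMod p) (ZMod p) (finSumFinEquiv (m := m + 1) (n := m))
  let ψ : GD (ZMod p) →* Matrix.SpecialLinearGroup (Fin (m + 1 + m)) (ZMod p) :=
    MonoidHom.mk' (fun x => ⟨R (rep m x), (det_reindexAlgEquiv _ _ _ _).trans (det_rep hm x)⟩)
      fun x y => Subtype.ext (by simp only [map_mul]; rfl)
  refine ⟨m + 1 + m, by omega, (QuotientGroup.mk' _).comp ψ,
    (injective_iff_map_eq_one _).2 fun x hx => ?_, eq_bot_iff.2 fun g hg => ?_⟩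
  · obtain ⟨c, -, e⟩ := Matrix.SpecialLinearGroup.mem_center_iff.1
      ((QuotientGroup.eq_one_iff _).1 hx)
    refine eq_one_of_scalar h2 h3 (c := c) (R.injective ?_)
    rw [map_smul, map_one, smul_one_eq_diagonal]
    exact e.symm
  · obtain ⟨g, rfl⟩ := QuotientGroup.mk_surjective g
    obtain ⟨c, e⟩ := scalar_of_proj (G := R.symm g)
      (by rw [← det_reindexAlgEquiv (ZMod p) (ZMod p) finSumFinEquiv, R.apply_symm_apply]; simp)
      fun x => by
        obtain ⟨c, hc, e⟩ := Matrix.SpecialLinearGroup.mem_center_iff.1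
          ((QuotientGroup.eq (a := ψ x * g) (b := g * ψ x)).1 (hg _ ⟨x, rfl⟩))
        refine ⟨c, ?_, R.injective ?_⟩
        · rintro rfl
          rw [Odd.neg_one_pow ⟨m, by simp; ring⟩] at hc
          exact h2 (by linear_combination -hc)
        · rw [map_smul, map_mul, map_mul, R.apply_symm_apply, smul_eq_mul_diagonal, ← scalar_apply,
            e]
          exact congrArg Subtype.val (mul_inv_cancel_left (ψ x * g) (g * ψ x)).symm
    have e' : scalar _ c = g.1 := by
      rw [← R.apply_symm_apply g, e, map_smul, map_one, smul_one_eq_diagonal, scalar_apply]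
    exact (QuotientGroup.eq_one_iff _).2 (Matrix.SpecialLinearGroup.mem_center_iff.2
      ⟨c, by simpa [← e'] using g.2, e'⟩)

end Cfsg.Agent.S2533
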