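import Cfsg.Statements.S2534
import Mathlib
import Mathlib
import Cfsg.Agent.HallSym.Main

set_option autoImplicit false
open Cfsg

namespace Cfsg.Agent.S2534

set_option maxRecDepth 100000 in
open Equiv HallSym Finset in
theorem aux {n : ℕ} [i : NeZero n] (h : n = 7 ∨ n = 8) : ∃ s : List (Perm (Fin n)),
    (∀ g ∈ s, g ∈ alternatingGroup (Fin n) ∧ g ∈ W {0, 1, 2} {3, 4, 5}) ∧
      (∀ V : Finset (Fin n), #V = 4 → ∃ g ∈ s, g ∉ W V Vᶜ) ∧ #({0, 1, 2} : Finset (Fin n)) = 3 ∧
      #({3, 4, 5} : Finset (Fin n)) = 3 ∧ #({0, 1, 2} ∪ {3, 4, 5} : Finset (Fin n))ᶜ ≤ 3 := by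
  refine ⟨[swap 0 1 * swap 0 2, swap 3 4 * swap 3 5, swap 0 4 * swap 0 1 * swap 0 3 * swap 2 5], ?_⟩
  simp only [W, Subgroup.mem_mk, Submonoid.mem_mk, Subsemigroup.mem_mk, Set.mem_ofPred_eq,
    Perm.mem_alternatingGroup, forall₂_and, mem_compl]
  rcases h with rfl | rfl <;> rw [Subsingleton.elim i ⟨by decide⟩] <;>
    exact ⟨⟨by simp, by simp only [List.forall_mem_cons, List.not_mem_nil, false_imp_iff, implies_true]; decide +kernel⟩,
      by decide +kernel, by decide +kernel⟩

/-- For `n ≥ 5` and a set of primes `π`, the alternating group of degree `n` satisfies the full Sylow analogue for `π` (its maximal `π`-subgroups are pairwise conjugate; for a finite group this says Hall `π`-subgroups exist, are all conjugate, and contain every `π`-subgroup up to conjugacy) if and only if either at most one prime of `π` divides its order or every prime dividing its order lies in `π`. -/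
theorem result (n : ℕ) (hn : 5 ≤ n) (π : Set ℕ) :
    Cfsg.IsDPiGroup π ↥(alternatingGroup (Fin n)) ↔
      ((∀ r s : ℕ, r.Prime → s.Prime → r ∈ π → s ∈ π → r ∣ Nat.card ↥(alternatingGroup (Fin n)) → s ∣ Nat.card ↥(alternatingGroup (Fin n)) → r = s) ∨
        ∀ r : ℕ, r.Prime → r ∣ Nat.card ↥(alternatingGroup (Fin n)) → r ∈ π) := by
  refine ⟨fun h => by_contra fun hc => ?_, fun h => h.elim HallSym.dpi_of_le_one fun h H K hH hK =>
    ⟨1, by rw [hH.eq_of_le (fun r a b => h r a (by simpa using b)) le_top, hK.eq_of_le (fun r a b => h r a (by simpa using b)) le_top, Subgroup.map_top_of_surjective _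
      (MulAut.conj 1).surjective]⟩⟩
  push Not at hc
  obtain ⟨⟨p, q, hp, hq, h1, h2, h3, h4, h5⟩, r, hr, h6, h7⟩ := hc
  have key : ∀ K : Subgroup (Equiv.Perm (Fin n)), IsPiSubgroup π K → ∃ V : Finset (Fin n),
      HallSym.Typ π n V.card ∧ ∀ g ∈ alternatingGroup (Fin n), g ∈ K → g ∈ HallSym.W V Vᶜ := fun K hK => by
    obtain ⟨H, k1, k2⟩ := HallSym.exists_hall_ge h (K := K.subgroupOf _) fun r hr e => hK r hr
      (e.trans (Grp.card_subgroupOf K _ ▸ Subgroup.card_dvd_of_le inf_le_left))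
    obtain ⟨M, k3, rfl⟩ := HallSym.hall_alt_iff.1 k1
    obtain ⟨V, rfl, k4⟩ := HallSym.exists_eq_W k3 hp hq h5 h1 h2 (HallSym.le_card_of_dvd hp h3)
      (HallSym.le_card_of_dvd hq h4)
    exact ⟨V, by simpa using k4, fun g a b => k2 (x := ⟨g, a⟩) b⟩
  obtain ⟨U, hU, -⟩ := key ⊥ fun r hr e => absurd (by simpa using e) hr.one_lt.ne'
  have : NeZero n := ⟨by omega⟩
  obtain ⟨-, a⟩ | ⟨a, b, c⟩ | ⟨a, b, c⟩ := id hU
  · exact h7 (a r hr (by simpa using HallSym.le_card_of_dvd hr h6))
  · have h8 : ({0, 1} : Finset (Fin n)).card ≤ 2 := Finset.card_le_two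
    obtain ⟨V, hV, k⟩ := key (HallSym.W {0, 1} {0, 1}ᶜ) fun s hs e => by
      have d : s ≤ n := by simpa using HallSym.le_card_of_dvd hs e
      refine (c s hs d).2 (d.lt_of_ne ?_)
      rintro rfl
      exact HallSym.not_dvd_card_W hs (by omega) (by omega) ((Finset.card_lt_card
        (Finset.ssubset_univ_iff.2 fun k => by simpa using Finset.ext_iff.1 k 0)).trans_eq (by simp))
        (by simpa only [Finset.union_compl, Finset.compl_univ, Finset.card_empty] using hs.pos) e
    have h9 := hU.eq hV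
    obtain ⟨x, hx⟩ := Finset.card_eq_one.1 (show Vᶜ.card = 1 by rw [Finset.card_compl]; simp; omega)
    have hx' : ∀ y, y ∈ V ↔ y ≠ x := fun y => by simpa using (Finset.ext_iff.1 hx y).not
    obtain ⟨y, hy, hxy⟩ : ∃ y ∉ ({0, 1} : Finset (Fin n)), x ∈ ({0, 1} : Finset (Fin n)) ∨ x = y :=
      (em _).elim (fun e => (Finset.exists_mem_notMem_of_card_lt_card (t := Finset.univ)
        (s := {0, 1}) (by simp; omega)).imp fun y h => ⟨h.2, .inl e⟩) fun e => ⟨x, e, .inr rfl⟩
    obtain ⟨z, -, hz⟩ := Finset.exists_mem_notMem_of_card_lt_card (t := Finset.univ) (s := {y, 0, 1})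
      (Finset.card_le_three.trans_lt (by simp; omega))
    obtain ⟨u, hu, v, hv, huv⟩ := Finset.one_lt_card.1 (show 1 < V.card by omega)
    have h01 : (0 : Fin n) ≠ 1 := by simp [Fin.ext_iff, Nat.mod_eq_of_lt (show 1 < n by omega)]
    simp only [Finset.mem_insert, Finset.mem_singleton, not_or] at hy hz hxy
    obtain e | e := k (Equiv.swap 0 1 * Equiv.swap y z) (by simp [Equiv.Perm.mem_alternatingGroup, h01, Ne.symm hz.1])
      (.inl (by simp [Equiv.swap_apply_def]; grind))
    · have := e.1 x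
      simp [hx', Equiv.swap_apply_def] at this
      grind
    · refine huv ((Equiv.swap 0 1 * Equiv.swap y z).injective ?_)
      exact (show _ = x by simpa [hx'] using (e.2 u).2 hu).trans (.symm (by simpa [hx'] using (e.2 v).2 hv))
  · obtain ⟨s, d, e, f, g, i⟩ := aux b
    obtain ⟨V, hV, k⟩ := key (HallSym.W {0, 1, 2} {3, 4, 5}) fun s hs e => by
      have d : s ≤ n := by simpa using HallSym.le_card_of_dvd hs e
      refine (c s hs d).2 (by_contra fun j => ?_)
      have := hs.two_le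
      exact HallSym.not_dvd_card_W hs (by omega) (by omega) (by omega) (by omega) e
    obtain ⟨g, j, l⟩ := e V (hV.eq hU ▸ a)
    exact l (k g (d g j).1 (d g j).2)

end Cfsg.Agent.S2534
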