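import Cfsg.Statements.S2536
import Mathlib
import Mathlib
import Cfsg.Agent.HallSym.Main

set_option autoImplicit false
open Cfsg

namespace Cfsg.Agent.S2536

/-- Let `π` be a set of primes and `n` a natural number such that at least two primes of `π` divide `n!` but not every prime dividing `n!` lies in `π`. Then the symmetric group of degree `n` has a Hall `π`-subgroup if and only if either `n` is prime and the primes of `π` dividing `n!` are exactly the primes smaller than `n` (a point stabilizer is then such a subgroup), or `n ∈ {7, 8}` and the primes of `π` dividing `n!` are exactly 2 and 3. -/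
theorem result (n : ℕ) (π : Set ℕ)
    (h2 : ∃ r s : ℕ, r.Prime ∧ s.Prime ∧ r ≠ s ∧ r ∈ π ∧ s ∈ π ∧ r ≤ n ∧ s ≤ n)
    (hns : ∃ r : ℕ, r.Prime ∧ r ≤ n ∧ r ∉ π) :
    Cfsg.IsEPiGroup π (Equiv.Perm (Fin n)) ↔
      ((n.Prime ∧ ∀ r : ℕ, r.Prime → r ≤ n → (r ∈ π ↔ r < n)) ∨
       ((n = 7 ∨ n = 8) ∧ ∀ r : ℕ, r.Prime → r ≤ n → (r ∈ π ↔ (r = 2 ∨ r = 3)))) := by
  obtain ⟨p, q, hp, hq, h, h1, h2, h3, h4⟩ := h2
  obtain ⟨r, hr, h5, h6⟩ := hns
  constructor
  · rintro ⟨M, hM⟩
    obtain ⟨U, -, k | k | k⟩ := HallSym.exists_eq_W hM hp hq h h1 h2 (by simpa) (by simpa) <;>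
      rw [Fintype.card_fin] at k
    exacts [absurd (k.2 r hr h5) h6, .inl k.2, .inr k.2]
  have := hp.two_le
  have := hq.two_le
  rintro (k | k)
  · obtain ⟨U, -, hU⟩ := Finset.exists_subset_card_eq (s := (Finset.univ : Finset (Fin n))) (n := n - 1)
      (by simp)
    exact ⟨_, HallSym.hall_W (U := U) (.inr (.inl (by rw [Fintype.card_fin]; exact ⟨by omega, k⟩)))
      ((k.2 2 Nat.prime_two (by omega)).2 (by omega))⟩
  · obtain ⟨U, -, hU⟩ := Finset.exists_subset_card_eq (s := (Finset.univ : Finset (Fin n))) (n := 4)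
      (by simp; omega)
    exact ⟨_, HallSym.hall_W (U := U) (.inr (.inr (by rw [Fintype.card_fin]; exact ⟨hU, k⟩)))
      ((k.2 2 Nat.prime_two (by omega)).2 (.inl rfl))⟩

end Cfsg.Agent.S2536
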