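import Cfsg.Statements.S2537
import Cfsg.Agent.Class.PSL2Max
import Cfsg.Agent.Solv.HallPi
import Cfsg.Agent.S0803
import Cfsg.Agent.KSG.PSL2

set_option autoImplicit false
open Cfsg

namespace Cfsg.Agent.S2537

open Subgroup Cfsg.Agent.KSG.M2 Cfsg.Agent.Class.Dickson MatrixGroups in
/-- Let `F` be a finite field with `q` elements of characteristic `p ≥ 5`, and `ε = 1` if `q ≡ 1 (mod 4)`, `ε = -1` otherwise. Then `PSL(2, F)` has a Hall `{2, 3}`-subgroup if and only if `3` divides `q − ε`, or the `{2,3}`-part of `q² − 1` is 24, or the `{2,3}`-part of `q² − 1` is 48 (the `{2,3}`-part of `m` being the largest divisor of `m` with no prime factor other than 2 and 3). -/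
theorem result {F : Type*} [Field F] [Fintype F] {p : ℕ} [Fact p.Prime] [CharP F p]
    (hp : 5 ≤ p) (q : ℕ) (hq : Fintype.card F = q) :
    (∃ H : Subgroup (Matrix.ProjectiveSpecialLinearGroup (Fin 2) F), Cfsg.IsPiHall ({2, 3} : Set ℕ) H) ↔
      (3 ∣ q - 1 ∧ q % 4 = 1) ∨ (3 ∣ q + 1 ∧ q % 4 = 3) ∨
        2 ^ (q ^ 2 - 1).factorization 2 * 3 ^ (q ^ 2 - 1).factorization 3 = 24 ∨
        2 ^ (q ^ 2 - 1).factorization 2 * 3 ^ (q ^ 2 - 1).factorization 3 = 48 := by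
  subst hq
  set q := Fintype.card F with hq
  obtain ⟨n, hpp, hn⟩ := FiniteField.card F p
  have hqq : Nat.card F = q := Nat.card_eq_fintype_card
  have c : ∀ r : ℕ, r.Prime → r ∈ ({2, 3} : Set ℕ) → ¬ r ∣ q := fun r hr h e => by
    have := (Nat.prime_dvd_prime_iff_eq hr hpp).1 (hr.dvd_of_dvd_pow ((hq.trans hn) ▸ e))
    rcases h with rfl | rfl <;> omega
  have c2 := c 2 Nat.prime_two (by simp)
  have c3 := c 3 Nat.prime_three (by simp)
  have h5 : 5 ≤ q := by have : 1 < q := Fintype.one_lt_card; omega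
  have h2 : (2 : F) ≠ 0 := two_ne_zero_of_odd_card (Nat.odd_iff.2 (by omega))
  have hg : Nat.gcd 2 (q - 1) = 2 := Nat.gcd_eq_left (by omega)
  have hG := gcd_mul_card_PSL2 (K := F)
  rw [hqq, hg] at hG
  have hN : q ^ 2 - 1 = (q + 1) * (q - 1) := by rw [← Nat.pow_two_sub_pow_two, one_pow]
  have N0 : q ^ 2 - 1 ≠ 0 := by rw [hN]; exact Nat.mul_ne_zero (by omega) (by omega)
  obtain ⟨m, e, m2, m3⟩ : ∃ m, q ^ 2 - 1 = 2 ^ (q ^ 2 - 1).factorization 2 *
      3 ^ (q ^ 2 - 1).factorization 3 * m ∧ ¬ 2 ∣ m ∧ ¬ 3 ∣ m := by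
    refine ⟨ordCompl[3] (ordCompl[2] (q ^ 2 - 1)), ?_, fun h => Nat.not_dvd_ordCompl Nat.prime_two N0
      (h.trans (Nat.ordCompl_dvd _ _)), Nat.not_dvd_ordCompl Nat.prime_three (Nat.ordCompl_pos _ N0).ne'⟩
    have := Nat.ordProj_mul_ordCompl_eq_self (ordCompl[2] (q ^ 2 - 1)) 3
    nth_rw 1 [Nat.factorization_ordCompl, Finsupp.erase_ne (by norm_num)] at this
    rw [mul_assoc, this, Nat.ordProj_mul_ordCompl_eq_self]
  have hT : ∀ r : ℕ, r.Prime → r ∣ 2 ^ (q ^ 2 - 1).factorization 2 * 3 ^ (q ^ 2 - 1).factorization 3 →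
      r ∈ ({2, 3} : Set ℕ) := fun r hr h => ((Nat.Prime.dvd_mul hr).1 h).imp
    (fun h => (Nat.prime_dvd_prime_iff_eq hr Nat.prime_two).1 (hr.dvd_of_dvd_pow h))
    fun h => (Nat.prime_dvd_prime_iff_eq hr Nat.prime_three).1 (hr.dvd_of_dvd_pow h)
  generalize 2 ^ (q ^ 2 - 1).factorization 2 * 3 ^ (q ^ 2 - 1).factorization 3 = T at *
  have hm : ∀ r : ℕ, r.Prime → r ∈ ({2, 3} : Set ℕ) → ¬ r ∣ q * m := Solv.Pi.pi'_mul c (by
    rintro r - (rfl | rfl) <;> assumption)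
  have T24 : 24 ∣ T := by
    refine (show Nat.Coprime 24 m from Nat.Coprime.mul_left (m := 2 ^ 3) (Nat.Coprime.pow_left _
      ((Nat.prime_two.coprime_iff_not_dvd).2 m2)) ((Nat.prime_three.coprime_iff_not_dvd).2 m3)).dvd_of_dvd_mul_right (e ▸ ?_)
    have : q ^ 2 % 24 = 1 := by
      rw [Nat.pow_mod]
      have : q % 24 = 1 ∨ q % 24 = 5 ∨ q % 24 = 7 ∨ q % 24 = 11 ∨ q % 24 = 13 ∨ q % 24 = 17 ∨
        q % 24 = 19 ∨ q % 24 = 23 := by omega
      rcases this with h | h | h | h | h | h | h | h <;> rw [h]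
    omega
  have key : ∀ H : Subgroup PSL(2, F), IsPiHall ({2, 3} : Set ℕ) H ↔ 2 * Nat.card H = T := fun H => by
    have k : 2 * Nat.card H * H.index = T * (q * m) := by
      rw [mul_assoc, H.card_mul_index, hG, e]; ring
    refine ⟨fun h => Nat.dvd_antisymm ((Solv.Pi.coprime_of_pi (Solv.Pi.pi_mul (fun r hr h => Or.inl
      ((Nat.prime_dvd_prime_iff_eq hr Nat.prime_two).1 h)) h.1) hm).dvd_of_dvd_mul_right ⟨_, k.symm⟩)
      ((Solv.Pi.coprime_of_pi hT h.2).dvd_of_dvd_mul_right ⟨_, k⟩), fun h => ⟨Solv.Pi.pi_of_dvd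
        (Dvd.intro_left 2 h) hT, ?_⟩⟩
    rw [h, Nat.mul_right_inj (by rintro rfl; exact N0 (by simpa using e))] at k
    exact k ▸ hm
  have dih : ∀ g : SL(2, F), (g : Matrix (Fin 2) (Fin 2) F).trace ^ 2 ≠ 4 → ∀ k,
      Nat.card (centralizer {g}) * (2 * k) = q ^ 2 - 1 → ¬ 2 ∣ k → ¬ 3 ∣ k →
      2 ∣ Nat.card (centralizer {g}) → ∃ H : Subgroup PSL(2, F), IsPiHall ({2, 3} : Set ℕ) H := by
    intro g h k h1 k2 k3 h4
    obtain ⟨D, ⟨i⟩, -⟩ := exists_dihedral_of_trace h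
    have := isSolvable_dihedralGroup (Nat.card (centralizer {g}) / Nat.gcd 2 (Fintype.card F - 1))
    have := isSolvable_of_mulEquiv i
    obtain ⟨H, hH⟩ := Solv.Pi.exists_hallOf {2, 3} D
    refine ⟨H, Solv.Pi.isPiHallOf_top.1 (Solv.Pi.hallOf_of_relIndex hH le_top ?_)⟩
    have k1 := D.card_mul_index
    rw [Nat.card_congr i.toEquiv, DihedralGroup.nat_card, ← hq, hg, Nat.mul_div_cancel' h4] at k1
    rw [relIndex_top_right, show D.index = q * k from Nat.eq_of_mul_eq_mul_left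
      (Nat.mul_pos two_pos Nat.card_pos) (by rw [mul_assoc, k1, hG, ← h1]; ring)]
    exact Solv.Pi.pi'_mul c (by rintro r - (rfl | rfl) <;> assumption)
  constructor
  · rintro ⟨H, hH⟩
    have k := (key H).1 hH
    have hpH : ¬ p ∣ Nat.card H := fun h => by rcases hH.1 p hpp h with rfl | rfl <;> omega
    have hL : ∀ L : Subfield F, p ∣ Nat.card L * (Nat.card L ^ 2 - 1) := fun L => by
      have := Fintype.ofFinite L
      obtain ⟨n, -, hn⟩ := FiniteField.card L p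
      rw [Nat.card_eq_fintype_card, hn]
      exact (dvd_pow_self p n.ne_zero).mul_right _
    rcases dickson_PSL2 H with ⟨x, h⟩ | ⟨n, hn, h⟩ | ⟨⟨i⟩⟩ | ⟨⟨i⟩⟩ | ⟨⟨i⟩⟩ | ⟨L, h, hL'⟩
    · have k1 := Nat.mul_dvd_mul_left 2 (card_dvd_of_le h)
      have k2 := gcd_mul_card_stabilizer x
      rw [hqq, hg] at k2
      rw [k, k2] at k1
      obtain ⟨s, hs⟩ := (Solv.Pi.coprime_of_pi hT c).dvd_of_dvd_mul_left k1
      rw [hN, hs, mul_left_comm, Nat.mul_right_inj (by rintro rfl; omega)] at e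
      exact (m2 (e ▸ Dvd.dvd.mul_right (by omega) s)).elim
    · have : Nat.card H ∣ 2 * n := by
        rcases h with ⟨-, h⟩ | ⟨⟨i⟩⟩
        · exact h ▸ Dvd.intro_left 2 rfl
        · rw [Nat.card_congr i.toEquiv, DihedralGroup.nat_card]
      have := T24.trans (k ▸ Nat.mul_dvd_mul_left 2 this)
      rw [← hq, hg] at hn
      have : 6 ∣ n := by omega
      rcases hn with hn | hn <;> have := this.trans hn <;> omega
    · rw [Nat.card_congr i.toEquiv, card_alt4] at k; omega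
    · rw [Nat.card_congr i.toEquiv, card_sym4] at k; omega
    · have := hH.1 5 Nat.prime_five (by rw [Nat.card_congr i.toEquiv, card_alt5]; norm_num)
      simp at this
    · rcases hL' with h | ⟨-, h⟩
      · obtain ⟨i⟩ := nonempty_equiv_of_map_eq_pgl h
        exact (hpH (by rw [Nat.card_congr i.toEquiv, card_PGL2]; exact hL L)).elim
      · obtain ⟨i⟩ := nonempty_equiv_of_map_eq_psl h
        have := hL L
        rw [← gcd_mul_card_PSL2, ← Nat.card_congr i.toEquiv, hpp.dvd_mul] at this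
        have := Nat.le_of_dvd two_pos ((this.resolve_right hpH).trans (Nat.gcd_dvd_left _ _))
        omega
  rintro (⟨h, h'⟩ | ⟨h, h'⟩ | h | h)
  · obtain ⟨a, ha⟩ := exists_units_sq_ne_one (F := F) (by omega)
    have k := SL_card_centralizer_split ha (trace_dg a)
    rw [hqq] at k
    exact dih (dg a) (by rw [trace_dg]; exact add_inv_sq_ne_four a.ne_zero ha) ((q + 1) / 2) (by
      rw [k, hN, Nat.mul_div_cancel' (by omega), mul_comm]) (by omega) (by omega) (by omega)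
  · obtain ⟨g, hg⟩ := exists_noEig (F := F)
    have k := SL_card_centralizer_noEig hg
    rw [hqq] at k
    exact dih g hg.trace_sq_ne_four ((q - 1) / 2) (by
      rw [k, hN, Nat.mul_div_cancel' (by omega)]) (by omega) (by omega) (by omega)
  · obtain ⟨H, ⟨i⟩⟩ := exists_alt4_of_two_ne h2
    exact ⟨H, (key H).2 (by rw [Nat.card_congr i.toEquiv, card_alt4, h])⟩
  · obtain ⟨H, ⟨i⟩⟩ := (S0803.result hq.symm).2 (by
      have : 1 ≤ q ^ 2 := Nat.one_le_pow _ _ (by omega)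
      subst h; omega)
    exact ⟨H, (key H).2 (by rw [Nat.card_congr i.toEquiv, card_sym4, h])⟩

end Cfsg.Agent.S2537
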