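import Cfsg.Statements.S2540
import Mathlib
import Cfsg.Agent.Class.LinearBasic

set_option autoImplicit false
open Cfsg

namespace Cfsg.Agent.S2540

theorem aux {S G : Type*} [Group S] [Group G] (φ : S →* G) (hφ : Function.Injective φ)
    (hp : commutator S = ⊤) (g : G)
    (hc : ∀ s : S, ∃ z : Subgroup.center S, φ z.1 = φ s * g * (φ s)⁻¹ * g⁻¹) (s : S) :
    φ s * g = g * φ s := by
  choose z hz using hc
  let χ : S →* Subgroup.center S := MonoidHom.mk' z fun s t => by
    apply Subtype.ext
    apply hφ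
    have h1 := congrArg φ (Subgroup.mem_center_iff.1 (z t).2 s)
    rw [map_mul, map_mul, hz] at h1
    rw [Subgroup.coe_mul, Subgroup.mem_center_iff.1 (z t).2 (z s).1, map_mul, hz, hz, hz, map_mul]
    calc _ = (φ s * (φ t * g * (φ t)⁻¹ * g⁻¹)) * (g * (φ s)⁻¹ * g⁻¹) := by group
      _ = _ := by rw [h1]; group
  have hχ : χ s = 1 := by
    have : commutator S ≤ χ.ker := by
      rw [commutator_def, Subgroup.commutator_le]
      intro a _ b _
      rw [MonoidHom.mem_ker, map_commutatorElement, commutatorElement_eq_one_iff_mul_comm]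
      exact Subtype.ext (Subgroup.mem_center_iff.1 (χ b).2 _)
    rw [hp] at this
    exact this (Subgroup.mem_top s)
  have h1 := hz s
  rwa [show z s = 1 from hχ, Subgroup.coe_one, map_one, eq_comm, mul_inv_eq_one,
    mul_inv_eq_iff_eq_mul] at h1

/-- Let F be a finite field and n ≥ 1, excluding the case n = 2 with #F ≤ 3. A subgroup of GL_n(F) that is normalized by every element of SL_n(F) either consists of scalar matrices or contains SL_n(F). -/
theorem result {F : Type*} [Field F] [Fintype F] (n : ℕ) (hn : 1 ≤ n) (hex : ¬ (n = 2 ∧ Fintype.card F ≤ 3)) (G : Subgroup (Matrix.GeneralLinearGroup (Fin n) F)) (hG : ∀ s : Matrix.SpecialLinearGroup (Fin n) F, ∀ g ∈ G, (Matrix.SpecialLinearGroup.toGL s) * g * (Matrix.SpecialLinearGroup.toGL s)⁻¹ ∈ G) : (∀ g ∈ G, ∃ c : F, (g : Matrix (Fin n) (Fin n) F) = c • (1 : Matrix (Fin n) (Fin n) F)) ∨ (Matrix.SpecialLinearGroup.toGL : Matrix.SpecialLinearGroup (Fin n) F →* _).range ≤ G := by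
  classical
  rcases Nat.lt_or_ge n 2 with h1 | h2
  · obtain rfl : n = 1 := by omega
    refine Or.inl fun g _ => ⟨g 0 0, ?_⟩
    ext i j
    fin_cases i; fin_cases j; simp
  have : Nontrivial (Fin n) := Fin.nontrivial_iff_two_le.2 h2
  have hp : commutator (Matrix.SpecialLinearGroup (Fin n) F) = ⊤ := by
    rcases Nat.lt_or_ge 2 n with h3 | h3
    · exact Class.SL_commutator_eq_top (by rw [Fintype.card_fin]; omega)
    · obtain rfl : n = 2 := by omega
      have h4 : 3 < Fintype.card F := by
        by_contra hc; exact hex ⟨rfl, by omega⟩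
      obtain ⟨a, ha⟩ : ∃ a : F, a ∉ ({0, 1, -1} : Finset F) := by
        by_contra hc
        push Not at hc
        have := Finset.card_le_card (show Finset.univ ⊆ ({0, 1, -1} : Finset F) from fun a _ => hc a)
        have h5 : ({0, 1, -1} : Finset F).card ≤ 3 := Finset.card_le_three
        rw [Finset.card_univ] at this
        omega
      simp only [Finset.mem_insert, Finset.mem_singleton, not_or] at ha
      exact Matrix.SL2.commutator_eq_top ha.1 (by rw [Ne, sq_eq_one_iff]; tauto)
  have hs := Class.PSL_isSimpleGroup_of_perfect hp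
  let N : Subgroup (Matrix.SpecialLinearGroup (Fin n) F) := G.comap Matrix.SpecialLinearGroup.toGL
  have hN : N.Normal := ⟨fun a ha s => by
    have := hG s _ ha
    rwa [← map_inv, ← map_mul, ← map_mul] at this⟩
  let Z := Subgroup.center (Matrix.SpecialLinearGroup (Fin n) F)
  rcases hs.eq_bot_or_eq_top_of_normal (N.map (QuotientGroup.mk' Z))
    (hN.map _ (QuotientGroup.mk'_surjective Z)) with hb | ht
  · left
    have hNZ : N ≤ Z := by
      rw [Subgroup.map_eq_bot_iff, QuotientGroup.ker_mk'] at hb; exact hb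
    intro g hg
    have hc : ∀ s : Matrix.SpecialLinearGroup (Fin n) F, ∃ z : Z,
        Matrix.SpecialLinearGroup.toGL z.1 = Matrix.SpecialLinearGroup.toGL s * g *
          (Matrix.SpecialLinearGroup.toGL s)⁻¹ * g⁻¹ := fun s => by
      have : Matrix.SpecialLinearGroup.toGL s * g * (Matrix.SpecialLinearGroup.toGL s)⁻¹ * g⁻¹ ∈
          (Matrix.SpecialLinearGroup.toGL : Matrix.SpecialLinearGroup (Fin n) F →* _).range := by
        rw [Class.range_toGL_eq_ker_det, MonoidHom.mem_ker]
        simp only [map_mul, map_inv]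
        rw [mul_inv_cancel_comm, mul_inv_cancel]
      obtain ⟨z, hz⟩ := this
      exact ⟨⟨z, hNZ (show _ ∈ G from hz ▸ G.mul_mem (hG s g hg) (G.inv_mem hg))⟩, hz⟩
    have hcomm : ∀ s : Matrix.SpecialLinearGroup (Fin n) F, Commute (s : Matrix (Fin n) (Fin n) F) g.1 :=
      fun s => congrArg Units.val (aux _ Matrix.SpecialLinearGroup.toGL_injective hp g hc s)
    obtain ⟨c, hc⟩ := Matrix.mem_range_scalar_of_commute_transvectionStruct (M := g.1)
      fun t => hcomm ⟨t.toMatrix, by simp⟩
    exact ⟨c, by rw [← hc]; ext i j; simp [Matrix.diagonal_apply, Matrix.one_apply]⟩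
  · right
    have h1 : N ⊔ Z = ⊤ := by
      have := congrArg (Subgroup.comap (QuotientGroup.mk' Z)) ht
      rwa [Subgroup.comap_map_eq, QuotientGroup.ker_mk', Subgroup.comap_top] at this
    have h2 : N = ⊤ := by
      refine top_le_iff.1 (hp ▸ ?_)
      refine Subgroup.Normal.quotient_commutative_iff_commutator_le.1 ⟨⟨fun a b => ?_⟩⟩
      obtain ⟨a, rfl⟩ := QuotientGroup.mk_surjective a
      obtain ⟨b, rfl⟩ := QuotientGroup.mk_surjective b
      have ha : a ∈ N ⊔ Z := h1 ▸ Subgroup.mem_top a
      rw [← SetLike.mem_coe, Subgroup.normal_mul] at ha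
      obtain ⟨x, hx, z, hz, rfl⟩ := ha
      simp only [QuotientGroup.mk_mul]
      rw [(QuotientGroup.eq_one_iff x).2 hx, one_mul, ← QuotientGroup.mk_mul, ← QuotientGroup.mk_mul,
        Subgroup.mem_center_iff.1 hz b]
    rintro _ ⟨s, rfl⟩
    exact (h2 ▸ Subgroup.mem_top s : s ∈ N)

end Cfsg.Agent.S2540
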