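import Cfsg.Statements.S2541
import Mathlib
import Cfsg.Agent.KSG.AltOrders

set_option autoImplicit false
open Cfsg

namespace Cfsg.Agent.S2541


/-- Let F be a field with 9 elements. The symmetric group S_6 is not isomorphic to PGL_2(F) (although both have index-2 subgroups isomorphic to A_6). -/
theorem result {F : Type*} [Field F] [Fintype F] (hF : Fintype.card F = 9) : ¬ Nonempty (Equiv.Perm (Fin 6) ≃* Matrix.ProjGenLinGroup (Fin 2) F) := by
  classical
  rintro ⟨e⟩
  obtain ⟨g, hg⟩ := IsCyclic.exists_ofOrder_eq_natCard (α := Fˣ)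
  rw [Nat.card_units, Nat.card_eq_fintype_card, hF] at hg
  let d : Fˣ →* GL (Fin 2) F := Units.map ((Matrix.diagonalRingHom (Fin 2) F).toMonoidHom.comp
    { toFun := fun a => ![a, 1], map_one' := by ext i; fin_cases i <;> rfl,
      map_mul' := fun a b => by ext i; fin_cases i <;> simp })
  have hinj : Function.Injective (Matrix.ProjGenLinGroup.mk.comp d) := by
    rw [injective_iff_map_eq_one]
    intro a ha
    rw [MonoidHom.comp_apply, Matrix.ProjGenLinGroup.mk_eq_one,
      Matrix.GeneralLinearGroup.mem_center_iff_val_mem_range_scalar] at ha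
    obtain ⟨c, hc⟩ := ha
    have h0 := congrFun (congrFun hc 0) 0
    have h1 := congrFun (congrFun hc 1) 1
    simp [d] at h0 h1
    ext
    simp [← h0, h1]
  have h8 : orderOf (e.symm (Matrix.ProjGenLinGroup.mk.comp d g)) = 8 := by
    rw [MulEquiv.orderOf_eq, orderOf_injective _ hinj, hg]
  obtain ⟨c, h1, h2, h4⟩ := (KSG.mem_range_orderOf_perm_iff (Fin 6) 8).1 ⟨_, h8⟩
  revert h4
  refine KSG.forall_cycleType_of_cycleLists 6 (fun c => c.lcm = 8 → False) ?_ c (by simpa using h1) h2
  decide +kernel

end Cfsg.Agent.S2541
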