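import Cfsg.Statements.S2542
import Cfsg.Agent.Class.PSL2MaxList
import Cfsg.Agent.S0675
import Cfsg.Agent.S0804

set_option autoImplicit false
open Cfsg

namespace Cfsg.Agent.S2542

open MulAction Cfsg.Agent.Class.Dickson MatrixGroups in
/-- Let F be a field with 11 elements. PSL_2(F) has a subgroup H of index 11 isomorphic to the alternating group A_5, and the action of PSL_2(F) on the cosets of H is 2-transitive (of degree 11). -/
theorem result {F : Type*} [Field F] [Fintype F] (hF : Fintype.card F = 11) : ∃ H : Subgroup (Matrix.ProjectiveSpecialLinearGroup (Fin 2) F), H.index = 11 ∧ Nonempty (H ≃* alternatingGroup (Fin 5)) ∧ MulAction.IsMultiplyPretransitive (Matrix.ProjectiveSpecialLinearGroup (Fin 2) F) ((Matrix.ProjectiveSpecialLinearGroup (Fin 2) F) ⧸ H) 2 := by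
  obtain ⟨H, ⟨e⟩⟩ := (S0804.result hF).2 (by norm_num)
  have := Matrix.ProjectiveSpecialLinearGroup.rank_two_simple (F := F)
    (by rw [Nat.card_eq_fintype_card]; omega)
  have h1 : H.index = 11 := by
    have := H.card_mul_index
    rw [Nat.card_congr e.toEquiv, card_alt5, card_PSL_eq (n := 660) hF (by norm_num)] at this
    omega
  refine ⟨H, h1, ⟨e⟩, ?_⟩
  classical
  have := Fintype.ofFinite (PSL(2, F) ⧸ H)
  let φ := toPermHom PSL(2, F) (PSL(2, F) ⧸ H)
  have : IsPretransitive φ.range (PSL(2, F) ⧸ H) := ⟨fun x y => by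
    obtain ⟨g, hg⟩ := exists_smul_eq PSL(2, F) x y
    exact ⟨⟨φ g, g, rfl⟩, hg⟩⟩
  rcases S0675.result (by rw [← Nat.card_eq_fintype_card, ← Subgroup.index, h1]; norm_num) φ.range
    with h | h
  · rcases φ.normal_ker.eq_bot_or_eq_top with k | k
    · exact (S0810.not_solvable (F := F) (by omega) (isSolvable_of_mulEquiv
        (MonoidHom.ofInjective (φ.ker_eq_bot_iff.1 k)))).elim
    · rw [← Subgroup.normalCore_eq_ker] at k
      rw [show H = ⊤ from top_le_iff.1 (k ▸ H.normalCore_le), Subgroup.index_top] at h1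
      omega
  refine is_two_pretransitive_iff.2 fun h2 h3 => ?_
  obtain ⟨⟨_, g, rfl⟩, hg⟩ := is_two_pretransitive_iff.1 h h2 h3
  exact ⟨g, hg⟩

end Cfsg.Agent.S2542
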