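import Cfsg.Statements.S2543
import Cfsg.Agent.Class.PGL2Maximal
import Cfsg.Agent.CIT.L2Conj
import Cfsg.Agent.S0804
import Cfsg.Agent.Grp.Card

set_option autoImplicit false
open scoped Pointwise
open Cfsg

namespace Cfsg.Agent.S2543

section
open Subgroup MulAction Cfsg.Agent.KSG.M2 Cfsg.Agent.Class.Dickson Cfsg.Agent.CIT.L2C MatrixGroups
open scoped Pointwise

variable {F : Type*} [Field F] [Fintype F]

local notation "M₂" => Matrix (Fin 2) (Fin 2) F

theorem pairs : ∃ x y x' y' : alternatingGroup (Fin 5), orderOf x = 2 ∧ orderOf y = 3 ∧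
    orderOf (x * y) = 5 ∧ orderOf x' = 2 ∧ orderOf y' = 3 ∧ x' * y' = x * y * (x * y) := by
  have : Fact (Nat.Prime 3) := ⟨Nat.prime_three⟩
  have : Fact (Nat.Prime 5) := ⟨Nat.prime_five⟩
  exact ⟨⟨Equiv.swap 0 1 * Equiv.swap 2 3, Equiv.Perm.mem_alternatingGroup.2 (by decide)⟩,
    ⟨Equiv.swap 0 2 * Equiv.swap 0 4, Equiv.Perm.mem_alternatingGroup.2 (by decide)⟩,
    ⟨Equiv.swap 0 2 * Equiv.swap 1 3, Equiv.Perm.mem_alternatingGroup.2 (by decide)⟩,
    ⟨Equiv.swap 0 4 * Equiv.swap 0 1, Equiv.Perm.mem_alternatingGroup.2 (by decide)⟩,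
    orderOf_eq_prime (by decide) (by decide), orderOf_eq_prime (by decide) (by decide),
    orderOf_eq_prime (by decide) (by decide), orderOf_eq_prime (by decide) (by decide),
    orderOf_eq_prime (by decide) (by decide), by decide⟩

theorem gen {G : Type*} [Group G] [Finite G] {L : Subgroup G} (e : L ≃* alternatingGroup (Fin 5))
    {x y : G} (hx : x ∈ L) (hy : y ∈ L) (h2 : orderOf x = 2) (h3 : orderOf y = 3)
    (h5 : orderOf (x * y) = 5) : closure {x, y} = L := by
  have : IsSimpleGroup (alternatingGroup (Fin 5)) := alternatingGroup.isSimpleGroup (by simp)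
  have := e.isSimpleGroup
  have a : x ∈ closure {x, y} := subset_closure (by simp)
  have b : y ∈ closure {x, y} := subset_closure (by simp)
  have le : closure {x, y} ≤ L := (closure_le _).2 (by rintro _ (rfl | rfl) <;> assumption)
  have k1 := h2 ▸ orderOf_dvd_natCard _ a
  have k2 := h3 ▸ orderOf_dvd_natCard _ b
  have k3 := h5 ▸ orderOf_dvd_natCard _ (mul_mem a b)
  have k4 := Grp.card_mul_relIndex le
  rw [Nat.card_congr e.toEquiv, card_alt5] at k4
  obtain ⟨k, hk⟩ : 30 ∣ Nat.card (closure {x, y}) := by omega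
  rw [hk, mul_assoc, show 60 = 30 * 2 from rfl, Nat.mul_right_inj (by norm_num)] at k4
  rcases (Nat.dvd_prime Nat.prime_two).1 (Dvd.intro_left _ k4) with h | h
  · exact le_antisymm le (relIndex_eq_one.1 h)
  rcases (normal_of_index_eq_two h).eq_bot_or_eq_top with k | k
  · rw [relIndex, k, index_bot, Nat.card_congr e.toEquiv, card_alt5] at h; omega
  · exact le_antisymm le (subgroupOf_eq_top.1 k)

theorem fin_check (hF : Fintype.card F = 11) (a c : F) (h : a * (1 - a) - (c + 3) * c = 1) :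
    ∃ u v d : F, u * u + v * v = 1 ∧ (d = 2 ∨ d = 6) ∧ u * a - v * c = (d + 3) * v ∧
      u * (c + 3) - v * (1 - a) = (d + 3) * u ∧ v * a + u * c = d * u + v ∧
      v * (c + 3) + u * (1 - a) = -(d * v) + u := by
  have k : ∀ a c : ZMod 11, a * (1 - a) - (c + 3) * c = 1 → ∃ u v d : ZMod 11, u * u + v * v = 1 ∧
      (d = 2 ∨ d = 6) ∧ u * a - v * c = (d + 3) * v ∧ u * (c + 3) - v * (1 - a) = (d + 3) * u ∧
      v * a + u * c = d * u + v ∧ v * (c + 3) + u * (1 - a) = -(d * v) + u := by decide +kernel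
  have : Fact (Nat.Prime 11) := ⟨by norm_num⟩
  have e := FiniteField.ringEquivOfCardEq (K := ZMod 11) (K' := F) (by rw [hF, ZMod.card])
  obtain ⟨a, rfl⟩ := e.surjective a
  obtain ⟨c, rfl⟩ := e.surjective c
  obtain ⟨u, v, d, h1, h2, h3, h4, h5, h6⟩ := k a c (e.injective (by simpa [map_ofNat] using h))
  exact ⟨e u, e v, e d, by simpa using congrArg e h1, h2.imp (fun h => by rw [h, map_ofNat])
    fun h => by rw [h, map_ofNat], by simpa [map_ofNat] using congrArg e h3,
    by simpa [map_ofNat] using congrArg e h4, by simpa using congrArg e h5,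
    by simpa [map_ofNat] using congrArg e h6⟩

theorem normal_form (hF : Fintype.card F = 11) {L : Subgroup PSL(2, F)}
    (e : L ≃* alternatingGroup (Fin 5)) : ∃ X Y : SL(2, F), (X : M₂).trace = 0 ∧
      (Y : M₂).trace = 1 ∧ ((X * Y : SL(2, F)) : M₂).trace = 3 ∧ closure {pr X, pr Y} = L := by
  have h11 : (11 : F) = 0 := by simpa [hF] using FiniteField.cast_card_eq_zero F
  have k : ∀ x y : alternatingGroup (Fin 5), orderOf x = 2 → orderOf y = 3 → orderOf (x * y) = 5 →
      ∀ Z : SL(2, F), pr Z = e.symm (x * y) → (Z : M₂).trace ^ 2 = 3 ^ 2 → ∃ X Y : SL(2, F),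
        (X : M₂).trace = 0 ∧ (Y : M₂).trace = 1 ∧ ((X * Y : SL(2, F)) : M₂).trace = 3 ∧
        closure {pr X, pr Y} = L := by
    intro x y h2 h3 h5 Z hZ ht
    rw [← e.symm.orderOf_eq, ← orderOf_coe] at h2 h3 h5
    rw [map_mul, coe_mul] at h5 hZ
    have hg := gen e (e.symm x).2 (e.symm y).2 h2 h3 h5
    obtain ⟨X, hX⟩ := pr_surjective (e.symm x : PSL(2, F))
    obtain ⟨Y, hY, y1⟩ : ∃ Y : SL(2, F), pr Y = e.symm y ∧ (Y : M₂).trace = 1 := by
      obtain ⟨Y, hY⟩ := pr_surjective (e.symm y : PSL(2, F))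
      have := (coeff_eq_zero (by norm_num) (hY ▸ h3) (step (step (pow_one' Y)))).2
      rcases sq_eq_sq_iff_eq_or_eq_neg.1 (show (Y : M₂).trace ^ 2 = 1 ^ 2 by
        linear_combination this) with h | h
      · exact ⟨Y, hY, h⟩
      · exact ⟨-Y, by rwa [pr_neg], by rw [SL_trace_neg, h, neg_neg]⟩
    have x0 := (coeff_eq_zero (by norm_num) (hX ▸ h2) (step (pow_one' X))).2
    rw [zero_add, mul_one] at x0
    rw [← hX, ← hY] at hg hZ
    rw [trace_sq_eq_of_isConj_pr (h := X * Y) (by rw [hZ, map_mul])] at ht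
    rcases sq_eq_sq_iff_eq_or_eq_neg.1 ht with h | h
    · exact ⟨X, Y, x0, y1, h, hg⟩
    · exact ⟨-X, Y, by rw [SL_trace_neg, x0, neg_zero], y1, by rw [neg_mul, SL_trace_neg, h, neg_neg],
        by rwa [pr_neg]⟩
  obtain ⟨x, y, x', y', h1, h2, h3, h4, h5, h6⟩ := pairs
  obtain ⟨Z, hZ⟩ := pr_surjective (e.symm (x * y) : PSL(2, F))
  have := (coeff_eq_zero (by norm_num) (show orderOf (pr Z) = 5 by
    rw [hZ, orderOf_coe, e.symm.orderOf_eq, h3]) (step (step (step (step (pow_one' Z)))))).2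
  rcases mul_eq_zero.1 (show ((Z : M₂).trace ^ 2 - 3 ^ 2) * ((Z : M₂).trace ^ 2 - 5) = 0 by
    linear_combination this + (4 - (Z : M₂).trace ^ 2) * h11) with h | h
  · exact k x y h1 h2 h3 Z hZ (sub_eq_zero.1 h)
  refine k x' y' h4 h5 (by rw [h6, ← sq, orderOf_pow, h3]; rfl) (Z * Z)
    (by rw [h6, map_mul, hZ, map_mul e.symm (x * y), coe_mul]) ?_
  rw [Matrix.SpecialLinearGroup.coe_mul, sq_eq_trace_smul, Z.det_coe]
  simp only [Matrix.trace_sub, Matrix.trace_smul, Matrix.trace_one, smul_eq_mul, Fintype.card_fin]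
  linear_combination ((Z : M₂).trace ^ 2 + 1) * h

theorem two_classes (hF : Fintype.card F = 11) : ∃ A B : Subgroup PSL(2, F),
    ∀ L : Subgroup PSL(2, F), Nonempty (L ≃* alternatingGroup (Fin 5)) →
      ∃ g : PSL(2, F), MulAut.conj g • L = A ∨ MulAut.conj g • L = B := by
  have h11 : (11 : F) = 0 := by simpa [hF] using FiniteField.cast_card_eq_zero F
  have h2 : (2 : F) ≠ 0 := two_ne_zero_of_odd_card (by rw [hF]; decide)
  let Y₀ : SL(2, F) := ⟨!![0, 2 + 3; 2, 1], by simp; linear_combination -h11⟩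
  let Y₁ : SL(2, F) := ⟨!![0, 6 + 3; 6, 1], by simp; linear_combination -5 * h11⟩
  refine ⟨closure {pr (cmp 0), pr Y₀}, closure {pr (cmp 0), pr Y₁}, fun L ⟨e⟩ => ?_⟩
  obtain ⟨X, Y, h1, h3, h4, rfl⟩ := normal_form hF e
  obtain ⟨g, hg⟩ := isConj_iff.1 (SL_isConj_of_trace' (h1.trans (trace_cmp 0).symm)
    (zero_sq_ne_four h2 h1))
  rw [SL_trace_eq_of_isConj (isConj_iff.2 ⟨g, rfl⟩)] at h3 h4
  rw [← conj_mul, hg] at h4
  obtain ⟨Z, hZ⟩ : ∃ Z, g * Y * g⁻¹ = Z := ⟨_, rfl⟩
  have hd := Z.det_coe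
  rw [hZ] at h3 h4
  rw [Matrix.det_fin_two] at hd
  simp [Matrix.trace_fin_two, Matrix.vecMul, dotProduct] at h3 h4
  have e1 : Z 0 1 = Z 1 0 + 3 := by linear_combination h4
  have e2 : Z 1 1 = 1 - Z 0 0 := by linear_combination h3
  obtain ⟨u, v, d, k1, k2, k3, k4, k5, k6⟩ := fin_check hF (Z 0 0) (Z 1 0) (by rwa [← e1, ← e2])
  let R : SL(2, F) := ⟨!![u, -v; v, u], by simp [k1]⟩
  have r1 : R * KSG.M2.cmp 0 * R⁻¹ = KSG.M2.cmp 0 := mul_inv_eq_iff_eq_mul.2 (by
    ext i j; simp only [Matrix.SpecialLinearGroup.coe_mul]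
    fin_cases i <;> fin_cases j <;> simp [R, Matrix.mul_apply])
  have r2 : R * Z * R⁻¹ = Y₀ ∨ R * Z * R⁻¹ = Y₁ := by
    refine k2.imp ?_ ?_ <;> rintro rfl <;> refine mul_inv_eq_iff_eq_mul.2 ?_ <;> ext i j <;>
      simp only [Matrix.SpecialLinearGroup.coe_mul] <;> fin_cases i <;> fin_cases j <;> simp [R, Y₀, Y₁, Matrix.mul_apply, e1, e2] <;>
      first | linear_combination k3 | linear_combination k4 | linear_combination k5 | linear_combination k6
  have r3 : MulAut.conj (pr (R * g)) • closure {pr X, pr Y} = closure {pr (cmp 0), pr (R * Z * R⁻¹)} := by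
    rw [smul_closure, Set.smul_set_insert, Set.smul_set_singleton, ← r1, ← hg, ← hZ]
    simp [mul_assoc]
  exact ⟨pr (R * g), r2.imp (fun h => by rw [r3, h]) fun h => by rw [r3, h]⟩

theorem normalizer_eq (hF : Fintype.card F = 11) {L : Subgroup PSL(2, F)}
    (e : L ≃* alternatingGroup (Fin 5)) : normalizer (L : Set PSL(2, F)) = L := by
  have := Matrix.ProjectiveSpecialLinearGroup.rank_two_simple (F := F)
    (by rw [Nat.card_eq_fintype_card]; omega)
  have h := isCoatom_of_alt5 (p := 11) (by norm_num) (two_ne_zero_of_odd_card (by rw [hF]; decide))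
    (by omega) (Or.inl hF) e
  refine (h.le_iff.1 le_normalizer).resolve_left (normalizer_ne_top (fun k => ?_) h.1)
  have := Nat.card_congr e.toEquiv
  rw [k, card_alt5, card_bot] at this
  omega

theorem not_conj (hF : Fintype.card F = 11) {H : Subgroup PSL(2, F)}
    (e : H ≃* alternatingGroup (Fin 5)) {b : PGL(2, F)} (hb : b ∉ pslSub F) (g : PSL(2, F)) :
    MulAut.conj g • H ≠ H.map (pglConj b).toMonoidHom := fun h => by
  let M := normalizer (H.map (pslTo F) : Set PGL(2, F))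
  have hc : Nat.card (H.map (pslTo F)) = 60 := by
    rw [card_map_of_injective pslTo_injective, Nat.card_congr e.toEquiv, card_alt5]
  have h1 : b⁻¹ * pslTo F g ∈ M := by
    refine mem_normalizer_fintype ?_
    rintro _ ⟨x, hx, rfl⟩
    obtain ⟨y, hy, k⟩ : g * x * g⁻¹ ∈ H.map (pglConj b).toMonoidHom :=
      h ▸ Grp.mem_conj_smul_iff.2 (by simpa [mul_assoc] using hx)
    have := congrArg (pslTo F) k
    rw [MulEquiv.coe_toMonoidHom, pslTo_pglConj, map_mul, map_mul, map_inv] at this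
    exact ⟨y, hy, by rw [mul_assoc b⁻¹, _root_.mul_inv_rev, mul_assoc b⁻¹, ← mul_assoc _ _ b⁻¹⁻¹, ← this]; group⟩
  have h2 := card_le_of_le (le_normalizer (H := H.map (pslTo F)))
  have ns : ¬ Group.IsSolvable M := fun k => S0810.not_solvable_alt5
    (Group.isSolvable_of_isSolvable_injective (f := ((inclusion le_normalizer).comp
      (H.equivMapOfInjective _ pslTo_injective).toMonoidHom).comp e.symm.toMonoidHom)
      (((inclusion_injective le_normalizer).comp (MulEquiv.injective _)).comp e.symm.injective))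
  let k := AlgebraicClosure F
  rcases dickson_PGL2 k M.subtype M.subtype_injective with
    ⟨x, hx⟩ | ⟨x, y, hxy, h⟩ | ⟨⟨i⟩⟩ | ⟨⟨i⟩⟩ | ⟨⟨i⟩⟩ | ⟨L, c, hL⟩
  · exact ns (isSolvable_of_fix _ M.subtype_injective hx)
  · obtain ⟨a, -, -, -, ha | ⟨⟨i⟩⟩⟩ := cyclic_or_dihedral_of_pair ((pmap (algebraMap F k)).comp
      M.subtype) ((pmap_injective _).comp M.subtype_injective) hxy h
    · exact ns (Group.isSolvable_of_comm
        (isCyclic_iff_exists_zpowers_eq_top.2 ⟨a, ha⟩).isMulCommutative.is_comm.comm)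
    · have := isSolvable_dihedralGroup (orderOf a)
      exact ns (isSolvable_of_mulEquiv i)
  · rw [Nat.card_congr i.toEquiv, card_alt4] at h2; omega
  · rw [Nat.card_congr i.toEquiv, card_sym4] at h2; omega
  · obtain ⟨x, -, hx⟩ : _ ∈ H.map (pslTo F) := (eq_of_le_of_card_ge le_normalizer (by
      rw [Nat.card_congr i.toEquiv, card_alt5, hc])).ge h1
    exact hb (inv_mem_iff.1 ((mul_mem_cancel_right (pslTo_mem_pslSub g)).1 ⟨x, hx⟩))
  rw [range_subtype] at hL
  rcases subfield_top_or (M := M.comap (pslTo F)) (L := L) (h := c) (by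
    rw [map_comap_eq]
    refine le_inf (map_conj_le_pslSub (pslOf_le_pslSub _) _) ?_
    rcases hL with h | ⟨-, h⟩
    exacts [h ▸ map_mono (pslOf_le_pglOf _), h.ge]) with h | ⟨m, hm, h⟩
  · have : H = ⊤ := (normalizer_eq hF e).symm.trans (eq_top_iff.2 fun g _ =>
      mem_normalizer_fintype fun x hx => (mem_map_iff_mem pslTo_injective).1 (by
        rw [map_mul, map_mul, map_inv]
        exact (mem_normalizer_iff.1 (show g ∈ M.comap (pslTo F) from h ▸ mem_top g) _).1 ⟨x, hx, rfl⟩))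
    have k := Nat.card_congr e.toEquiv
    rw [this, card_top, card_PSL_eq (n := 660) hF (by norm_num), card_alt5] at k
    omega
  · exact Nat.Prime.not_prime_pow hm (h.trans hF ▸ (by norm_num : Nat.Prime 11))

theorem ncard_orbit (hF : Fintype.card F = 11) {L : Subgroup PSL(2, F)}
    (e : L ≃* alternatingGroup (Fin 5)) :
    (Set.range fun g : PSL(2, F) => MulAut.conj g • L).ncard = 11 := by
  let _ : MulAction PSL(2, F) (Subgroup PSL(2, F)) := MulAction.compHom _ MulAut.conj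
  have := L.card_mul_index
  rw [Nat.card_congr e.toEquiv, card_alt5, card_PSL_eq (n := 660) hF (by norm_num)] at this
  have k := index_stabilizer PSL(2, F) L
  rw [show stabilizer PSL(2, F) L = L from (Subgroup.ext fun g =>
    Grp.conj_smul_eq_iff_mem_normalizer).trans (normalizer_eq hF e)] at k
  exact k.symm.trans (by omega)

end

open Subgroup Cfsg.Agent.Class.Dickson MatrixGroups Pointwise in
/-- Let F be a field with 11 elements. PSL_2(F) has exactly 22 subgroups isomorphic to the alternating group A_5, and they form two conjugacy classes: there are two such subgroups that are not conjugate, and every such subgroup is conjugate to one of these two. -/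
theorem result {F : Type*} [Field F] [Fintype F] (hF : Fintype.card F = 11) : Nat.card {H : Subgroup (Matrix.ProjectiveSpecialLinearGroup (Fin 2) F) // Nonempty (H ≃* alternatingGroup (Fin 5))} = 22 ∧ ∃ H K : Subgroup (Matrix.ProjectiveSpecialLinearGroup (Fin 2) F), Nonempty (H ≃* alternatingGroup (Fin 5)) ∧ Nonempty (K ≃* alternatingGroup (Fin 5)) ∧ (∀ g : Matrix.ProjectiveSpecialLinearGroup (Fin 2) F, MulAut.conj g • H ≠ K) ∧ ∀ L : Subgroup (Matrix.ProjectiveSpecialLinearGroup (Fin 2) F), Nonempty (L ≃* alternatingGroup (Fin 5)) → ∃ g : Matrix.ProjectiveSpecialLinearGroup (Fin 2) F, MulAut.conj g • L = H ∨ MulAut.conj g • L = K := by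
  obtain ⟨H, ⟨e⟩⟩ := (S0804.result hF).2 (by norm_num)
  obtain ⟨b, hb⟩ : ∃ b, b ∉ pslSub F := by
    by_contra! h
    have := index_pslSub (F := F) (two_ne_zero_of_odd_card (by rw [hF]; decide))
    rw [(eq_top_iff' _).2 h, index_top] at this
    omega
  have e' : H.map (pglConj b).toMonoidHom ≃* _ := ((pglConj b).subgroupMap H).symm.trans e
  have h1 := not_conj hF e hb
  generalize H.map (pglConj b).toMonoidHom = K at *
  have sy : ∀ {g : PSL(2, F)} {A B : Subgroup PSL(2, F)}, MulAut.conj g • A = B →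
      MulAut.conj g⁻¹ • B = A := by rintro g A _ rfl; rw [map_inv, inv_smul_smul]
  have tr : ∀ {g h : PSL(2, F)} {A B C : Subgroup PSL(2, F)}, MulAut.conj g • A = C →
      MulAut.conj h • B = C → MulAut.conj (h⁻¹ * g) • A = B := fun h1 h2 => by
    rw [map_mul, mul_smul, h1, sy h2]
  have h2 : ∀ L : Subgroup PSL(2, F), Nonempty (L ≃* alternatingGroup (Fin 5)) →
      ∃ g : PSL(2, F), MulAut.conj g • L = H ∨ MulAut.conj g • L = K := fun L hL => by
    obtain ⟨A, B, h⟩ := two_classes hF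
    obtain ⟨g, a | a⟩ := h H ⟨e⟩ <;> obtain ⟨k, b | b⟩ := h K ⟨e'⟩ <;> obtain ⟨l, c | c⟩ := h L hL <;>
      first | exact (h1 _ (tr a b)).elim | exact ⟨_, Or.inl (tr c a)⟩ | exact ⟨_, Or.inr (tr c b)⟩
  refine ⟨?_, H, K, ⟨e⟩, ⟨e'⟩, h1, h2⟩
  have k : {L : Subgroup PSL(2, F) | Nonempty (L ≃* alternatingGroup (Fin 5))} =
      (Set.range fun g : PSL(2, F) => MulAut.conj g • H) ∪
        Set.range fun g : PSL(2, F) => MulAut.conj g • K := Set.ext fun L => ⟨fun hL => by
      obtain ⟨g, h⟩ := h2 L hL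
      exact h.imp (fun h => ⟨_, sy h⟩) fun h => ⟨_, sy h⟩, by
    rintro (⟨g, rfl⟩ | ⟨g, rfl⟩)
    exacts [⟨((MulAut.conj g).subgroupMap H).symm.trans e⟩,
      ⟨((MulAut.conj g).subgroupMap K).symm.trans e'⟩]⟩
  refine (Nat.card_coe_set_eq {L : Subgroup PSL(2, F) | Nonempty (L ≃* alternatingGroup (Fin 5))}).trans ?_
  rw [k, Set.ncard_union_eq (Set.disjoint_left.2 (by rintro _ ⟨g, rfl⟩ ⟨h, k⟩; exact h1 _ (tr rfl k))),
    ncard_orbit hF e, ncard_orbit hF e']

end Cfsg.Agent.S2543
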