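import Cfsg.Statements.S2544
import Mathlib
import Cfsg.Agent.KSG.GLUnip
import Cfsg.Agent.Char.Quot
import Cfsg.Agent.Char.DefectZero
import Cfsg.Agent.Class.LinearBasic

set_option autoImplicit false
open Cfsg

namespace Cfsg.Agent.S2544

open KSG KSG.GLn Char

/-- Let F be a finite field of characteristic p and consider the projective special linear group PSL_n(F) with n ≥ 2. This group has an irreducible complex character χ whose degree equals the order of a Sylow p-subgroup (namely q^(n(n−1)/2) when #F = q) and whose restriction to any Sylow p-subgroup P is the regular character of P: χ vanishes on the non-identity elements of P. (This is the Steinberg character.) -/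
theorem result {F : Type*} [Field F] [Fintype F] (p : ℕ) [Fact p.Prime] [CharP F p] (n : ℕ) (hn : 2 ≤ n) : ∃ χ : Matrix.ProjectiveSpecialLinearGroup (Fin n) F → ℂ, Cfsg.IsIrrCharacter (Matrix.ProjectiveSpecialLinearGroup (Fin n) F) χ ∧ ∀ P : Sylow p (Matrix.ProjectiveSpecialLinearGroup (Fin n) F), χ 1 = Nat.card P ∧ ∀ x : Matrix.ProjectiveSpecialLinearGroup (Fin n) F, x ∈ P → x ≠ 1 → χ x = 0 := by
  classical
  have hp : p.Prime := Fact.out
  have : Nonempty (Fin n) := ⟨⟨0, by omega⟩⟩
  have hirr := isIrr_unip_SL (F := F) (ν := fun _ : Fin n => 1) (by omega) monotone_const (by simp)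
  obtain ⟨ψ, hψ⟩ := exists_irr_deflation
    (Subgroup.center (Matrix.SpecialLinearGroup (Fin n) F)) hirr (by
      intro z hz
      obtain ⟨r, -, hr⟩ := Matrix.SpecialLinearGroup.mem_center_iff.1 hz
      rw [map_one]
      refine unip_of_mem_center _ (Subgroup.mem_center_iff.2 fun g => Units.ext ?_) fun i j h => ?_
      · simp only [Units.val_mul, Matrix.SpecialLinearGroup.coe_GL_coe_matrix, ← hr]
        exact (Matrix.scalar_commute r (fun _ => Commute.all _ _) _).eq.symm
      · simp only [Matrix.SpecialLinearGroup.coe_GL_coe_matrix, ← hr, Matrix.scalar_apply]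
        exact Matrix.diagonal_apply_ne _ h.ne')
  obtain ⟨k, -, hk⟩ := FiniteField.card F p
  have hdeg : ψ.1 1 = ((Fintype.card F ^ n.choose 2 : ℕ) : ℂ) := by
    have := hψ 1
    rw [map_one, unip_one_one] at this
    exact_mod_cast this
  have hq : 1 < Fintype.card F := Fintype.one_lt_card
  have hpq : p ∣ Fintype.card F := hk ▸ dvd_pow_self p k.ne_zero
  have hq1 : ¬ p ∣ Fintype.card F - 1 := fun h => by
    have := Nat.dvd_sub hpq h
    rw [Nat.sub_sub_self hq.le] at this
    exact hp.one_lt.ne' (Nat.dvd_one.1 this)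
  have hcard : (Fintype.card F - 1) * Nat.gcd n (Fintype.card F - 1) *
      Nat.card (Matrix.ProjectiveSpecialLinearGroup (Fin n) F) = Fintype.card F ^ n.choose 2 *
        ((Fintype.card F - 1) ^ n * qf (Fintype.card F) n) := by
    have h1 := Class.gcd_mul_card_PSL (ι := Fin n) (F := F)
    have h2 := Class.card_units_mul_card_SL (ι := Fin n) (R := F)
    rw [card_GL_eq, Nat.card_units, Nat.card_fin, ← h1, Fintype.card_fin,
      Nat.card_eq_fintype_card (α := F)] at h2
    rw [← mul_assoc, ← h2, mul_assoc]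
  have hr : ¬ p ∣ (Fintype.card F - 1) ^ n * qf (Fintype.card F) n := by
    rw [hp.dvd_mul, not_or]
    refine ⟨fun h => hq1 (hp.dvd_of_dvd_pow h), ?_⟩
    rw [qf, hp.prime.dvd_finsetProd_iff]
    rintro ⟨j, -, h⟩
    rw [qi, Finset.sum_range_succ', pow_zero, Nat.dvd_add_right
      (Finset.dvd_sum fun i _ => dvd_pow hpq i.succ_ne_zero)] at h
    exact hp.one_lt.ne' (Nat.dvd_one.1 h)
  have ha : ¬ p ∣ (Fintype.card F - 1) * Nat.gcd n (Fintype.card F - 1) := by
    rw [hp.dvd_mul, not_or]
    exact ⟨hq1, fun h => hq1 (h.trans (Nat.gcd_dvd_right _ _))⟩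
  have hfac : (Nat.card (Matrix.ProjectiveSpecialLinearGroup (Fin n) F)).factorization p =
      k * n.choose 2 := by
    have := congrArg (fun m => m.factorization p) hcard
    rw [Nat.factorization_mul (by rintro h; simp [h] at ha) Nat.card_pos.ne',
      Nat.factorization_mul (pow_ne_zero _ (by omega)) (by rintro h; simp [h] at hr),
      Finsupp.add_apply, Finsupp.add_apply, Nat.factorization_eq_zero_of_not_dvd ha,
      Nat.factorization_eq_zero_of_not_dvd hr, hk, ← pow_mul, hp.factorization_pow] at this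
    simpa using this
  refine ⟨ψ, ψ.2, fun P => ⟨?_, fun x hx hx1 => ?_⟩⟩
  · rw [hdeg, P.card_eq_multiplicity, hfac, hk, pow_mul]
  · refine ψ.2.eq_zero_of_pow_dvd (n := k * n.choose 2) hp hdeg ?_ (by rw [hk, pow_mul]) ?_
    · rw [← hfac]
      exact Nat.pow_succ_factorization_not_dvd Nat.card_pos.ne' hp
    · obtain ⟨m, hm⟩ := IsPGroup.iff_orderOf.1 P.isPGroup' ⟨x, hx⟩
      rw [Subgroup.orderOf_mk] at hm
      rw [hm]
      refine dvd_pow_self p ?_
      rintro rfl
      exact hx1 (by simpa using hm)

end Cfsg.Agent.S2544
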