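import Cfsg.Statements.S2548
import Mathlib
import Cfsg.Agent.KSG.SplitO
import Cfsg.Agent.Class.LowDim.Omega4Plus
import Cfsg.Agent.Class.FieldTransport
import Cfsg.Agent.Class.SL2Sylow
import Cfsg.Agent.Class.LinearBasic

set_option autoImplicit false
open Cfsg

namespace Cfsg.Agent.S2548

open KSG Char Class Class.Orth Class.LowDim MatrixGroups Matrix.SpecialLinearGroup

theorem exists_steinberg_of_surjective {p : ℕ} [hp : Fact p.Prime] {G A : Type*} [Group G]
    [Group A] [Finite G] (ψ : G →* A) (hψ : Function.Surjective ψ)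
    (hc : (Nat.card G).factorization p ≤ (Nat.card A).factorization p)
    (h : ∃ χ : A → ℂ, IsIrrCharacter A χ ∧ ∀ P : Sylow p A,
      χ 1 = Nat.card P ∧ ∀ x : A, x ∈ P → x ≠ 1 → χ x = 0) :
    ∃ χ : G → ℂ, IsIrrCharacter G χ ∧ ∀ P : Sylow p G,
      χ 1 = Nat.card P ∧ ∀ x : G, x ∈ P → x ≠ 1 → χ x = 0 := by
  obtain ⟨χ, hχ, H⟩ := h
  have : Finite A := Finite.of_surjective ψ hψ
  have h1 := le_antisymm hc ((Nat.factorization_le_iff_dvd Nat.card_pos.ne' Nat.card_pos.ne').2
    (Subgroup.card_dvd_of_surjective ψ hψ) p)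
  have h2 : χ (ψ 1) = ((p ^ (Nat.card G).factorization p : ℕ) : ℂ) := by
    rw [map_one, (H default).1, Sylow.card_eq_multiplicity, h1]
  refine ⟨_, hχ.comp_surjective ψ hψ, fun P => ⟨by rw [P.card_eq_multiplicity]; exact h2,
    fun x hx hx1 => (hχ.comp_surjective ψ hψ).eq_zero_of_pow_dvd hp.out h2
      (Nat.pow_succ_factorization_not_dvd Nat.card_pos.ne' hp.out) dvd_rfl ?_⟩⟩
  obtain ⟨m, hm⟩ := IsPGroup.iff_orderOf.1 P.isPGroup' ⟨x, hx⟩
  rw [Subgroup.orderOf_mk] at hm
  rw [hm]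
  refine dvd_pow_self p ?_
  rintro rfl
  exact hx1 (by simpa using hm)

/-- The action on the non-singular vectors. -/
noncomputable def act : OG (plusQF 2 (ZMod 2)) →*
    Equiv.Perm {v : Fin 2 ⊕ Fin 2 → ZMod 2 // quadFormPlus 2 (ZMod 2) v ≠ 0} :=
  MonoidHom.mk' (fun g => Equiv.Perm.subtypePerm g.1.toEquiv fun v => by
    rw [← plusQF_apply, ← plusQF_apply, ← OG.map_Q g v]; rfl) fun _ _ => rfl

theorem sign_act :
    Equiv.Perm.sign (act (phi4 (ZMod 2) (transvection zero_ne_one 1, 1))) = -1 := by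
  rw [Equiv.Perm.sign_of_pow_two_eq_one (by
    rw [← map_pow, ← map_pow, show ((transvection zero_ne_one 1, 1) :
      SL(2, ZMod 2) × SL(2, ZMod 2)) ^ 2 = 1 from by decide, map_one, map_one]),
    show Fintype.card {v : Fin 2 ⊕ Fin 2 → ZMod 2 // quadFormPlus 2 (ZMod 2) v ≠ 0} = 6 from by
      decide, Fintype.card_eq_zero_iff.2 ⟨?_⟩]
  · rfl
  rintro ⟨⟨v, hv⟩, h⟩
  have h1 := chart4_phi4 (transvection zero_ne_one (1 : ZMod 2), 1) v
  rw [show (phi4 (ZMod 2) (transvection zero_ne_one 1, 1)).1 v = v from congrArg Subtype.val h]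
    at h1
  revert v
  decide

theorem result_two : ∃ χ : POmega (ZMod 2) (quadFormPlus 2 (ZMod 2)) → ℂ,
    IsIrrCharacter _ χ ∧ ∀ P : Sylow 2 (POmega (ZMod 2) (quadFormPlus 2 (ZMod 2))),
      χ 1 = Nat.card P ∧ ∀ x, x ∈ P → x ≠ 1 → χ x = 0 := by
  let S := (commutator (OG (plusQF 2 (ZMod 2)))).comap (phi4 (ZMod 2))
  have hinj : Function.Injective (phi4 (ZMod 2)) := (injective_iff_map_eq_one _).2 fun g hg => by
    obtain ⟨h1, h2⟩ := (mem_ker_phi4 g).1 hg
    obtain ⟨r, hr, e⟩ := mem_center_iff.1 h2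
    have h3 : g.1 = 1 := Subtype.ext (by
      rw [← e, show r = 1 from by clear e; revert r; decide]; simp)
    exact Prod.ext h3 (h1 ▸ h3)
  have hle : commutator (OG (plusQF 2 (ZMod 2))) ≤ (phi4 (ZMod 2)).range := by
    rw [range_phi4_eq_EG]
    exact (nd_plusQF 2 _).commutator_le_EG isHyp4 (by simp)
  let e : S ≃* commutator (OG (plusQF 2 (ZMod 2))) := (S.equivMapOfInjective _ hinj).trans
    (MulEquiv.subgroupCongr (Subgroup.map_comap_eq_self hle))
  refine exists_steinberg_congr ((pOmegaCongr (plusEquiv 2 (ZMod 2))).trans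
    (Orth.quotCenterCongr e.symm)) ?_
  let ψ : S →* SL(2, ZMod 2) := (MonoidHom.fst _ _).comp S.subtype
  have key : ∀ {u v : Fin 2 ⊕ Fin 2 → ZMod 2}, quadFormPlus 2 (ZMod 2) u = 0 →
      QuadraticMap.polar (plusQF 2 (ZMod 2)) u v = 0 → quadFormPlus 2 (ZMod 2) v ≠ 0 →
      eichler (plusQF 2 (ZMod 2)) u v ∈ commutator (OG (plusQF 2 (ZMod 2))) := by
    intro u v h1 h2 h3
    obtain ⟨t, ht⟩ := (nd_plusQF 2 _).eichler_eq_commutatorElement
      ((plusQF_apply _ _ _).trans h1) h2 (by rwa [plusQF_apply])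
    rw [ht]
    exact Subgroup.commutator_mem_commutator (Subgroup.mem_top _) (Subgroup.mem_top _)
  have hψ : Function.Surjective ψ := MonoidHom.range_eq_top.1 (SL_eq_top_of_transvection_mem _
    fun i j hij c => by
      rcases (show c = 0 ∨ c = 1 by revert c; decide) with rfl | rfl
      · rw [transvection_coeff_zero]; exact one_mem _
      fin_cases i <;> fin_cases j
      · exact absurd rfl hij
      · exact ⟨⟨_, show phi4 _ _ ∈ _ from phi4_e (1 : ZMod 2) 1 ▸ key (by decide)
          (by rw [polar_plusQF]; decide) (by decide)⟩, rfl⟩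
      · exact ⟨⟨_, show phi4 _ _ ∈ _ from phi4_f (1 : ZMod 2) 1 ▸ key (by decide)
          (by rw [polar_plusQF]; decide) (by decide)⟩, rfl⟩
      · exact absurd rfl hij)
  have hA : Nat.card SL(2, ZMod 2) = 6 := by rw [card_SL2]; simp
  refine exists_steinberg_of_surjective (QuotientGroup.map _ _ ψ
    fun z hz => Subgroup.mem_center_iff.2 fun g => by
      obtain ⟨g, rfl⟩ := hψ g
      rw [← map_mul, ← map_mul, Subgroup.mem_center_iff.1 hz g])
    (QuotientGroup.map_surjective_of_surjective _ _ _ (QuotientGroup.mk_surjective.comp hψ) _)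
    ?_ (hasSp_SL 2 1).exists_steinberg
  obtain ⟨χ, g, hg⟩ : ∃ χ : OG (plusQF 2 (ZMod 2)) →* ℤˣ,
    ∃ g, χ (phi4 (ZMod 2) g) = -1 := ⟨Equiv.Perm.sign.comp act, (transvection zero_ne_one 1, 1),
      by rw [MonoidHom.comp_apply, sign_act]⟩
  have h1 : Nat.card S ∣ Nat.card (χ.comp (phi4 (ZMod 2))).ker :=
    Subgroup.card_dvd_of_le fun g hg => Abelianization.commutator_subset_ker χ hg
  have h2 := (χ.comp (phi4 (ZMod 2))).ker.card_mul_index
  rw [Subgroup.index_ker, MonoidHom.range_eq_top.2 (fun u => by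
      rcases Int.units_eq_one_or u with rfl | rfl
      exacts [⟨1, map_one _⟩, ⟨g, hg⟩]), Subgroup.card_top, Nat.card_prod, hA,
    Nat.card_eq_fintype_card (α := ℤˣ), Fintype.card_units_int] at h2
  rw [show Nat.card (χ.comp (phi4 (ZMod 2))).ker = 18 by omega] at h1
  have h3 : ¬ 2 ^ 2 ∣ Nat.card (S ⧸ Subgroup.center S) := fun h => by
    have := h.trans ((Subgroup.card_quotient_dvd_card _).trans h1)
    omega
  rw [Nat.prime_two.pow_dvd_iff_le_factorization Nat.card_pos.ne'] at h3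
  refine le_trans (by omega) (Nat.prime_two.factorization_pos_of_dvd Nat.card_pos.ne' ?_)
  have h4 := Subgroup.card_eq_card_quotient_mul_card_subgroup (Subgroup.center SL(2, ZMod 2))
  rw [hA] at h4
  exact (Nat.prime_two.dvd_mul.1 (h4 ▸ by norm_num)).resolve_right
    (not_dvd_card_center (GLn.slSplit 1 (ZMod 2) 2).toSplit0)


/-- Let F be a finite field of characteristic p and consider the group PΩ⁺_{2m}(F) of the hyperbolic quadratic form Σ x_i y_i with m ≥ 1, where Ω denotes the commutator subgroup of the full isometry group. This group has an irreducible complex character χ whose degree equals the order of a Sylow p-subgroup (equal to q^(m(m−1)) when #F = q, except in the degenerate case m = 2, q = 2, where this commutator subgroup has order 18 and its Sylow 2-subgroups have order 2) and whose restriction to any Sylow p-subgroup P is the regular character of P: χ vanishes on the non-identity elements of P. (This is the Steinberg character.) -/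
theorem result {F : Type*} [Field F] [Fintype F] (p : ℕ) [Fact p.Prime] [CharP F p] (m : ℕ) (hm : 1 ≤ m) : ∃ χ : Cfsg.POmega F (Cfsg.quadFormPlus m F) → ℂ, Cfsg.IsIrrCharacter (Cfsg.POmega F (Cfsg.quadFormPlus m F)) χ ∧ ∀ P : Sylow p (Cfsg.POmega F (Cfsg.quadFormPlus m F)), χ 1 = Nat.card P ∧ ∀ x : Cfsg.POmega F (Cfsg.quadFormPlus m F), x ∈ P → x ≠ 1 → χ x = 0 := by
  by_cases h : Nat.card F ≠ 2 ∨ m ≠ 2
  · exact (hasSp_Omega_plus p hm h).exists_steinberg
  push Not at h
  obtain ⟨h, rfl⟩ := h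
  rw [Nat.card_eq_fintype_card] at h
  obtain rfl : p = 2 := by
    obtain ⟨k, hp, hk⟩ := FiniteField.card F p
    exact (Nat.prime_dvd_prime_iff_eq hp Nat.prime_two).1 (h ▸ hk ▸ dvd_pow_self p k.ne_zero)
  exact exists_steinberg_congr
    (pomegaCongr (ringEquivZMod h) _ _ (quadFormPlus_comp _ 2)) result_two

end Cfsg.Agent.S2548
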