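import Cfsg.Statements.S2552
import Mathlib
import Cfsg.Agent.Class.GLStab

set_option autoImplicit false
open Cfsg

namespace Cfsg.Agent.S2552

/-- Let F be a finite field and n ≥ 1. For every k, the special linear group SL_n(F) acts transitively on the set of k-dimensional subspaces of F^n: any two subspaces of the same dimension are carried onto each other by some matrix of determinant 1. -/
theorem result {F : Type*} [Field F] [Fintype F] (n : ℕ) (hn : 1 ≤ n) (U₁ U₂ : Submodule F (Fin n → F)) (h : Module.finrank F U₁ = Module.finrank F U₂) : ∃ g : Matrix.SpecialLinearGroup (Fin n) F, U₁.map ((Matrix.SpecialLinearGroup.toLin' g : (Fin n → F) ≃ₗ[F] (Fin n → F)) : (Fin n → F) →ₗ[F] (Fin n → F)) = U₂ := by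
  classical
  obtain ⟨e, he⟩ := Submodule.exists_linearEquiv_restrict_eq (LinearEquiv.ofFinrankEq U₁ U₂ h)
  by_cases h0 : U₂ = ⊥
  · subst h0
    have : U₁ = ⊥ := Submodule.finrank_eq_zero.1 (by simpa using h)
    exact ⟨1, by simp [this]⟩
  obtain ⟨u, hu, hu0⟩ := (Submodule.ne_bot_iff U₂).1 h0
  let A : Matrix (Fin n) (Fin n) F := LinearMap.toMatrix' e.toLinearMap
  have hA : ∀ v, A.mulVec v = e v := fun v => by
    rw [← Matrix.toLin'_apply, Matrix.toLin'_toMatrix']; rfl
  have hd : A.det ≠ 0 := by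
    rw [LinearMap.det_toMatrix']; exact (LinearEquiv.isUnit_det' e).ne_zero
  obtain ⟨w, -, hw⟩ := Class.GLStab.exists_dot_eq_of_notMem (⊥ : Submodule F (Fin n → F)) (u := u)
    (by simpa using hu0) (A.det⁻¹ - 1)
  refine ⟨⟨(1 + Matrix.vecMulVec u w) * A, by
    rw [Matrix.det_mul, Class.GLStab.det_one_add_vecMulVec, hw, add_sub_cancel, inv_mul_cancel₀ hd]⟩, ?_⟩
  apply Submodule.eq_of_le_of_finrank_eq
  · rintro _ ⟨v, hv, rfl⟩
    change ((1 + Matrix.vecMulVec u w) * A).mulVec v ∈ U₂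
    rw [← Matrix.mulVec_mulVec, Class.GLStab.one_add_vecMulVec_mulVec, hA, ← he ⟨v, hv⟩]
    exact U₂.add_mem (Subtype.property _) (U₂.smul_mem _ hu)
  · rw [LinearEquiv.finrank_map_eq, h]

end Cfsg.Agent.S2552
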