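import Cfsg.Statements.S2561
import Cfsg.Agent.Class.Orth.TypeCount
import Cfsg.Agent.Class.Orth.Levi

set_option autoImplicit false
open Cfsg

namespace Cfsg.Agent.S2561

/-- Fix the non-singular alternating form on the 2m-dimensional space over the field of two elements obtained by polarizing the plus-type form Σ xᵢyᵢ (m ≥ 1). The functions q on the space with q(u + v) = q(u) + q(v) + f(u, v) (the quadratic forms polarizing to f) number 2^(2m); each is equivalent under an invertible linear map either to the plus-type form or to the minus-type form Σ xᵢyᵢ + (z₁² + z₁z₂ + z₂²); and those of plus type number 2^(2m−1) + 2^(m−1), those of minus type 2^(2m−1) − 2^(m−1). -/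
theorem result (m : ℕ) (hm : 1 ≤ m) :
    Nat.card {q : (Fin m ⊕ Fin m → ZMod 2) → ZMod 2 // (∀ u v : (Fin m ⊕ Fin m → ZMod 2), q (u + v) = q u + q v + (Cfsg.quadFormPlus m (ZMod 2) (u + v) - Cfsg.quadFormPlus m (ZMod 2) u - Cfsg.quadFormPlus m (ZMod 2) v))} = 2 ^ (2 * m) ∧
    (∀ q : (Fin m ⊕ Fin m → ZMod 2) → ZMod 2, (∀ u v : (Fin m ⊕ Fin m → ZMod 2), q (u + v) = q u + q v + (Cfsg.quadFormPlus m (ZMod 2) (u + v) - Cfsg.quadFormPlus m (ZMod 2) u - Cfsg.quadFormPlus m (ZMod 2) v)) →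
      (∃ g : (Fin m ⊕ Fin m → ZMod 2) ≃ₗ[ZMod 2] (Fin m ⊕ Fin m → ZMod 2), ∀ v, q v = Cfsg.quadFormPlus m (ZMod 2) (g v)) ∨
      (∃ g : (Fin m ⊕ Fin m → ZMod 2) ≃ₗ[ZMod 2] ((Fin (m - 1) ⊕ Fin (m - 1)) ⊕ Fin 2 → ZMod 2), ∀ v, q v = Cfsg.quadFormMinus (m - 1) (ZMod 2) 1 1 (g v))) ∧
    Nat.card {q : (Fin m ⊕ Fin m → ZMod 2) → ZMod 2 // (∀ u v : (Fin m ⊕ Fin m → ZMod 2), q (u + v) = q u + q v + (Cfsg.quadFormPlus m (ZMod 2) (u + v) - Cfsg.quadFormPlus m (ZMod 2) u - Cfsg.quadFormPlus m (ZMod 2) v)) ∧ ∃ g : (Fin m ⊕ Fin m → ZMod 2) ≃ₗ[ZMod 2] (Fin m ⊕ Fin m → ZMod 2), ∀ v, q v = Cfsg.quadFormPlus m (ZMod 2) (g v)} = 2 ^ (2 * m - 1) + 2 ^ (m - 1) ∧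
    Nat.card {q : (Fin m ⊕ Fin m → ZMod 2) → ZMod 2 // (∀ u v : (Fin m ⊕ Fin m → ZMod 2), q (u + v) = q u + q v + (Cfsg.quadFormPlus m (ZMod 2) (u + v) - Cfsg.quadFormPlus m (ZMod 2) u - Cfsg.quadFormPlus m (ZMod 2) v)) ∧ ∃ g : (Fin m ⊕ Fin m → ZMod 2) ≃ₗ[ZMod 2] ((Fin (m - 1) ⊕ Fin (m - 1)) ⊕ Fin 2 → ZMod 2), ∀ v, q v = Cfsg.quadFormMinus (m - 1) (ZMod 2) 1 1 (g v)} = 2 ^ (2 * m - 1) - 2 ^ (m - 1) := by
  classical
  have hQ := Class.Orth.nd_plusQF m (ZMod 2)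
  have hab : ∀ z₁ z₂ : ZMod 2, z₁ ^ 2 + 1 * z₁ * z₂ + 1 * z₂ ^ 2 = 0 → z₁ = 0 ∧ z₂ = 0 := by decide
  have hd : Module.finrank (ZMod 2) (Fin m ⊕ Fin m → ZMod 2) = 2 * m :=
    Class.Orth.finrank_plus_space
  have hcard : Nat.card (Fin m ⊕ Fin m → ZMod 2) = 2 ^ (2 * m) := by simp [two_mul]
  have hminus : ∀ w, (∃ g : (Fin m ⊕ Fin m → ZMod 2) ≃ₗ[ZMod 2]
      ((Fin (m - 1) ⊕ Fin (m - 1)) ⊕ Fin 2 → ZMod 2), ∀ v,
        Class.Orth.twist (Class.Orth.plusQF m (ZMod 2))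
          (QuadraticMap.polarBilin (Class.Orth.plusQF m (ZMod 2)) w) v =
          quadFormMinus (m - 1) (ZMod 2) 1 1 (g v)) ↔ ¬ Class.Orth.plusQF m (ZMod 2) w = 0 := by
    intro w
    rw [← hQ.equiv_twist_iff hd w]
    constructor
    · rintro ⟨g, hg⟩ ⟨g', hg'⟩
      exact Class.QF.not_isPlus_of_equiv_minus hab g (fun v => (hg v).symm)
        (Class.QF.isPlus_of_equiv_plus g' fun v => by rw [hg', Class.Orth.plusQF_apply])
    · intro h
      obtain ⟨g, hg⟩ := Class.QF.exists_equiv_minus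
        ((Class.Orth.nd_iff _).1 (hQ.twist rfl (QuadraticMap.polarBilin _ w))) (fun hp => by
          obtain ⟨e, he⟩ := (hQ.twist rfl _).exists_equiv_plusQF hp hd
          exact h ⟨e, fun v => (he v).symm⟩) (k := m - 1) (by omega) hab
      exact ⟨g, fun v => (hg v).symm⟩
  have hN : Nat.card {w // Class.Orth.plusQF m (ZMod 2) w = 0} = 2 ^ (2 * m - 1) + 2 ^ (m - 1) := by
    have := hQ.card_singular_of_isPlus (Class.Orth.isPlus_plusQF m) hd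
    obtain ⟨k, rfl⟩ : ∃ k, m = k + 1 := ⟨m - 1, by omega⟩
    rw [Nat.card_zmod] at this
    rw [show 2 * (k + 1) - 1 = 2 * k + 1 by omega, Nat.add_sub_cancel]
    zify
    push_cast at this
    have e : (2 : ℤ) ^ (2 * (k + 1)) + 2 ^ (k + 1) * (2 - 1) = 2 * (2 ^ (2 * k + 1) + 2 ^ k) := by
      ring
    omega
  simp only [← Class.Orth.plusQF_apply]
  refine ⟨?_, fun q hq => ?_, ?_, ?_⟩
  · have := hQ.card_forms (fun _ => True)
    simp only [and_true] at this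
    rw [this, ← hcard]
    exact Nat.card_congr (Equiv.subtypeUnivEquiv fun _ => trivial)
  · obtain ⟨w, rfl⟩ := hQ.exists_eq_twist q hq
    rw [hminus, hQ.equiv_twist_iff hd]
    exact em _
  · rw [hQ.card_forms, ← hN]
    exact Nat.card_congr (Equiv.subtypeEquivRight fun w => hQ.equiv_twist_iff hd w)
  · rw [hQ.card_forms, Nat.card_congr (Equiv.subtypeEquivRight hminus)]
    have := Nat.card_congr (Equiv.sumCompl fun w => Class.Orth.plusQF m (ZMod 2) w = 0)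
    rw [Nat.card_sum, hN, hcard] at this
    obtain ⟨k, rfl⟩ : ∃ k, m = k + 1 := ⟨m - 1, by omega⟩
    rw [show 2 * (k + 1) - 1 = 2 * k + 1 by omega, Nat.add_sub_cancel] at *
    have e : 2 ^ (2 * (k + 1)) = 2 * 2 ^ (2 * k + 1) := by ring
    omega

end Cfsg.Agent.S2561
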