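import Cfsg.Statements.S2562
import Cfsg.Agent.Class.QF.Disc

set_option autoImplicit false
open Cfsg

namespace Cfsg.Agent.S2562

open Class.QF QuadraticMap

/-- Witt indices over the field of two elements, m ≥ 1: for the plus-type form Σ xᵢyᵢ in dimension 2m some m-dimensional subspace is totally singular and no totally singular subspace has larger dimension; for the minus-type form Σ xᵢyᵢ + (z₁² + z₁z₂ + z₂²) in dimension 2m the maximal dimension of a totally singular subspace is m − 1. -/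
theorem result (m : ℕ) (hm : 1 ≤ m) :
    (∃ U : Submodule (ZMod 2) (Fin m ⊕ Fin m → ZMod 2), (∀ u ∈ U, Cfsg.quadFormPlus m (ZMod 2) u = 0) ∧ Module.finrank (ZMod 2) ↥U = m) ∧
    (∀ U : Submodule (ZMod 2) (Fin m ⊕ Fin m → ZMod 2), (∀ u ∈ U, Cfsg.quadFormPlus m (ZMod 2) u = 0) → Module.finrank (ZMod 2) ↥U ≤ m) ∧
    (∃ U : Submodule (ZMod 2) ((Fin (m - 1) ⊕ Fin (m - 1)) ⊕ Fin 2 → ZMod 2), (∀ u ∈ U, Cfsg.quadFormMinus (m - 1) (ZMod 2) 1 1 u = 0) ∧ Module.finrank (ZMod 2) ↥U = m - 1) ∧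
    (∀ U : Submodule (ZMod 2) ((Fin (m - 1) ⊕ Fin (m - 1)) ⊕ Fin 2 → ZMod 2), (∀ u ∈ U, Cfsg.quadFormMinus (m - 1) (ZMod 2) 1 1 u = 0) → Module.finrank (ZMod 2) ↥U ≤ m - 1) := by
  let Q : QuadraticForm (ZMod 2) (Fin m ⊕ Fin m → ZMod 2) :=
    ∑ i : Fin m, QuadraticMap.proj (Sum.inl i) (Sum.inr i)
  have hQ : ∀ v, quadFormPlus m (ZMod 2) v = Q v := fun v => by
    simp [Q, quadFormPlus, QuadraticMap.sum_apply]
  let Q' : QuadraticForm (ZMod 2) ((Fin (m - 1) ⊕ Fin (m - 1)) ⊕ Fin 2 → ZMod 2) :=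
    (∑ i : Fin (m - 1), QuadraticMap.proj (Sum.inl (Sum.inl i)) (Sum.inl (Sum.inr i))) +
      (QuadraticMap.proj (Sum.inr 0) (Sum.inr 0) + QuadraticMap.proj (Sum.inr 0) (Sum.inr 1) +
        QuadraticMap.proj (Sum.inr 1) (Sum.inr 1))
  have hQ' : ∀ v, quadFormMinus (m - 1) (ZMod 2) 1 1 v = Q' v := fun v => by
    simp [Q', quadFormMinus, QuadraticMap.sum_apply, pow_two, mul_assoc]
  have hnd : (polarBilin Q).Nondegenerate := by
    refine (LinearMap.BilinForm.nondegenerate_iff_det_ne_zero (Pi.basisFun (ZMod 2) _)).2 ?_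
    have := gramDet_plus (F := ZMod 2) m
    rw [funext hQ] at this
    have h2 : (LinearMap.BilinForm.toMatrix (Pi.basisFun (ZMod 2) _) (polarBilin Q)).det =
        gramDet Q (Pi.basisFun (ZMod 2) (Fin m ⊕ Fin m)) := by
      unfold gramDet
      congr 1
      ext i j
      simp [LinearMap.BilinForm.toMatrix_apply]
    rw [h2, this]
    exact pow_ne_zero _ (neg_ne_zero.2 one_ne_zero)
  refine ⟨?_, fun U hU => ?_, ?_, fun U hU => ?_⟩
  · obtain ⟨U, hU, hd⟩ := isPlus_of_equiv_plus (LinearEquiv.refl (ZMod 2) _) hQ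
    refine ⟨U, fun u hu => (hQ u).trans (hU u hu), ?_⟩
    simp at hd; omega
  · have := two_mul_finrank_le hnd U fun u hu => (hQ u).symm.trans (hU u hu)
    simp at this; omega
  · let L : (Fin (m - 1) → ZMod 2) →ₗ[ZMod 2] ((Fin (m - 1) ⊕ Fin (m - 1)) ⊕ Fin 2 → ZMod 2) :=
      LinearMap.pi fun k => Sum.elim (Sum.elim (fun i => LinearMap.proj i) fun _ => 0) (fun _ => 0) k
    have hL : Function.Injective L := by
      intro x y h
      ext i
      simpa [L] using congrFun h (.inl (.inl i))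
    refine ⟨LinearMap.range L, ?_, ?_⟩
    · rintro _ ⟨x, rfl⟩
      simp [L, quadFormMinus]
    · rw [LinearMap.finrank_range_of_inj hL]; simp
  · refine finrank_le_of_equiv_minus (Q := Q') (a := 1) (b := 1) (by decide)
      (LinearEquiv.refl (ZMod 2) _) hQ' U fun u hu => (hQ' u).symm.trans (hU u hu)

end Cfsg.Agent.S2562
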