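import Cfsg.Statements.S2563
import Mathlib
import Cfsg.Agent.KSG.AltPres
import Cfsg.Agent.Class.Orth.Std

set_option autoImplicit false
open Cfsg

namespace Cfsg.Agent.S2563

open QuadraticMap Cfsg.Agent.Class.Orth

/-- chains of non-singular vectors of type `A_n` -/
def Ch {V : Type*} [AddCommGroup V] (q : V → ZMod 2) (n : ℕ) : Prop :=
  ∃ v : ℕ → V, (∀ i < n, q (v i) = 1) ∧ (∀ i, i + 1 < n → polar q (v i) (v (i + 1)) = 1) ∧
    ∀ i j, i + 1 < j → j < n → polar q (v i) (v j) = 0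

theorem Ch.map {V W : Type*} [AddCommGroup V] [AddCommGroup W] {q : V → ZMod 2} {q' : W → ZMod 2}
    {n : ℕ} (h : Ch q n) (f : V → W) (hf : ∀ x y, f (x + y) = f x + f y) (hq : ∀ x, q' (f x) = q x) :
    Ch q' n := by
  obtain ⟨v, h1, h2, h3⟩ := h
  have : ∀ x y, polar q' (f x) (f y) = polar q x y := by
    intro x y; simp only [polar, ← hf, hq]
  exact ⟨fun i => f (v i), by simpa only [hq], by simpa only [this], by simpa only [this]⟩

def w8 : Fin 9 → Fin 4 ⊕ Fin 4 → ZMod 2 := ![Sum.elim ![0, 0, 0, 0] ![0, 0, 0, 1], Sum.elim ![0, 0, 0, 1] ![0, 0, 0, 1], Sum.elim ![0, 0, 1, 0] ![0, 0, 1, 1], Sum.elim ![0, 1, 0, 0] ![0, 1, 1, 0], Sum.elim ![0, 0, 1, 0] ![1, 0, 1, 0], Sum.elim ![1, 0, 0, 0] ![1, 0, 0, 0], Sum.elim ![0, 0, 1, 0] ![1, 1, 1, 0], Sum.elim ![0, 1, 0, 0] ![0, 1, 0, 0], Sum.elim ![0, 0, 1, 0] ![0, 1, 1, 0]]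

def w6 : Fin 7 → Fin 3 ⊕ Fin 3 → ZMod 2 := ![Sum.elim ![0, 0, 1] ![0, 0, 1], Sum.elim ![0, 1, 0] ![0, 1, 1], Sum.elim ![0, 0, 1] ![1, 0, 1], Sum.elim ![1, 0, 0] ![1, 0, 0], Sum.elim ![0, 0, 1] ![1, 1, 1], Sum.elim ![0, 1, 0] ![0, 1, 0], Sum.elim ![0, 0, 1] ![0, 1, 1]]

def w2 : Fin 3 → (Fin 0 ⊕ Fin 0) ⊕ Fin 2 → ZMod 2 :=
  ![Sum.elim 0 ![1, 0], Sum.elim 0 ![0, 1], Sum.elim 0 ![1, 0]]

theorem ch_of_fin {V : Type*} [AddCommGroup V] (q : V → ZMod 2) {n : ℕ} (v : Fin n → V)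
    (h1 : ∀ i, q (v i) = 1) (h2 : ∀ i j : Fin n, i.val + 1 = j → polar q (v i) (v j) = 1)
    (h3 : ∀ i j : Fin n, i.val + 1 < j → polar q (v i) (v j) = 0) : Ch q n := by
  refine ⟨fun i => if h : i < n then v ⟨i, h⟩ else 0, fun i hi => ?_, fun i hi => ?_,
    fun i j hij hj => ?_⟩
  · simp [hi, h1]
  · simp only [dif_pos hi, dif_pos (show i < n by omega)]
    exact h2 _ _ rfl
  · simp only [dif_pos hj, dif_pos (show i < n by omega)]
    exact h3 _ _ hij

theorem ch6 : Ch (quadFormPlus 3 (ZMod 2)) 7 :=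
  ch_of_fin _ w6 (by decide +kernel) (by decide +kernel) (by decide +kernel)

theorem ch2 : Ch (quadFormMinus 0 (ZMod 2) 1 1) 3 :=
  ch_of_fin _ w2 (by decide +kernel) (by decide +kernel) (by decide +kernel)

theorem w8_1 : ∀ i, quadFormPlus 4 (ZMod 2) (w8 i) = if i = 0 then 0 else 1 := by decide +kernel

theorem w8_2 : ∀ i j : Fin 9, i.val + 1 = j → polar (quadFormPlus 4 (ZMod 2)) (w8 i) (w8 j) = 1 := by
  decide +kernel

theorem w8_3 : ∀ i j : Fin 9, i.val + 1 < j → polar (quadFormPlus 4 (ZMod 2)) (w8 i) (w8 j) = 0 := by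
  decide +kernel

theorem Ch.step {V : Type*} [AddCommGroup V] {q : V → ZMod 2} (h0 : q 0 = 0) {n : ℕ}
    (h : Ch q (n + 1)) :
    Ch (fun p : V × (Fin 4 ⊕ Fin 4 → ZMod 2) => q p.1 + quadFormPlus 4 (ZMod 2) p.2) (n + 9) := by
  obtain ⟨v, h1, h2, h3⟩ := h
  have hp : ∀ x y : V × (Fin 4 ⊕ Fin 4 → ZMod 2),
      polar (fun p : V × (Fin 4 ⊕ Fin 4 → ZMod 2) => q p.1 + quadFormPlus 4 (ZMod 2) p.2) x y =
      polar q x.1 y.1 + polar (quadFormPlus 4 (ZMod 2)) x.2 y.2 := by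
    intro x y; simp only [polar, Prod.fst_add, Prod.snd_add]; ring
  have z0 : quadFormPlus 4 (ZMod 2) 0 = 0 := by simp [quadFormPlus]
  have p1 : ∀ x, polar q x 0 = 0 := by intro x; simp [polar, h0]
  have p2 : ∀ x, polar (quadFormPlus 4 (ZMod 2)) 0 x = 0 := by intro x; simp [polar, z0]
  refine ⟨fun i => (if i ≤ n then v i else 0,
    if h : n ≤ i ∧ i < n + 9 then w8 ⟨i - n, by omega⟩ else 0), fun i hi => ?_, fun i hi => ?_,
    fun i j hij hj => ?_⟩
  · rcases lt_trichotomy i n with c | rfl | c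
    · simp [c.le, c.not_ge, h1 i (by omega), z0]
    · simp [h1 i (by omega), w8_1]
    · simp only [if_neg c.not_ge, dif_pos (And.intro c.le hi), h0, w8_1]
      rw [if_neg (by simp [Fin.ext_iff]; omega), zero_add]
  · rw [hp]
    rcases lt_or_ge i n with c | c
    · simp only [if_pos c.le, if_pos (show i + 1 ≤ n from c), h2 i (by omega),
        dif_neg (show ¬ (n ≤ i ∧ i < n + 9) by omega), p2, add_zero]
    · simp only [if_neg (show ¬ i + 1 ≤ n by omega), p1, zero_add,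
        dif_pos (show n ≤ i ∧ i < n + 9 by omega), dif_pos (show n ≤ i + 1 ∧ i + 1 < n + 9 by omega)]
      exact w8_2 _ _ (by simp; omega)
  · rw [hp]
    rcases lt_or_ge i n with c | c
    · simp only [if_pos c.le, dif_neg (show ¬ (n ≤ i ∧ i < n + 9) by omega), p2, add_zero]
      split_ifs with d
      · exact h3 i j hij (by omega)
      · exact p1 _
    · simp only [if_neg (show ¬ j ≤ n by omega), p1, zero_add,
        dif_pos (show n ≤ i ∧ i < n + 9 by omega), dif_pos (show n ≤ j ∧ j < n + 9 by omega)]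
      exact w8_3 _ _ (by simp; omega)

def glue (m : ℕ) (x : Fin m ⊕ Fin m → ZMod 2) (y : Fin 4 ⊕ Fin 4 → ZMod 2) :
    Fin (m + 4) ⊕ Fin (m + 4) → ZMod 2 :=
  Sum.elim (Fin.append (fun i => x (.inl i)) fun i => y (.inl i))
    (Fin.append (fun i => x (.inr i)) fun i => y (.inr i))

theorem glue_add (m : ℕ) (x x' : Fin m ⊕ Fin m → ZMod 2) (y y' : Fin 4 ⊕ Fin 4 → ZMod 2) :
    glue m (x + x') (y + y') = glue m x y + glue m x' y' := by
  ext (i | i) <;> refine Fin.addCases (fun j => ?_) (fun j => ?_) i <;> simp [glue]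

theorem plus_glue (m : ℕ) (x : Fin m ⊕ Fin m → ZMod 2) (y : Fin 4 ⊕ Fin 4 → ZMod 2) :
    quadFormPlus (m + 4) (ZMod 2) (glue m x y) =
      quadFormPlus m (ZMod 2) x + quadFormPlus 4 (ZMod 2) y := by
  simp only [quadFormPlus, glue, Fin.sum_univ_add, Sum.elim_inl, Sum.elim_inr, Fin.append_left,
    Fin.append_right]

theorem ch_plus (j : ℕ) : Ch (quadFormPlus (4 * j + 3) (ZMod 2)) (8 * j + 7) := by
  induction j with
  | zero => exact ch6
  | succ j ih =>
    exact (ih.step (by simp [quadFormPlus])).map (fun p => glue _ p.1 p.2)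
      (fun x y => glue_add _ _ _ _ _) fun x => plus_glue _ _ _

theorem ch_minus (j : ℕ) : Ch (quadFormMinus (4 * j) (ZMod 2) 1 1) (8 * j + 3) := by
  induction j with
  | zero => exact ch2
  | succ j ih =>
    refine (ih.step (by simp [quadFormMinus])).map
      (fun p => Sum.elim (glue _ (fun i => p.1 (.inl i)) p.2) fun i => p.1 (.inr i))
      (fun x y => ?_) fun x => ?_
    · ext (i | i)
      · exact congrFun (glue_add _ (fun i => x.1 (.inl i)) (fun i => y.1 (.inl i)) x.2 y.2) i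
      · rfl
    · have := plus_glue _ (fun i => x.1 (.inl i)) x.2
      simp only [quadFormPlus] at this
      simp only [quadFormMinus, quadFormPlus, Sum.elim_inl, Sum.elim_inr]
      erw [this]
      ring

theorem exists_hom {V : Type*} [AddCommGroup V] [Module (ZMod 2) V] (Q : QuadraticForm (ZMod 2) V)
    {n : ℕ} (hn : 4 ≤ n) (h : Ch Q n) :
    ∃ φ : Equiv.Perm (Fin (n + 1)) →* OG Q, Function.Injective φ := by
  obtain ⟨v, h1, h2, h3⟩ := h
  obtain ⟨φ, hφ⟩ := KSG.exists_hom_perm_of_rels (fun i : Fin n => refl Q (v i))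
    (fun i => refl_mul_self _) (fun i j hij => by
      have := conj_refl (refl Q (v i)) (v j)
      rw [refl_apply_of_polar_eq_zero (by rw [polar_comm]; exact h3 _ _ hij j.2),
        mul_inv_eq_iff_eq_mul] at this
      exact this) (fun i j hij => by
      have e1 := conj_refl (refl Q (v i)) (v j)
      have e2 := conj_refl (refl Q (v j)) (v i)
      have p := h2 i (by omega)
      rw [hij] at p
      rw [refl_inv, refl_apply, h1 _ i.2, polar_comm, p] at e1
      rw [refl_inv, refl_apply, h1 _ j.2, p] at e2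
      rw [e1, e2, ← refl_neg]
      simp)
  refine ⟨φ, ?_⟩
  rw [← MonoidHom.ker_eq_bot_iff]
  by_contra hk
  have h4 := Equiv.Perm.alternatingGroup_le_of_normal (by simp; omega)
    ((Subgroup.nontrivial_iff_ne_bot _).2 hk)
  let a : Fin n := ⟨0, by omega⟩
  let b : Fin n := ⟨1, by omega⟩
  have h5 : φ (KSG.adjSwap a * KSG.adjSwap b) = 1 :=
    h4 (by simp [Equiv.Perm.mem_alternatingGroup, KSG.sign_adjSwap])
  rw [map_mul, KSG.adjSwap, KSG.adjSwap, hφ, hφ, mul_eq_one_iff_eq_inv, refl_inv] at h5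
  have h6 := congrArg (fun g : OG Q => g.1 (v 1)) h5
  have q0 := h1 0 (by omega)
  have q1 := h1 1 (by omega)
  simp only [a, b] at h6
  rw [refl_apply_self (by rw [q1]; exact one_ne_zero), refl_apply, q0, polar_comm, h2 0 (by omega)] at h6
  have h7 : v 0 = (2 : ZMod 2) • v 1 := by
    rw [two_smul]
    simp only [inv_one, mul_one, one_smul] at h6
    rw [← sub_eq_iff_eq_add, ← neg_sub, h6, neg_neg]
  rw [show (2 : ZMod 2) = 0 from rfl, zero_smul] at h7
  rw [h7, map_zero] at q0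
  exact zero_ne_one q0


/-- For k ≥ 1 the symmetric group of degree 4k + 4 embeds in a full orthogonal group in dimension 4k + 2 over the field of two elements: in the isometry group of the plus-type form Σ xᵢyᵢ when k is odd, and in that of the minus-type form Σ xᵢyᵢ + (z₁² + z₁z₂ + z₂²) when k is even (through its action on even partitions of a (4k+4)-set, with the form 'half the size of a part, modulo 2'). -/
theorem result (k : ℕ) (hk : 1 ≤ k) :
    (Odd k → ∃ φ : Equiv.Perm (Fin (4 * k + 4)) →* ↥(Cfsg.isometryGroup (ZMod 2) (Cfsg.quadFormPlus (2 * k + 1) (ZMod 2))), Function.Injective φ) ∧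
    (Even k → ∃ φ : Equiv.Perm (Fin (4 * k + 4)) →* ↥(Cfsg.isometryGroup (ZMod 2) (Cfsg.quadFormMinus (2 * k) (ZMod 2) 1 1)), Function.Injective φ) := by
  constructor
  · rintro ⟨j, rfl⟩
    have h := ch_plus j
    rw [show 4 * j + 3 = 2 * (2 * j + 1) + 1 by ring, show 8 * j + 7 = 4 * (2 * j + 1) + 3 by ring,
      ← coe_plusQF] at h
    obtain ⟨φ, hφ⟩ := exists_hom _ (by omega) h
    exact ⟨(plusEquiv _ _).symm.toMonoidHom.comp φ, (plusEquiv _ _).symm.injective.comp hφ⟩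
  · rintro ⟨j, rfl⟩
    have h := ch_minus j
    rw [show 4 * j = 2 * (j + j) by ring, show 8 * j + 3 = 4 * (j + j) + 3 by ring,
      ← coe_minusQF] at h
    obtain ⟨φ, hφ⟩ := exists_hom _ (by omega) h
    exact ⟨(minusEquiv _ _ _ _).symm.toMonoidHom.comp φ, (minusEquiv _ _ _ _).symm.injective.comp hφ⟩

end Cfsg.Agent.S2563
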