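import Cfsg.Statements.S2564
import Cfsg.Agent.Class.Orth.TypeCount
import Cfsg.Agent.Class.Orth.Levi

set_option autoImplicit false
open Cfsg

namespace Cfsg.Agent.S2564

/-- On the 2m-dimensional space over the field of two elements (m ≥ 1) let f be the alternating form obtained by polarizing the plus-type form Σ xᵢyᵢ, and let q be any quadratic form polarizing to f. For a vector w, the function q + f(·, w) again polarizes to f, and it is equivalent to q under an invertible linear map (that is, has the same type) if and only if q(w) = 0. -/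
theorem result (m : ℕ) (hm : 1 ≤ m) (q : (Fin m ⊕ Fin m → ZMod 2) → ZMod 2) (hq : (∀ u v : (Fin m ⊕ Fin m → ZMod 2), q (u + v) = q u + q v + (Cfsg.quadFormPlus m (ZMod 2) (u + v) - Cfsg.quadFormPlus m (ZMod 2) u - Cfsg.quadFormPlus m (ZMod 2) v))) (w : (Fin m ⊕ Fin m → ZMod 2)) :
    (∀ u v : (Fin m ⊕ Fin m → ZMod 2), (q (u + v) + (Cfsg.quadFormPlus m (ZMod 2) (u + v + w) - Cfsg.quadFormPlus m (ZMod 2) (u + v) - Cfsg.quadFormPlus m (ZMod 2) w)) =
        (q u + (Cfsg.quadFormPlus m (ZMod 2) (u + w) - Cfsg.quadFormPlus m (ZMod 2) u - Cfsg.quadFormPlus m (ZMod 2) w)) + (q v + (Cfsg.quadFormPlus m (ZMod 2) (v + w) - Cfsg.quadFormPlus m (ZMod 2) v - Cfsg.quadFormPlus m (ZMod 2) w)) +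
        (Cfsg.quadFormPlus m (ZMod 2) (u + v) - Cfsg.quadFormPlus m (ZMod 2) u - Cfsg.quadFormPlus m (ZMod 2) v)) ∧
    ((∃ g : (Fin m ⊕ Fin m → ZMod 2) ≃ₗ[ZMod 2] (Fin m ⊕ Fin m → ZMod 2), ∀ v, q v + (Cfsg.quadFormPlus m (ZMod 2) (v + w) - Cfsg.quadFormPlus m (ZMod 2) v - Cfsg.quadFormPlus m (ZMod 2) w) = q (g v)) ↔ q w = 0) := by
  have hQ := Class.Orth.nd_plusQF m (ZMod 2)
  refine ⟨fun u v => ?_, ?_⟩
  · have h1 := QuadraticMap.polar_add_left (Class.Orth.plusQF m (ZMod 2)) u v w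
    simp only [QuadraticMap.polar, Class.Orth.plusQF_apply] at h1
    rw [hq, h1]; ring
  · simp only [← Class.Orth.plusQF_apply] at hq ⊢
    obtain ⟨w₀, rfl⟩ := hQ.exists_eq_twist q hq
    rw [← (hQ.twist rfl _).equiv_twist_iff Class.Orth.finrank_plus_space w]
    refine exists_congr fun g => forall_congr' fun v => ?_
    rw [Class.Orth.twist_apply_two _ v, Class.Orth.twist_apply_two _ v,
      Class.Orth.twist_apply_two _ v, QuadraticMap.polarBilin_apply_apply _ w,
      Class.Orth.polar_twist rfl, QuadraticMap.polar_comm _ w]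
    rfl

end Cfsg.Agent.S2564
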