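import Cfsg.Statements.S2565
import Mathlib
import Cfsg.Agent.Class.LowDim.Omega6Plus
import Cfsg.Agent.Class.Orth.POrder
import Cfsg.Agent.Class.Orth.OmegaIndex
import Cfsg.Agent.S0256

set_option autoImplicit false
open Cfsg

namespace Cfsg.Agent.S2565

/-- The commutator subgroup of the full orthogonal group of the plus-type form Σ xᵢyᵢ in dimension 6 over the field of two elements (the group Ω⁺₆(2), of index 2) is isomorphic to the alternating group of degree 8. -/
theorem result :
    (Cfsg.Omega (ZMod 2) (Cfsg.quadFormPlus 3 (ZMod 2))).index = 2 ∧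
    Nonempty (↥(Cfsg.Omega (ZMod 2) (Cfsg.quadFormPlus 3 (ZMod 2))) ≃* alternatingGroup (Fin 8)) := by
  have hd : Module.finrank (ZMod 2) (Fin 3 ⊕ Fin 3 → ZMod 2) = 6 := by simp
  refine ⟨?_, ?_⟩
  · rw [Class.Orth.index_commutator_equiv (Class.Orth.plusEquiv 3 (ZMod 2))]
    exact (Class.Orth.nd_plusQF 3 (ZMod 2)).index_commutator_eq_two rfl (by omega)
      (Or.inr (by omega))
  · obtain ⟨e⟩ := Class.LowDim.nonempty_POmega6Plus_equiv (F := ZMod 2)
    obtain ⟨e'⟩ := S0256.result (F := ZMod 2) (by simp)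
    have h1 := (Class.Orth.nd_plusQF 3 (ZMod 2)).card_center_Omega_eq_one (by omega) (Or.inl rfl)
    rw [Subgroup.card_eq_one] at h1
    exact ⟨(Class.Orth.commutatorCongr (Class.Orth.plusEquiv 3 (ZMod 2))).trans
      (((QuotientGroup.quotientBot.symm.trans (QuotientGroup.quotientMulEquivOfEq h1.symm)).trans
        (Class.Orth.pOmegaCongr (Class.Orth.plusEquiv 3 (ZMod 2))).symm).trans (e.trans e'))⟩

end Cfsg.Agent.S2565
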