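import Cfsg.Statements.S2566
import Mathlib
import Cfsg.Agent.S0287
import Cfsg.Agent.Grp.Card

set_option autoImplicit false
open Cfsg

namespace Cfsg.Agent.S2566

open Matrix

def c : Fin 2 ⊕ Fin 2 → Fin 2 × Fin 2 := Sum.elim ![(0, 0), (0, 1)] ![(1, 1), (1, 0)]

def m (σ : Equiv.Perm (Fin 3)) (i j : Fin 2) : ZMod 2 :=
  (if σ j.castSucc = i.castSucc then 1 else 0) + if σ 2 = i.castSucc then 1 else 0

def L (σ : Equiv.Perm (Fin 3)) : Matrix (Fin 2 ⊕ Fin 2) (Fin 2 ⊕ Fin 2) (ZMod 2) :=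
  of fun i j => if (c i).2 = (c j).2 then m σ (c i).1 (c j).1 else 0

def R (σ : Equiv.Perm (Fin 3)) : Matrix (Fin 2 ⊕ Fin 2) (Fin 2 ⊕ Fin 2) (ZMod 2) :=
  of fun i j => if (c i).1 = (c j).1 then m σ (c i).2 (c j).2 else 0

def T : Matrix (Fin 2 ⊕ Fin 2) (Fin 2 ⊕ Fin 2) (ZMod 2) :=
  of fun i j => if c i = (c j).swap then 1 else 0

abbrev G := ↥(Cfsg.isometryGroup (ZMod 2) (Cfsg.quadFormPlus 2 (ZMod 2)))

def mkHom (f : Equiv.Perm (Fin 3) → Matrix (Fin 2 ⊕ Fin 2) (Fin 2 ⊕ Fin 2) (ZMod 2))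
    (h1 : f 1 = 1) (h2 : ∀ σ τ, f (σ * τ) = f σ * f τ)
    (h3 : ∀ σ v, quadFormPlus 2 (ZMod 2) (f σ *ᵥ v) = quadFormPlus 2 (ZMod 2) v) :
    Equiv.Perm (Fin 3) →* G :=
  (MonoidHom.toHomUnits (⟨⟨f, h1⟩, h2⟩ : Equiv.Perm (Fin 3) →* _)).codRestrict _
    fun σ u _ => h3 σ u

def φL : Equiv.Perm (Fin 3) →* G :=
  mkHom L (by decide +kernel) (by decide +kernel) (by decide +kernel)

def φR : Equiv.Perm (Fin 3) →* G :=
  mkHom R (by decide +kernel) (by decide +kernel) (by decide +kernel)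

def t : G := ⟨⟨T, T, by decide +kernel, by decide +kernel⟩, fun u _ =>
  (by decide +kernel : ∀ v, quadFormPlus 2 (ZMod 2) (T *ᵥ v) = quadFormPlus 2 (ZMod 2) v) u⟩

theorem G_ext {a b : G} (h : a.1.1 = b.1.1) : a = b := Subtype.ext (Units.ext h)

theorem L_inj : Function.Injective φL := fun σ τ h =>
  (by decide +kernel : ∀ σ τ, L σ = L τ → σ = τ) σ τ (congrArg (fun g : G => g.1.1) h)

theorem R_inj : Function.Injective φR := fun σ τ h =>
  (by decide +kernel : ∀ σ τ, R σ = R τ → σ = τ) σ τ (congrArg (fun g : G => g.1.1) h)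

theorem conj_L (σ : Equiv.Perm (Fin 3)) : t * φL σ * t⁻¹ = φR σ :=
  G_ext ((by decide +kernel : ∀ σ, T * L σ * T = R σ) σ)


/-- The full orthogonal group of the plus-type form x₁y₁ + x₂y₂ in dimension 4 over the field of two elements has order 72 and is isomorphic to the wreath product of the symmetric group of degree 3 by a group of order 2: it has a normal subgroup isomorphic to the direct product of two symmetric groups of degree 3, of index 2, whose two direct factors are interchanged by conjugation by some element. -/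
theorem result :
    Nat.card ↥(Cfsg.isometryGroup (ZMod 2) (Cfsg.quadFormPlus 2 (ZMod 2))) = 72 ∧
    ∃ (A B : Subgroup ↥(Cfsg.isometryGroup (ZMod 2) (Cfsg.quadFormPlus 2 (ZMod 2)))),
      Nonempty (↥A ≃* Equiv.Perm (Fin 3)) ∧ Nonempty (↥B ≃* Equiv.Perm (Fin 3)) ∧ A ⊓ B = ⊥ ∧ (∀ a ∈ A, ∀ b ∈ B, a * b = b * a) ∧
      (A ⊔ B).index = 2 ∧ ∃ g : ↥(Cfsg.isometryGroup (ZMod 2) (Cfsg.quadFormPlus 2 (ZMod 2))), A.map (MulAut.conj g).toMonoidHom = B := by
  have hc : Nat.card G = 72 := by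
    rw [S0287.result (ZMod.card 2) 2 (by norm_num)]; simp
  have h1 : φL.range ⊓ φR.range = ⊥ := by
    rw [eq_bot_iff]
    rintro _ ⟨⟨σ, rfl⟩, τ, h⟩
    exact G_ext ((by decide +kernel : ∀ σ τ, R τ = L σ → L σ = 1) σ τ (congrArg (fun g : G => g.1.1) h))
  have h2 : ∀ a ∈ φL.range, ∀ b ∈ φR.range, a * b = b * a := by
    rintro _ ⟨σ, rfl⟩ _ ⟨τ, rfl⟩
    exact G_ext ((by decide +kernel : ∀ σ τ, L σ * R τ = R τ * L σ) σ τ)
  refine ⟨hc, φL.range, φR.range, ⟨(MonoidHom.ofInjective L_inj).symm⟩,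
    ⟨(MonoidHom.ofInjective R_inj).symm⟩, h1, h2, ?_, t, ?_⟩
  · have h3 := Grp.card_sup_mul_card_inf_of_le_normalizer (H := φL.range) (N := φR.range)
      (le_trans (fun a ha => Subgroup.mem_centralizer_iff.2 fun b hb => (h2 a ha b hb).symm)
        (Subgroup.centralizer_le_normalizer _))
    rw [h1, Subgroup.card_bot, ← Nat.card_congr (MonoidHom.ofInjective L_inj).toEquiv,
      ← Nat.card_congr (MonoidHom.ofInjective R_inj).toEquiv, Nat.card_perm] at h3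
    have h4 := (φL.range ⊔ φR.range).card_mul_index
    rw [hc] at h4
    simp only [Nat.card_eq_fintype_card (α := Fin 3), Fintype.card_fin, Nat.factorial, mul_one] at h3
    rw [h3] at h4
    omega
  · ext x
    constructor
    · rintro ⟨_, ⟨σ, rfl⟩, rfl⟩
      exact ⟨σ, (conj_L σ).symm⟩
    · rintro ⟨σ, rfl⟩
      exact ⟨_, ⟨σ, rfl⟩, conj_L σ⟩

end Cfsg.Agent.S2566
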