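import Cfsg.Statements.S2567
import Mathlib

set_option autoImplicit false
open Cfsg

namespace Cfsg.Agent.S2567

theorem center_pow {F : Type*} [Field F] [Fintype F] {n : ℕ} (z : GL (Fin n) F)
    (hz : z ∈ Subgroup.center (GL (Fin n) F)) : z ^ (Fintype.card F - 1) = 1 := by
  classical
  rw [Matrix.GeneralLinearGroup.center_eq_range_scalar] at hz
  obtain ⟨u, rfl⟩ := hz
  rw [← map_pow, ← Fintype.card_units, pow_card_eq_one, map_one]

theorem result {F : Type*} [Field F] [Fintype F] {q n r : ℕ} (hF : Fintype.card F = q) (hr : r.Prime) (hdiv : ¬ r ∣ q - 1) (x : GL (Fin n) F ⧸ Subgroup.center (GL (Fin n) F)) (hx : orderOf x = r) : ∃! g : GL (Fin n) F, (QuotientGroup.mk g : GL (Fin n) F ⧸ Subgroup.center (GL (Fin n) F)) = x ∧ orderOf g = r := by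
  haveI := Fact.mk hr
  have hcop : Nat.Coprime r (q - 1) := (Nat.Prime.coprime_iff_not_dvd hr).2 hdiv
  have hx1 : x ≠ 1 := by
    rintro rfl
    rw [orderOf_one] at hx
    exact hr.one_lt.ne hx
  obtain ⟨g, rfl⟩ := QuotientGroup.mk_surjective x
  have hgr : g ^ r ∈ Subgroup.center (GL (Fin n) F) := by
    rw [← QuotientGroup.eq_one_iff, QuotientGroup.mk_pow, ← hx, pow_orderOf_eq_one]
  obtain ⟨k, hk1, hk2⟩ : ∃ k : ℕ, k ≡ 1 [MOD r] ∧ k ≡ 0 [MOD (q - 1)] :=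
    ⟨_, (Nat.chineseRemainder hcop 1 0).2⟩
  obtain ⟨c, hc⟩ := (Nat.modEq_zero_iff_dvd).1 hk2
  have hmk : (QuotientGroup.mk (g ^ k) : GL (Fin n) F ⧸ Subgroup.center (GL (Fin n) F)) =
      QuotientGroup.mk g := by
    rw [QuotientGroup.mk_pow, (pow_eq_pow_iff_modEq.2 (hx ▸ hk1) :), pow_one]
  refine ⟨g ^ k, ⟨hmk, ?_⟩, ?_⟩
  · apply orderOf_eq_prime
    · rw [← pow_mul, mul_comm, pow_mul, hc, pow_mul, ← hF, center_pow _ hgr, one_pow]
    · intro h
      apply hx1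
      rw [← hmk, h]; rfl
  · rintro h ⟨h1, h2⟩
    have hz : g⁻¹ * h ∈ Subgroup.center (GL (Fin n) F) := QuotientGroup.eq.1 h1.symm
    have hh : h = g * (g⁻¹ * h) := by group
    have hcomm : Commute g (g⁻¹ * h) := (Subgroup.mem_center_iff.1 hz g)
    have h3 : h ^ k = h := by
      rw [(pow_eq_pow_iff_modEq.2 (h2 ▸ hk1) : h ^ k = h ^ 1), pow_one]
    rw [← h3]
    conv_lhs => rw [hh]
    rw [hcomm.mul_pow, hc, pow_mul (g⁻¹ * h), ← hF, center_pow _ hz, one_pow, mul_one]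

end Cfsg.Agent.S2567
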