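import Cfsg.Statements.S2568
import Mathlib
import Cfsg.Agent.KSG.PrimeOrder

set_option autoImplicit false
open Cfsg

namespace Cfsg.Agent.S2568

/-- Number of conjugacy classes of elements of a given prime order r, coprime to the characteristic, in GL_n(q): if i is the multiplicative order of q modulo r and t = (r − 1)/i, the classes correspond to the non-zero t-tuples of natural numbers (a_1, …, a_t) with i(a_1 + ⋯ + a_t) ≤ n (a_j is the multiplicity of the j-th Frobenius orbit of nontrivial r-th roots of unity among the eigenvalues), so there are exactly C(⌊n/i⌋ + t, t) − 1 of them. -/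
theorem result {F : Type*} [Field F] [Fintype F] {p q : ℕ} [Fact p.Prime] [CharP F p] (hF : Fintype.card F = q) (n r i t : ℕ) (hr : r.Prime) (hrp : r ≠ p) (hi : i = orderOf (q : ZMod r)) (ht : t * i = r - 1) : Nat.card {C : ConjClasses (GL (Fin n) F) // ∃ g : GL (Fin n) F, ConjClasses.mk g = C ∧ orderOf g = r} = Nat.choose (n / i + t) t - 1 := by
  classical
  subst hF hi
  have hr0 : (r : F) ≠ 0 := KSG.natCast_ne_zero_of_prime_ne hr hrp
  have hpos := KSG.orderOf_card_pos (F := F) hr hr0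
  have hT : (KSG.cycFac r F).card = t := by
    have := KSG.card_cycFac_mul (F := F) hr hr0
    exact Nat.eq_of_mul_eq_mul_right hpos (this.trans ht.symm)
  rw [KSG.card_conjClasses_GL _ (fun s => (∀ b ∈ s, b = Polynomial.X - Polynomial.C 1 ∨ b ∈ KSG.cycFac r F) ∧
        ¬ ∀ b ∈ s, b = Polynomial.X - Polynomial.C 1) (KSG.GL_orderOf_eq_prime_iff hr hr0)]
  set i := orderOf (Fintype.card F : ZMod r) with hi
  have e1 : Nat.card {s : Multiset (Polynomial F) // (∀ b ∈ s, KSG.IsPP b) ∧ (∀ b ∈ s, ¬ Polynomial.X ∣ b) ∧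
      (s.map Polynomial.natDegree).sum = Fintype.card (Fin n) ∧
      ((∀ b ∈ s, b = Polynomial.X - Polynomial.C 1 ∨ b ∈ KSG.cycFac r F) ∧
        ¬ ∀ b ∈ s, b = Polynomial.X - Polynomial.C 1)} =
      Nat.card {s : Multiset (Polynomial F) //
        (∀ b ∈ s, b = Polynomial.X - Polynomial.C 1 ∨ b ∈ KSG.cycFac r F) ∧
        (s.map Polynomial.natDegree).sum = n ∧ ¬ ∀ b ∈ s, b = Polynomial.X - Polynomial.C 1} := by
    refine Nat.card_congr (Equiv.subtypeEquivRight fun s => ⟨fun h => ⟨h.2.2.2.1, by simpa using h.2.2.1, h.2.2.2.2⟩,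
      fun h => ⟨fun b hb => ?_, fun b hb => ?_, by simpa using h.2.1, h.1, h.2.2⟩⟩)
    · rcases h.1 b hb with rfl | h2
      · exact KSG.isPP_X_sub_C 1
      · exact KSG.isPP_of_mem_cycFac h2
    · refine KSG.not_X_dvd_of_dvd_X_pow_sub_one hr.ne_zero ((KSG.dvd_X_pow_sub_one_iff hr hr0 ?_).2 (h.1 b hb))
      rcases h.1 b hb with rfl | h2
      · exact KSG.isPP_X_sub_C 1
      · exact KSG.isPP_of_mem_cycFac h2
  rw [e1, KSG.card_multiset_weight (KSG.cycFac r F) _ (KSG.X_sub_one_notMem_cycFac hr hr0) _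
    (Polynomial.natDegree_X_sub_C 1) (i := i) (fun b hb => KSG.natDegree_of_mem_cycFac hr hr0 hb), ← hT,
    ← KSG.card_multiset_card_le]
  have hfin : Finite {u : Multiset (Polynomial F) // (∀ b ∈ u, b ∈ KSG.cycFac r F) ∧ Multiset.card u ≤ n / i} := by
    apply Nat.finite_of_card_ne_zero
    rw [KSG.card_multiset_card_le]
    exact (Nat.choose_pos (Nat.le_add_left _ _)).ne'
  let z : {u : Multiset (Polynomial F) // (∀ b ∈ u, b ∈ KSG.cycFac r F) ∧ Multiset.card u ≤ n / i} :=
    ⟨0, by simp⟩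
  have := Fintype.ofFinite {u : Multiset (Polynomial F) // (∀ b ∈ u, b ∈ KSG.cycFac r F) ∧ Multiset.card u ≤ n / i}
  rw [Nat.card_eq_fintype_card (α := {u : Multiset (Polynomial F) // (∀ b ∈ u, b ∈ KSG.cycFac r F) ∧ Multiset.card u ≤ n / i}),
    ← Set.card_ne_eq z, ← Nat.card_eq_fintype_card]
  refine Nat.card_congr
    { toFun := fun u => ⟨⟨u.1, u.2.1, (Nat.le_div_iff_mul_le hpos).2 u.2.2.1⟩, fun h => u.2.2.2 ?_⟩
      invFun := fun u => ⟨u.1.1, u.1.2.1, (Nat.le_div_iff_mul_le hpos).1 u.1.2.2, fun h => u.2 ?_⟩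
      left_inv := fun _ => rfl
      right_inv := fun _ => rfl }
  · have h0 : u.1 = 0 := congrArg Subtype.val h
    intro b hb
    rw [h0, zero_add] at hb
    exact Multiset.eq_of_mem_replicate hb
  · refine Subtype.ext (Multiset.eq_zero_of_forall_notMem fun b hb => ?_)
    have := h b (Multiset.mem_add.2 (Or.inl hb))
    exact KSG.X_sub_one_notMem_cycFac hr hr0 (this ▸ u.1.2.1 b hb)

end Cfsg.Agent.S2568
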