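import Mathlib
import Cfsg.Statements.S2570
import Cfsg.Agent.KSG.SimCount
-- import your own Cfsg.Agent.* helpers here

set_option autoImplicit false
open Cfsg

namespace Cfsg.Agent.S2570

/-- Number of conjugacy classes of elements of order p in GL_n over a finite field of characteristic p: they correspond to the Jordan types, that is, to the partitions of n with all parts at most p other than the partition into ones, so there are (number of partitions of n with parts ≤ p) − 1 of them. -/
theorem result {F : Type*} [Field F] [Fintype F] {p : ℕ} [Fact p.Prime] [CharP F p] (n : ℕ) : Nat.card {C : ConjClasses (GL (Fin n) F) // ∃ g : GL (Fin n) F, ConjClasses.mk g = C ∧ orderOf g = p} = (Finset.univ.filter (fun μ : Nat.Partition n => ∀ a ∈ μ.parts, a ≤ p)).card - 1 := by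
  classical
  have hp : p.Prime := Fact.out
  have h := KSG.card_conjClasses_GL (n := Fin n) (F := F) (fun g => g ^ p ^ 1 = 1)
    (fun s => ∀ b ∈ s, ∃ e, e ≤ p ^ 1 ∧ b = (Polynomial.X - Polynomial.C 1) ^ e)
    (fun A => KSG.GL_pow_char_pow_eq_one_iff_mdiv p A 1)
  rw [KSG.card_multiset_unipotent (F := F) _ (fun e => e ≤ p ^ 1), Fintype.card_fin] at h
  simp only [pow_one] at h
  rw [Nat.card_eq_fintype_card (α := {μ : Nat.Partition n // _}), Fintype.card_subtype] at h
  rw [← h]
  have key : ∀ C : ConjClasses (GL (Fin n) F),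
      (∃ g : GL (Fin n) F, ConjClasses.mk g = C ∧ orderOf g = p) ↔
      ((∃ g : GL (Fin n) F, ConjClasses.mk g = C ∧ g ^ p = 1) ∧ C ≠ ConjClasses.mk 1) := by
    intro C
    constructor
    · rintro ⟨g, rfl, hg⟩
      refine ⟨⟨g, rfl, hg ▸ pow_orderOf_eq_one g⟩, fun h => ?_⟩
      rw [ConjClasses.mk_eq_mk_iff_isConj, isConj_one_left] at h
      rw [h, orderOf_one] at hg
      exact hp.one_lt.ne hg
    · rintro ⟨⟨g, rfl, hg⟩, h1⟩
      exact ⟨g, rfl, orderOf_eq_prime hg fun h => h1 (h ▸ rfl)⟩
  rw [Nat.card_congr (Equiv.subtypeEquivRight key)]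
  have := Set.ncard_sdiff_singleton_of_mem (s := {C : ConjClasses (GL (Fin n) F) |
    ∃ g : GL (Fin n) F, ConjClasses.mk g = C ∧ g ^ p = 1}) (a := ConjClasses.mk 1)
    ⟨1, rfl, one_pow p⟩
  exact this

end Cfsg.Agent.S2570
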