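import Cfsg.Statements.S2572
import Mathlib
import Cfsg.Agent.KSG.Layer

set_option autoImplicit false
open Cfsg

namespace Cfsg.Agent.S2572

/-- Centraliser of a transvection in GL_n(q), n ≥ 2: if t − 1 has rank one and square zero, the centraliser of t in GL_n(q) has order q^(2n−3) (q − 1) |GL_(n−2)(q)| (a group of order q^(2n−3) extended by GL_1(q) × GL_(n−2)(q)). -/
theorem result {F : Type*} [Field F] [Fintype F] {q n : ℕ} (hF : Fintype.card F = q) (hn : 2 ≤ n) (t : GL (Fin n) F) (ht : Cfsg.IsTransvection (t : Matrix (Fin n) (Fin n) F)) : Nat.card ↥(Subgroup.centralizer ({t} : Set (GL (Fin n) F))) = q ^ (2 * n - 3) * (q - 1) * ∏ i : Fin (n - 2), (q ^ (n - 2) - q ^ (i : ℕ)) := by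
  classical
  set A : Matrix (Fin n) (Fin n) F := t.1 with hA
  have e : Matrix.toLin' (A - 1) = Matrix.toLin' A - (1 : F) • 1 := by
    rw [map_sub, Matrix.toLin'_one, one_smul]; rfl
  have h2 : (Matrix.toLin' A - (1 : F) • 1) ^ 2 = 0 := by
    rw [← e, sq, Module.End.mul_eq_comp, ← Matrix.toLin'_mul, ht.2, map_zero]
  obtain ⟨m, d, v, b, h⟩ := KSG.exists_isJB ⟨2, h2⟩
  have hd : ∀ k, d k ≤ 2 := fun k => by
    by_contra hc
    have := h.pow_apply_basis 2 k ⟨0, h.pos k⟩
    rw [h2, dif_pos (by simp only; omega)] at this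
    exact b.ne_zero _ this.symm
  have h3 : ∑ k, d k = n := by rw [← h.finrank_eq]; simp
  have h4 : 1 + ∑ k, min 1 (d k) = n := by
    rw [← h.finrank_ker_pow, pow_one, ← e, ← ht.1]
    exact (KSG.rank_add_finrank_ker (A - 1)).trans (Fintype.card_fin n)
  have h5 : ∀ f : ℕ → ℕ, ∑ k, f (d k) = (Finset.univ.filter (fun k => d k = 1)).card * f 1 +
      (Finset.univ.filter (fun k => d k = 2)).card * f 2 := fun f => by
    rw [Finset.card_filter, Finset.card_filter, Finset.sum_mul, Finset.sum_mul,
      ← Finset.sum_add_distrib]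
    refine Finset.sum_congr rfl fun k _ => ?_
    have := hd k
    have := h.pos k
    obtain h | h : d k = 1 ∨ d k = 2 := by omega
    all_goals simp [h]
  have h6 := h5 id
  have h7 := h5 (min 1)
  simp only [id] at h6
  have h0 : (Finset.univ.filter (fun k => d k = 0)).card = 0 := by
    simp only [Finset.card_eq_zero, Finset.filter_eq_empty_iff]
    intro k _; have := h.pos k; omega
  have ha2 : (Finset.univ.filter (fun k => d k = 2)).card = 1 := by
    simp at h7; omega
  have ha1 : (Finset.univ.filter (fun k => d k = 1)).card = n - 2 := by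
    simp at h7; omega
  have h8 : Nat.card (Subgroup.centralizer ({t} : Set (GL (Fin n) F))) =
      Nat.card {g : GL (Fin n) F // (g : Matrix (Fin n) (Fin n) F) * A = A * (g : Matrix (Fin n) (Fin n) F)} :=
    Nat.card_congr (Equiv.subtypeEquivRight fun g => by
      rw [Subgroup.mem_centralizer_singleton_iff, Units.ext_iff]; rfl)
  rw [h8, KSG.card_centralizer_eq_card_units_cent _ 1, h.card_units_cent hd,
    Nat.card_eq_fintype_card, hF]
  have h9 : ∀ a c : ℕ, a = c → ∏ j : Fin a, (q ^ a - q ^ (j : ℕ)) = ∏ j : Fin c, (q ^ c - q ^ (j : ℕ)) := by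
    rintro a c rfl; rfl
  simp only [Finset.sum_range_succ, Finset.prod_range_succ, Finset.range_zero, Finset.sum_empty,
    Finset.prod_empty]
  rw [h9 _ _ h0, h9 _ _ ha1, h9 _ _ ha2, h0, ha1, ha2]
  have : 2 * n - 3 = 2 * (n - 2) + 1 := by omega
  rw [this]
  simp
  ring

end Cfsg.Agent.S2572
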