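import Mathlib
import Cfsg.Statements.S2573
import Cfsg.Agent.KSG.SimCount
-- import your own Cfsg.Agent.* helpers here

set_option autoImplicit false
open Cfsg

namespace Cfsg.Agent.S2573

/-- The invariant subspaces of a regular unipotent matrix form a chain: over a finite field, if u is an n × n matrix with (u − 1)^n = 0 and rank(u − 1) = n − 1, then every subspace W of F^n with u W ⊆ W is the kernel of (u − 1)^(dim W); so u has at most one invariant subspace of each dimension. -/
theorem result {F : Type*} [Field F] [Finite F] {n : ℕ} (u : Matrix (Fin n) (Fin n) F) (hnil : (u - 1) ^ n = 0) (hreg : (u - 1).rank = n - 1) (W : Submodule F (Fin n → F)) (hW : ∀ v ∈ W, u.mulVec v ∈ W) : W = LinearMap.ker (Matrix.mulVecLin ((u - 1) ^ Module.finrank F W)) := by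
  classical
  set N : Module.End F (Fin n → F) := Matrix.toLin' (u - 1) with hN
  have hpow : ∀ k, Matrix.mulVecLin ((u - 1) ^ k) = N ^ k := fun k => by
    rw [hN, ← Matrix.toLin'_pow]; rfl
  rw [hpow]
  have hWN : ∀ v ∈ W, N v ∈ W := fun v hv => by
    rw [hN, Matrix.toLin'_apply, Matrix.sub_mulVec, Matrix.one_mulVec]
    exact W.sub_mem (hW v hv) hv
  have hNn : N ^ n = 0 := by rw [← hpow, hnil]; simp
  have hk1 : Module.finrank F (LinearMap.ker N) ≤ 1 := by
    have := KSG.rank_add_finrank_ker (u - 1)
    rw [hreg, Fintype.card_fin, ← hN] at this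
    omega
  have hk : ∀ k, Module.finrank F (LinearMap.ker (N ^ k)) ≤ k := by
    intro k
    induction k with
    | zero => simp [Module.End.one_eq_id]
    | succ k ih =>
      let φ : LinearMap.ker (N ^ (k + 1)) →ₗ[F] LinearMap.ker (N ^ k) :=
        N.restrict fun v hv => by
          rw [LinearMap.mem_ker, ← Module.End.mul_apply, ← pow_succ]; exact hv
      have h1 := LinearMap.finrank_range_add_finrank_ker φ
      have h2 := Submodule.finrank_le (LinearMap.range φ)
      have h3 : Module.finrank F (LinearMap.ker φ) ≤ Module.finrank F (LinearMap.ker N) := by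
        refine LinearMap.finrank_le_finrank_of_injective
          (f := LinearMap.codRestrict (LinearMap.ker N)
            ((LinearMap.ker (N ^ (k + 1))).subtype ∘ₗ (LinearMap.ker φ).subtype) fun v => ?_) ?_
        · exact congrArg Subtype.val v.2
        · intro v w h
          have h' := congrArg Subtype.val h
          exact Subtype.ext (Subtype.ext h')
      omega
  have hle : W ≤ LinearMap.ker (N ^ Module.finrank F W) := by
    intro v hv
    have hnilW : IsNilpotent (N.restrict hWN) := ⟨n, by
      rw [Module.End.pow_restrict n hWN]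
      ext x
      simp [LinearMap.restrict_apply, hNn]⟩
    have h1 := (N.restrict hWN).aeval_self_charpoly
    rw [hnilW.charpoly_eq_X_pow_finrank, map_pow, Polynomial.aeval_X,
      Module.End.pow_restrict _ hWN] at h1
    have := congrArg (fun f => ((f ⟨v, hv⟩ : W) : Fin n → F)) h1
    simpa [LinearMap.restrict_apply] using this
  exact Submodule.eq_of_le_of_finrank_le hle (hk _)

end Cfsg.Agent.S2573
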