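import Cfsg.Statements.S2574
import Mathlib
import Cfsg.Agent.S2573
import Cfsg.Agent.Class.FormedSpU

set_option autoImplicit false
open Cfsg

namespace Cfsg.Agent.S2574

open Cfsg.Agent.Class Module Matrix

theorem chain {F : Type*} [Field F] [Finite F] {ι : Type} [Fintype ι] [DecidableEq ι]
    (u : Matrix ι ι F) (hnil : (u - 1) ^ Fintype.card ι = 0)
    (hreg : (u - 1).rank = Fintype.card ι - 1) (W W' : Submodule F (ι → F))
    (hW : ∀ v ∈ W, u.mulVec v ∈ W) (hW' : ∀ v ∈ W', u.mulVec v ∈ W')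
    (hd : finrank F W ≤ finrank F W') : W ≤ W' := by
  let e := Fintype.equivFin ι
  let φ : (ι → F) ≃ₗ[F] (Fin (Fintype.card ι) → F) := LinearEquiv.funCongrLeft F F e.symm
  let u' := Matrix.reindex e e u
  have h1 : u' - 1 = Matrix.reindexAlgEquiv F F e (u - 1) := by
    rw [map_sub, map_one]; rfl
  have hφ : ∀ v, φ (u *ᵥ v) = u' *ᵥ φ v := fun v => by
    ext i
    simp [φ, u', Matrix.submatrix_mulVec_equiv, Function.comp_def]
  have key : ∀ X : Submodule F (ι → F), (∀ v ∈ X, u.mulVec v ∈ X) →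
      X.map φ.toLinearMap = LinearMap.ker (Matrix.mulVecLin ((u' - 1) ^ finrank F X)) := by
    intro X hX
    have := S2573.result u' (by rw [h1, ← map_pow, hnil, map_zero])
      (by rw [h1, ← hreg]; exact Matrix.rank_reindex e e _) (X.map φ.toLinearMap) (by
        rintro _ ⟨v, hv, rfl⟩
        exact ⟨_, hX v hv, hφ v⟩)
    rwa [LinearEquiv.finrank_map_eq] at this
  rw [← Submodule.map_le_map_iff_of_injective (f := φ.toLinearMap) φ.injective, key W hW, key W' hW']
  intro v hv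
  obtain ⟨k, hk⟩ := Nat.exists_eq_add_of_le' hd
  rw [LinearMap.mem_ker, Matrix.mulVecLin_apply] at hv ⊢
  rw [hk, pow_add, ← mulVec_mulVec, hv, mulVec_zero]

/-- A regular unipotent element of the symplectic group has totally isotropic small invariant subspaces: over a finite field, if u ∈ Sp_2m(F) satisfies (u − 1)^(2m) = 0 and rank(u − 1) = 2m − 1, and W is a u-invariant subspace with 2 dim W ≤ 2m, then the alternating form vanishes identically on W. -/
theorem result {F : Type*} [Field F] [Finite F] {m : ℕ} (u : Matrix.symplecticGroup (Fin m) F) (hnil : ((u : Matrix (Fin m ⊕ Fin m) (Fin m ⊕ Fin m) F) - 1) ^ (2 * m) = 0) (hreg : ((u : Matrix (Fin m ⊕ Fin m) (Fin m ⊕ Fin m) F) - 1).rank = 2 * m - 1) (W : Submodule F (Fin m ⊕ Fin m → F)) (hW : ∀ v ∈ W, (u : Matrix (Fin m ⊕ Fin m) (Fin m ⊕ Fin m) F).mulVec v ∈ W) (hdim : 2 * Module.finrank F W ≤ 2 * m) : ∀ v ∈ W, ∀ w ∈ W, Cfsg.sympForm m F v w = 0 := by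
  have hc : Fintype.card (Fin m ⊕ Fin m) = 2 * m := by simp [two_mul]
  have h1 := (isSympSpace_sympB m F).finrank_add_finrank_perp W
  rw [finrank_fintype_fun_eq_card, hc] at h1
  have h2 : spEquiv m F u ∈ stabS (sympB m F) (fun _ => 0) (perp (sympB m F) W) :=
    stabS_le_stabS_perp W (mem_stabS_iff_le.2 hW)
  intro v hv w hw
  exact chain (u : Matrix (Fin m ⊕ Fin m) (Fin m ⊕ Fin m) F) (by rw [hc, hnil]) (by rw [hc, hreg])
    W (perp (sympB m F) W) hW (mem_stabS_iff_le.1 h2) (by omega) hw v hv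

end Cfsg.Agent.S2574
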