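import Cfsg.Statements.S2575
import Cfsg.Agent.KSG.CyclicPow

set_option autoImplicit false
open Cfsg

namespace Cfsg.Agent.S2575

theorem neg_one_ne_one {F : Type*} [Field F] [Fintype F] (hq : Odd (Fintype.card F)) :
    (-1 : F) ≠ 1 := by
  intro h
  have h2 : (2 : F) = 0 := by linear_combination -h
  have : ringChar F = 2 := by
    have h3 := (ringChar.spec F 2).1 (by exact_mod_cast h2)
    rcases (Nat.dvd_prime Nat.prime_two).1 h3 with h4 | h4
    · exact absurd h4 (CharP.ringChar_ne_one)
    · exact h4
  have := FiniteField.even_card_of_char_two this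
  rw [Nat.odd_iff] at hq
  omega

theorem result {F : Type*} [Field F] [Fintype F] {q : ℕ} (hF : Fintype.card F = q) (hq : Odd q) {n : ℕ} (hn : 1 ≤ n) (i : ℕ) (hi : i ≤ n) : (∃ c : F, c ≠ 0 ∧ (c • Matrix.diagonal (fun j : Fin n => if (j : ℕ) < i then (-1 : F) else 1)).det = 1) ↔ (Even i ∨ padicValNat 2 n < padicValNat 2 (q - 1)) := by
  subst hF
  have hdet : (Matrix.diagonal (fun j : Fin n => if (j : ℕ) < i then (-1 : F) else 1)).det
      = (-1) ^ i := by
    rw [Matrix.det_diagonal, Finset.prod_ite]
    simp only [Finset.prod_const, one_pow, mul_one]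
    congr 1
    rw [Fin.card_filter_val_lt]
    omega
  simp only [Matrix.det_smul, Fintype.card_fin, hdet]
  rcases Nat.even_or_odd i with he | ho
  · simp only [he, true_or, iff_true, he.neg_one_pow]
    exact ⟨1, one_ne_zero, by simp⟩
  · have : ¬ Even i := Nat.not_even_iff_odd.2 ho
    simp only [this, false_or, ho.neg_one_pow]
    have h1 : ∀ c : F, c ^ n * -1 = 1 ↔ c ^ n = -1 := by
      intro c
      constructor <;> intro h <;> linear_combination -h
    simp only [h1]
    rw [KSG.field_exists_pow_eq_iff n (by simp)]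
    have h2 : orderOf (-1 : F) = 2 ^ 1 := by
      rw [pow_one]
      exact orderOf_eq_prime (by simp) (neg_one_ne_one hq)
    have h3 : 1 < Fintype.card F := Fintype.one_lt_card
    rw [h2, KSG.prime_pow_dvd_div_gcd_iff (by omega) (by omega)]
    have h4 : 1 ≤ padicValNat 2 (Fintype.card F - 1) := by
      apply one_le_padicValNat_of_dvd (by omega)
      rw [Nat.odd_iff] at hq
      omega
    omega

end Cfsg.Agent.S2575
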