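import Cfsg.Statements.S2576
import Cfsg.Agent.S2575

set_option autoImplicit false
open Cfsg

namespace Cfsg.Agent.S2576

theorem result {F : Type*} [Field F] [Fintype F] {q : ℕ} (hF : Fintype.card F = q) (hq : Odd q) {m : ℕ} (hm : 1 ≤ m) (μ : F) (hμ : orderOf μ = 2 ^ padicValNat 2 (q - 1)) : (∃ c : F, c ≠ 0 ∧ (c • Matrix.blockDiagonal (fun _ : Fin m => !![(0 : F), 1; μ, 0])).det = 1) ↔ (q % 4 = 3 ∨ padicValNat 2 (q - 1) < padicValNat 2 (2 * m)) := by
  subst hF
  have h3 : 1 < Fintype.card F := Fintype.one_lt_card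
  have hdet : (Matrix.blockDiagonal (fun _ : Fin m => !![(0 : F), 1; μ, 0])).det = (-μ) ^ m := by
    rw [Matrix.det_blockDiagonal]
    simp [Matrix.det_fin_two]
  simp only [Matrix.det_smul, hdet, Fintype.card_prod, Fintype.card_fin]
  have hμ0 : μ ≠ 0 := by
    rintro rfl
    have := pow_orderOf_eq_one (0 : F)
    rw [hμ, zero_pow (by positivity)] at this
    exact zero_ne_one this
  have h1 : ∀ c : F, c ^ (2 * m) * (-μ) ^ m = 1 ↔ c ^ (2 * m) = ((-μ) ^ m)⁻¹ := by
    intro c
    rw [← mul_eq_one_iff_eq_inv₀ (pow_ne_zero _ (neg_ne_zero.2 hμ0))]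
  simp only [h1]
  rw [KSG.field_exists_pow_eq_iff _ (inv_ne_zero (pow_ne_zero _ (neg_ne_zero.2 hμ0)))]
  have hodd := Nat.odd_iff.1 hq
  have h4 : 1 ≤ padicValNat 2 (Fintype.card F - 1) := by
    apply one_le_padicValNat_of_dvd (by omega)
    omega
  have h5 : padicValNat 2 (2 * m) = padicValNat 2 m + 1 := by
    rw [padicValNat.mul (by omega) (by omega), padicValNat_self]; omega
  have hinv : ∀ x : F, orderOf x⁻¹ = orderOf x := by
    intro x
    apply orderOf_eq_orderOf_iff.2
    intro n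
    rw [inv_pow, inv_eq_one]
  rw [hinv]
  set a := padicValNat 2 (Fintype.card F - 1) with ha
  by_cases h6 : Fintype.card F % 4 = 3
  · simp only [h6, true_or, iff_true]
    have : a = 1 := by
      by_contra h
      have : 2 ^ 2 ∣ Fintype.card F - 1 := (padicValNat_dvd_iff_le (by omega)).2 (by omega)
      omega
    rw [this, pow_one] at hμ
    have h7 : μ = -1 := by
      have h8 : μ ^ 2 = 1 := by rw [← hμ, pow_orderOf_eq_one]
      rcases sq_eq_one_iff.1 h8 with h | h
      · rw [h, orderOf_one] at hμ; omega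
      · exact h
    simp [h7]
  · simp only [h6, false_or]
    have h7 : 2 ≤ a := (padicValNat_dvd_iff_le (p := 2) (by omega)).1 (by omega)
    have h8 : orderOf (-μ) = 2 ^ a := by
      obtain ⟨b, hb⟩ : ∃ b, a = b + 1 := ⟨a - 1, by omega⟩
      rw [hb] at hμ ⊢
      apply orderOf_eq_prime_pow
      · rw [Even.neg_pow (Nat.even_pow.2 ⟨even_two, by omega⟩)]
        intro h
        have := orderOf_dvd_of_pow_eq_one h
        rw [hμ, Nat.pow_dvd_pow_iff_le_right (by omega)] at this
        omega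
      · rw [Even.neg_pow (Nat.even_pow.2 ⟨even_two, by omega⟩), ← hμ, pow_orderOf_eq_one]
    rw [orderOf_pow' _ (by omega), h8]
    have h9 : (2 ^ a).gcd m = 2 ^ (min a (padicValNat 2 m)) := by
      apply Nat.dvd_antisymm
      · obtain ⟨k, hk, hk'⟩ := (Nat.dvd_prime_pow Nat.prime_two).1 (Nat.gcd_dvd_left (2 ^ a) m)
        rw [hk']
        apply pow_dvd_pow
        have : 2 ^ k ∣ m := hk' ▸ Nat.gcd_dvd_right _ _
        have := (padicValNat_dvd_iff_le (by omega)).1 this
        omega
      · apply Nat.dvd_gcd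
        · exact pow_dvd_pow _ (min_le_left _ _)
        · exact (padicValNat_dvd_iff_le (by omega)).2 (min_le_right _ _)
    rw [h9, Nat.pow_div (min_le_left _ _) (by omega),
      KSG.prime_pow_dvd_div_gcd_iff (by omega) (by omega), h5]
    omega

end Cfsg.Agent.S2576
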