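import Cfsg.Statements.S2579
import Mathlib
import Cfsg.Agent.KSG.Cent

set_option autoImplicit false
open Cfsg

namespace Cfsg.Agent.S2579

/-- In SL_n(F) with n ≥ 3, over a finite field F, any two transvections (matrices t with t − 1 of rank one and square zero) are conjugate by an element of SL_n(F). -/
theorem result {F : Type*} [Field F] [Finite F] {n : ℕ} (hn : 3 ≤ n) (s t : Matrix.SpecialLinearGroup (Fin n) F) (hs : Cfsg.IsTransvection (s : Matrix (Fin n) (Fin n) F)) (ht : Cfsg.IsTransvection (t : Matrix (Fin n) (Fin n) F)) : IsConj s t := by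
  have h2 : ∀ a : Matrix (Fin n) (Fin n) F, Cfsg.IsTransvection a → (a - 1) ^ 2 = 0 :=
    fun a ha => by rw [pow_two]; exact ha.2
  refine KSG.SL_isConj_of_det_surj (fun d hd => ?_)
    (KSG.isConj_of_unipotent_of_rank (h2 _ hs) (h2 _ ht) fun j hj => ?_)
  · have h1 := KSG.rank_add_card_mdiv_of_unipotent (h2 _ hs)
    have h3 := KSG.sum_natDegree_mdiv (s : Matrix (Fin n) (Fin n) F)
    rw [hs.1, Fintype.card_fin] at h1
    rw [Fintype.card_fin] at h3
    obtain ⟨c, hc, hc1⟩ : ∃ c ∈ KSG.mdiv (s : Matrix (Fin n) (Fin n) F), c.natDegree = 1 := by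
      by_contra hcon
      push Not at hcon
      have := Multiset.card_nsmul_le_sum (s := (KSG.mdiv (s : Matrix (Fin n) (Fin n) F)).map
        Polynomial.natDegree) (a := 2) (by
          intro x hx
          obtain ⟨c, hc, rfl⟩ := Multiset.mem_map.1 hx
          have := hcon c hc
          have := (KSG.isPP_of_mem_mdiv hc).natDegree_pos
          omega)
      rw [h3, Multiset.card_map, smul_eq_mul] at this
      omega
    simpa [hc1] using KSG.exists_commute_det_eq_pow hc d hd
  · obtain rfl | hj2 : j = 1 ∨ 2 ≤ j := by omega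
    · rw [pow_one, pow_one, hs.1, ht.1]
    · rw [pow_eq_zero_of_le hj2 (h2 _ hs), pow_eq_zero_of_le hj2 (h2 _ ht)]

end Cfsg.Agent.S2579
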