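import Cfsg.Statements.S2583
import Mathlib
import Cfsg.Agent.Class.Wall.Jordan

set_option autoImplicit false
open Cfsg

namespace Cfsg.Agent.S2583

/-- Which unipotent Jordan types occur in a finite orthogonal group in odd characteristic: over a finite field of odd order, a unipotent matrix with Jordan block sizes d_1, …, d_t (sum n, all at least 1) is similar to an isometry of some quadratic form on F^n with non-degenerate polar form if and only if every even block size occurs an even number of times. -/
theorem result {F : Type*} [Field F] [Fintype F] (h2 : (2 : F) ≠ 0) {n t : ℕ} (d : Fin t → ℕ) (hd : ∀ k, 1 ≤ d k) (hsum : ∑ k, d k = n) : (∃ Q : QuadraticForm F (Fin n → F), (QuadraticMap.polarBilin Q).Nondegenerate ∧ ∃ e : ((k : Fin t) × Fin (d k)) ≃ Fin n, ∃ A : ↥(Cfsg.isometryGroup F ⇑Q), IsConj (Matrix.reindex e e (Cfsg.jordanTypeMatrix d F)) ((A : Matrix.GeneralLinearGroup (Fin n) F) : Matrix (Fin n) (Fin n) F)) ↔ ∀ j : ℕ, Even j → 0 < j → Even (Finset.univ.filter (fun k : Fin t => d k = j)).card := by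
  have e : ((k : Fin t) × Fin (d k)) ≃ Fin n := Fintype.equivOfCardEq (by simp [hsum])
  simp only [Class.Wall.isConj_jordanTypeMatrix_iff hd]
  constructor
  · rintro ⟨Q, hQ, -, A, hA⟩ j hj -
    refine (Class.Wall.parity_jtype_iff (F := F) Even).1 (fun c e hc he => ?_) j hj
    rw [← hA]
    exact (Class.isFormed_of_quadratic Q hQ).herm.even_count_of_symm h2
      (Class.Wall.O_pres Q (fun _ => rfl) A).map_B hc he
  · intro h
    obtain ⟨Q, hQ, A, hA⟩ := (Class.Wall.real_orth h2 (Class.Wall.isPP_of_mem_jtype hd)
      Class.Wall.not_X_dvd_of_mem_jtype (Class.Wall.map_dual_jtype _)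
      ((Class.Wall.parity_jtype_iff Even).2 fun j hj => by
        rcases Nat.eq_zero_or_pos j with rfl | h0
        · rw [Finset.filter_eq_empty_iff.2 fun k _ => by have := hd k; omega]
          exact Even.zero
        · exact h j hj h0)).exists_O (n := Fin n)
      (by rw [Class.Wall.sum_natDegree_jtype, hsum, Fintype.card_fin])
    exact ⟨Q, hQ, e, A, hA⟩

end Cfsg.Agent.S2583
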