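import Cfsg.Statements.S2584
import Mathlib
import Cfsg.Agent.Class.Wall.Jordan

set_option autoImplicit false
open Cfsg

namespace Cfsg.Agent.S2584

/-- Which unipotent Jordan types occur in a finite orthogonal group in characteristic two: over a finite field of characteristic 2 and in even dimension 2m, a unipotent matrix with Jordan block sizes d_1, …, d_t (sum 2m, all at least 1) is similar to an isometry of some quadratic form on F^(2m) with non-degenerate polar form if and only if every odd block size occurs an even number of times (the same condition as for the symplectic group, which contains these orthogonal groups). -/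
theorem result {F : Type*} [Field F] [Fintype F] [CharP F 2] {m t : ℕ} (d : Fin t → ℕ) (hd : ∀ k, 1 ≤ d k) (hsum : ∑ k, d k = 2 * m) : (∃ Q : QuadraticForm F (Fin (2 * m) → F), (QuadraticMap.polarBilin Q).Nondegenerate ∧ ∃ e : ((k : Fin t) × Fin (d k)) ≃ Fin (2 * m), ∃ A : ↥(Cfsg.isometryGroup F ⇑Q), IsConj (Matrix.reindex e e (Cfsg.jordanTypeMatrix d F)) ((A : Matrix.GeneralLinearGroup (Fin (2 * m)) F) : Matrix (Fin (2 * m)) (Fin (2 * m)) F)) ↔ ∀ j : ℕ, Odd j → Even (Finset.univ.filter (fun k : Fin t => d k = j)).card := by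
  have e : ((k : Fin t) × Fin (d k)) ≃ Fin (2 * m) := Fintype.equivOfCardEq (by simp [hsum])
  have h2 : (2 : F) = 0 := CharTwo.two_eq_zero
  simp only [Class.Wall.isConj_jordanTypeMatrix_iff hd]
  constructor
  · rintro ⟨Q, hQ, -, A, hA⟩
    refine (Class.Wall.parity_jtype_iff (F := F) Odd).1 fun c e hc he => ?_
    rw [← hA]
    exact Class.IsSympSpace.even_count (Class.isFormed_of_isAlt hQ fun x => by
      simp [QuadraticMap.polar_self, h2]) (Class.Wall.O_pres Q (fun _ => rfl) A).map_B hc he
  · intro h
    obtain ⟨Q, hQ, A, hA⟩ := ((Class.Wall.real_sp (Class.Wall.isPP_of_mem_jtype hd)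
      Class.Wall.not_X_dvd_of_mem_jtype (Class.Wall.map_dual_jtype _)
      ((Class.Wall.parity_jtype_iff Odd).2 h)).orth_of_sp h2).exists_O (n := Fin (2 * m))
      (by rw [Class.Wall.sum_natDegree_jtype, hsum, Fintype.card_fin])
    exact ⟨Q, hQ, e, A, hA⟩

end Cfsg.Agent.S2584
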