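import Cfsg.Statements.S2585
import Cfsg.Agent.Class.Orth.TypeCount
import Cfsg.Agent.Class.Orth.Levi
import Cfsg.Agent.Class.Sp.Basic

set_option autoImplicit false
open Cfsg

namespace Cfsg.Agent.S2585

/-- Over a finite field of characteristic two every element of the symplectic group is orthogonal for a suitable quadratic form: for each A in Sp_2m(F) there is a quadratic form Q on F^(2m) whose polar form is the alternating form defining Sp_2m(F) (so Q is non-degenerate) and which A preserves. Equivalently, for m ≥ 1, Sp_2m(F) is the union of the conjugates of its two orthogonal subgroups O⁺_2m(F) and O⁻_2m(F). -/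
theorem result {F : Type*} [Field F] [Fintype F] [CharP F 2] {m : ℕ} (A : Matrix.symplecticGroup (Fin m) F) : ∃ Q : QuadraticForm F (Fin m ⊕ Fin m → F), (∀ u v : Fin m ⊕ Fin m → F, QuadraticMap.polar ⇑Q u v = Cfsg.sympForm m F u v) ∧ ∀ v : Fin m ⊕ Fin m → F, Q ((A : Matrix (Fin m ⊕ Fin m) (Fin m ⊕ Fin m) F).mulVec v) = Q v := by
  have h2 : (2 : F) = 0 := CharTwo.two_eq_zero
  have hp : ∀ u v, QuadraticMap.polar (Class.Orth.plusQF m F) u v = sympForm m F u v := by
    intro u v
    rw [Class.Orth.polar_plusQF, Class.Sp.form_eq]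
    refine Finset.sum_congr rfl fun i _ => ?_
    linear_combination (u (.inl i) * v (.inr i)) * h2
  obtain ⟨μ, hμ⟩ := Class.Orth.exists_twist_invariant (Q := Class.Orth.plusQF m F) h2
    (Matrix.mulVecLin A.1) (fun u v => by rw [hp, hp]; exact Class.Sp.form_smul_smul A u v)
  exact ⟨_, fun u v => (Class.Orth.polar_twist h2 μ u v).trans (hp u v), hμ⟩

end Cfsg.Agent.S2585
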