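import Cfsg.Statements.S2591
import Mathlib
import Cfsg.Agent.Class.Wall.SpOdd

set_option autoImplicit false
open Cfsg

namespace Cfsg.Agent.S2591

/-- Over a finite field of odd order and for m ≥ 1, the regular unipotent elements of Sp_2m(F) (u − 1 nilpotent of rank 2m − 1, a single Jordan block) form exactly two conjugacy classes of Sp_2m(F) (one class under the similarity group, which splits in two). -/
theorem result {F : Type*} [Field F] [Fintype F] {q : ℕ} (hF : Fintype.card F = q) (hq : Odd q) {m : ℕ} (hm : 1 ≤ m) : Nat.card {C : ConjClasses ↥(Matrix.symplecticGroup (Fin m) F) // ∃ u : Matrix.symplecticGroup (Fin m) F, ConjClasses.mk u = C ∧ ((u : Matrix (Fin m ⊕ Fin m) (Fin m ⊕ Fin m) F) - 1) ^ (2 * m) = 0 ∧ ((u : Matrix (Fin m ⊕ Fin m) (Fin m ⊕ Fin m) F) - 1).rank = 2 * m - 1} = 2 := by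
  classical
  subst hF
  have : Nonempty (Fin m ⊕ Fin m) := ⟨Sum.inl ⟨0, hm⟩⟩
  have hc : Fintype.card (Fin m ⊕ Fin m) = 2 * m := by simp [two_mul]
  have h1 := Nat.Partition.indiscrete_parts (show 2 * m ≠ 0 by omega)
  rw [Class.Wall.card_unip_classes_Sp (Class.Orth.two_ne_zero_of_odd_card hq) _
    (· = Nat.Partition.indiscrete (2 * m)) ?_ fun A => ?_]
  · simp [Finset.filter_eq', h1, Finset.filter_singleton]
  · rintro _ rfl j hj
    rw [h1, Multiset.count_singleton, if_neg (by rintro rfl; exact Nat.not_even_iff_odd.2 hj (even_two_mul m))]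
    exact Even.zero
  · rw [exists_eq_left, h1, Multiset.map_singleton]
    refine ⟨fun h => hc ▸ KSG.mdiv_of_regular_unipotent h.1 (hc.symm ▸ h.2), fun h => ?_⟩
    have h2 : (A.1 - 1) ^ (2 * m) = 0 := by
      rw [← KSG.aeval_X_sub_one_pow, KSG.aeval_eq_zero_iff_mdiv, h]
      simp
    have h3 := KSG.rank_add_card_mdiv_of_unipotent h2
    rw [h, hc, Multiset.card_singleton] at h3
    exact ⟨h2, by omega⟩

end Cfsg.Agent.S2591
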