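import Cfsg.Statements.S2593
import Cfsg.Agent.Class.Invol2

set_option autoImplicit false
open Cfsg

namespace Cfsg.Agent.S2593

open Cfsg.Agent.Class Cfsg.Agent.Class.WallF Module

/-- Number of conjugacy classes of involutions in the symplectic group Sp_2m(F) over a finite field of characteristic two (m ≥ 1): for each s with 1 ≤ s ≤ m there is one class with rank(t − 1) = s if s is odd and two if s is even (according as v ↦ f(v, tv), f the symplectic form, vanishes identically or not), so m + ⌊m/2⌋ classes in all. -/
theorem result {F : Type*} [Field F] [Fintype F] [CharP F 2] {m : ℕ} (hm : 1 ≤ m) : Nat.card {C : ConjClasses ↥(Matrix.symplecticGroup (Fin m) F) // ∃ g : Matrix.symplecticGroup (Fin m) F, ConjClasses.mk g = C ∧ orderOf g = 2} = m + m / 2 := by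
  have hc : (2 : F) = 0 := CharTwo.two_eq_zero
  have h := isSympSpace_sympB m F
  have hd : finrank F (Fin m ⊕ Fin m → F) = 2 * m := by simp [two_mul]
  have hε : (-1 : F) = 1 := CharTwo.neg_eq 1
  have hle : ∀ t : Isom (sympB m F) fun _ => 0, t * t = 1 → finrank F (mv t.1) ≤ m := by
    intro t ht
    have := two_mul_finrank_mv_le h hc t.2.1 (congrArg Subtype.val ht)
    omega
  rw [card_classes_congr (spEquiv m F)]
  refine card_invol_classes h hc (fun t ht _ => hle t ht) (fun t ht _ => hle t ht)
    (fun s h1 h2 => ?_) (fun s h1 h2 => ?_)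
  · obtain ⟨v, li, hv⟩ := exists_isotropic_family (F := F) h2
    exact exists_invol_not_alt h hc hε (by simp) h1 v li hv fun _ => rfl
  · obtain ⟨v, li, hv⟩ := exists_isotropic_family (F := F) h2
    have hs : finrank F (Submodule.span F (Set.range v)) = s := by
      rw [finrank_span_eq_card li, Fintype.card_fin]
    obtain ⟨t, t1, t2, t3⟩ := exists_invol_alt h hc hε (Submodule.span F (Set.range v))
      (fun x hx y hy => by
        have := (h.isometric_span 0 (Set.range v) (by
          rintro _ ⟨i, rfl⟩ _ ⟨j, rfl⟩
          simpa using (hv i j).symm) (fun _ _ => rfl)).1 x hx y hy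
        simpa using this.symm) (fun _ _ => rfl) (by rwa [hs])
    exact ⟨t, t1, t2 ▸ hs, t3⟩

end Cfsg.Agent.S2593
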