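import Cfsg.Statements.S2594
import Cfsg.Agent.Class.Invol2
import Cfsg.Agent.S2680

set_option autoImplicit false
open Cfsg

namespace Cfsg.Agent.S2594

open Cfsg.Agent.Class Cfsg.Agent.Class.WallF Module

/-- Over a finite field with q elements, q even, an element t of Sp_2m(F) with rank(t − 1) = 1 (a symplectic transvection) has centraliser in Sp_2m(F) of order q^(2m−1) · |Sp_(2m−2)(q)| = q^(2m−1) · q^((m−1)²) · Π_(i=1)^(m−1) (q^(2i) − 1). -/
theorem result {F : Type*} [Field F] [Fintype F] [CharP F 2] {q : ℕ} (hF : Fintype.card F = q) {m : ℕ} (hm : 1 ≤ m) (t : Matrix.symplecticGroup (Fin m) F) (ht : ((t : Matrix (Fin m ⊕ Fin m) (Fin m ⊕ Fin m) F) - 1).rank = 1) : Nat.card ↥(Subgroup.centralizer ({t} : Set ↥(Matrix.symplecticGroup (Fin m) F))) = q ^ (2 * m - 1) * (q ^ ((m - 1) ^ 2) * ∏ i : Fin (m - 1), (q ^ (2 * ((i : ℕ) + 1)) - 1)) := by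
  have hc : (2 : F) = 0 := CharTwo.two_eq_zero
  have h := isSympSpace_sympB m F
  have h2 : t ^ 2 = 1 := by
    rw [rank_sp] at ht
    apply (spEquiv m F).injective
    rw [map_pow, map_one, pow_two]
    refine Subtype.ext (mul_self_eq_one_of_isotropic h hc (spEquiv m F t).2.1 fun x hx y hy => ?_)
    obtain ⟨v, -, hv⟩ := finrank_eq_one_iff'.1 ht
    obtain ⟨a, ha⟩ := hv ⟨x, hx⟩
    obtain ⟨b, hb⟩ := hv ⟨y, hy⟩
    have ha' : a • (v : Fin m ⊕ Fin m → F) = x := congrArg Subtype.val ha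
    have hb' : b • (v : Fin m ⊕ Fin m → F) = y := congrArg Subtype.val hb
    rw [← ha', ← hb']
    simp [Sp.form_self]
  rw [S2680.result hF t h2 ht odd_one]
  simp

end Cfsg.Agent.S2594
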