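import Cfsg.Statements.S2599
import Cfsg.Agent.Class.QF.Disc

set_option autoImplicit false
open Cfsg

namespace Cfsg.Agent.S2599

open Class.QF QuadraticMap

/-- An irreducible invariant subspace of a semisimple isometry is non-degenerate or totally singular: let Q be a quadratic form on F^n (F finite of characteristic p) with non-degenerate polar form f, x an isometry of Q of order prime to p, and U a non-zero x-invariant subspace containing no x-invariant subspace other than 0 and U. Then U meets its f-orthogonal trivially, or Q vanishes on U, or p = 2, U is a line spanned by a non-singular vector and x fixes U pointwise. -/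
theorem result {F : Type*} [Field F] [Fintype F] {p : ℕ} [Fact p.Prime] [CharP F p] {n : ℕ} (Q : QuadraticForm F (Fin n → F)) (hQ : (QuadraticMap.polarBilin Q).Nondegenerate) (x : ↥(Cfsg.isometryGroup F ⇑Q)) (hx : (orderOf x).Coprime p) (U : Submodule F (Fin n → F)) (hU0 : U ≠ ⊥) (hUx : ∀ u ∈ U, ((x : Matrix.GeneralLinearGroup (Fin n) F) : Matrix (Fin n) (Fin n) F).mulVec u ∈ U) (hirr : ∀ W : Submodule F (Fin n → F), W ≤ U → (∀ w ∈ W, ((x : Matrix.GeneralLinearGroup (Fin n) F) : Matrix (Fin n) (Fin n) F).mulVec w ∈ W) → W = ⊥ ∨ W = U) : U ⊓ LinearMap.BilinForm.orthogonal (QuadraticMap.polarBilin Q) U = ⊥ ∨ (∀ u ∈ U, Q u = 0) ∨ (p = 2 ∧ Module.finrank F U = 1 ∧ (∃ u ∈ U, Q u ≠ 0) ∧ ∀ u ∈ U, ((x : Matrix.GeneralLinearGroup (Fin n) F) : Matrix (Fin n) (Fin n) F).mulVec u = u) := by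
  set A : Matrix (Fin n) (Fin n) F := ((x : Matrix.GeneralLinearGroup (Fin n) F) : Matrix (Fin n) (Fin n) F) with hA
  have hQA : ∀ v, Q (A.mulVec v) = Q v := fun v => x.2 v v
  have hpol : ∀ u v, polar Q (A.mulVec u) (A.mulVec v) = polar Q u v :=
    polar_map (Q := Q) (Q' := Q) A.mulVecLin hQA
  have hinj : Function.Injective A.mulVec := by
    rw [Matrix.mulVec_injective_iff_isUnit]
    exact Units.isUnit _
  have hsurj : ∀ u ∈ U, ∃ u' ∈ U, A.mulVec u' = u := by
    let f : U →ₗ[F] U := A.mulVecLin.restrict hUx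
    have hf : Function.Injective f := fun a b h => Subtype.ext (hinj (congrArg Subtype.val h))
    intro u hu
    obtain ⟨u', h⟩ := LinearMap.surjective_of_injective hf ⟨u, hu⟩
    exact ⟨u', u'.2, congrArg Subtype.val h⟩
  rcases hirr (U ⊓ LinearMap.BilinForm.orthogonal (polarBilin Q) U) inf_le_left (by
    rintro w ⟨hw1, hw2⟩
    refine ⟨hUx w hw1, fun u hu => ?_⟩
    obtain ⟨u', hu', rfl⟩ := hsurj u hu
    exact (hpol u' w).trans (hw2 u' hu')) with h | h
  · exact Or.inl h
  right
  have hUU : ∀ u ∈ U, ∀ v ∈ U, polar Q u v = 0 := by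
    intro u hu v hv
    rw [← h] at hv
    exact hv.2 u hu
  let W : Submodule F (Fin n → F) :=
    { carrier := {u | u ∈ U ∧ Q u = 0}
      zero_mem' := ⟨U.zero_mem, by simp⟩
      add_mem' := fun {a b} ha hb => ⟨U.add_mem ha.1 hb.1, by
        rw [map_add', ha.2, hb.2, hUU a ha.1 b hb.1]; simp⟩
      smul_mem' := fun c a ha => ⟨U.smul_mem c ha.1, by rw [map_smul', ha.2, mul_zero]⟩ }
  rcases hirr W (fun w hw => hw.1) (fun w hw => ⟨hUx w hw.1, (hQA w).trans hw.2⟩) with h' | h'
  swap
  · left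
    intro u hu
    rw [← h'] at hu
    exact hu.2
  right
  have han : ∀ u ∈ U, Q u = 0 → u = 0 := by
    intro u hu h0
    have : u ∈ W := ⟨hu, h0⟩
    rw [h'] at this
    exact this
  obtain ⟨u, hu, hu0⟩ := (Submodule.ne_bot_iff U).1 hU0
  have hQu : Q u ≠ 0 := fun e => hu0 (han u hu e)
  have h2 : (2 : F) = 0 := by
    have := hUU u hu u hu
    rw [polar_self'] at this
    exact (mul_eq_zero.1 this).resolve_right hQu
  have hp2 : p = 2 := by
    have : p ∣ 2 := (CharP.cast_eq_zero_iff F p 2).1 (by exact_mod_cast h2)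
    exact (Nat.prime_dvd_prime_iff_eq Fact.out Nat.prime_two).1 this
  subst hp2
  have hsq : ∀ x : F, IsSquare x := FiniteField.isSquare_of_char_two (ringChar.eq F 2)
  refine ⟨rfl, ?_, ⟨u, hu, hQu⟩, fun v hv => ?_⟩
  · rw [finrank_eq_one_iff_of_nonzero' (⟨u, hu⟩ : U) (fun e => hu0 (congrArg Subtype.val e))]
    rintro ⟨v, hv⟩
    obtain ⟨r, hr⟩ := hsq (Q v / Q u)
    refine ⟨r, Subtype.ext ?_⟩
    change r • u = v
    rw [← sub_eq_zero]
    refine han _ (U.sub_mem (U.smul_mem r hu) hv) ?_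
    rw [Class.QF.map_sub', hUU _ (U.smul_mem r hu) _ hv, map_smul', pow_two, ← hr]
    field_simp
    linear_combination (Q v) * h2
  · rw [← sub_eq_zero]
    refine han _ (U.sub_mem (hUx v hv) hv) ?_
    rw [Class.QF.map_sub', hUU _ (hUx v hv) _ hv, hQA]
    linear_combination (Q v) * h2

end Cfsg.Agent.S2599
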