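import Cfsg.Statements.S2612
import Cfsg.Agent.Class.Orth.Levi

set_option autoImplicit false
open Cfsg

namespace Cfsg.Agent.S2612

/-- For the hyperbolic quadratic form Σ x_i y_i on F^(2m) (F finite, m ≥ 1, excluding m = 2 over the field of two elements), Ω⁺_2m(F) (the commutator subgroup of the orthogonal group) contains an element interchanging the two complementary maximal totally singular subspaces {y = 0} and {x = 0} if and only if m is even (dimension divisible by 4). -/
theorem result {F : Type*} [Field F] [Fintype F] {m : ℕ} (hm : 1 ≤ m) (h : Fintype.card F ≠ 2 ∨ m ≠ 2) : (∃ g : ↥(Cfsg.isometryGroup F (Cfsg.quadFormPlus m F)), g ∈ Cfsg.Omega F (Cfsg.quadFormPlus m F) ∧ (∀ v : Fin m ⊕ Fin m → F, (∀ i, v (Sum.inr i) = 0) → ∀ i, (((g : Matrix.GeneralLinearGroup (Fin m ⊕ Fin m) F) : Matrix (Fin m ⊕ Fin m) (Fin m ⊕ Fin m) F).mulVec v) (Sum.inl i) = 0) ∧ (∀ v : Fin m ⊕ Fin m → F, (∀ i, v (Sum.inl i) = 0) → ∀ i, (((g : Matrix.GeneralLinearGroup (Fin m ⊕ Fin m)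 F) : Matrix (Fin m ⊕ Fin m) (Fin m ⊕ Fin m) F).mulVec v) (Sum.inr i) = 0)) ↔ Even m := by
  have hQ := Class.Orth.nd_plusQF m F
  have hR := Class.Orth.reflGen_plus h
  have key : ∀ g : Class.Orth.OG (Class.Orth.plusQF m F),
      Class.Orth.omap g (Class.Orth.stdU m F) = Class.Orth.stdW m F →
      (Class.Orth.dickson hQ hR g = 1 ↔ Even m) := fun g hg => by
    rw [Class.Orth.dickson_eq_one_iff_codim hQ hR Class.Orth.finrank_plus_space Class.Orth.ts_stdU
      Class.Orth.finrank_stdU, hg, Class.Orth.stdU_inf_stdW, finrank_bot, Nat.sub_zero]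
  constructor
  · rintro ⟨g, hg, h1, -⟩
    rw [Class.Orth.mem_Omega_iff _ _ (Class.Orth.plusQF_apply m F),
      Class.Orth.mem_commutator_iff hQ hR] at hg
    refine (key _ (Class.Orth.omap_eq_of_le (fun u hu => ?_) ?_)).1 hg.1
    · exact Class.Orth.mem_stdW.2 (h1 u (Class.Orth.mem_stdU.1 hu))
    · rw [Class.Orth.finrank_stdU, Class.Orth.finrank_stdW]
  · intro he
    let s : Class.Orth.OG (Class.Orth.plusQF m F) :=
      ⟨LinearEquiv.funCongrLeft F F (Equiv.sumComm (Fin m) (Fin m)), fun v => by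
        simp [Class.Orth.plusQF_apply, quadFormPlus, mul_comm]⟩
    have hs : ∀ v i, s.1 v i = v i.swap := fun _ _ => rfl
    have hsU : Class.Orth.omap s (Class.Orth.stdU m F) = Class.Orth.stdW m F :=
      Class.Orth.omap_eq_of_le (fun u hu => Class.Orth.mem_stdW.2 fun i => by
        rw [hs]; exact Class.Orth.mem_stdU.1 hu i)
        (by rw [Class.Orth.finrank_stdU, Class.Orth.finrank_stdW])
    have hsW : Class.Orth.omap s (Class.Orth.stdW m F) = Class.Orth.stdU m F :=
      Class.Orth.omap_eq_of_le (fun u hu => Class.Orth.mem_stdU.2 fun i => by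
        rw [hs]; exact Class.Orth.mem_stdW.1 hu i)
        (by rw [Class.Orth.finrank_stdU, Class.Orth.finrank_stdW])
    obtain ⟨c, hc, hcg⟩ := Class.Orth.sqClass_surjective (Class.Orth.spinor hQ hR s)
    have hef := Class.Orth.isHyp_plus (F := F) (⟨0, hm⟩ : Fin m)
    set t := Class.Orth.hypScale (Class.Orth.plusQF m F) (Pi.single (.inl ⟨0, hm⟩) 1)
      (Pi.single (.inr ⟨0, hm⟩) 1) c with ht
    have h1 : s * t ∈ commutator _ := Class.Orth.mul_mem_commutator_of_eq hQ hR
      (by rw [hef.dickson_hypScale hQ hR hc, (key s hsU).2 he])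
      (by rw [hef.spinor_hypScale hQ hR hc, hcg])
    have h2 : Class.Orth.omap (s * t) (Class.Orth.stdU m F) = Class.Orth.stdW m F := by
      rw [Class.Orth.omap_mul, hef.omap_hypScale hc Class.Orth.ts_stdU
        (Class.Orth.mem_stdU.2 (by simp)), hsU]
    have h3 : Class.Orth.omap (s * t) (Class.Orth.stdW m F) = Class.Orth.stdU m F := by
      rw [Class.Orth.omap_mul, hef.omap_hypScale' hc Class.Orth.ts_stdW
        (Class.Orth.mem_stdW.2 (by simp)), hsW]
    refine ⟨(Class.Orth.isoEquiv _ _ (Class.Orth.plusQF_apply m F)).symm (s * t), ?_,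
      fun v hv => ?_, fun v hv => ?_⟩
    · rw [Class.Orth.mem_Omega_iff _ _ (Class.Orth.plusQF_apply m F), MulEquiv.apply_symm_apply]
      exact h1
    · rw [← Class.Orth.mem_stdW, Class.Orth.isoEquiv_symm_mulVec, ← h2]
      exact ⟨v, Class.Orth.mem_stdU.2 hv, rfl⟩
    · rw [← Class.Orth.mem_stdU, Class.Orth.isoEquiv_symm_mulVec, ← h3]
      exact ⟨v, Class.Orth.mem_stdW.2 hv, rfl⟩

end Cfsg.Agent.S2612
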