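import Cfsg.Statements.S2613
import Cfsg.Agent.Class.Orth.Levi

set_option autoImplicit false
open Cfsg

namespace Cfsg.Agent.S2613

theorem diag_sq {F : Type*} [Field F] {ι : Type} [Fintype ι] [DecidableEq ι] (p : ι → Prop)
    [DecidablePred p] : Matrix.diagonal (fun k => if p k then (-1 : F) else 1) *
      Matrix.diagonal (fun k => if p k then (-1 : F) else 1) = 1 := by
  rw [Matrix.diagonal_mul_diagonal, ← Matrix.diagonal_one]
  congr 1; funext k; split_ifs <;> simp


/-- For the hyperbolic form Σ x_j y_j on F^(2m), F finite with q elements, q odd, and 1 ≤ i ≤ m: the involution negating the first i hyperbolic pairs (x_j, y_j ↦ −x_j, −y_j for j < i) and fixing the rest lies in Ω⁺_2m(q) (commutator subgroup of the orthogonal group) if and only if q^i ≡ 1 (mod 4); its (−1)-eigenspace is a hyperbolic 2i-space. -/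
theorem result {F : Type*} [Field F] [Fintype F] {q : ℕ} (hF : Fintype.card F = q) (hq : Odd q) {m : ℕ} (i : ℕ) (hi : 1 ≤ i) (him : i ≤ m) : (∃ g : ↥(Cfsg.isometryGroup F (Cfsg.quadFormPlus m F)), g ∈ Cfsg.Omega F (Cfsg.quadFormPlus m F) ∧ ((g : Matrix.GeneralLinearGroup (Fin m ⊕ Fin m) F) : Matrix (Fin m ⊕ Fin m) (Fin m ⊕ Fin m) F) = Matrix.diagonal (fun k : Fin m ⊕ Fin m => if (Sum.elim (fun j : Fin m => (j : ℕ)) (fun j : Fin m => (j : ℕ)) k) < i then (-1 : F) else 1)) ↔ q ^ i % 4 = 1 := by
  subst hF
  have h2 := Class.Orth.two_ne_zero_of_odd_card hq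
  have hle : i ≤ m := by omega
  rw [Class.Orth.exists_mem_Omega_iff (Class.Orth.plusQF m F) _ (Class.Orth.plusQF_apply m F)
    (Class.Orth.ofInvol _ _ (diag_sq _) (fun v => ?_)) _ (fun _ => rfl)]
  · have hef : Class.QF.IsHypSys (Class.Orth.plusQF m F)
        (fun j : Fin i => Pi.single (.inl (j.castLE hle)) 1) (fun j : Fin i => Pi.single (.inr (j.castLE hle)) 1) := by
      refine ⟨fun j => ?_, fun j => ?_, fun j k => ?_, fun j k => ?_, fun j => ?_, fun j k hjk => ?_⟩
      · simp [Class.Orth.plusQF_apply, quadFormPlus]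
      · simp [Class.Orth.plusQF_apply, quadFormPlus]
      · simp [Class.Orth.polar_plusQF]
      · simp [Class.Orth.polar_plusQF]
      · simp [Class.Orth.polar_plusQF, Pi.single_apply]
      · simp [Class.Orth.polar_plusQF, Pi.single_apply, hjk.symm]
    refine Class.Orth.mem_commutator_iff_of_neg_hypSys (Class.Orth.nd_plusQF m F) h2 hef _
      (fun j => ?_) (fun j => ?_) (fun x hx => ?_)
    · rw [Class.Orth.ofInvol_apply, Matrix.diagonal_mulVec_single]
      simp [Pi.single_neg]
    · rw [Class.Orth.ofInvol_apply, Matrix.diagonal_mulVec_single]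
      simp [Pi.single_neg]
    · rw [Class.Orth.ofInvol_apply]
      funext k
      rw [Matrix.mulVec_diagonal]
      split_ifs with hk
      · have : x k = 0 := by
          rcases k with k | k
          · have := (hx ⟨k, hk⟩).2
            simp [Class.Orth.polar_plusQF, Pi.single_apply] at this
            exact this
          · have := (hx ⟨k, hk⟩).1
            simp [Class.Orth.polar_plusQF, Pi.single_apply] at this
            exact this
        simp [this]
      · simp
  · simp only [Class.Orth.plusQF_apply, quadFormPlus, Matrix.mulVec_diagonal, Sum.elim_inl, Sum.elim_inr,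
      lt_irrefl, if_false, one_mul]
    refine Finset.sum_congr rfl fun j _ => ?_
    by_cases hj : (j : ℕ) < i <;> simp [hj]

end Cfsg.Agent.S2613
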