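import Cfsg.Statements.S2616
import Cfsg.Agent.Class.QF.Disc

set_option autoImplicit false
open Cfsg

namespace Cfsg.Agent.S2616

open Class.QF QuadraticMap

/-- Standard bases of a non-degenerate quadratic space of even dimension 2m over a finite field: either there is a hyperbolic basis e_i, f_i (Q(e_i) = Q(f_i) = 0, B(e_i, f_j) = δ_ij, the e's pairwise orthogonal and the f's pairwise orthogonal, B the polar form), or there is an elliptic basis: hyperbolic pairs e_i, f_i for i < m − 1 together with x, y orthogonal to them with Q(x) = 1, B(x, y) = 1, Q(y) = ζ where t² + t + ζ has no root in the field. -/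
theorem result {F V : Type*} [Field F] [Finite F] [AddCommGroup V] [Module F V] [FiniteDimensional F V] {m : ℕ} (hm : 1 ≤ m) (hV : Module.finrank F V = 2 * m) (Q : QuadraticForm F V) (hQ : (QuadraticMap.polarBilin Q).Nondegenerate) : (∃ b : Module.Basis (Fin m ⊕ Fin m) F V, (∀ i, Q (b (Sum.inl i)) = 0 ∧ Q (b (Sum.inr i)) = 0) ∧ (∀ i j, QuadraticMap.polar ⇑Q (b (Sum.inl i)) (b (Sum.inr j)) = if i = j then 1 else 0) ∧ (∀ i j, QuadraticMap.polar ⇑Q (b (Sum.inl i)) (b (Sum.inl j)) = 0 ∧ QuadraticMap.polar ⇑Q (b (Sum.inr i)) (b (Sum.inr j)) = 0)) ∨ (∃ (b : Module.Basis ((Fin (m - 1) ⊕ Fin (m - 1)) ⊕ Fin 2) F V) (ζ : F), (∀ t : F, t ^ 2 + t + ζ ≠ 0) ∧ (∀ i, Q (b (Sum.inl (Sum.inl i))) = 0 ∧ Q (b (Sum.inl (Sum.inr i))) = 0) ∧ (∀ i j, QuadraticMap.polar ⇑Q (b (Sum.inl (Sum.inl i))) (b (Sum.inl (Sum.inr j))) = if i = j then 1 else 0) ∧ (∀ i j, QuadraticMap.polar ⇑Q (b (Sum.inl (Sum.inl i))) (b (Sum.inl (Sum.inl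 j))) = 0 ∧ QuadraticMap.polar ⇑Q (b (Sum.inl (Sum.inr i))) (b (Sum.inl (Sum.inr j))) = 0) ∧ (∀ i (k : Fin 2), QuadraticMap.polar ⇑Q (b (Sum.inl (Sum.inl i))) (b (Sum.inr k)) = 0 ∧ QuadraticMap.polar ⇑Q (b (Sum.inl (Sum.inr i))) (b (Sum.inr k)) = 0) ∧ Q (b (Sum.inr 0)) = 1 ∧ QuadraticMap.polar ⇑Q (b (Sum.inr 0)) (b (Sum.inr 1)) = 1 ∧ Q (b (Sum.inr 1)) = ζ) := by
  classical
  by_cases hp : IsPlus Q
  · left
    obtain ⟨g, hg⟩ := hp.exists_equiv hQ hV
    have hQ' : ∀ z, Q (g.symm z) = quadFormPlus m F z := fun z => by rw [← hg]; simp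
    have hpol : ∀ z w, polar Q (g.symm z) (g.symm w) = polar (quadFormPlus m F) z w :=
      polar_map (Q := quadFormPlus m F) (Q' := Q) (g.symm : _ →ₗ[F] V) hQ'
    refine ⟨(Pi.basisFun F _).map g.symm, fun i => ⟨?_, ?_⟩, fun i j => ?_, fun i j => ⟨?_, ?_⟩⟩ <;>
      simp only [Module.Basis.map_apply, hQ', hpol] <;>
      simp [polar, quadFormPlus, Pi.single_apply, eq_comm]
  · right
    obtain ⟨ζ, hζ⟩ := exists_aniso (F := F)
    obtain ⟨g, hg⟩ := exists_equiv_minus hQ hp (k := m - 1) (by omega) hζ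
    have hQ' : ∀ z, Q (g.symm z) = quadFormMinus (m - 1) F 1 ζ z := fun z => by rw [← hg]; simp
    have hpol : ∀ z w, polar Q (g.symm z) (g.symm w) = polar (quadFormMinus (m - 1) F 1 ζ) z w :=
      polar_map (Q := quadFormMinus (m - 1) F 1 ζ) (Q' := Q) (g.symm : _ →ₗ[F] V) hQ'
    refine ⟨(Pi.basisFun F _).map g.symm, ζ, by simpa using (aniso_iff_noroot 1 ζ).1 hζ,
      fun i => ⟨?_, ?_⟩, fun i j => ?_, fun i j => ⟨?_, ?_⟩, fun i k => ⟨?_, ?_⟩, ?_, ?_, ?_⟩ <;>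
      simp only [Module.Basis.map_apply, hQ', hpol] <;>
      simp [polar, quadFormMinus, Pi.single_apply, eq_comm]
    ring

end Cfsg.Agent.S2616
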