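import Cfsg.Statements.S2617
import Cfsg.Agent.Class.QF.Disc

set_option autoImplicit false
open Cfsg

namespace Cfsg.Agent.S2617

open Class.QF QuadraticMap

/-- The two standard quadratic forms of even dimension 2m over a finite field are not isometric: there is no linear isomorphism carrying the elliptic form Σ_(i<m−1) x_i y_i + z₁² + z₁z₂ + ζ z₂² (t² + t + ζ without roots) to the hyperbolic form Σ_(i<m) x_i y_i (they have different Witt index). -/
theorem result {F : Type*} [Field F] [Finite F] {m : ℕ} (hm : 1 ≤ m) (ζ : F) (hζ : ∀ t : F, t ^ 2 + t + ζ ≠ 0) (g : (Fin m ⊕ Fin m → F) ≃ₗ[F] ((Fin (m - 1) ⊕ Fin (m - 1)) ⊕ Fin 2 → F)) : ¬ (∀ v : Fin m ⊕ Fin m → F, Cfsg.quadFormMinus (m - 1) F 1 ζ (g v) = Cfsg.quadFormPlus m F v) := by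
  intro h
  let Q : QuadraticForm F (Fin m ⊕ Fin m → F) :=
    ∑ i : Fin m, QuadraticMap.proj (Sum.inl i) (Sum.inr i)
  have hQ : ∀ v, quadFormPlus m F v = Q v := fun v => by
    simp [Q, quadFormPlus, QuadraticMap.sum_apply]
  refine not_isPlus_of_equiv_minus (Q := Q) ((aniso_iff_noroot 1 ζ).2 (by simpa using hζ)) g
    (fun v => (h v).trans (hQ v)) (isPlus_of_equiv_plus (LinearEquiv.refl F _) hQ)

end Cfsg.Agent.S2617
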