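import Cfsg.Statements.S2618
import Cfsg.Agent.Class.QF.Disc

set_option autoImplicit false
open Cfsg

namespace Cfsg.Agent.S2618

open Class.QF QuadraticMap

/-- Standard (parabolic) basis of a non-degenerate quadratic space of odd dimension 2m + 1 over a finite field (the non-degeneracy of the polar form forces the characteristic to be odd): there is a basis e_i, f_i (i < m), x with Q(e_i) = Q(f_i) = 0, B(e_i, f_j) = δ_ij (B the polar form), the e's pairwise orthogonal and the f's pairwise orthogonal, x orthogonal to all of them and Q(x) ≠ 0. -/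
theorem result {F V : Type*} [Field F] [Finite F] [AddCommGroup V] [Module F V] [FiniteDimensional F V] {m : ℕ} (hV : Module.finrank F V = 2 * m + 1) (Q : QuadraticForm F V) (hQ : (QuadraticMap.polarBilin Q).Nondegenerate) : ∃ b : Module.Basis (Unit ⊕ (Fin m ⊕ Fin m)) F V, Q (b (Sum.inl ())) ≠ 0 ∧ (∀ i, QuadraticMap.polar ⇑Q (b (Sum.inl ())) (b (Sum.inr (Sum.inl i))) = 0 ∧ QuadraticMap.polar ⇑Q (b (Sum.inl ())) (b (Sum.inr (Sum.inr i))) = 0) ∧ (∀ i, Q (b (Sum.inr (Sum.inl i))) = 0 ∧ Q (b (Sum.inr (Sum.inr i))) = 0) ∧ (∀ i j, QuadraticMap.polar ⇑Q (b (Sum.inr (Sum.inl i))) (b (Sum.inr (Sum.inr j))) = if i = j then 1 else 0) ∧ (∀ i j, QuadraticMap.polar ⇑Q (b (Sum.inr (Sum.inl i))) (b (Sum.inr (Sum.inl j))) = 0 ∧ QuadraticMap.polar ⇑Q (b (Sum.inr (Sum.inr i))) (b (Sum.inr (Sum.inr j))) = 0) := by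
  classical
  obtain ⟨c, g, hc, -, hg⟩ := exists_equiv_odd hQ hV
  let Q' : (Unit ⊕ (Fin m ⊕ Fin m) → F) → F := fun v =>
    c * (v (.inl ())) ^ 2 + ∑ i, v (.inr (.inl i)) * v (.inr (.inr i))
  have hQ' : ∀ z, Q (g.symm z) = Q' z := fun z => by rw [hg]; simp [Q']
  have hpol : ∀ z w, polar Q (g.symm z) (g.symm w) = polar Q' z w :=
    polar_map (Q := Q') (Q' := Q) (g.symm : _ →ₗ[F] V) hQ'
  refine ⟨(Pi.basisFun F _).map g.symm, ?_, fun i => ⟨?_, ?_⟩, fun i => ⟨?_, ?_⟩, fun i j => ?_,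
    fun i j => ⟨?_, ?_⟩⟩ <;>
    simp only [Module.Basis.map_apply, hQ', hpol] <;>
    simp [polar, Q', Pi.single_apply, eq_comm, hc, hc.symm]

end Cfsg.Agent.S2618
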