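import Cfsg.Statements.S2619
import Cfsg.Agent.Class.QF.Disc

set_option autoImplicit false
open Cfsg

namespace Cfsg.Agent.S2619

open Class.QF QuadraticMap

/-- Over a finite field of characteristic two, given an alternating bilinear form B on a finite-dimensional space, a basis (v_i) and scalars (λ_i), there is exactly one quadratic form whose polar form is B and whose value at each v_i is λ_i. -/
theorem result {F V ι : Type*} [Field F] [Finite F] [CharP F 2] [AddCommGroup V] [Module F V] [Fintype ι] (b : Module.Basis ι F V) (B : LinearMap.BilinForm F V) (hB : B.IsAlt) (c : ι → F) : ∃! Q : QuadraticForm F V, QuadraticMap.polarBilin Q = B ∧ ∀ i, Q (b i) = c i := by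
  classical
  letI : LinearOrder ι := LinearOrder.lift' (Fintype.equivFin ι) (Fintype.equivFin ι).injective
  have h2 : (2 : F) = 0 := CharTwo.two_eq_zero
  let B' : LinearMap.BilinForm F V := b.constr F fun i => b.constr F fun j =>
    if i < j then B (b i) (b j) else if i = j then c i else 0
  have hB' : ∀ i j, B' (b i) (b j) = if i < j then B (b i) (b j) else if i = j then c i else 0 := by
    intro i j; simp only [B', Module.Basis.constr_basis]
  refine ⟨LinearMap.BilinMap.toQuadraticMap B', ⟨?_, fun i => ?_⟩, ?_⟩
  · refine b.ext fun i => b.ext fun j => ?_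
    rw [polarBilin_apply_apply, LinearMap.BilinMap.polar_toQuadraticMap, hB', hB']
    rcases lt_trichotomy i j with h | h | h
    · simp [h, h.not_gt, h.ne']
    · subst h
      simp only [lt_irrefl, if_false, if_true]
      rw [hB.self_eq_zero]; linear_combination (c i) * h2
    · simp only [h, h.not_gt, h.ne', if_false, if_true, zero_add]
      rw [← hB.neg_eq (b j) (b i)]; linear_combination (B (b j) (b i)) * h2
  · simp [hB']
  · have key : ∀ Q Q' : QuadraticForm F V, polarBilin Q = polarBilin Q' →
        (∀ i, Q (b i) = Q' (b i)) → Q = Q' := by
      intro Q Q' h1 h2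
      ext v
      have hv : v ∈ Submodule.span F (Set.range b) := by rw [b.span_eq]; trivial
      induction hv using Submodule.span_induction with
      | mem x hx => obtain ⟨i, rfl⟩ := hx; exact h2 i
      | zero => simp
      | add x y _ _ hx hy =>
        rw [map_add', map_add', hx, hy, ← polarBilin_apply_apply, ← polarBilin_apply_apply, h1]
      | smul a x _ hx => rw [map_smul', map_smul', hx]
    rintro Q ⟨h1, h3⟩
    refine key _ _ (h1.trans ?_) fun i => by simp [h3, hB']
    refine b.ext fun i => b.ext fun j => ?_
    rw [polarBilin_apply_apply, LinearMap.BilinMap.polar_toQuadraticMap, hB', hB']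
    rcases lt_trichotomy i j with h | h | h
    · simp [h, h.not_gt, h.ne']
    · subst h
      simp only [lt_irrefl, if_false, if_true]
      rw [hB.self_eq_zero]; linear_combination -(c i) * h2
    · simp only [h, h.not_gt, h.ne', if_false, if_true, zero_add]
      rw [← hB.neg_eq (b j) (b i)]; linear_combination -(B (b j) (b i)) * h2

end Cfsg.Agent.S2619
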