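import Cfsg.Statements.S2620
import Cfsg.Agent.Class.QF.Disc

set_option autoImplicit false
open Cfsg

namespace Cfsg.Agent.S2620

open Class.QF QuadraticMap

/-- Discriminant of the hyperbolic quadratic form Σ_(i<m) x_i y_i over a field with q elements, q odd, m ≥ 1: the determinant of the Gram matrix of its polar form in any basis is a square if and only if m(q − 1)/2 is even (equivalently q^m ≡ 1 (mod 4)). -/
theorem result {F : Type*} [Field F] [Fintype F] {q : ℕ} (hF : Fintype.card F = q) (hq : Odd q) {m : ℕ} (hm : 1 ≤ m) {ι : Type*} [Fintype ι] [DecidableEq ι] (b : Module.Basis ι F (Fin m ⊕ Fin m → F)) : IsSquare (Matrix.of (fun i j : ι => QuadraticMap.polar (Cfsg.quadFormPlus m F) (b i) (b j))).det ↔ Even (m * (q - 1) / 2) := by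
  have hpar : (Even m ∨ q % 4 ≠ 3) ↔ Even (m * (q - 1) / 2) := by
    obtain ⟨r, rfl⟩ := hq
    have : m * (2 * r + 1 - 1) / 2 = m * r := by
      rw [Nat.add_sub_cancel, mul_left_comm, Nat.mul_div_cancel_left _ (by norm_num)]
    rw [this, Nat.even_mul, Nat.even_iff (n := r)]
    constructor <;> rintro (h | h) <;> first | (left; exact h) | (right; omega)
  let Q : QuadraticForm F (Fin m ⊕ Fin m → F) :=
    ∑ i : Fin m, QuadraticMap.proj (Sum.inl i) (Sum.inr i)
  have hQ : ∀ v, quadFormPlus m F v = Q v := fun v => by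
    simp [Q, quadFormPlus, QuadraticMap.sum_apply]
  obtain ⟨u, hu, h⟩ := gramDet_of_isometry Q (LinearEquiv.refl F _) hQ (Pi.basisFun F _) b
  rw [← funext hQ, gramDet_plus] at h
  change IsSquare (gramDet _ _) ↔ _
  rw [h, isSquare_sq_mul hu, isSquare_neg_one_pow, hF, hpar]

end Cfsg.Agent.S2620
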