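import Cfsg.Statements.S2621
import Cfsg.Agent.Class.QF.Disc

set_option autoImplicit false
open Cfsg

namespace Cfsg.Agent.S2621

open Class.QF QuadraticMap

/-- Discriminant of an elliptic quadratic form Σ_(i<m−1) x_i y_i + z₁² + a z₁z₂ + c z₂² (binary part anisotropic) in dimension 2m over a field with q elements, q odd, m ≥ 1: the determinant of the Gram matrix of its polar form in any basis is a square if and only if m(q − 1)/2 is odd (equivalently q^m ≡ 3 (mod 4)). -/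
theorem result {F : Type*} [Field F] [Fintype F] {q : ℕ} (hF : Fintype.card F = q) (hq : Odd q) {m : ℕ} (hm : 1 ≤ m) (a c : F) (hac : ∀ z₁ z₂ : F, z₁ ^ 2 + a * z₁ * z₂ + c * z₂ ^ 2 = 0 → z₁ = 0 ∧ z₂ = 0) {ι : Type*} [Fintype ι] [DecidableEq ι] (b : Module.Basis ι F ((Fin (m - 1) ⊕ Fin (m - 1)) ⊕ Fin 2 → F)) : IsSquare (Matrix.of (fun i j : ι => QuadraticMap.polar (Cfsg.quadFormMinus (m - 1) F a c) (b i) (b j))).det ↔ ¬ Even (m * (q - 1) / 2) := by
  have hpar : (Even m ∨ q % 4 ≠ 3) ↔ Even (m * (q - 1) / 2) := by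
    obtain ⟨r, rfl⟩ := hq
    have : m * (2 * r + 1 - 1) / 2 = m * r := by
      rw [Nat.add_sub_cancel, mul_left_comm, Nat.mul_div_cancel_left _ (by norm_num)]
    rw [this, Nat.even_mul, Nat.even_iff (n := r)]
    constructor <;> rintro (h | h) <;> first | (left; exact h) | (right; omega)
  let Q : QuadraticForm F ((Fin (m - 1) ⊕ Fin (m - 1)) ⊕ Fin 2 → F) :=
    (∑ i : Fin (m - 1), QuadraticMap.proj (Sum.inl (Sum.inl i)) (Sum.inl (Sum.inr i))) +
      (QuadraticMap.proj (Sum.inr 0) (Sum.inr 0) + a • QuadraticMap.proj (Sum.inr 0) (Sum.inr 1) +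
        c • QuadraticMap.proj (Sum.inr 1) (Sum.inr 1))
  have hQ : ∀ v, quadFormMinus (m - 1) F a c v = Q v := fun v => by
    simp [Q, quadFormMinus, QuadraticMap.sum_apply, pow_two, mul_assoc]
  obtain ⟨u, hu, h⟩ := gramDet_of_isometry Q (LinearEquiv.refl F _) hQ (Pi.basisFun F _) b
  rw [← funext hQ, gramDet_minus, Nat.sub_add_cancel hm] at h
  change IsSquare (gramDet _ _) ↔ _
  have hd := not_isSquare_disc (two_ne_zero_of_odd_card (hF ▸ hq)) ((aniso_iff_noroot a c).1 hac)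
  rw [h, isSquare_sq_mul hu, isSquare_mul_iff (pow_ne_zero _ (neg_ne_zero.2 one_ne_zero))
    (fun e : a ^ 2 - 4 * c = 0 => hd (e ▸ IsSquare.zero)), isSquare_neg_one_pow, hF, hpar]
  simp [hd]

end Cfsg.Agent.S2621
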