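import Cfsg.Statements.S2623
import Cfsg.Agent.Class.QF.Disc

set_option autoImplicit false
open Cfsg

namespace Cfsg.Agent.S2623

open Class.QF QuadraticMap

/-- Over a finite field of odd order, two quadratic forms on F^n with non-degenerate polar forms are isometric (related by an invertible linear change of variables) if and only if their discriminants (determinants of the Gram matrices of their polar forms) lie in the same square class. -/
theorem result {F : Type*} [Field F] [Fintype F] (h2 : (2 : F) ≠ 0) {n : ℕ} (Q₁ Q₂ : QuadraticForm F (Fin n → F)) (h₁ : (QuadraticMap.polarBilin Q₁).Nondegenerate) (h₂ : (QuadraticMap.polarBilin Q₂).Nondegenerate) : (∃ g : (Fin n → F) ≃ₗ[F] (Fin n → F), ∀ v, Q₂ (g v) = Q₁ v) ↔ IsSquare ((Matrix.of (fun i j : Fin n => QuadraticMap.polar ⇑Q₁ (Pi.single i 1) (Pi.single j 1))).det * (Matrix.of (fun i j : Fin n => QuadraticMap.polar ⇑Q₂ (Pi.single i 1) (Pi.single j 1))).det) := by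
  change _ ↔ IsSquare (gramDet Q₁ (fun i => Pi.single i 1) * gramDet Q₂ (fun i => Pi.single i 1))
  have hb : (fun i : Fin n => (Pi.single i 1 : Fin n → F)) = Pi.basisFun F (Fin n) := by
    ext i j; simp
  rw [hb]
  have hd₁ := gramDet_ne_zero h₁ (Pi.basisFun F (Fin n))
  have hd₂ := gramDet_ne_zero h₂ (Pi.basisFun F (Fin n))
  constructor
  · rintro ⟨g, hg⟩
    obtain ⟨u, hu, h⟩ := gramDet_of_isometry Q₁ g hg (Pi.basisFun F _) (Pi.basisFun F _)
    rw [h, mul_left_comm, isSquare_sq_mul hu]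
    exact IsSquare.mul_self _
  · intro hs
    rcases Nat.even_or_odd' n with ⟨m, hm | hm⟩
    · have hV : Module.finrank F (Fin n → F) = 2 * m := by simp [hm]
      refine exists_equiv_of_isPlus_iff h₁ h₂ rfl (by rw [hV]; exact even_two_mul m) ?_
      have h1 : ((-1 : F)) ^ m ≠ 0 := pow_ne_zero _ (neg_ne_zero.2 one_ne_zero)
      rw [isPlus_iff_disc h2 h₁ hV (Pi.basisFun F _), isPlus_iff_disc h2 h₂ hV (Pi.basisFun F _),
        isSquare_mul_iff h1 hd₁, isSquare_mul_iff h1 hd₂, (isSquare_mul_iff hd₁ hd₂).1 hs]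
    · have hV : Module.finrank F (Fin n → F) = 2 * m + 1 := by simp [hm]
      obtain ⟨c₁, g₁, hc₁, -, hg₁⟩ := exists_equiv_odd h₁ hV
      obtain ⟨c₂, g₂, hc₂, -, hg₂⟩ := exists_equiv_odd h₂ hV
      obtain ⟨u₁, hu₁, e₁⟩ := gramDet_of_isometry Q₁ g₁ (fun v => (hg₁ v).symm)
        (Q' := fun v : Unit ⊕ (Fin m ⊕ Fin m) → F =>
          c₁ * (v (.inl ())) ^ 2 + ∑ i, v (.inr (.inl i)) * v (.inr (.inr i)))
        (Pi.basisFun F _) (Pi.basisFun F _)
      obtain ⟨u₂, hu₂, e₂⟩ := gramDet_of_isometry Q₂ g₂ (fun v => (hg₂ v).symm)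
        (Q' := fun v : Unit ⊕ (Fin m ⊕ Fin m) → F =>
          c₂ * (v (.inl ())) ^ 2 + ∑ i, v (.inr (.inl i)) * v (.inr (.inr i)))
        (Pi.basisFun F _) (Pi.basisFun F _)
      rw [gramDet_odd] at e₁ e₂
      obtain ⟨r, hr⟩ := hs
      have h1 : ((-1 : F) ^ m) ^ 2 = 1 := by rw [← pow_mul, mul_comm, pow_mul]; simp
      have : c₁ * c₂ = (u₁ * u₂ * r / 2) ^ 2 := by
        field_simp
        have : ((-1) ^ m * (2 * c₁)) * ((-1) ^ m * (2 * c₂)) = (u₁ * u₂ * r) ^ 2 := by
          rw [e₁, e₂]; linear_combination (u₁ ^ 2 * u₂ ^ 2) * hr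
        linear_combination this - (4 * c₁ * c₂) * h1
      set s := u₁ * u₂ * r / 2
      have hs0 : s / c₂ ≠ 0 := by
        refine div_ne_zero (fun e => ?_) hc₂
        rw [e] at this
        simp [hc₁, hc₂] at this
      let D : (Unit ⊕ (Fin m ⊕ Fin m) → F) ≃ₗ[F] (Unit ⊕ (Fin m ⊕ Fin m) → F) :=
        LinearEquiv.piCongrRight fun k => LinearEquiv.smulOfNeZero F F
          (Sum.elim (fun _ => s / c₂) (fun _ => 1) k) (by cases k <;> simp [hs0])
      refine ⟨g₁.trans (D.trans g₂.symm), fun v => ?_⟩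
      rw [hg₁, hg₂]
      simp only [LinearEquiv.trans_apply, LinearEquiv.apply_symm_apply]
      simp [D]
      field_simp
      linear_combination -((g₁ v (Sum.inl ())) ^ 2) * this

end Cfsg.Agent.S2623
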