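import Cfsg.Statements.S2624
import Cfsg.Agent.Class.QF.Disc

set_option autoImplicit false
open Cfsg

namespace Cfsg.Agent.S2624

open Class.QF QuadraticMap

/-- For a quadratic form Q on F^n with non-degenerate polar form, F finite and n ≥ 2 even, every non-zero scalar c is the multiplier of some similarity: there is an invertible linear map g with Q(g v) = c·Q(v) for all v. -/
theorem result {F : Type*} [Field F] [Fintype F] {n : ℕ} (hn : 2 ≤ n) (he : Even n) (Q : QuadraticForm F (Fin n → F)) (hQ : (QuadraticMap.polarBilin Q).Nondegenerate) (c : F) (hc : c ≠ 0) : ∃ g : (Fin n → F) ≃ₗ[F] (Fin n → F), ∀ v, Q (g v) = c * Q v := by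
  have hQ' : (polarBilin (c • Q)).Nondegenerate := by
    rw [nondeg_iff] at hQ ⊢
    intro x hx
    refine hQ x fun y => ?_
    have := hx y
    rw [coeFn_smul, polar_smul, smul_eq_mul] at this
    exact (mul_eq_zero.1 this).resolve_left hc
  obtain ⟨g, hg⟩ := exists_equiv_of_isPlus_iff hQ' hQ rfl (by simpa using he)
    ⟨fun h => h.of_equiv (LinearEquiv.refl F _) (c := c⁻¹) (fun v => by simp [hc]),
     fun h => h.of_equiv (LinearEquiv.refl F _) (c := c) (fun v => by simp)⟩
  exact ⟨g, fun v => by simpa using hg v⟩

end Cfsg.Agent.S2624
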