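import Cfsg.Statements.S2626
import Cfsg.Agent.Class.QF.Disc

set_option autoImplicit false
open Cfsg

namespace Cfsg.Agent.S2626

open Class.QF QuadraticMap

/-- Ω of an orthogonal direct sum contains the product of the Ω's: for quadratic forms Q₁ on F^k and Q₂ on F^l with non-degenerate polar forms (F finite) and Q = Q₁ ⊕ Q₂ on F^(k+l), if g₁ lies in Ω(Q₁) and g₂ in Ω(Q₂) (commutator subgroups of the orthogonal groups) then the block-diagonal isometry diag(g₁, g₂) lies in Ω(Q). -/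
theorem result {F : Type*} [Field F] [Fintype F] {k l : ℕ} (Q₁ : QuadraticForm F (Fin k → F)) (Q₂ : QuadraticForm F (Fin l → F)) (h₁ : (QuadraticMap.polarBilin Q₁).Nondegenerate) (h₂ : (QuadraticMap.polarBilin Q₂).Nondegenerate) (g₁ : ↥(Cfsg.isometryGroup F ⇑Q₁)) (g₂ : ↥(Cfsg.isometryGroup F ⇑Q₂)) (hg₁ : g₁ ∈ Cfsg.Omega F ⇑Q₁) (hg₂ : g₂ ∈ Cfsg.Omega F ⇑Q₂) : ∃ g : ↥(Cfsg.isometryGroup F (fun v : Fin k ⊕ Fin l → F => Q₁ (v ∘ Sum.inl) + Q₂ (v ∘ Sum.inr))), g ∈ Cfsg.Omega F (fun v : Fin k ⊕ Fin l → F => Q₁ (v ∘ Sum.inl) + Q₂ (v ∘ Sum.inr)) ∧ ((g : Matrix.GeneralLinearGroup (Fin k ⊕ Fin l) F) : Matrix (Fin k ⊕ Fin l) (Fin k ⊕ Fin l) F) = Matrix.fromBlocks ((g₁ : Matrix.GeneralLinearGroup (Fin k) F) : Matrix (Fin k) (Fin k) F) 0 0 ((g₂ : Matrix.GeneralLinearGroup (Fin l) F) : Matrix (Fin l) (Fin l) F) := by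
  let Q : (Fin k ⊕ Fin l → F) → F := fun v => Q₁ (v ∘ Sum.inl) + Q₂ (v ∘ Sum.inr)
  let M : ↥(Cfsg.isometryGroup F ⇑Q₁) × ↥(Cfsg.isometryGroup F ⇑Q₂) →*
      Matrix (Fin k ⊕ Fin l) (Fin k ⊕ Fin l) F :=
    { toFun := fun g => Matrix.fromBlocks ((g.1 : GL (Fin k) F) : Matrix (Fin k) (Fin k) F) 0 0
        ((g.2 : GL (Fin l) F) : Matrix (Fin l) (Fin l) F)
      map_one' := by simp
      map_mul' := fun a b => by simp [Matrix.fromBlocks_multiply] }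
  let φ : ↥(Cfsg.isometryGroup F ⇑Q₁) × ↥(Cfsg.isometryGroup F ⇑Q₂) →* ↥(Cfsg.isometryGroup F Q) :=
    M.toHomUnits.codRestrict _ fun g u v => by
      change Q ((M g).mulVec u) = Q u
      have e1 : Q₁ (((g.1 : GL (Fin k) F) : Matrix (Fin k) (Fin k) F).mulVec (u ∘ Sum.inl)) = _ :=
        g.1.2 (u ∘ Sum.inl) (u ∘ Sum.inl)
      have e2 : Q₂ (((g.2 : GL (Fin l) F) : Matrix (Fin l) (Fin l) F).mulVec (u ∘ Sum.inr)) = _ :=
        g.2.2 (u ∘ Sum.inr) (u ∘ Sum.inr)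
      simp only [M, Q, MonoidHom.coe_mk, OneHom.coe_mk, Matrix.fromBlocks_mulVec, Matrix.zero_mulVec,
        add_zero, zero_add, Sum.elim_comp_inl, Sum.elim_comp_inr, e1, e2]
  refine ⟨φ (g₁, g₂), ?_, rfl⟩
  have h : (g₁, g₂) ∈ commutator (↥(Cfsg.isometryGroup F ⇑Q₁) × ↥(Cfsg.isometryGroup F ⇑Q₂)) := by
    rw [commutator_def, ← Subgroup.top_prod_top, Subgroup.commutator_prod_prod]
    exact ⟨hg₁, hg₂⟩
  have := Subgroup.mem_map_of_mem φ h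
  rw [commutator_def, Subgroup.map_commutator] at this
  exact Subgroup.commutator_mono le_top le_top this

end Cfsg.Agent.S2626
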