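import Cfsg.Statements.S2627
import Cfsg.Agent.Class.Orth.Levi

set_option autoImplicit false
open Cfsg

namespace Cfsg.Agent.S2627

/-- For an orthogonal direct sum Q = Q₁ ⊕ Q₂ of quadratic forms with non-degenerate polar forms over a finite field, an isometry g₁ of Q₁ extended by the identity on the second summand lies in Ω(Q) (the commutator subgroup of the orthogonal group of Q) if and only if g₁ lies in Ω(Q₁). (Excluded: the field of two elements when the first summand or the whole space has dimension 4, where the commutator subgroup of O⁺₄(2) is smaller than the group usually called Ω.) -/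
theorem result {F : Type*} [Field F] [Fintype F] {k l : ℕ} (h : Fintype.card F ≠ 2 ∨ (k ≠ 4 ∧ k + l ≠ 4)) (Q₁ : QuadraticForm F (Fin k → F)) (Q₂ : QuadraticForm F (Fin l → F)) (h₁ : (QuadraticMap.polarBilin Q₁).Nondegenerate) (h₂ : (QuadraticMap.polarBilin Q₂).Nondegenerate) (g₁ : ↥(Cfsg.isometryGroup F ⇑Q₁)) : (∃ g : ↥(Cfsg.isometryGroup F (fun v : Fin k ⊕ Fin l → F => Q₁ (v ∘ Sum.inl) + Q₂ (v ∘ Sum.inr))), g ∈ Cfsg.Omega F (fun v : Fin k ⊕ Fin l → F => Q₁ (v ∘ Sum.inl) + Q₂ (v ∘ Sum.inr)) ∧ ((g : Matrix.GeneralLinearGroup (Fin k ⊕ Fin l) F) : Matrix (Fin k ⊕ Fin l) (Fin k ⊕ Fin l) F) = Matrix.fromBlocks ((g₁ : Matrix.GeneralLinearGroup (Fin k) F) : Matrix (Fin k) (Fin k) F) 0 0 1) ↔ g₁ ∈ Cfsg.Omega F ⇑Q₁ := by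
  have h₁' := (Class.Orth.nd_iff Q₁).2 h₁
  have h₂' := (Class.Orth.nd_iff Q₂).2 h₂
  rw [Class.Orth.exists_mem_Omega_iff' (Q₁.prod Q₂)
    (fun v : Fin k ⊕ Fin l → F => Q₁ (v ∘ Sum.inl) + Q₂ (v ∘ Sum.inr))
    (LinearEquiv.sumArrowLequivProdArrow (Fin k) (Fin l) F F) (fun _ => rfl)
    (Class.Orth.prodHom Q₁ Q₂ (Class.Orth.isoEquiv Q₁ Q₁ (fun _ => rfl) g₁, 1)) _ (fun v => by
      rw [Class.Orth.prodHom_apply, Matrix.fromBlocks_mulVec, Class.Orth.isoEquiv_apply]
      ext i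
      · simp; rfl
      · simp),
    Class.Orth.mem_Omega_iff Q₁ Q₁ (fun _ => rfl)]
  exact Class.Orth.prodHom_one_mem_commutator_iff h₁' h₂'
    (h₁'.reflGen_card (h.imp_right fun h => by simpa using h.1))
    ((h₁'.prod' h₂').reflGen_card (h.imp_right fun h => by simpa using h.2)) _

end Cfsg.Agent.S2627
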