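import Cfsg.Statements.S2630
import Cfsg.Agent.Class.Orth.Levi

set_option autoImplicit false
open Cfsg

namespace Cfsg.Agent.S2630

/-- For the hyperbolic form Σ x_i y_i on F^(2m) over a finite field of characteristic two (m ≥ 1, excluding m = 2 over the field of two elements), an isometry g preserves the class of the maximal totally singular subspace U₀ = {y = 0} (m − dim(U₀ ∩ gU₀) even) if and only if g lies in Ω (the commutator subgroup of the orthogonal group): the stabiliser of each class is Ω. -/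
theorem result {F : Type*} [Field F] [Fintype F] [CharP F 2] {m : ℕ} (hm : 1 ≤ m) (h : Fintype.card F ≠ 2 ∨ m ≠ 2) (g : ↥(Cfsg.isometryGroup F (Cfsg.quadFormPlus m F))) : Even (m - Module.finrank F ↥(LinearMap.ker (LinearMap.funLeft F F (Sum.inr : Fin m → Fin m ⊕ Fin m)) ⊓ (LinearMap.ker (LinearMap.funLeft F F (Sum.inr : Fin m → Fin m ⊕ Fin m))).map (Matrix.mulVecLin ((g : Matrix.GeneralLinearGroup (Fin m ⊕ Fin m) F) : Matrix (Fin m ⊕ Fin m) (Fin m ⊕ Fin m) F)))) ↔ g ∈ Cfsg.Omega F (Cfsg.quadFormPlus m F) := by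
  have hQ := Class.Orth.nd_plusQF m F
  have hR := Class.Orth.reflGen_plus h
  rw [Class.Orth.map_mulVecLin_eq_omap _ _ (Class.Orth.plusQF_apply m F),
    ← Class.Orth.dickson_eq_one_iff_codim hQ hR Class.Orth.finrank_plus_space Class.Orth.ts_stdU
      Class.Orth.finrank_stdU, Class.Orth.mem_Omega_iff _ _ (Class.Orth.plusQF_apply m F),
    Class.Orth.commutator_eq_ker_dickson hQ hR CharTwo.two_eq_zero, MonoidHom.mem_ker]

end Cfsg.Agent.S2630
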