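import Cfsg.Statements.S2634
import Cfsg.Agent.Class.Orth.Levi

set_option autoImplicit false
open Cfsg

namespace Cfsg.Agent.S2634

/-- Over a finite field of characteristic two, Ω (the commutator subgroup of the orthogonal group of a quadratic form Q on F^n with non-degenerate polar form; excluding dimension 4 over the field of two elements) acts transitively on the non-singular 1-spaces: for u, v with Q(u) ≠ 0 and Q(v) ≠ 0 some element of Ω carries the line through u to the line through v. -/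
theorem result {F : Type*} [Field F] [Fintype F] [CharP F 2] {n : ℕ} (h : Fintype.card F ≠ 2 ∨ n ≠ 4) (Q : QuadraticForm F (Fin n → F)) (hQ : (QuadraticMap.polarBilin Q).Nondegenerate) (u v : Fin n → F) (hu : Q u ≠ 0) (hv : Q v ≠ 0) : ∃ g : ↥(Cfsg.isometryGroup F ⇑Q), g ∈ Cfsg.Omega F ⇑Q ∧ (F ∙ ((g : Matrix.GeneralLinearGroup (Fin n) F) : Matrix (Fin n) (Fin n) F).mulVec u) = F ∙ v := by
  have hQ' := (Class.Orth.nd_iff Q).2 hQ
  have h2 : (2 : F) = 0 := CharTwo.two_eq_zero
  obtain ⟨c, hc, hcv⟩ := (Class.Orth.sqClass_eq_iff hu hv).1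
    ((Class.Orth.sqClass_subsingleton h2 _).trans (Class.Orth.sqClass_subsingleton h2 _).symm)
  obtain ⟨g, hg⟩ := hQ'.witt_vector (u := c • u) (v := v)
    (smul_ne_zero hc (Class.Orth.ne_zero_of_Q_ne_zero hu)) (Class.Orth.ne_zero_of_Q_ne_zero hv)
    (by rw [Class.Orth.Q_smul, hcv])
  obtain ⟨g', hg', h'⟩ := Class.Orth.exists_commutator_omap_of_refl hQ'
    (hQ'.reflGen_card (by simpa using h)) (U := F ∙ u) (fun d hd => ⟨u, hu,
      (Class.Orth.sqClass_subsingleton h2 _).trans (Class.Orth.sqClass_subsingleton h2 _).symm,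
      Class.Orth.omap_refl_of_mem (Submodule.mem_span_singleton_self u)⟩) g
  refine ⟨(Class.Orth.isoEquiv Q Q (fun _ => rfl)).symm g', ?_, ?_⟩
  · rw [Class.Orth.mem_Omega_iff Q Q (fun _ => rfl), MulEquiv.apply_symm_apply]
    exact hg'
  · rw [Class.Orth.isoEquiv_symm_mulVec]
    simp only [Class.Orth.omap, Submodule.map_span, Set.image_singleton, LinearEquiv.coe_coe] at h'
    rw [h', ← hg, map_smul, Submodule.span_singleton_smul_eq (Ne.isUnit hc)]

end Cfsg.Agent.S2634
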