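import Cfsg.Statements.S2635
import Cfsg.Agent.Class.Orth.Levi

set_option autoImplicit false
open Cfsg

namespace Cfsg.Agent.S2635

/-- Over a finite field of characteristic two, for a quadratic form Q on F^n with non-degenerate polar form, n ≥ 2, other than dimension 4 over the field of two elements, Ω (the commutator subgroup of the orthogonal group) is exactly the subgroup generated by the products of two reflections (orthogonal transvections) x ↦ x − Q(v)⁻¹ f(x, v) v, Q(v) ≠ 0: the products of an even number of reflections. -/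
theorem result {F : Type*} [Field F] [Fintype F] [CharP F 2] {n : ℕ} (hn : 2 ≤ n) (h : Fintype.card F ≠ 2 ∨ n ≠ 4) (Q : QuadraticForm F (Fin n → F)) (hQ : (QuadraticMap.polarBilin Q).Nondegenerate) : Cfsg.Omega F ⇑Q = Subgroup.closure {g : ↥(Cfsg.isometryGroup F ⇑Q) | ∃ u v : Fin n → F, Q u ≠ 0 ∧ Q v ≠ 0 ∧ ((g : Matrix.GeneralLinearGroup (Fin n) F) : Matrix (Fin n) (Fin n) F) = Cfsg.reflectionMatrix ⇑Q u * Cfsg.reflectionMatrix ⇑Q v} := by
  have hQ' := (Class.Orth.nd_iff Q).2 hQ
  have hR := hQ'.reflGen_card (by simpa using h)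
  apply Subgroup.map_injective (f := (Class.Orth.isoEquiv Q Q (fun _ => rfl) :
    isometryGroup F Q →* Class.Orth.OG Q))
    (Class.Orth.isoEquiv Q Q (fun _ => rfl)).injective
  rw [Class.Orth.map_commutator_equiv, Class.Orth.commutator_eq_ker_dickson hQ' hR
    CharTwo.two_eq_zero, Class.Orth.ker_dickson_eq_closure, MonoidHom.map_closure]
  congr 1
  ext g
  obtain ⟨g, rfl⟩ := (Class.Orth.isoEquiv Q Q (fun _ => rfl)).surjective g
  have key : ∀ u v, Class.Orth.isoEquiv Q Q (fun _ => rfl) g =
      Class.Orth.refl Q u * Class.Orth.refl Q v ↔ _ := fun u v =>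
    Class.Orth.isoEquiv_eq_iff Q Q (fun _ => rfl) g _
      (reflectionMatrix Q u * reflectionMatrix Q v) (fun x => by
        rw [← Matrix.mulVec_mulVec, Class.Orth.reflectionMatrix_mulVec,
          Class.Orth.reflectionMatrix_mulVec, Class.Orth.OG.mul_apply])
  simp only [Set.mem_setOf_eq, key, Set.mem_image, MonoidHom.coe_coe,
    EmbeddingLike.apply_eq_iff_eq, exists_eq_right]

end Cfsg.Agent.S2635
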