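import Cfsg.Statements.S2636
-- import your own Cfsg.Agent.* helpers here

set_option autoImplicit false
open Cfsg

namespace Cfsg.Agent.S2636

open Matrix in
theorem aux {F : Type*} [Field F] [Fintype F] (K : Subfield F) {n : ℕ} (hn : 1 ≤ n) (σ : F ≃+* F)
    (hK : ∀ a, a ∈ K ↔ σ a = a) :
    Nat.card {g : GL (Fin n) F // ∃ c : F, c ≠ 0 ∧ (g : Matrix (Fin n) (Fin n) F).map σ =
      c • (g : Matrix (Fin n) (Fin n) F)} * (Nat.card K - 1) =
      (Nat.card F - 1) * Nat.card (GL (Fin n) K) := by
  classical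
  let φ : Fˣ × GL (Fin n) K →* GL (Fin n) F :=
    (GeneralLinearGroup.scalar (Fin n)).noncommCoprod (GeneralLinearGroup.map K.subtype)
      fun a b => Units.ext (scalar_commute _ (fun _ => Commute.all _ _) _).eq
  have hφ : ∀ (a : Fˣ) (g : GL (Fin n) K), (φ (a, g) : Matrix (Fin n) (Fin n) F) =
      (a : F) • (g : Matrix (Fin n) (Fin n) K).map K.subtype := by
    intro a g
    rw [smul_eq_diagonal_mul]
    rfl
  have h1 : Nat.card {g : GL (Fin n) F // ∃ c : F, c ≠ 0 ∧
      (g : Matrix (Fin n) (Fin n) F).map σ = c • (g : Matrix (Fin n) (Fin n) F)} =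
      Nat.card φ.range := by
    refine Nat.card_congr (Equiv.subtypeEquivRight fun g => ⟨?_, ?_⟩)
    · rintro ⟨c, hc, h⟩
      have : Nonempty (Fin n) := ⟨⟨0, hn⟩⟩
      obtain ⟨i, j, hij⟩ : ∃ i j, (g : Matrix (Fin n) (Fin n) F) i j ≠ 0 := by
        by_contra h0
        push Not at h0
        exact g.ne_zero (Matrix.ext h0)
      set a := (g : Matrix (Fin n) (Fin n) F) i j
      have h2 : ∀ i' j', a⁻¹ * (g : Matrix (Fin n) (Fin n) F) i' j' ∈ K := fun i' j' => by
        have e1 : σ a = c * a := congrFun (congrFun h i) j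
        have e2 : σ ((g : Matrix (Fin n) (Fin n) F) i' j') = c * _ := congrFun (congrFun h i') j'
        rw [hK, map_mul, map_inv₀, e1, e2]
        field_simp
      let M : Matrix (Fin n) (Fin n) K := Matrix.of fun i' j' => ⟨_, h2 i' j'⟩
      have hM : M.map K.subtype = a⁻¹ • (g : Matrix (Fin n) (Fin n) F) := rfl
      have hd : M.det ≠ 0 := fun h0 => by
        have := K.subtype.map_det M
        rw [h0, map_zero, RingHom.mapMatrix_apply, hM, det_smul] at this
        exact mul_ne_zero (pow_ne_zero _ (inv_ne_zero hij)) g.det_ne_zero this.symm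
      refine ⟨(Units.mk0 a hij, GeneralLinearGroup.mkOfDetNeZero M hd), Units.ext ?_⟩
      rw [hφ]
      change a • M.map K.subtype = _
      rw [hM, smul_smul, mul_inv_cancel₀ hij, one_smul]
    · rintro ⟨⟨a, g⟩, rfl⟩
      refine ⟨σ a / a, div_ne_zero ((map_ne_zero σ).mpr a.ne_zero) a.ne_zero, ?_⟩
      rw [hφ, smul_smul, div_mul_cancel₀ _ a.ne_zero]
      ext i j
      simp [(hK _).mp ((g : Matrix (Fin n) (Fin n) K) i j).2]
  have h2 : Nat.card φ.ker = Nat.card Kˣ := by
    symm
    refine Nat.card_congr (Equiv.ofBijective (fun a => ⟨(Units.map K.subtype.toMonoidHom a,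
      GeneralLinearGroup.scalar (Fin n) a⁻¹), ?_⟩) ⟨?_, ?_⟩)
    · apply Units.ext
      rw [hφ]
      ext i j
      by_cases h : i = j
      · simp [h, GeneralLinearGroup.scalar]
      · simp [h, GeneralLinearGroup.scalar]
    · intro a b h
      have := congrArg (fun x => ((x.1.1 : Fˣ) : F)) h
      exact Units.ext (Subtype.ext this)
    · rintro ⟨⟨a, g⟩, h⟩
      have h3 := congrArg Units.val h
      rw [hφ] at h3
      have h4 : ∀ i j, (a : F) * ((g : Matrix (Fin n) (Fin n) K) i j : F) =
          (1 : Matrix (Fin n) (Fin n) F) i j := fun i j => congrFun (congrFun h3 i) j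
      have h5 := h4 ⟨0, hn⟩ ⟨0, hn⟩
      rw [one_apply_eq] at h5
      have h6 : (a : F) ∈ K := by
        rw [eq_inv_of_mul_eq_one_left h5]
        exact K.inv_mem (Subtype.property _)
      refine ⟨Units.mk0 ⟨a, h6⟩ (fun h => a.ne_zero (congrArg Subtype.val h)),
        Subtype.ext (Prod.ext (Units.ext rfl) (Units.ext ?_))⟩
      ext i j
      have := h4 i j
      rw [← eq_inv_mul_iff_mul_eq₀ a.ne_zero] at this
      rw [this]
      by_cases h : i = j
      · subst h; simp [GeneralLinearGroup.scalar]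
      · simp [h, GeneralLinearGroup.scalar]
  rw [h1, ← Nat.card_units, ← Nat.card_units, ← h2, ← Subgroup.index_ker,
    Subgroup.index_mul_card, Nat.card_prod]

/-- Centraliser of a field automorphism in PGL_n: let F be the field with q = q₀^r elements, σ a field automorphism of F of prime order r (so its fixed field has q₀ elements) and n ≥ 1. The invertible matrices g whose entrywise image under σ is a scalar multiple of g — those whose coset modulo scalars is fixed by σ — number (q − 1)/(q₀ − 1) · |GL_n(q₀)|; equivalently the centraliser in PGL_n(q) of the induced automorphism has the order of PGL_n(q₀). -/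
theorem result {F : Type*} [Field F] [Fintype F] {q₀ r n : ℕ} (hr : r.Prime) (hn : 1 ≤ n) (hF : Fintype.card F = q₀ ^ r) (σ : F ≃+* F) (hσ : orderOf σ = r) : Nat.card {g : GL (Fin n) F // ∃ c : F, c ≠ 0 ∧ (g : Matrix (Fin n) (Fin n) F).map σ = c • (g : Matrix (Fin n) (Fin n) F)} = (q₀ ^ r - 1) / (q₀ - 1) * ∏ i : Fin n, (q₀ ^ n - q₀ ^ (i : ℕ)) := by
  classical
  let H : Subgroup (F ≃+* F) := Subgroup.zpowers σ
  let K : Subfield F := FixedPoints.subfield H F
  have hK : ∀ a, a ∈ K ↔ σ a = a := fun a => by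
    refine ⟨fun h => h ⟨σ, Subgroup.mem_zpowers σ⟩, fun h g => ?_⟩
    have : H ≤ MulAction.stabilizer (F ≃+* F) a := Subgroup.zpowers_le.mpr h
    exact this g.2
  have hfin : IsOfFinOrder σ := orderOf_pos_iff.mp (hσ ▸ hr.pos)
  have : Finite H := finite_zpowers.mpr hfin
  have := Fintype.ofFinite H
  have h1 : Module.finrank K F = r := by
    rw [FixedPoints.finrank_eq_card, ← hσ, ← Nat.card_eq_fintype_card, Nat.card_zpowers]
  have h2 : Fintype.card K = q₀ := by
    have := Module.card_eq_pow_finrank (K := K) (V := F)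
    rw [h1, hF] at this
    exact (Nat.pow_left_injective hr.ne_zero this).symm
  have h3 := aux K hn σ hK
  rw [Matrix.card_GL_field, Nat.card_eq_fintype_card (α := K), Nat.card_eq_fintype_card (α := F),
    h2, hF] at h3
  have h4 : 1 < q₀ := h2 ▸ Fintype.one_lt_card
  obtain ⟨m, hm⟩ : q₀ - 1 ∣ q₀ ^ r - 1 := by simpa using Nat.sub_dvd_pow_sub_pow q₀ 1 r
  rw [hm, Nat.mul_div_cancel_left _ (by omega)]
  rw [hm, mul_assoc, mul_comm] at h3
  exact Nat.eq_of_mul_eq_mul_left (by omega) h3

end Cfsg.Agent.S2636
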