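import Cfsg.Statements.S2637
import Mathlib
import Cfsg.Agent.Class.Wall.UnipCount
import Cfsg.Agent.Class.Wall.Mat
import Cfsg.Agent.Class.Orth.Plane

set_option autoImplicit false
open Cfsg

namespace Cfsg.Agent.S2637

local notation "𝕂" F => QuadraticAlgebra F (-1) (-1)

open Cfsg.Agent.Class Cfsg.Agent.Class.Wall QuadraticAlgebra in
theorem key {F V : Type*} [Field F] [Fintype F] [AddCommGroup V] [Module F V] [FiniteDimensional F V]
    {B : LinearMap.BilinForm F V} (hB : IsSympSpace B) (hq : Fintype.card F % 3 = 2) {m : ℕ}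
    (hm : Module.finrank F V = 2 * m) (x : Isom B fun _ => 0)
    (hx : ∀ v, x.1 (x.1 v) = -v - x.1 v) :
    (Nat.card (Subgroup.centralizer {x}) : ℤ) = (Fintype.card F : ℤ) ^ (m * (m - 1) / 2) *
      ∏ i : Fin m, ((Fintype.card F : ℤ) ^ ((i : ℕ) + 1) - (-1) ^ ((i : ℕ) + 1)) := by
  obtain ⟨k, hk⟩ : ∃ k, Fintype.card F = 3 * k + 2 := ⟨Fintype.card F / 3, by omega⟩
  have : Fact (∀ r : F, r ^ 2 ≠ -1 + -1 * r) := ⟨fun r h => by
    have h1 := FiniteField.pow_card r
    have h3 := FiniteField.cast_card_eq_zero F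
    rw [hk, pow_add, pow_mul, show r ^ 3 = 1 by linear_combination (r - 1) * h, one_pow] at h1
    rw [hk] at h3
    push_cast at h3
    exact one_ne_zero (α := F) (by
      linear_combination (1 + k) * ((2 * r + 1) * h1 - (2 * r - 3) * h) - h3)⟩
  have : U.UF (𝕂 F) (Fintype.card F) := ⟨Module.finite_of_finite F, by
    rw [Orth.card_quadraticAlgebra, Nat.card_eq_fintype_card]⟩
  have hσ : ∀ z : (𝕂 F), U.conj (𝕂 F) (Fintype.card F) z = ⟨z.re - z.im, -z.im⟩ := fun z => by
    have h1 : ∀ a, U.conj (𝕂 F) (Fintype.card F) (algebraMap F (𝕂 F) a) = algebraMap F (𝕂 F) a := fun a => by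
      rw [U.conj_apply, ← map_pow, FiniteField.pow_card]
    have h2 : U.conj (𝕂 F) (Fintype.card F) ω = ⟨-1, -1⟩ := by
      rw [U.conj_apply, hk, pow_add, pow_mul, show (ω : (𝕂 F)) ^ 3 = 1 by ext <;> simp [pow_succ],
        one_pow, one_mul, sq, omega_mul_omega_eq_mk]
    conv_lhs => rw [show z = algebraMap F (𝕂 F) z.re + algebraMap F (𝕂 F) z.im * ω by
      ext <;> simp, map_add, map_mul, h1, h1, h2]
    ext <;> simp [sub_eq_add_neg]
  let f : (𝕂 F) →ₐ[F] Module.End F V := lift ⟨x.1.toLinearMap, LinearMap.ext fun v => by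
    simp [hx, sub_eq_add_neg]⟩
  let _ : Module (𝕂 F) V := Module.compHom V f.toRingHom
  have hs : ∀ (z : (𝕂 F)) (v : V), z • v = z.re • v + z.im • x.1 v := fun _ _ => rfl
  have : IsScalarTower F (𝕂 F) V := ⟨fun a z v => by simp [hs, smul_smul]⟩
  have := Module.Finite.of_restrictScalars_finite F (𝕂 F) V
  have h1 : ∀ u v, B (x.1 u) v = -B u v - B u (x.1 v) := fun u v => by
    have := Isom.map_B x (x.1 u) v
    rw [hx, map_sub, map_neg, LinearMap.sub_apply, LinearMap.neg_apply, Isom.map_B] at this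
    linear_combination -this
  let H : V →ₛₗ[U.conj (𝕂 F) (Fintype.card F)] V →ₗ[(𝕂 F)] (𝕂 F) := LinearMap.mk₂'ₛₗ _ _
    (fun u v => ⟨B u v, -B u (x.1 v)⟩) (fun _ _ _ => by ext <;> simp [add_comm])
    (fun _ _ _ => by ext <;> simp [hs, hσ, h1, hx] <;> ring)
    (fun _ _ _ => by ext <;> simp [add_comm]) (fun _ _ _ => by ext <;> simp [hs, hx] <;> ring)
  have hH : ∀ u v, H u v = ⟨B u v, -B u (x.1 v)⟩ := fun _ _ => rfl
  rw [← Herm.card_isom_unitary (B := H) (ε := ⟨-1, -1⟩) ⟨⟨U.conj_conj,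
    fun u h => hB.nondeg u fun v => congrArg re (h v),
    fun u h => hB.nondeg_right u fun v => congrArg re (h v)⟩, fun u v => by
      ext <;> simp [hH, hσ, hB.symm u v, hB.symm (x.1 u) v, h1, add_comm]⟩ (by ext <;> simp [hσ]) (by
      have := Module.finrank_mul_finrank F (𝕂 F) V
      rw [finrank_eq_two] at this
      omega)]
  refine congrArg _ (Nat.card_congr ⟨fun g => ⟨{ g.1.1 with map_smul' := fun z v => ?_ },
    fun u v => ?_, fun _ => rfl⟩, fun g => ⟨⟨g.1.restrictScalars F,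
      fun u v => congrArg re (g.2.1 u v), fun _ => rfl⟩, ?_⟩, fun _ => rfl, fun _ => rfl⟩)
  · have := congrArg (·.1 v) (Subgroup.mem_centralizer_singleton_iff.1 g.2)
    simp only [Isom.mul_apply] at this
    simp [hs, this]
  · have := congrArg (·.1 v) (Subgroup.mem_centralizer_singleton_iff.1 g.2)
    simp only [Isom.mul_apply] at this
    exact QuadraticAlgebra.ext (Isom.map_B g.1 u v)
      (congrArg Neg.neg ((congrArg _ this.symm).trans (Isom.map_B g.1 u _)))
  · exact Subgroup.mem_centralizer_singleton_iff.2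
      (Isom.ext' fun v => by simpa [hs] using g.1.map_smul ω v)

/-- Centraliser of a fixed-point-free element of order three in Sp_2m(q) when q ≡ 2 (mod 3): if x ∈ Sp_2m(F) (|F| = q, m ≥ 1) satisfies x³ = 1 and x − 1 is invertible, then its centraliser in Sp_2m(F) has the order of the unitary group GU_m(q), namely q^(m(m−1)/2) Π_(i=1)^m (q^i − (−1)^i) (x lies in the centre of a subgroup GU_m(q) of Sp_2m(q)). -/
theorem result {F : Type*} [Field F] [Fintype F] {q : ℕ} (hF : Fintype.card F = q) (hq : q % 3 = 2) {m : ℕ} (hm : 1 ≤ m) (x : Matrix.symplecticGroup (Fin m) F) (hx3 : x ^ 3 = 1) (hfpf : IsUnit ((x : Matrix (Fin m ⊕ Fin m) (Fin m ⊕ Fin m) F) - 1)) : (Nat.card ↥(Subgroup.centralizer ({x} : Set ↥(Matrix.symplecticGroup (Fin m) F))) : ℤ) = (q : ℤ) ^ (m * (m - 1) / 2) * ∏ i : Fin m, ((q : ℤ) ^ ((i : ℕ) + 1) - (-1) ^ ((i : ℕ) + 1)) := by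
  subst hF
  rw [← Class.Wall.card_centralizer_congr (Class.spEquiv m F)]
  refine key (Class.isSympSpace_sympB m F) hq (by simp [two_mul]) _ fun v => ?_
  have h : x.1 * x.1 = -1 - x.1 := hfpf.mul_left_cancel (by
    have : x.1 * x.1 * x.1 = 1 := by simpa [pow_succ] using congrArg Subtype.val hx3
    simp only [sub_mul, mul_sub, ← mul_assoc, this]
    noncomm_ring)
  change x.1.mulVec (x.1.mulVec v) = -v - x.1.mulVec v
  rw [Matrix.mulVec_mulVec, h, Matrix.sub_mulVec, Matrix.neg_mulVec, Matrix.one_mulVec]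

end Cfsg.Agent.S2637
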