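import Cfsg.Statements.S2638
import Mathlib
import Cfsg.Agent.KSG.PrimeOrder

set_option autoImplicit false
open Cfsg

namespace Cfsg.Agent.S2638

/-- If an element x of GL_n(q), n ≥ 1, has prime order r and the multiplicative order of q modulo r is n (r is a primitive prime divisor of q^n − 1, so x acts irreducibly), then the centraliser of x in GL_n(q) is cyclic of order q^n − 1 (the multiplicative group of the field with q^n elements, a Singer cycle). -/
theorem result {F : Type*} [Field F] [Fintype F] {p q : ℕ} [Fact p.Prime] [CharP F p] (hF : Fintype.card F = q) {n r : ℕ} (hn : 1 ≤ n) (hr : r.Prime) (hrp : r ≠ p) (hi : orderOf (q : ZMod r) = n) (x : GL (Fin n) F) (hx : orderOf x = r) : IsCyclic ↥(Subgroup.centralizer ({x} : Set (GL (Fin n) F))) ∧ Nat.card ↥(Subgroup.centralizer ({x} : Set (GL (Fin n) F))) = q ^ n - 1 := by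
  classical
  subst hF
  have hr0 : (r : F) ≠ 0 := KSG.natCast_ne_zero_of_prime_ne hr hrp
  obtain ⟨h1, h2⟩ := (KSG.GL_orderOf_eq_prime_iff hr hr0 x).1 hx
  push Not at h2
  obtain ⟨b, hb, hb1⟩ := h2
  have hbc := (h1 b hb).resolve_left hb1
  have hdeg : b.natDegree = n := (KSG.natDegree_of_mem_cycFac hr hr0 hbc).trans hi
  have hsum := KSG.sum_natDegree_mdiv (x : Matrix (Fin n) (Fin n) F)
  have hs : KSG.mdiv (x : Matrix (Fin n) (Fin n) F) = {b} := by
    obtain ⟨s, hs⟩ := Multiset.exists_cons_of_mem hb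
    rw [hs, Multiset.map_cons, Multiset.sum_cons, hdeg, Fintype.card_fin] at hsum
    have h0 : (s.map Polynomial.natDegree).sum = 0 := by omega
    have : s = 0 := Multiset.eq_zero_of_forall_notMem fun c hc => by
      have h3 := Multiset.sum_eq_zero_iff.1 h0 _ (Multiset.mem_map_of_mem _ hc)
      have h4 := (KSG.isPP_of_mem_mdiv (A := (x : Matrix (Fin n) (Fin n) F)) (b := c)
        (hs ▸ Multiset.mem_cons_of_mem hc)).natDegree_pos
      omega
    rw [hs, this]; rfl
  obtain ⟨φ, -⟩ := KSG.exists_centralizer_equiv_of_mdiv x hs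
  have hirr := (KSG.mem_cycFac.1 hbc).1
  have : Fact (Irreducible b) := ⟨hirr⟩
  have hfd : Module.Finite F (AdjoinRoot b) := (AdjoinRoot.powerBasis hirr.ne_zero).finite
  have hfin : Finite (AdjoinRoot b) := Module.finite_of_finite F
  refine ⟨isCyclic_of_surjective φ.symm φ.symm.surjective, ?_⟩
  rw [Nat.card_congr φ.toEquiv, Nat.card_units, Module.natCard_eq_pow_finrank (K := F),
    (AdjoinRoot.powerBasis hirr.ne_zero).finrank, AdjoinRoot.powerBasis_dim, hdeg,
    Nat.card_eq_fintype_card]

end Cfsg.Agent.S2638
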