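import Cfsg.Statements.S2639
import Mathlib
import Cfsg.Agent.Class.Sp.Abstract
import Cfsg.Agent.Class.FinFieldExt
import Cfsg.Agent.Class.U.Basic

set_option autoImplicit false
open Cfsg

namespace Cfsg.Agent.S2639

open Cfsg.Agent.Class Module

/-- The unitary group embeds in the symplectic group of twice the dimension over the subfield: for a field K with q² elements and a field F with q elements (isomorphic to the subfield of K of order q), there is an injective homomorphism GU_m(q) → Sp_2m(F). -/
theorem result {K F : Type*} [Field K] [Fintype K] [Field F] [Fintype F] {q : ℕ} (hK : Fintype.card K = q ^ 2) (hF : Fintype.card F = q) (m : ℕ) : ∃ φ : ↥(Cfsg.GU m K q) →* ↥(Matrix.symplecticGroup (Fin m) F), Function.Injective φ := by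
  obtain ⟨ι⟩ := FinExt.nonempty_ringHom (F := F) (K := K) (m := 2) (by rw [hK, hF])
  let _ := ι.toAlgebra
  have hU := U.UF.of_card hK
  have h2 := FinExt.finrank_eq_of_card (F := F) (K := K) (m := 2) (by rw [hK, hF])
  obtain ⟨r, hr0, hr⟩ := Submodule.exists_le_ker_of_lt_top (Submodule.span F {(1 : K)}) (by
    rw [lt_top_iff_ne_top]
    intro h
    have := finrank_span_singleton (K := F) (one_ne_zero (α := K))
    rw [h, finrank_top] at this
    omega)
  have hr1 : r 1 = 0 := hr (Submodule.mem_span_singleton_self _)
  have hσ : ∀ a : F, U.conj K q (algebraMap F K a) = algebraMap F K a := fun a => by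
    rw [U.conj_apply, ← hF]; exact FinExt.algebraMap_pow_card a
  have hsm : ∀ (a : F) (v : Fin m → K), a • v = algebraMap F K a • v := fun a v =>
    (algebraMap_smul K a v).symm
  let B : LinearMap.BilinForm F (Fin m → K) := LinearMap.mk₂ F (fun u v => r (hermForm m K q u v))
    (fun u u' v => by rw [U.herm_add_left, map_add])
    (fun a u v => by rw [hsm, U.herm_smul_left, ← Algebra.smul_def, map_smul])
    (fun u v v' => by rw [U.herm_add_right, map_add])
    (fun a u v => by rw [hsm, U.herm_smul_right, hσ, ← Algebra.smul_def, map_smul])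
  let ρ : GU m K q →* ((Fin m → K) →ₗ[F] (Fin m → K)) :=
    { toFun := fun g => (Matrix.toLin' (g.1 : Matrix (Fin m) (Fin m) K)).restrictScalars F
      map_one' := LinearMap.ext fun v => one_smul (GU m K q) v
      map_mul' := fun g h => LinearMap.ext fun v => mul_smul g h v }
  refine Sp.exists_injective_hom_of_rep B (fun v => ?_) (fun x hx => ?_) ?_ ρ
    (fun g u v => congrArg r (U.GU_herm g u v)) (fun g hg => U.GU_ext fun v => ?_)
  · obtain ⟨a, ha⟩ := (FinExt.mem_range_algebraMap_iff (F := F) (hermForm m K q v v)).2
      (by rw [hF]; exact U.herm_conj v v)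
    change r (hermForm m K q v v) = 0
    rw [← ha, Algebra.algebraMap_eq_smul_one, map_smul, hr1, smul_zero]
  · by_contra h0
    obtain ⟨y, hy⟩ := U.exists_herm_ne_zero (q := q) h0
    apply hr0
    ext t
    have := hx (U.conj K q (t / hermForm m K q x y) • y)
    change r (hermForm m K q x _) = 0 at this
    rwa [U.herm_smul_right, U.conj_conj, div_mul_cancel₀ _ hy] at this
  · rw [finrank_pi_fintype, h2]
    simp [mul_comm]
  · rw [one_smul]; exact hg v

end Cfsg.Agent.S2639
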