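import Cfsg.Statements.S2640
import Cfsg.Agent.Class.Orth.UnitaryEmbed

set_option autoImplicit false
open Cfsg

namespace Cfsg.Agent.S2640

/-- For m even, the unitary group GU_m(q) (over the field with q² elements) embeds in the orthogonal group O⁺_2m(q) of the hyperbolic form Σ x_i y_i over the field with q elements (there is an injective homomorphism). -/
theorem result {K F : Type*} [Field K] [Fintype K] [Field F] [Fintype F] {q : ℕ} (hK : Fintype.card K = q ^ 2) (hF : Fintype.card F = q) (m : ℕ) (hm : Even m) : ∃ φ : ↥(Cfsg.GU m K q) →* ↥(Cfsg.isometryGroup F (Cfsg.quadFormPlus m F)), Function.Injective φ := by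
  obtain ⟨ι⟩ := Class.FinExt.nonempty_ringHom (F := F) (K := K) (m := 2) (by rw [hK, hF])
  let _ := ι.toAlgebra
  obtain ⟨Q, h1, h2, h3, h4⟩ := Class.Orth.exists_normQF hK hF m
  obtain ⟨φ, hφ, -⟩ := Class.Orth.exists_GU_embedding Q h1
  obtain ⟨e, he⟩ := h2.exists_equiv_plusQF (h4.2 hm) h3
  let ψ := (Class.Orth.OG.congr e he).trans (Class.Orth.plusEquiv m F).symm
  exact ⟨ψ.toMonoidHom.comp φ, ψ.injective.comp hφ⟩

end Cfsg.Agent.S2640
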