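import Cfsg.Statements.S2641
import Cfsg.Agent.Class.Orth.UnitaryEmbed

set_option autoImplicit false
open Cfsg

namespace Cfsg.Agent.S2641

/-- For m odd, the unitary group GU_m(q) (over the field with q² elements) embeds in the orthogonal group O⁻_2m(q) of an elliptic form (Σ_(i<m−1) x_i y_i plus an anisotropic binary form) over the field with q elements (there is an injective homomorphism). -/
theorem result {K F : Type*} [Field K] [Fintype K] [Field F] [Fintype F] {q : ℕ} (hK : Fintype.card K = q ^ 2) (hF : Fintype.card F = q) (m : ℕ) (hm : Odd m) (a b : F) (hab : ∀ z₁ z₂ : F, z₁ ^ 2 + a * z₁ * z₂ + b * z₂ ^ 2 = 0 → z₁ = 0 ∧ z₂ = 0) : ∃ φ : ↥(Cfsg.GU m K q) →* ↥(Cfsg.isometryGroup F (Cfsg.quadFormMinus (m - 1) F a b)), Function.Injective φ := by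
  obtain ⟨ι⟩ := Class.FinExt.nonempty_ringHom (F := F) (K := K) (m := 2) (by rw [hK, hF])
  let _ := ι.toAlgebra
  obtain ⟨Q, h1, h2, h3, h4⟩ := Class.Orth.exists_normQF hK hF m
  obtain ⟨φ, hφ, -⟩ := Class.Orth.exists_GU_embedding Q h1
  obtain ⟨e, he⟩ := h2.exists_equiv_minusQF (mt h4.1 (Nat.not_even_iff_odd.2 hm)) (k := m - 1)
    (by obtain ⟨k, rfl⟩ := hm; omega) hab
  let ψ := (Class.Orth.OG.congr e he).trans (Class.Orth.minusEquiv (m - 1) F a b).symm
  exact ⟨ψ.toMonoidHom.comp φ, ψ.injective.comp hφ⟩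

end Cfsg.Agent.S2641
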