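import Cfsg.Statements.S2642
import Mathlib
import Cfsg.Agent.Class.Wall.Dual

set_option autoImplicit false
open Cfsg

namespace Cfsg.Agent.S2642

/-- Number of conjugacy classes of elements of order p in the general unitary group GU_n(q), q a power of p: every unipotent Jordan type occurs and the classes correspond to the partitions of n with all parts at most p other than the all-ones partition, exactly as in GL_n; so there are (number of partitions of n with parts ≤ p) − 1 classes. -/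
theorem result {K : Type*} [Field K] [Fintype K] {p q n : ℕ} [Fact p.Prime] [CharP K p] (hK : Fintype.card K = q ^ 2) : Nat.card {C : ConjClasses ↥(Cfsg.GU n K q) // ∃ g : ↥(Cfsg.GU n K q), ConjClasses.mk g = C ∧ orderOf g = p} = (Finset.univ.filter (fun μ : Nat.Partition n => ∀ a ∈ μ.parts, a ≤ p)).card - 1 := by
  classical
  have := Class.U.UF.of_card hK
  have hp : p.Prime := Fact.out
  have h := Class.Wall.card_conjClasses_GU (n := n) (F := K) (q := q) (fun g => g ^ p ^ 1 = 1)
    (fun s => ∀ b ∈ s, ∃ e, e ≤ p ^ 1 ∧ b = (Polynomial.X - Polynomial.C 1) ^ e)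
    (fun A => by
      rw [← KSG.GL_pow_char_pow_eq_one_iff_mdiv p A.1 1, Subtype.ext_iff]; rfl)
  have h2 := KSG.card_multiset_unipotent (F := K) n (fun e => e ≤ p ^ 1)
  rw [Nat.card_congr (Equiv.subtypeEquivRight (q := fun s : Multiset (Polynomial K) => (∀ b ∈ s, KSG.IsPP b) ∧
    (∀ b ∈ s, ¬ Polynomial.X ∣ b) ∧ (s.map Polynomial.natDegree).sum = n ∧
    ∀ b ∈ s, ∃ e, e ≤ p ^ 1 ∧ b = (Polynomial.X - Polynomial.C 1) ^ e) fun s => ?_), h2] at h
  swap
  · refine ⟨fun ⟨a, b, c, _, e⟩ => ⟨a, b, c, e⟩, fun ⟨a, b, c, e⟩ => ⟨a, b, c, ?_, e⟩⟩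
    conv_rhs => rw [← Multiset.map_id s]
    refine Multiset.map_congr rfl fun b hb => ?_
    obtain ⟨e, -, rfl⟩ := e b hb
    rw [Class.Wall.dual_pow, Class.Wall.dual_X_sub_C_of_norm (by simp)]; rfl
  simp only [pow_one] at h
  rw [Nat.card_eq_fintype_card (α := {μ : Nat.Partition n // _}), Fintype.card_subtype] at h
  rw [← h]
  have key : ∀ C : ConjClasses (GU n K q),
      (∃ g : GU n K q, ConjClasses.mk g = C ∧ orderOf g = p) ↔
      ((∃ g : GU n K q, ConjClasses.mk g = C ∧ g ^ p = 1) ∧ C ≠ ConjClasses.mk 1) := by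
    intro C
    constructor
    · rintro ⟨g, rfl, hg⟩
      refine ⟨⟨g, rfl, hg ▸ pow_orderOf_eq_one g⟩, fun h => ?_⟩
      rw [ConjClasses.mk_eq_mk_iff_isConj, isConj_one_left] at h
      rw [h, orderOf_one] at hg
      exact hp.one_lt.ne hg
    · rintro ⟨⟨g, rfl, hg⟩, h1⟩
      exact ⟨g, rfl, orderOf_eq_prime hg fun h => h1 (h ▸ rfl)⟩
  rw [Nat.card_congr (Equiv.subtypeEquivRight key)]
  have := Set.ncard_sdiff_singleton_of_mem (s := {C : ConjClasses (GU n K q) |
    ∃ g : GU n K q, ConjClasses.mk g = C ∧ g ^ p = 1}) (a := ConjClasses.mk 1)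
    ⟨1, rfl, one_pow p⟩
  exact this

end Cfsg.Agent.S2642
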