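import Cfsg.Statements.S2643
import Mathlib
import Cfsg.Agent.Class.Wall.SU

set_option autoImplicit false
open Cfsg

namespace Cfsg.Agent.S2643

open Polynomial in
theorem exists_reg {F : Type*} [Field F] {n q : ℕ} [Class.U.UF F q] (hn : 1 ≤ n) :
    ∃ u : SU n F q, KSG.mdiv u.1.1 = {(X - C 1) ^ n} := by
  obtain ⟨A, hA⟩ := Class.Wall.exists_GU_mdiv_eq (n := n) (q := q)
    (s := ({(X - C 1) ^ n} : Multiset F[X]))
    (by simpa using ⟨X - C 1, n, irreducible_X_sub_C 1, monic_X_sub_C 1, hn, by simp⟩)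
    (by simp [X_dvd_iff, coeff_zero_eq_eval_zero])
    (by rw [Multiset.map_singleton, Multiset.sum_singleton, natDegree_pow, natDegree_X_sub_C]; simp)
    (by rw [Multiset.map_singleton, Class.Wall.dual_pow, Class.Wall.dual_X_sub_C_of_norm (by simp)])
  refine ⟨⟨⟨A.1.1, ?_⟩, A.2⟩, hA⟩
  rw [Matrix.det_eq_sign_charpoly_coeff, ← KSG.prod_mdiv, hA, Multiset.prod_singleton,
    coeff_zero_eq_eval_zero]
  simp [← mul_pow]

/-- Regular unipotent classes of SU_n(q), n ≥ 2: the elements u of the special unitary group (isometries of Σ u_i v_i^q of determinant one over the field with q² elements) with (u − 1)^n = 0 and rank(u − 1) = n − 1 form exactly gcd(n, q + 1) conjugacy classes of SU_n(q). -/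
theorem result {K : Type*} [Field K] [Fintype K] {q n : ℕ} (hK : Fintype.card K = q ^ 2) (hn : 2 ≤ n) : Nat.card {C : ConjClasses ↥(Cfsg.SU n K q) // ∃ u : ↥(Cfsg.SU n K q), ConjClasses.mk u = C ∧ (((u : GL (Fin n) K) : Matrix (Fin n) (Fin n) K) - 1) ^ n = 0 ∧ (((u : GL (Fin n) K) : Matrix (Fin n) (Fin n) K) - 1).rank = n - 1} = Nat.gcd n (q + 1) := by
  have := Class.U.UF.of_card hK
  have : Nonempty (Fin n) := ⟨⟨0, by omega⟩⟩
  obtain ⟨x, hx⟩ := exists_reg (F := K) (n := n) (q := q) (by omega)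
  rw [KSG.card_conjClasses_split Class.U.toGU Class.U.toGU_injective _
    (MonoidHom.rangeRestrict_surjective _) Class.Wall.range_toGU_eq_ker_detU x]
  · obtain ⟨φ, hφ⟩ := KSG.exists_centralizer_equiv_of_mdiv (Class.U.toGU x).1 hx
    rw [← Class.U.card_range_detGU (F := K) (q := q) (show 1 ≤ n by omega), Nat.gcd_comm,
      ← IsCyclic.index_powMonoidHom_range]
    congr 1
    ext d
    constructor
    · rintro ⟨g, hg, rfl⟩
      obtain ⟨t, t1, t2, t3⟩ := Class.Wall.exists_GL_commute_det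
        (Subgroup.mem_centralizer_singleton_iff.1 hg : Commute g _).symm
      obtain ⟨t, rfl⟩ := t1
      have h1 := hφ ⟨t, Subgroup.mem_centralizer_singleton_iff.2 (Units.ext t2.symm)⟩
      rw [KSG.norm_eq_evalAt_pow 1 (show n ≠ 0 by omega)] at h1
      have h0 := (KSG.isUnit_iff_evalAt 1 (show n ≠ 0 by omega) _).1
        (φ ⟨t, Subgroup.mem_centralizer_singleton_iff.2 (Units.ext t2.symm)⟩).isUnit
      generalize KSG.evalAt (1 : K) (show n ≠ 0 by omega) _ = c at h1 h0
      have h2 := (Class.U.conj_ne_zero (q := q)).2 h0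
      refine ⟨⟨Units.mk0 (c / Class.U.conj K q c) (div_ne_zero h0 h2),
        (Class.U.mem_range_detGU (by omega)).2 ?_⟩, Subtype.ext (Units.ext ?_)⟩
      · simp only [Units.val_mk0, map_div₀, Class.U.conj_conj]
        field_simp
      · change (c / Class.U.conj K q c) ^ n = Class.U.detGU g
        rw [t3, h1, map_pow, div_pow]
    · rintro ⟨c, rfl⟩
      obtain ⟨s, s0, hs⟩ := Class.U.exists_conj_div_eq
        ((Class.U.mem_range_detGU (by omega)).1 c⁻¹.2)
      obtain ⟨g, hg, hd⟩ := KSG.exists_commute_det_eq_pow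
        (hx ▸ Multiset.mem_singleton_self _ : _ ∈ KSG.mdiv x.1.1) s s0
      rw [Polynomial.natDegree_pow, Polynomial.natDegree_X_sub_C, mul_one] at hd
      obtain ⟨u, u1, u2⟩ := Class.Wall.exists_GU_commute_det (Class.U.toGU x) g.isUnit hg.symm
      refine ⟨u, Subgroup.mem_centralizer_singleton_iff.2 u1.symm, Subtype.ext (Units.ext ?_)⟩
      change (Class.U.detGU u : K) = ((c : Kˣ) : K) ^ n
      rw [u2, hd, map_pow, ← div_pow, hs]
      simp [mul_comm _ s, div_mul_eq_div_div, s0]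
  · intro y
    rw [Class.Wall.GU_isConj_iff_mdiv]
    change (y.1.1 - 1) ^ n = 0 ∧ (y.1.1 - 1).rank = n - 1 ↔ KSG.mdiv x.1.1 = KSG.mdiv y.1.1
    rw [hx]
    constructor
    · rintro ⟨h1, h2⟩
      simpa using (KSG.mdiv_of_regular_unipotent h1 (by simpa using h2)).symm
    · intro h
      have h1 : (y.1.1 - 1) ^ n = 0 := by
        rw [← KSG.aeval_X_sub_one_pow, KSG.aeval_eq_zero_iff_mdiv, ← h]
        simp
      have h2 := KSG.rank_add_card_mdiv_of_unipotent h1
      rw [← h] at h2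
      simp at h2
      exact ⟨h1, by omega⟩

end Cfsg.Agent.S2643
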