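import Cfsg.Statements.S2644
import Mathlib
import Cfsg.Agent.Class.Wall.SU

set_option autoImplicit false
open Cfsg

namespace Cfsg.Agent.S2644

/-- In the special unitary group SU_n(q) with n ≥ 3 (isometries of Σ u_i v_i^q of determinant one over the field with q² elements), any two transvections (elements t with t − 1 of rank one and square zero) are conjugate. -/
theorem result {K : Type*} [Field K] [Fintype K] {q n : ℕ} (hK : Fintype.card K = q ^ 2) (hn : 3 ≤ n) (s t : ↥(Cfsg.SU n K q)) (hs : Cfsg.IsTransvection (((s : GL (Fin n) K) : Matrix (Fin n) (Fin n) K))) (ht : Cfsg.IsTransvection (((t : GL (Fin n) K) : Matrix (Fin n) (Fin n) K))) : IsConj s t := by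
  have := Class.U.UF.of_card hK
  have h2 : ∀ a : Matrix (Fin n) (Fin n) K, Cfsg.IsTransvection a → (a - 1) ^ 2 = 0 :=
    fun a ha => by rw [pow_two]; exact ha.2
  change Cfsg.IsTransvection s.1.1 at hs
  change Cfsg.IsTransvection t.1.1 at ht
  refine Class.Wall.SU_isConj_of_det_surj (fun d hd => ?_)
    (KSG.isConj_of_unipotent_of_rank (h2 _ hs) (h2 _ ht) fun j hj => ?_)
  · have h1 := KSG.rank_add_card_mdiv_of_unipotent (h2 _ hs)
    have h3 := KSG.sum_natDegree_mdiv s.1.1
    rw [hs.1, Fintype.card_fin] at h1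
    rw [Fintype.card_fin] at h3
    obtain ⟨c, hc, hc1⟩ : ∃ c ∈ KSG.mdiv s.1.1, c.natDegree = 1 := by
      by_contra hcon
      push Not at hcon
      have := Multiset.card_nsmul_le_sum (s := (KSG.mdiv s.1.1).map
        Polynomial.natDegree) (a := 2) (by
          intro x hx
          obtain ⟨c, hc, rfl⟩ := Multiset.mem_map.1 hx
          have := hcon c hc
          have := (KSG.isPP_of_mem_mdiv hc).natDegree_pos
          omega)
      rw [h3, Multiset.card_map, smul_eq_mul] at this
      omega
    simpa [hc1] using KSG.exists_commute_det_eq_pow hc d hd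
  · obtain rfl | hj2 : j = 1 ∨ 2 ≤ j := by omega
    · rw [pow_one, pow_one, hs.1, ht.1]
    · rw [pow_eq_zero_of_le hj2 (h2 _ hs), pow_eq_zero_of_le hj2 (h2 _ ht)]

end Cfsg.Agent.S2644
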