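import Cfsg.Statements.S2645
import Mathlib
import Cfsg.Agent.Class.Wall.PrimeCount

set_option autoImplicit false
open Cfsg

namespace Cfsg.Agent.S2645

/-- Number of conjugacy classes of elements of odd prime order r, r different from the characteristic, in the symplectic group Sp_2m(q): let i be the multiplicative order of q modulo r and t = (r − 1)/i. If i is odd the eigenvalue orbits pair off (Λ ≠ Λ⁻¹) and the classes correspond to the non-zero (t/2)-tuples (a_j) with 2i Σ a_j ≤ 2m, giving C(⌊m/i⌋ + t/2, t/2) − 1 classes; if i is even (Λ = Λ⁻¹) they correspond to the non-zero t-tuples with i Σ a_j ≤ 2m, giving C(⌊2m/i⌋ + t, t) − 1 classes. -/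
theorem result {F : Type*} [Field F] [Fintype F] {p q : ℕ} [Fact p.Prime] [CharP F p] (hF : Fintype.card F = q) (m r i t : ℕ) (hr : r.Prime) (hr2 : r ≠ 2) (hrp : r ≠ p) (hi : i = orderOf (q : ZMod r)) (ht : t * i = r - 1) : Nat.card {C : ConjClasses ↥(Matrix.symplecticGroup (Fin m) F) // ∃ g : Matrix.symplecticGroup (Fin m) F, ConjClasses.mk g = C ∧ orderOf g = r} = if Odd i then Nat.choose (m / i + t / 2) (t / 2) - 1 else Nat.choose (2 * m / i + t) t - 1 := by
  subst hF
  have h0 : (r : F) ≠ 0 := KSG.natCast_ne_zero_of_prime_ne hr hrp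
  rw [Class.Wall.card_classes_prime (Matrix.symplecticGroup (Fin m) F).subtype.toHomUnits
    (fun a b e => Subtype.ext (congrArg Units.val e)) hr h0
    (fun g k hg => (Class.Wall.Sp_isConj_iff_of_coprime p
      (hg ▸ (Nat.coprime_primes hr Fact.out).2 hrp)).2) hi
    (fun u => u.map (Class.Wall.dual (RingHom.id F)) = u) fun u hu hn => ⟨fun hd => ?_, ?_⟩,
    Class.Wall.card_selfDual_id hr hr2 h0 hi ht]
  · simp only [Fintype.card_sum, Fintype.card_fin, ← two_mul, Nat.mul_div_mul_left _ _ two_pos]
  · subst hi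
    refine ((Class.Wall.fType_sp.real_of_cycFac hr hr2 h0 hu hd).add
      (Class.Wall.fType_sp.real_replicate ?_)).exists_Sp
      ((Class.Wall.sum_natDegree_add_replicate hr h0 hu hn).trans (by simp [two_mul]))
    exact (Nat.even_sub hn).2 (iff_of_true (by simp) (Class.Wall.even_card_mul hr hr2 h0 hu hd))
  · rintro ⟨g, hg⟩
    rw [← Class.Wall.map_dual_add_replicate_iff, ← hg]
    exact Class.Wall.Sp_map_dual_mdiv g

end Cfsg.Agent.S2645
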