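import Cfsg.Statements.S2653
import Mathlib
import Cfsg.Agent.KSG.AltRed

set_option autoImplicit false
open scoped MatrixGroups
open Cfsg

namespace Cfsg.Agent.S2653


/-- Alternating sections of finite linear groups. Let `F` be a finite field of characteristic `p` and `n` a natural number, and suppose some subgroup `H` of GL_n(F) has a normal subgroup `K` with `H ⧸ K` isomorphic to the alternating group of degree `r ≥ 9`. Then `n ≥ r - 2` when `p` divides `r`, and `n ≥ r - 1` otherwise (the smallest degree of a nontrivial projective representation of that alternating group in characteristic `p`). The same bound follows for every classical group with natural module of dimension `n` over `F`, since each is a section of a subgroup of GL_n(F). -/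
theorem result {F : Type*} [Field F] [Fintype F] (p : ℕ) [Fact p.Prime] [CharP F p]
    (n : ℕ) (r : ℕ) (H : Subgroup (GL (Fin n) F)) (K : Subgroup ↥H) [K.Normal]
    (h : Nonempty (↥H ⧸ K ≃* ↥(alternatingGroup (Fin r)))) (hr : 9 ≤ r) :
    r - 1 - (if p ∣ r then 1 else 0) ≤ n := by
  obtain ⟨e⟩ := h
  letI : Algebra (ZMod p) F := ZMod.algebra F p
  let φ : F →ₐ[ZMod p] AlgebraicClosure (ZMod p) := IsAlgClosed.lift
  let s : Shrink.{0} H ≃* H := Shrink.mulEquiv
  haveI : Finite (Shrink.{0} H) := Finite.of_equiv _ s.symm.toEquiv
  obtain ⟨ρ, hρ⟩ := KSG.AltW.exists_glRep φ.toRingHom (H.subtype.comp s.toMonoidHom)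
  have := KSG.AltW.claim (Shrink.{0} H) (Fin r) ((alternatingGroup (Fin r)).subtype.comp
    (e.toMonoidHom.comp ((QuotientGroup.mk' K).comp s.toMonoidHom))) _ _ ρ (by simpa using hr)
    (fun h => Equiv.Perm.mem_alternatingGroup.1 (e _).2) (fun σ hσ => by
      obtain ⟨g, hg⟩ := QuotientGroup.mk'_surjective K (e.symm ⟨σ, hσ⟩)
      exact ⟨s.symm g, by simpa using congrArg (fun a => (e a).1) hg⟩)
    (by
      rw [hρ, (H.subtype.comp s.toMonoidHom).ker_eq_bot_iff.2
        (H.subtype_injective.comp s.injective)]
      exact bot_le)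
  rw [Fintype.card_fin, Module.finrank_fin_fun] at this
  rcases this with h | ⟨h1, h2⟩
  · omega
  · rw [if_pos ((CharP.cast_eq_zero_iff _ p r).1 h1)]
    omega

end Cfsg.Agent.S2653
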