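import Cfsg.Statements.S2669
import Cfsg.Agent.KSG.Shintani

set_option autoImplicit false
open Cfsg

namespace Cfsg.Agent.S2669

/-- Shintani descent preserves numbers of fixed points on coset spaces (abstract form). Let `σ` be an automorphism of a group `X` and `e ≥ 1`; write `G` for the fixed points of `σᵉ` and `H` for the fixed points of `σ`, and assume `G` is finite. Let `Y` be a `σ`-stable subgroup of `X` on which the maps `a ↦ a σ(a)⁻¹` and `a ↦ a σᵉ(a)⁻¹` are surjective (as for a closed connected `σ`-stable subgroup of an algebraic group). Let `g ∈ G`, let `a ∈ X` satisfy `g = a σ(a)⁻¹` and put `x = σᵉ(a)⁻¹ a` (the Shintani image, an element of `H`). The element `g σ` of the semidirect product acts on the cosets of `Y ∩ G` in `G` by `k (Y ∩ G) ↦ g σ(k) (Y ∩ G)`, fixing that coset exactly when `k⁻¹ g σ(k) ∈ Y`; and `x` fixes the coset `h (Y ∩ H)` of `H` exactly when `h⁻¹ x h ∈ Y`. Then the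 two numbers of fixed cosets agree; in cross-multiplied form, `#{k ∈ G : k⁻¹ g σ(k) ∈ Y} · |Y ∩ H| = #{h ∈ H : h⁻¹ x h ∈ Y} · |Y ∩ G|`. -/
theorem result {X : Type*} [Group X] (σ : MulAut X) (e : ℕ) (he : 1 ≤ e)
    [Finite ↥((MulEquiv.toMonoidHom (σ ^ e)).eqLocus (MonoidHom.id X))]
    (Y : Subgroup X) (hY : ∀ y : X, y ∈ Y ↔ σ y ∈ Y)
    (hYL : ∀ y ∈ Y, ∃ a ∈ Y, y = a * (σ a)⁻¹) (hYLe : ∀ y ∈ Y, ∃ a ∈ Y, y = a * ((σ ^ e) a)⁻¹)
    (g : X) (hg : g ∈ (MulEquiv.toMonoidHom (σ ^ e)).eqLocus (MonoidHom.id X)) (a : X) (ha : g = a * (σ a)⁻¹) :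
    Nat.card {k : ↥((MulEquiv.toMonoidHom (σ ^ e)).eqLocus (MonoidHom.id X)) // (k : X)⁻¹ * g * σ k ∈ Y} *
        Nat.card ↥(Y ⊓ (MulEquiv.toMonoidHom σ).eqLocus (MonoidHom.id X)) =
      Nat.card {h : ↥((MulEquiv.toMonoidHom σ).eqLocus (MonoidHom.id X)) // (h : X)⁻¹ * (((σ ^ e) a)⁻¹ * a) * h ∈ Y} *
        Nat.card ↥(Y ⊓ (MulEquiv.toMonoidHom (σ ^ e)).eqLocus (MonoidHom.id X)) := by
  rw [KSG.Shintani.mem_fix] at hg
  subst ha
  set τ := σ ^ e with hτ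
  have hfix : ∀ {x : X}, σ x = x → τ x = x := fun hx => KSG.Shintani.pow_fix σ e hx
  have hYτ : ∀ y ∈ Y, τ y ∈ Y := by
    have : ∀ m : ℕ, ∀ y ∈ Y, (σ ^ m) y ∈ Y := by
      intro m
      induction m with
      | zero => intro y hy; simpa using hy
      | succ n ih => intro y hy; rw [pow_succ, MulAut.mul_apply]; exact ih _ ((hY y).1 hy)
    exact this e
  let S := {p : X × X // τ p.1 = p.1 ∧ p.2 ∈ Y ∧ σ (a⁻¹ * p.1 * p.2) = a⁻¹ * p.1 * p.2}
  have e1 : Nat.card S = Nat.card {k : ↥((MulEquiv.toMonoidHom τ).eqLocus (MonoidHom.id X)) // (k : X)⁻¹ * (a * (σ a)⁻¹) * σ k ∈ Y} *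
        Nat.card ↥(Y ⊓ (MulEquiv.toMonoidHom σ).eqLocus (MonoidHom.id X)) := by
    refine KSG.natCard_eq_mul_of_fibers (fun s => ⟨⟨s.1.1, s.2.1⟩, ?_⟩) ?_
    · obtain ⟨⟨k, y⟩, hk, hy, h⟩ := s
      simp only [map_mul, map_inv] at h ⊢
      have : (σ a)⁻¹ = a⁻¹ * k * y * (σ y)⁻¹ * (σ k)⁻¹ := by rw [← h]; group
      rw [this]
      have : k⁻¹ * (a * (a⁻¹ * k * y * (σ y)⁻¹ * (σ k)⁻¹)) * σ k = y * (σ y)⁻¹ := by group
      rw [this]
      exact Y.mul_mem hy (Y.inv_mem ((hY y).1 hy))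
    · rintro ⟨⟨k, hk⟩, h⟩
      obtain ⟨y, hy, hy'⟩ := hYL _ h
      simp only at hy'
      have hy2 : σ (a⁻¹ * k * y) = a⁻¹ * k * y := by
        simp only [map_mul, map_inv]
        have : (σ a)⁻¹ = a⁻¹ * k * (y * (σ y)⁻¹) * (σ k)⁻¹ := by rw [← hy']; group
        rw [this]; group
      refine ⟨⟨fun s => ⟨y⁻¹ * s.1.1.2, Y.mul_mem (Y.inv_mem hy) s.1.2.2.1, ?_⟩,
        fun z => ⟨⟨(k, y * z.1), hk, Y.mul_mem hy z.2.1, ?_⟩, rfl⟩, ?_, ?_⟩⟩
      · obtain ⟨⟨⟨k', y'⟩, hk', hy1, h1⟩, h2⟩ := s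
        have : k' = k := congrArg (fun t => t.1.1) h2
        subst this
        change σ (y⁻¹ * y') = y⁻¹ * y'
        have : y⁻¹ * y' = (a⁻¹ * k' * y)⁻¹ * (a⁻¹ * k' * y') := by group
        rw [this, map_mul, map_inv, hy2, h1]
      · have hz : σ z.1 = z.1 := z.2.2
        simp only
        rw [← mul_assoc, map_mul, hy2, hz]
      · rintro ⟨⟨⟨k', y'⟩, hk', hy1, h1⟩, h2⟩
        have : k' = k := congrArg (fun t => t.1.1) h2
        subst this
        simp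
      · rintro ⟨z, hz⟩
        simp
  have e2 : Nat.card S = Nat.card {h : ↥((MulEquiv.toMonoidHom σ).eqLocus (MonoidHom.id X)) // (h : X)⁻¹ * ((τ a)⁻¹ * a) * h ∈ Y} *
        Nat.card ↥(Y ⊓ (MulEquiv.toMonoidHom τ).eqLocus (MonoidHom.id X)) := by
    refine KSG.natCard_eq_mul_of_fibers (fun s => ⟨⟨a⁻¹ * s.1.1 * s.1.2, s.2.2.2⟩, ?_⟩) ?_
    · obtain ⟨⟨k, y⟩, hk, hy, h⟩ := s
      have h' := hfix h
      simp only [map_mul, map_inv] at h' hk ⊢
      rw [hk] at h'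
      have : (τ a)⁻¹ = a⁻¹ * k * y * (τ y)⁻¹ * k⁻¹ := by rw [← h']; group
      rw [this]
      have : (a⁻¹ * k * y)⁻¹ * (a⁻¹ * k * y * (τ y)⁻¹ * k⁻¹ * a) * (a⁻¹ * k * y) = (τ y)⁻¹ * y := by
        group
      rw [this]
      exact Y.mul_mem (Y.inv_mem (hYτ y hy)) hy
    · rintro ⟨⟨h, hh⟩, H⟩
      obtain ⟨c, hc, hc'⟩ := hYLe _ (Y.inv_mem H)
      simp only at hc'
      have hh' : σ h = h := hh
      have hk : τ (a * h * c) = a * h * c := by
        simp only [map_mul, hfix hh']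
        have : τ c = (h⁻¹ * ((τ a)⁻¹ * a) * h) * c := by
          rw [← inv_inv (h⁻¹ * ((τ a)⁻¹ * a) * h), hc']; group
        rw [this]; group
      refine ⟨⟨fun s => ⟨s.1.1.2 * c, Y.mul_mem s.1.2.2.1 hc, ?_⟩,
        fun z => ⟨⟨(a * h * c * z.1⁻¹, z.1 * c⁻¹), ?_, Y.mul_mem z.2.1 (Y.inv_mem hc), ?_⟩, ?_⟩, ?_, ?_⟩⟩
      · obtain ⟨⟨⟨k', y'⟩, hk', hy1, h1⟩, h2⟩ := s
        have h3 : a⁻¹ * k' * y' = h := congrArg (fun t => t.1.1) h2
        change τ (y' * c) = y' * c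
        have : y' * c = k'⁻¹ * (a * h * c) := by rw [← h3]; group
        simp only at hk'
        rw [this, map_mul, map_inv, hk, hk']
      · have hz : τ z.1 = z.1 := z.2.2
        simp only
        rw [map_mul, map_inv, hk, hz]
      · have : a⁻¹ * (a * h * c * z.1⁻¹) * (z.1 * c⁻¹) = h := by group
        simp only
        rw [this, hh']
      · apply Subtype.ext
        apply Subtype.ext
        simp only
        group
      · rintro ⟨⟨⟨k', y'⟩, hk', hy1, h1⟩, h2⟩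
        have h3 : a⁻¹ * k' * y' = h := congrArg (fun t => t.1.1) h2
        apply Subtype.ext
        apply Subtype.ext
        simp only [Prod.mk.injEq]
        constructor
        · rw [← h3]; group
        · group
      · rintro ⟨z, hz⟩
        simp
  rw [← e1, ← e2]

end Cfsg.Agent.S2669
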