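import Cfsg.Statements.S2671
import Mathlib
import Cfsg.Agent.Class.Wall.PrimeCount

set_option autoImplicit false
open Cfsg

namespace Cfsg.Agent.S2671

/-- Number of conjugacy classes of elements of odd prime order r in the general unitary group GU_n(q), for r not dividing q(q + 1): let i be the multiplicative order of q modulo r, b = i if i is odd and b = i/2 if i is even, and s = (r − 1)/b. If i ≢ 2 (mod 4) the eigenvalue orbits pair off into dual pairs of totally isotropic blocks and there are C(⌊n/(2b)⌋ + s/2, s/2) − 1 classes; if i ≡ 2 (mod 4) each orbit gives a non-degenerate block of dimension i/2 and there are C(⌊2n/i⌋ + s, s) − 1 classes. -/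
theorem result {K : Type*} [Field K] [Fintype K] {p q n r i b s : ℕ} [Fact p.Prime] [CharP K p] (hK : Fintype.card K = q ^ 2) (hr : r.Prime) (hr2 : r ≠ 2) (hrp : r ≠ p) (hi : i = orderOf (q : ZMod r)) (hi2 : i ≠ 2) (hb : b = if Odd i then i else i / 2) (hs : s * b = r - 1) : Nat.card {C : ConjClasses ↥(Cfsg.GU n K q) // ∃ g : ↥(Cfsg.GU n K q), ConjClasses.mk g = C ∧ orderOf g = r} = if i % 4 = 2 then Nat.choose (2 * n / i + s) s - 1 else Nat.choose (n / (2 * b) + s / 2) (s / 2) - 1 := by
  have := Class.U.UF.of_card hK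
  have := Fact.mk hr
  have h0 : (r : K) ≠ 0 := KSG.natCast_ne_zero_of_prime_ne hr hrp
  have hb' : b = orderOf (Fintype.card K : ZMod r) := by
    rw [hK, Nat.cast_pow, orderOf_pow' _ two_ne_zero, ← hi, hb]
    split_ifs with h
    · rw [Nat.coprime_two_right.2 h, Nat.div_one]
    · rw [Nat.gcd_eq_right (even_iff_two_dvd.1 (Nat.not_odd_iff_even.1 h))]
  have hpos : 0 < b := hb' ▸ KSG.orderOf_card_pos hr h0
  obtain ⟨a, ha⟩ : ∃ a, q = p ^ a := by
    obtain ⟨k, -, hk⟩ := FiniteField.card K p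
    obtain ⟨a, -, ha⟩ := (Nat.dvd_prime_pow Fact.out).1 (show q ∣ p ^ (k : ℕ) from
      ⟨q, by rw [← hk, hK, sq]⟩)
    exact ⟨a, ha⟩
  have key : ∀ c ∈ KSG.cycFac r K, Class.Wall.dual (Class.U.conj K q) c = c ↔ i % 4 = 2 := by
    intro c hc
    rw [Class.Wall.dual_eq_self_iff p (a := a) (fun x => by rw [← ha]; rfl) Class.U.conj_conj hr h0 hc,
      ← ha, hK]
    have hq : (q : ZMod r) ≠ 0 := fun e => by
      have := KSG.orderOf_card_pos hr h0
      rw [hK, Nat.cast_pow, e, zero_pow two_ne_zero, orderOf_zero] at this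
      exact lt_irrefl _ this
    have e1 : ∀ k, r ∣ (q ^ 2) ^ (k + 1) + q ↔ ¬ i ∣ 2 * k + 1 ∧ i ∣ 2 * (2 * k + 1) := fun k => by
      rw [hi, ← Class.Wall.pow_eq_neg_one_iff hr2, ← ZMod.natCast_eq_zero_iff, ← pow_mul,
        show 2 * (k + 1) = 2 * k + 1 + 1 by ring, pow_succ, ← add_one_mul, Nat.cast_mul,
        mul_eq_zero, or_iff_left hq, Nat.cast_add, Nat.cast_pow, Nat.cast_one, add_eq_zero_iff_eq_neg]
    constructor
    · rintro ⟨_ | k, hk⟩
      · rw [← ZMod.natCast_eq_zero_iff, pow_zero, Nat.cast_add, Nat.cast_one, add_comm,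
          add_eq_zero_iff_eq_neg] at hk
        have : Fact (2 < r) := ⟨lt_of_le_of_ne hr.two_le hr2.symm⟩
        exact absurd (by rw [hi, hk, orderOf_neg_one, if_neg (by rw [ZMod.ringChar_zmod_n]; exact hr2)]) hi2
      · obtain ⟨h1, c, h2⟩ := (e1 k).1 hk
        rcases Nat.even_or_odd' c with ⟨d, rfl | rfl⟩
        · exact absurd ⟨d, by linarith⟩ h1
        · have : i * (2 * d + 1) % 4 = 2 := by omega
          rcases Nat.even_or_odd' d with ⟨e, rfl | rfl⟩
          · rw [show i * (2 * (2 * e) + 1) = i + 4 * (i * e) by ring] at this; omega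
          · rw [show i * (2 * (2 * e + 1) + 1) = 3 * i + 4 * (i * e) by ring] at this; omega
    · intro h
      exact ⟨i / 4 + 1, (e1 _).2 ⟨fun h => by have := Nat.le_of_dvd (by omega) h; omega,
        ⟨1, by omega⟩⟩⟩
  have hT := Class.Wall.card_cycFac_eq hr h0 (hb' ▸ hs)
  rw [Class.Wall.card_classes_prime (GU n K q).subtype Subtype.val_injective hr h0
    (fun g k _ => Class.Wall.GU_isConj_iff.2) hb'
    (fun u => u.map (Class.Wall.dual (Class.U.conj K q)) = u) fun u hu hn => ⟨fun hd => ?_, ?_⟩,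
    Fintype.card_fin, ← hT]
  · split_ifs with h
    · rw [Class.Wall.card_selfDual_le_of_fixed (fun c hc => (key c hc).2 h) hpos]
      rw [if_neg (by rw [Nat.odd_iff]; omega)] at hb
      rw [show i = 2 * b by omega, Nat.mul_div_mul_left _ _ two_pos]
    · exact Class.Wall.card_selfDual_le_of_free Class.U.conj_conj hr h0
        (fun c hc e => h ((key c hc).1 e)) hpos n
  · subst hb'
    refine Class.Wall.exists_GU_mdiv_eq (fun c hc => ?_) (fun c hc => ?_)
      ((Class.Wall.sum_natDegree_add_replicate hr h0 hu hn).trans (by simp))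
      (Class.Wall.map_dual_add_replicate_iff.2 hd)
    · rcases Multiset.mem_add.1 hc with hc | hc
      · exact KSG.isPP_of_mem_cycFac (hu c hc)
      · exact Multiset.eq_of_mem_replicate hc ▸ KSG.isPP_X_sub_C 1
    · rcases Multiset.mem_add.1 hc with hc | hc
      · exact mt Polynomial.X_dvd_iff.1 (Class.Wall.coeff_zero_ne_of_mem_cycFac hr.ne_zero (hu c hc))
      · rw [Multiset.eq_of_mem_replicate hc]; simp [Polynomial.X_dvd_iff]
  · rintro ⟨g, hg⟩
    rw [← Class.Wall.map_dual_add_replicate_iff, ← hg]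
    exact Class.Wall.GU_map_dual_mdiv g

end Cfsg.Agent.S2671
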