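import Cfsg.Statements.S2673
import Mathlib
import Cfsg.Agent.Class.Wall.OrthReal

set_option autoImplicit false
open Cfsg

namespace Cfsg.Agent.S2673

/-- Number of conjugacy classes of elements of odd prime order r ≠ p in the orthogonal group O_(2m+1)(q) of x_0² + Σ x_j y_j, q odd: with i the multiplicative order of q mod r and t = (r − 1)/i, there are C(⌊m/i⌋ + t/2, t/2) − 1 classes if i is odd (dual pairs of totally singular i-blocks) and C(⌊(2m+1)/i⌋ + t, t) − 1 if i is even (elliptic i-blocks). -/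
theorem result {F : Type*} [Field F] [Fintype F] {p q : ℕ} [Fact p.Prime] [CharP F p] (hF : Fintype.card F = q) (hq : Odd q) (m r i t : ℕ) (hr : r.Prime) (hr2 : r ≠ 2) (hrp : r ≠ p) (hi : i = orderOf (q : ZMod r)) (ht : t * i = r - 1) : Nat.card {C : ConjClasses ↥(Cfsg.isometryGroup F (Cfsg.quadFormOdd m F)) // ∃ g : ↥(Cfsg.isometryGroup F (Cfsg.quadFormOdd m F)), ConjClasses.mk g = C ∧ orderOf g = r} = if Odd i then Nat.choose (m / i + t / 2) (t / 2) - 1 else Nat.choose ((2 * m + 1) / i + t) t - 1 := by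
  subst hF
  have h0 : (r : F) ≠ 0 := KSG.natCast_ne_zero_of_prime_ne hr hrp
  have h2 := Class.Orth.two_ne_zero_of_odd_card hq
  have hQ := (Class.Orth.nd_iff _).1 (Class.Orth.nd_oddQF m F h2)
  rw [Class.Wall.card_classes_prime (isometryGroup F (quadFormOdd m F)).subtype
    Subtype.val_injective hr h0
    (fun g k hg => (Class.Wall.O_isConj_iff_of_odd p _ hQ (Class.Orth.oddQF_apply m F)
      (hg ▸ hr.odd_of_ne_two hr2) (hg ▸ (Nat.coprime_primes hr Fact.out).2 hrp)).2) hi
    (fun u => u.map (Class.Wall.dual (RingHom.id F)) = u) fun u hu hn => ⟨fun hd => ?_, ?_⟩,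
    Class.Wall.card_selfDual_id hr hr2 h0 hi ht]
  · have e : Fintype.card (Unit ⊕ (Fin m ⊕ Fin m)) = 2 * m + 1 := by simp; ring
    rw [e, ← Nat.div_div_eq_div_mul, show (2 * m + 1) / 2 = m by omega]
  · subst hi
    have e : Fintype.card (Unit ⊕ (Fin m ⊕ Fin m)) = 2 * m + 1 := by simp; ring
    refine Class.Wall.Real.exists_oddQF ?_ h2
      ((Class.Wall.sum_natDegree_add_replicate hr h0 hu hn).trans e)
    obtain ⟨k, hk⟩ := Class.Wall.even_card_mul hr hr2 h0 hu hd
    rw [e] at hn ⊢
    rw [show 2 * m + 1 - Multiset.card u * orderOf (Fintype.card F : ZMod r) = (2 * m - (k + k)) + 1 by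
      omega, Multiset.replicate_add]
    refine (Class.Wall.fType_orth.real_of_cycFac hr hr2 h0 hu hd).add
      ((Class.Wall.fType_orth.real_replicate ⟨m - k, by omega⟩).add ?_)
    simpa using Class.Wall.real_orth_block (c := 1) h2 (by simp) odd_one
  · rintro ⟨g, hg⟩
    rw [← Class.Wall.map_dual_add_replicate_iff, ← hg]
    exact Class.Wall.O_map_dual_mdiv _ hQ (Class.Orth.oddQF_apply m F) g

end Cfsg.Agent.S2673
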