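import Cfsg.Statements.S2676
import Mathlib
import Cfsg.Agent.Class.Wall.SpOdd

set_option autoImplicit false
open Classical
open Cfsg

namespace Cfsg.Agent.S2676

/-- Number of conjugacy classes of elements of order p in Sp_2m(q), q a power of the odd prime p: the classes correspond to the signed partitions of 2m — partitions with all parts at most p in which every odd part has even multiplicity, each even part size that occurs carrying a sign — other than the all-ones partition; so the count is the sum over such partitions of 2^(number of distinct even parts), minus one. -/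
theorem result {F : Type*} [Field F] [Fintype F] {p : ℕ} [Fact p.Prime] [CharP F p] (hp : p ≠ 2) (m : ℕ) : Nat.card {C : ConjClasses ↥(Matrix.symplecticGroup (Fin m) F) // ∃ g : Matrix.symplecticGroup (Fin m) F, ConjClasses.mk g = C ∧ orderOf g = p} = (∑ μ ∈ Finset.univ.filter (fun μ : Nat.Partition (2 * m) => (∀ a ∈ μ.parts, a ≤ p) ∧ ∀ j : ℕ, Odd j → Even (μ.parts.count j)), 2 ^ ((μ.parts.toFinset.filter (fun j : ℕ => Even j)).card)) - 1 := by
  classical
  have hpp : p.Prime := Fact.out
  have h2 : (2 : F) ≠ 0 := fun e => hp ((Nat.prime_dvd_prime_iff_eq hpp Nat.prime_two).1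
    ((CharP.cast_eq_zero_iff F p 2).1 (by exact_mod_cast e)))
  rw [← Class.Wall.card_unip_classes_Sp (F := F) h2 (fun g => g ^ p = 1) _ (fun _ h => h.2) fun A => ?_]
  · refine (Nat.card_congr (Equiv.subtypeEquivRight fun C => ?_)).trans
      (Set.ncard_sdiff_singleton_of_mem (s := {C | ∃ g : Matrix.symplecticGroup (Fin m) F,
        ConjClasses.mk g = C ∧ g ^ p = 1}) (a := ConjClasses.mk 1) ⟨1, rfl, one_pow p⟩)
    constructor
    · rintro ⟨g, rfl, hg⟩
      refine ⟨⟨g, rfl, hg ▸ pow_orderOf_eq_one g⟩, fun h => ?_⟩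
      rw [Set.mem_singleton_iff, ConjClasses.mk_eq_mk_iff_isConj, isConj_one_left] at h
      rw [h, orderOf_one] at hg
      exact hpp.one_lt.ne hg
    · rintro ⟨⟨g, rfl, hg⟩, h1⟩
      exact ⟨g, rfl, orderOf_eq_prime hg fun h => h1 (h ▸ rfl)⟩
  have h1 : A ^ p = 1 ↔ (A.1 - 1) ^ p = 0 := by
    rw [← KSG.aeval_X_sub_one_pow, sub_pow_char, Subtype.ext_iff]
    simp [sub_eq_zero]
  rw [h1]
  constructor
  · intro h
    have h3 : ((KSG.mdiv A.1).map Polynomial.natDegree).map
        (fun e => (Polynomial.X - Polynomial.C 1 : Polynomial F) ^ e) = KSG.mdiv A.1 := by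
      rw [Multiset.map_map]
      refine (Multiset.map_congr rfl fun b hb => ?_).trans (Multiset.map_id' _)
      obtain ⟨e, -, -, rfl⟩ := KSG.mem_mdiv_of_unipotent h hb
      simp only [Function.comp_apply, Polynomial.natDegree_pow, Polynomial.natDegree_X_sub_C, mul_one]
    refine ⟨⟨(KSG.mdiv A.1).map Polynomial.natDegree, fun {a} ha => ?_, by
      simpa [two_mul] using KSG.sum_natDegree_mdiv A.1⟩, ⟨fun a ha => ?_, fun j hj => ?_⟩, h3.symm⟩
    · obtain ⟨b, hb, rfl⟩ := Multiset.mem_map.1 ha
      exact (KSG.isPP_of_mem_mdiv hb).natDegree_pos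
    · obtain ⟨b, hb, rfl⟩ := Multiset.mem_map.1 (show a ∈ (KSG.mdiv A.1).map Polynomial.natDegree from ha)
      obtain ⟨e, -, he, rfl⟩ := KSG.mem_mdiv_of_unipotent h hb
      simpa only [Polynomial.natDegree_pow, Polynomial.natDegree_X_sub_C, mul_one] using he
    · rw [← Multiset.count_map_eq_count' _ _ (Class.Wall.X_sub_one_pow_injective (F := F)), h3]
      exact (Class.Wall.exists_Sp_mdiv_eq_iff.1 ⟨A, rfl⟩).2.2.2.2 1 j (one_mul 1) hj
  · rintro ⟨μ, h3, h4⟩
    rw [← KSG.aeval_X_sub_one_pow, KSG.aeval_eq_zero_iff_mdiv, h4]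
    intro b hb
    obtain ⟨e, he, rfl⟩ := Multiset.mem_map.1 hb
    exact pow_dvd_pow _ (h3.1 e he)

end Cfsg.Agent.S2676
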