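import Cfsg.Statements.S2677
import Cfsg.Agent.KSG.AutPSU2

set_option autoImplicit false
open Cfsg

namespace Cfsg.Agent.S2677

/-- Centraliser of a field automorphism of odd prime order in PGU_n(q): let q = q₀^r with r an odd prime, K the field with q² elements and σ a field automorphism of K of order r (fixed field of order q₀²). The elements g of GU_n(q) whose entrywise image under σ is a scalar multiple of g — those whose coset modulo the q + 1 unitary scalars is fixed by σ — number (q + 1)/(q₀ + 1) · |GU_n(q₀)|; equivalently the centraliser in PGU_n(q) of the induced automorphism has the order of PGU_n(q₀). -/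
theorem result {K : Type*} [Field K] [Fintype K] {q₀ q r n : ℕ} (hr : r.Prime) (hr2 : r ≠ 2) (hn : 1 ≤ n) (hq : q = q₀ ^ r) (hK : Fintype.card K = q ^ 2) (σ : K ≃+* K) (hσ : orderOf σ = r) : (Nat.card {g : ↥(Cfsg.GU n K q) // ∃ c : K, c ≠ 0 ∧ ((g : GL (Fin n) K) : Matrix (Fin n) (Fin n) K).map σ = c • ((g : GL (Fin n) K) : Matrix (Fin n) (Fin n) K)} : ℤ) = ((q + 1) / (q₀ + 1) : ℕ) * ((q₀ : ℤ) ^ (n * (n - 1) / 2) * ∏ i : Fin n, ((q₀ : ℤ) ^ ((i : ℕ) + 1) - (-1) ^ ((i : ℕ) + 1))) := by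
  have := Class.U.UF.of_card hK
  have : Nonempty (Fin n) := ⟨⟨0, hn⟩⟩
  have hodd := hr.odd_of_ne_two hr2
  have : Class.U.UF (KSG.fixF σ) q₀ := ⟨inferInstance, by
    have := KSG.card_fixF_pow σ
    rw [hσ, Nat.card_eq_fintype_card (α := K), hK, hq, ← pow_mul, mul_comm, pow_mul] at this
    exact Nat.pow_left_injective hr.ne_zero this⟩
  have hc := KSG.map_conj_of_odd (KSG.fixF σ).subtype hodd hq
  have hj : ∀ x, σ x = x ↔ ∃ y, (KSG.fixF σ).subtype y = x :=
    fun x => ⟨fun hx => ⟨⟨x, hx⟩, rfl⟩, fun ⟨y, hy⟩ => hy ▸ y.2⟩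
  let φ := (QuotientGroup.mk' ((Geo.scalars (Fin n) K).subgroupOf (GU n K q))).comp (KSG.guMap n hc)
  have hker : φ.ker = (Geo.scalars (Fin n) (KSG.fixF σ)).subgroupOf (GU n _ q₀) := by
    ext k
    rw [MonoidHom.mem_ker, MonoidHom.comp_apply, QuotientGroup.mk'_apply, QuotientGroup.eq_one_iff]
    exact KSG.scalar_mul_map_mem_iff _ _
  have h1 := φ.ker.card_mul_index
  rw [Subgroup.index_ker, hker, KSG.card_scalars_GU hn] at h1
  have h2 := QuotientGroup.card_preimage_mk _ (SetLike.coe φ.range)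
  rw [KSG.card_scalars_GU hn] at h2
  have h3 : Nat.card {g : ↥(Cfsg.GU n K q) // ∃ c : K, c ≠ 0 ∧
      ((g : GL (Fin n) K) : Matrix (Fin n) (Fin n) K).map σ =
        c • ((g : GL (Fin n) K) : Matrix (Fin n) (Fin n) K)} = (q + 1) * Nat.card φ.range := by
    refine Eq.trans (Nat.card_congr (Equiv.subtypeEquivRight fun g => ⟨?_, ?_⟩)) h2
    · rintro ⟨c, hc0, h⟩
      obtain ⟨k, z, hz, rfl⟩ := KSG.exists_guMap_of_fixed hc hj hn (g := g) (c := (Units.mk0 c hc0)⁻¹) (by
        rw [Subgroup.coe_mul, Subgroup.coe_inv, eq_mul_inv_iff_mul_eq, map_inv, inv_mul_eq_iff_eq_mul]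
        apply Units.ext
        rw [Units.val_mul, Matrix.GeneralLinearGroup.coe_scalar, Matrix.scalar_apply,
          ← Matrix.smul_eq_diagonal_mul]
        exact h)
      exact ⟨k, by
        rw [QuotientGroup.mk_mul, (QuotientGroup.eq_one_iff z).2 hz, one_mul]; rfl⟩
    · rintro ⟨k, hk⟩
      obtain ⟨b, hb⟩ := QuotientGroup.eq.1 hk
      have hb' : (g : GL (Fin n) K) = Matrix.GeneralLinearGroup.scalar (Fin n) b *
          Matrix.GeneralLinearGroup.map (KSG.fixF σ).subtype k :=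
        (inv_mul_eq_iff_eq_mul.1 hb.symm).trans (Matrix.GeneralLinearGroup.scalar_commute _ _).symm
      refine ⟨σ b / b, by simp, ?_⟩
      rw [← KSG.glAct_val, hb', map_mul, KSG.glAct_map_fixF, KSG.glAct_scalar]
      simp [← Matrix.smul_eq_diagonal_mul, smul_smul]
  have h4 : q₀ + 1 ∣ q + 1 := by simpa [hq] using hodd.nat_add_dvd_pow_add_pow q₀ 1
  have h5 := Class.U.two_le_q (KSG.fixF σ) q₀
  rw [h3, ← Nat.div_mul_cancel h4, Nat.mul_div_cancel _ (by omega), mul_assoc, h1, Class.U.card_GU,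
    Finset.prod_range]
  push_cast
  congr 2
  refine Finset.prod_congr rfl fun i _ => ?_
  split_ifs with h
  · rw [h.add_one.neg_one_pow]; push_cast; ring
  · rw [(Nat.not_even_iff_odd.1 h).add_one.neg_one_pow, Nat.cast_sub (Nat.one_le_pow _ _ (by omega))]
    push_cast; ring

end Cfsg.Agent.S2677
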