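import Cfsg.Statements.S2678
import Mathlib
import Cfsg.Agent.Class.Sp.Abstract
import Cfsg.Agent.Class.FinFieldExt

set_option autoImplicit false
open Cfsg

namespace Cfsg.Agent.S2678

open Cfsg.Agent.Class Module

/-- Field-extension embedding of symplectic groups: for a field K with q² elements and a field F with q elements there is an injective homomorphism Sp_2a(K) → Sp_4a(F). -/
theorem result {K F : Type*} [Field K] [Fintype K] [Field F] [Fintype F] {q : ℕ} (hK : Fintype.card K = q ^ 2) (hF : Fintype.card F = q) (a : ℕ) : ∃ φ : ↥(Matrix.symplecticGroup (Fin a) K) →* ↥(Matrix.symplecticGroup (Fin (2 * a)) F), Function.Injective φ := by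
  obtain ⟨ι⟩ := FinExt.nonempty_ringHom (F := F) (K := K) (m := 2) (by rw [hK, hF])
  let _ := ι.toAlgebra
  have h2 := FinExt.finrank_eq_of_card (F := F) (K := K) (m := 2) (by rw [hK, hF])
  obtain ⟨r, hr⟩ := FinExt.exists_retraction (F := F) (K := K)
  have hsm : ∀ (c : F) (v : Fin a ⊕ Fin a → K), c • v = algebraMap F K c • v := fun c v =>
    (algebraMap_smul K c v).symm
  let B : LinearMap.BilinForm F (Fin a ⊕ Fin a → K) :=
    LinearMap.mk₂ F (fun u v => r (sympForm a K u v))
    (fun u u' v => by rw [Sp.form_add_left, map_add])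
    (fun c u v => by rw [hsm, Sp.form_smul_left, ← Algebra.smul_def, map_smul])
    (fun u v v' => by rw [Sp.form_add_right, map_add])
    (fun c u v => by rw [hsm, Sp.form_smul_right, ← Algebra.smul_def, map_smul])
  let ρ : Matrix.symplecticGroup (Fin a) K →*
      ((Fin a ⊕ Fin a → K) →ₗ[F] (Fin a ⊕ Fin a → K)) :=
    { toFun := fun g => (Matrix.toLin' g.1).restrictScalars F
      map_one' := LinearMap.ext fun v => one_smul (Matrix.symplecticGroup (Fin a) K) v
      map_mul' := fun g h => LinearMap.ext fun v => mul_smul g h v }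
  refine Sp.exists_injective_hom_of_rep B (fun v => ?_) (fun x hx => ?_) ?_ ρ
    (fun g u v => congrArg r (Sp.form_smul_smul g u v)) (fun g hg => Sp.ext_smul fun v => ?_)
  · change r (sympForm a K v v) = 0
    rw [Sp.form_self, map_zero]
  · by_contra h0
    obtain ⟨y, hy⟩ := Sp.exists_form_eq_one h0
    have := hx y
    change r (sympForm a K x _) = 0 at this
    rw [hy, ← map_one (algebraMap F K), hr] at this
    exact one_ne_zero this
  · rw [finrank_pi_fintype, h2]
    simp
    ring
  · rw [one_smul]; exact hg v

end Cfsg.Agent.S2678
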