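import Cfsg.Statements.S2679
import Cfsg.Agent.Class.QF.Disc
import Cfsg.Agent.Class.Orth.Std

set_option autoImplicit false
open Cfsg

namespace Cfsg.Agent.S2679

open Class.QF QuadraticMap

/-- An elliptic orthogonal group embeds in the hyperbolic orthogonal group of the same dimension over the quadratic extension: for a field F with q elements and a field K with q² elements there is an injective homomorphism from O⁻_2m(F) (isometries of Σ_(j<m−1) x_j y_j + z₁² + a z₁z₂ + c z₂², binary part anisotropic) to O⁺_2m(K) (isometries of Σ_(j<m) x_j y_j over K). -/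
theorem result {F K : Type*} [Field F] [Fintype F] [Field K] [Fintype K] {q : ℕ} (hF : Fintype.card F = q) (hK : Fintype.card K = q ^ 2) {m : ℕ} (hm : 1 ≤ m) (a c : F) (hac : ∀ z₁ z₂ : F, z₁ ^ 2 + a * z₁ * z₂ + c * z₂ ^ 2 = 0 → z₁ = 0 ∧ z₂ = 0) : ∃ φ : ↥(Cfsg.isometryGroup F (Cfsg.quadFormMinus (m - 1) F a c)) →* ↥(Cfsg.isometryGroup K (Cfsg.quadFormPlus m K)), Function.Injective φ := by
  classical
  -- an embedding of `F` into `K`
  obtain ⟨p, hp⟩ := CharP.exists F
  haveI : Fact p.Prime := ⟨CharP.char_is_prime F p⟩
  obtain ⟨f, -, hf⟩ := FiniteField.card F p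
  have hKp : CharP K p := by
    obtain ⟨p', hp'⟩ := CharP.exists K
    haveI : Fact p'.Prime := ⟨CharP.char_is_prime K p'⟩
    obtain ⟨f', -, hf'⟩ := FiniteField.card K p'
    have : p' ∣ p ^ (f * 2 : ℕ) := by
      rw [pow_mul, ← hf, hF, ← hK, hf']
      exact dvd_pow_self _ f'.ne_zero
    have := (Nat.prime_dvd_prime_iff_eq Fact.out Fact.out).1 ((Fact.out : p'.Prime).dvd_of_dvd_pow this)
    exact this ▸ hp'
  letI := ZMod.algebra F p
  letI := ZMod.algebra K p
  have hfF : Module.finrank (ZMod p) F = f := by
    apply Nat.pow_right_injective (Fact.out : p.Prime).two_le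
    simp only
    rw [FiniteField.pow_finrank_eq_card, hf]
  have hfK : Module.finrank (ZMod p) K = f * 2 := by
    apply Nat.pow_right_injective (Fact.out : p.Prime).two_le
    simp only
    rw [FiniteField.pow_finrank_eq_card, hK, ← hF, hf, pow_mul]
  obtain ⟨ι⟩ : Nonempty (F →ₐ[ZMod p] K) :=
    FiniteField.nonempty_algHom_of_finrank_dvd (by rw [hfF, hfK]; exact dvd_mul_right _ _)
  letI : Algebra F K := (ι : F →+* K).toAlgebra
  have hKF : Module.finrank F K = 2 := by
    have h1 := Module.card_eq_pow_finrank (K := F) (V := K)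
    rw [hK, hF] at h1
    have : 2 ≤ q := hF ▸ Fintype.one_lt_card
    exact (Nat.pow_right_injective this h1).symm
  -- the binary part has a root in `K`
  obtain ⟨r, hr⟩ : ∃ r : K, r ^ 2 + algebraMap F K a * r + algebraMap F K c = 0 := by
    let P : Polynomial F := Polynomial.X ^ 2 + Polynomial.C a * Polynomial.X + Polynomial.C c
    have hd : P.natDegree = 2 := by
      simp only [P]; compute_degree!
    have hm : P.Monic := by
      simp only [P]; monicity!
    have hirr : Irreducible P := by
      rw [hm.irreducible_iff_roots_eq_zero_of_degree_le_three (by omega) (by omega),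
        Multiset.eq_zero_iff_forall_notMem]
      intro t ht
      rw [Polynomial.mem_roots hm.ne_zero] at ht
      exact (aniso_iff_noroot a c).1 hac t (by simpa [P] using ht)
    haveI := Fact.mk hirr
    haveI : Module.Finite F (AdjoinRoot P) := (AdjoinRoot.powerBasis hm.ne_zero).finite
    haveI : Finite (AdjoinRoot P) := Module.finite_of_finite F
    obtain ⟨ψ⟩ : Nonempty (AdjoinRoot P →ₐ[F] K) :=
      FiniteField.nonempty_algHom_of_finrank_dvd (by
        rw [(AdjoinRoot.powerBasis hm.ne_zero).finrank, AdjoinRoot.powerBasis_dim, hd, hKF])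
    refine ⟨ψ (AdjoinRoot.root P), ?_⟩
    have h0 : Polynomial.aeval (AdjoinRoot.root P) P = 0 := by
      rw [AdjoinRoot.aeval_eq, AdjoinRoot.mk_self]
    have h1 : Polynomial.aeval (ψ (AdjoinRoot.root P)) P = 0 := by
      rw [Polynomial.aeval_algHom_apply, h0, map_zero]
    generalize ψ (AdjoinRoot.root P) = r at h1
    simpa [P] using h1
  set a' := algebraMap F K a
  set c' := algebraMap F K c
  have hnd : Class.Orth.ND (Class.Orth.minusQF (m - 1) K a' c') := by
    apply Class.Orth.nd_minusQF_of_disc
    have := Class.Orth.disc_ne_zero_of_aniso hac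
    intro h
    apply this
    apply (algebraMap F K).injective
    simpa [map_ofNat] using h
  have hplus : IsPlus (Class.Orth.minusQF (m - 1) K a' c') := by
    let L : (Option (Fin (m - 1)) → K) →ₗ[K] ((Fin (m - 1) ⊕ Fin (m - 1)) ⊕ Fin 2 → K) :=
      LinearMap.pi fun k => Sum.elim (Sum.elim (fun i => LinearMap.proj (some i)) fun _ => 0)
        (fun j => (![r, 1] j) • LinearMap.proj none) k
    have hL : Function.Injective L := by
      intro x y h
      ext (_ | i)
      · simpa [L] using congrFun h (.inr 1)
      · simpa [L] using congrFun h (.inl (.inl i))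
    refine ⟨LinearMap.range L, ?_, ?_⟩
    · rintro _ ⟨x, rfl⟩
      rw [Class.Orth.minusQF_apply]
      simp [L, quadFormMinus]
      linear_combination (x none ^ 2) * hr
    · rw [LinearMap.finrank_range_of_inj hL]; simp; omega
  obtain ⟨g, hg⟩ := hplus.exists_equiv ((Class.Orth.nd_iff _).1 hnd) (m := m) (by simp; omega)
  let e := ((Class.Orth.minusEquiv (m - 1) K a' c').trans (Class.Orth.OG.congr g
    (fun v => (Class.Orth.plusQF_apply m K _).trans (hg v)))).trans (Class.Orth.plusEquiv m K).symm
  have hmap : ∀ v : (Fin (m - 1) ⊕ Fin (m - 1)) ⊕ Fin 2 → F,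
      Class.Orth.minusQF (m - 1) K a' c' (algebraMap F K ∘ v) =
        algebraMap F K (quadFormMinus (m - 1) F a c v) := by
    intro v
    simp [Class.Orth.minusQF_apply, quadFormMinus, a', c']
  let φ : ↥(Cfsg.isometryGroup F (Cfsg.quadFormMinus (m - 1) F a c)) →*
      ↥(Cfsg.isometryGroup K (Cfsg.quadFormMinus (m - 1) K a' c')) :=
    ((Matrix.GeneralLinearGroup.map (algebraMap F K)).comp (Subgroup.subtype _)).codRestrict _
      fun x => by
        rw [Class.Orth.mem_isometryGroup]
        set A : Matrix _ _ F := x.1.val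
        have hA : ∀ v, quadFormMinus (m - 1) F a c (A.mulVec v) = quadFormMinus (m - 1) F a c v :=
          Class.Orth.mem_isometryGroup.1 x.2
        set Q := Class.Orth.minusQF (m - 1) K a' c'
        have key : ∀ v : _ → F, Q ((A.map (algebraMap F K)).mulVec (algebraMap F K ∘ v)) =
            Q (algebraMap F K ∘ v) := by
          intro v
          have : (A.map (algebraMap F K)).mulVec (algebraMap F K ∘ v) =
              algebraMap F K ∘ A.mulVec v := by
            ext i; exact (RingHom.map_mulVec _ _ _ _).symm
          rw [this, hmap, hmap, hA]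
        have hs : ∀ i, (Pi.single i 1 : (Fin (m - 1) ⊕ Fin (m - 1)) ⊕ Fin 2 → K) =
            algebraMap F K ∘ Pi.single i 1 := by
          intro i; ext j; by_cases h : j = i <;> simp [Pi.single_apply, h]
        have hQ : Q.comp (A.map (algebraMap F K)).mulVecLin = Q := by
          ext v
          rw [← (Pi.basisFun K _).sum_repr v]
          simp only [QuadraticMap.map_sum', QuadraticMap.map_smul]
          have h1 : ∀ i, (Q.comp (A.map (algebraMap F K)).mulVecLin) (Pi.basisFun K _ i) =
              Q (Pi.basisFun K _ i) := by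
            intro i
            rw [Pi.basisFun_apply, hs]; exact key _
          have h2 : ∀ i j, polar (Q.comp (A.map (algebraMap F K)).mulVecLin) (Pi.basisFun K _ i)
              (Pi.basisFun K _ j) = polar Q (Pi.basisFun K _ i) (Pi.basisFun K _ j) := by
            intro i j
            simp only [polar, h1]
            congr 2
            have : (Pi.basisFun K _ i + Pi.basisFun K _ j : (Fin (m - 1) ⊕ Fin (m - 1)) ⊕ Fin 2 → K) =
                algebraMap F K ∘ (Pi.single i 1 + Pi.single j 1) := by
              rw [Pi.basisFun_apply, Pi.basisFun_apply, hs i, hs j]; ext; simp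
            rw [this]; exact key _
          simp only [h1]
          congr 1
          refine Finset.sum_congr rfl fun s _ => ?_
          induction s using Sym2.ind with
          | h i j => simp only [Sym2.map_pair_eq, polarSym2_sym2Mk, polar_smul_left, polar_smul_right, h2]
        intro v
        rw [← Class.Orth.minusQF_apply, ← Class.Orth.minusQF_apply]
        exact QuadraticMap.congr_fun hQ v
  refine ⟨e.toMonoidHom.comp φ, e.injective.comp ?_⟩
  intro x y h
  apply Subtype.ext
  ext i j
  apply (algebraMap F K).injective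
  exact congrArg (fun z : ↥(Cfsg.isometryGroup K (Cfsg.quadFormMinus (m - 1) K a' c')) =>
    z.1.val i j) h

end Cfsg.Agent.S2679
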