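import Cfsg.Statements.S2684
import Cfsg.Agent.Class.Orth.Invol2Cent

set_option autoImplicit false
open Cfsg

namespace Cfsg.Agent.S2684

open Cfsg.Agent.Class Cfsg.Agent.Class.WallF Cfsg.Agent.Class.Orth QuadraticMap Module

/-- For the hyperbolic form Q = Σ x_j y_j on F^(2m) over a finite field with q elements, q even (excluding m = 2 over the field of two elements), and an involution x ≠ 1 of the orthogonal group with s = rank(x − 1) even and Q vanishing on the image of x − 1 (equivalently f(v, xv) = 0 for all v, where f(u, w) = Q(u + w) − Q(u) − Q(w) is the bilinear form of Q; type a_s, which lies in Ω): its centraliser in Ω (the commutator subgroup of the orthogonal group) has order q^(2ms − (3s² + s)/2) · |Sp_s(q)| · |Ω⁺_(2m−2s)(q)|, where |Ω⁺_2k(q)| = q^(k(k−1)) (q^k − 1) Π_(i=1)^(k−1) (q^(2i) − 1) for k ≥ 1 and the last factor is 1 when s = m. -/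
theorem result {F : Type*} [Field F] [Fintype F] [CharP F 2] {q : ℕ} (hF : Fintype.card F = q) {m s : ℕ} (h : Fintype.card F ≠ 2 ∨ m ≠ 2) (x : ↥(Cfsg.isometryGroup F (Cfsg.quadFormPlus m F))) (hx : x ^ 2 = 1) (hx1 : x ≠ 1) (hs : (((x : Matrix.GeneralLinearGroup (Fin m ⊕ Fin m) F) : Matrix (Fin m ⊕ Fin m) (Fin m ⊕ Fin m) F) - 1).rank = s) (heven : Even s) (halt : ∀ v : Fin m ⊕ Fin m → F, Cfsg.quadFormPlus m F ((((x : Matrix.GeneralLinearGroup (Fin m ⊕ Fin m) F) : Matrix (Fin m ⊕ Fin m) (Fin m ⊕ Fin m) F) - 1).mulVec v) = 0) : Nat.card {g : ↥(Cfsg.Omega F (Cfsg.quadFormPlus m F)) // (g : ↥(Cfsg.isometryGroup F (Cfsg.quadFormPlus m F))) * x = x * (g : ↥(Cfsg.isometryGroup F (Cfsg.quadFormPlus m F)))} = q ^ (2 * m * s - (3 * s ^ 2 + s) / 2) * ((q : ℕ) ^ ((s / 2) ^ 2) * ∏ i : Fin (s / 2), (q ^ (2 * ((i : ℕ) + 1)) - 1)) * (if s = m then 1 else q ^ ((m - s) * (m - s - 1)) * (q ^ (m - s) - 1) * ∏ i : Fin (m - s - 1), (q ^ (2 * ((i : ℕ) + 1)) -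 1)) := by
  subst hF
  have hc : (2 : F) = 0 := CharTwo.two_eq_zero
  have hQ := nd_plusQF m F
  let e := isoEquiv (plusQF m F) _ (plusQF_apply m F)
  have ht : e x * e x = 1 := by rw [← map_mul, ← pow_two, hx, map_one]
  rw [rank_sub_one_eq _ _ (plusQF_apply m F)] at hs
  have hS := wall_symm hQ.isFormed hc (OG.map_polar (e x)) (congrArg Subtype.val ht)
  have hN := wall_nondeg hQ.isFormed (OG.map_polar (e x))
  have hTS : TS (plusQF m F) (mov (e x)) ↔ ∀ v, quadFormPlus m F ((((x : GL (Fin m ⊕ Fin m) F) :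
      Matrix (Fin m ⊕ Fin m) (Fin m ⊕ Fin m) F) - 1).mulVec v) = 0 := by
    have : ∀ v, quadFormPlus m F ((((x : GL (Fin m ⊕ Fin m) F) :
        Matrix (Fin m ⊕ Fin m) (Fin m ⊕ Fin m) F) - 1).mulVec v) = plusQF m F (v - (e x).1 v) := by
      intro v
      rw [← plusQF_apply, ← (plusQF m F).map_neg, Matrix.sub_mulVec, Matrix.one_mulVec, neg_sub]
      rfl
    simp only [this]
    exact ⟨fun h v => h _ (sub_mem_mov _ v), by rintro h _ ⟨v, rfl⟩; exact h v⟩
  refine (card_commutator_centralizer_congr e x).trans ?_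
  rw [card_omega_centralizer_TS hQ (reflGen_plus h) hc (isPlus_plusQF m) finrank_plus_space ht hs
    (hTS.2 halt), Symm2.card_isom_of_alt ((altW_iff (B := polarBilin (plusQF m F))
      (OG.map_polar (e x))).1 ((altW_iff_TS _).2 (hTS.2 halt))) hN hs, Nat.card_eq_fintype_card]
  rfl

end Cfsg.Agent.S2684
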