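import Cfsg.Statements.S2685
import Cfsg.Agent.Class.Orth.Invol2Cent

set_option autoImplicit false
open Cfsg

namespace Cfsg.Agent.S2685

open Cfsg.Agent.Class Cfsg.Agent.Class.WallF Cfsg.Agent.Class.Orth QuadraticMap Module

/-- For the hyperbolic form Q = Σ x_j y_j on F^(2m) over a finite field with q elements, q even (excluding m = 2 over the field of two elements), and an involution x of the orthogonal group with s = rank(x − 1) even and Q not vanishing on the image of x − 1 (f(v, xv) ≠ 0 for some v, where f(u, w) = Q(u + w) − Q(u) − Q(w) is the bilinear form of Q; type c_s, which lies in Ω): its centraliser in Ω (the commutator subgroup of the orthogonal group) has order q^(2m(s−1) − (3s² − 5s)/2 − 1) · |Sp_(s−2)(q)| · |Sp_(2m−2s)(q)|. -/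
theorem result {F : Type*} [Field F] [Fintype F] [CharP F 2] {q : ℕ} (hF : Fintype.card F = q) {m s : ℕ} (h : Fintype.card F ≠ 2 ∨ m ≠ 2) (x : ↥(Cfsg.isometryGroup F (Cfsg.quadFormPlus m F))) (hx : x ^ 2 = 1) (hs : (((x : Matrix.GeneralLinearGroup (Fin m ⊕ Fin m) F) : Matrix (Fin m ⊕ Fin m) (Fin m ⊕ Fin m) F) - 1).rank = s) (heven : Even s) (hna : ∃ v : Fin m ⊕ Fin m → F, Cfsg.quadFormPlus m F ((((x : Matrix.GeneralLinearGroup (Fin m ⊕ Fin m) F) : Matrix (Fin m ⊕ Fin m) (Fin m ⊕ Fin m) F) - 1).mulVec v) ≠ 0) : Nat.card {g : ↥(Cfsg.Omega F (Cfsg.quadFormPlus m F)) // (g : ↥(Cfsg.isometryGroup F (Cfsg.quadFormPlus m F))) * x = x * (g : ↥(Cfsg.isometryGroup F (Cfsg.quadFormPlus m F)))} = q ^ (2 * m * (s - 1) - (3 * s ^ 2 - 5 * s) / 2 - 1) * ((q : ℕ) ^ (((s - 2) / 2) ^ 2) * ∏ i : Fin ((s - 2) / 2), (q ^ (2 * ((i : ℕ) + 1)) - 1)) * ((q : ℕ) ^ ((m - s) ^ 2) * ∏ i : Fin (m - s), (q ^ (2 * ((i : ℕ) + 1)) - 1)) := by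
  subst hF
  have hc : (2 : F) = 0 := CharTwo.two_eq_zero
  have hQ := nd_plusQF m F
  let e := isoEquiv (plusQF m F) _ (plusQF_apply m F)
  have ht : e x * e x = 1 := by rw [← map_mul, ← pow_two, hx, map_one]
  rw [rank_sub_one_eq _ _ (plusQF_apply m F)] at hs
  have hS := wall_symm hQ.isFormed hc (OG.map_polar (e x)) (congrArg Subtype.val ht)
  have hN := wall_nondeg hQ.isFormed (OG.map_polar (e x))
  have hTS : TS (plusQF m F) (mov (e x)) ↔ ∀ v, quadFormPlus m F ((((x : GL (Fin m ⊕ Fin m) F) :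
      Matrix (Fin m ⊕ Fin m) (Fin m ⊕ Fin m) F) - 1).mulVec v) = 0 := by
    have : ∀ v, quadFormPlus m F ((((x : GL (Fin m ⊕ Fin m) F) :
        Matrix (Fin m ⊕ Fin m) (Fin m ⊕ Fin m) F) - 1).mulVec v) = plusQF m F (v - (e x).1 v) := by
      intro v
      rw [← plusQF_apply, ← (plusQF m F).map_neg, Matrix.sub_mulVec, Matrix.one_mulVec, neg_sub]
      rfl
    simp only [this]
    exact ⟨fun h v => h _ (sub_mem_mov _ v), by rintro h _ ⟨v, rfl⟩; exact h v⟩
  have hT : ¬ TS (plusQF m F) (mov (e x)) := fun hT => by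
    obtain ⟨v, hv⟩ := hna
    exact hv (hTS.1 hT v)
  refine (card_commutator_centralizer_congr e x).trans ?_
  rw [card_omega_centralizer_not_TS hQ (reflGen_plus h) hc (isPlus_plusQF m) finrank_plus_space ht hs
    hT, Symm2.card_isom_of_even_not_alt hc hS hN (fun hA => hT ((altW_iff_TS _).1
      ((altW_iff (B := polarBilin (plusQF m F)) (OG.map_polar (e x))).2 hA))) hs heven,
    Nat.card_eq_fintype_card, ← mul_assoc, ← pow_add]
  have hle := hQ.two_mul_finrank_mov_le hc ht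
  rw [finrank_plus_space] at hle
  have h1 : 1 ≤ s := by
    by_contra h0
    have : mov (e x) = ⊥ := Submodule.finrank_eq_zero.1 (hs.trans (by omega))
    exact hT (by rw [this]; intro u hu; rw [(Submodule.mem_bot F).1 hu, map_zero])
  have hsm : s ≤ m := by
    change finrank F (mov (e x)) = s at hs
    omega
  obtain ⟨k, rfl⟩ := heven
  obtain ⟨k, rfl⟩ : ∃ k', k = k' + 1 := ⟨k - 1, by omega⟩
  obtain ⟨l, rfl⟩ : ∃ l, m = k + 1 + (k + 1) + l := ⟨m - (k + 1 + (k + 1)), by omega⟩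
  have e0 : k + 1 + (k + 1) - 1 = 2 * k + 1 := by omega
  have e1 : 3 * (k + 1 + (k + 1)) ^ 2 = 5 * (k + 1 + (k + 1)) + 2 * (6 * k ^ 2 + 7 * k + 1) := by
    ring
  have e2 : 3 * (k + 1 + (k + 1)) ^ 2 = 3 * (k + 1 + (k + 1)) + 2 * (6 * k ^ 2 + 9 * k + 3) := by
    ring
  have e3 : 2 * (k + 1 + (k + 1) + l) * (2 * k + 1) =
      8 * k ^ 2 + 12 * k + 4 + 2 * l * (2 * k + 1) := by ring
  have : 2 * (k + 1 + (k + 1) + l) * (k + 1 + (k + 1) - 1) -
      (3 * (k + 1 + (k + 1)) ^ 2 - 3 * (k + 1 + (k + 1))) / 2 + (k + 1 + (k + 1) - 1) =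
      2 * (k + 1 + (k + 1) + l) * (k + 1 + (k + 1) - 1) -
        (3 * (k + 1 + (k + 1)) ^ 2 - 5 * (k + 1 + (k + 1))) / 2 - 1 := by
    rw [e0]
    omega
  rw [this]
  rfl

end Cfsg.Agent.S2685
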