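import Cfsg.Statements.S2689
import Cfsg.Agent.KSG.AutPSL

set_option autoImplicit false
open Cfsg

namespace Cfsg.Agent.S2689

/-- The automorphism group of a simple projective special linear group PSL_n(F) over a finite field (n ≥ 2; |F| ≥ 4 when n = 2) is generated by the automorphisms induced by invertible semilinear maps of F^n (the image of the projective semilinear group) together with the inverse-transpose automorphism. -/
theorem result {F : Type*} [Field F] [Fintype F] {p f : ℕ} [Fact p.Prime] (hF : Fintype.card F = p ^ f) (hf : 1 ≤ f) {n : ℕ} (hn : 2 ≤ n) (hs : n = 2 → 4 ≤ Fintype.card F) :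
    Cfsg.gammaPSL n F ⊔ Cfsg.autSubgroupOf (fun β : Matrix.ProjectiveSpecialLinearGroup (Fin n) F ≃* Matrix.ProjectiveSpecialLinearGroup (Fin n) F => Cfsg.IsInverseTransposeAutPSL β) = ⊤ := by
  rw [eq_top_iff]
  intro β _
  obtain ⟨⟨g, σ, e⟩, rfl⟩ := KSG.psiL_surjective (ι := Fin n) (F := F) (by simpa using hn) β
  have h : KSG.psiL (Fin n) F ⟨g, σ, e⟩ = KSG.psiL (Fin n) F ⟨g, σ, 1⟩ *
      KSG.psiL (Fin n) F (SemidirectProduct.inr (1, e)) := by
    rw [← map_mul]; congr 1; ext <;> simp
  rw [h]
  refine Subgroup.mul_mem_sup (Subgroup.subset_closure ⟨g, σ, KSG.isInducedPSL_iff.2 rfl⟩) ?_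
  rcases KSG.c2_cases e with rfl | rfl
  · rw [show (SemidirectProduct.inr (1, 1) : GL (Fin n) F ⋊[KSG.glAct2 (Fin n) F] _) = 1 from map_one _,
      map_one]
    exact one_mem _
  · exact Subgroup.subset_closure (KSG.isInverseTransposePSL_iff.2 rfl)

end Cfsg.Agent.S2689
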