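import Mathlib
import Cfsg.Statements.S2702
import Cfsg.Agent.KSG.GraphPSL

set_option autoImplicit false
open Cfsg

namespace Cfsg.Agent.S2702

/-- Let T = PSL_n(F) over the field with q = p^f elements, n ≥ 3, G = Inndiag(T) the image of PGL_n(F), and γ an involutory graph automorphism of T. The G-class of γ is the union of exactly c T-classes, where: if n is even and q is odd, c = gcd(n/2, q − 1) when C_G(γ) is isomorphic to the projective conformal symplectic group PGSp_n(F) (symplectic type) and c = gcd(n, q − 1)/2 otherwise; and c = gcd(n, q − 1) when n is odd or q is even. -/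
theorem result {F : Type*} [Field F] [Fintype F] {p f : ℕ} [Fact p.Prime] (hF : Fintype.card F = p ^ f) (hf : 1 ≤ f) {n : ℕ} (hn : 3 ≤ n) (γ : MulAut (Matrix.ProjectiveSpecialLinearGroup (Fin n) F)) (hγ : Cfsg.IsGraphAutClassPSL γ) (hγ2 : orderOf γ = 2) :
    ((Even n ∧ Odd p ∧ Nonempty (↥(Cfsg.inndiagPSL n F ⊓ Subgroup.centralizer {γ}) ≃* Cfsg.PGSp (n / 2) F)) → Cfsg.splitClassCount (Cfsg.inndiagPSL n F) (Cfsg.Inn (Matrix.ProjectiveSpecialLinearGroup (Fin n) F)) γ = Nat.gcd (n / 2) (p ^ f - 1)) ∧ ((Even n ∧ Odd p ∧ ¬ Nonempty (↥(Cfsg.inndiagPSL n F ⊓ Subgroup.centralizer {γ}) ≃* Cfsg.PGSp (n / 2) F)) → Cfsg.splitClassCount (Cfsg.inndiagPSL n F) (Cfsg.Inn (Matrix.ProjectiveSpecialLinearGroup (Fin n) F)) γ = Nat.gcd n (p ^ f - 1) / 2) ∧ (¬ (Even n ∧ Odd p) → Cfsg.splitClassCount (Cfsg.inndiagPSL n F) (Cfsg.Inn (Matrix.ProjectiveSpecialLinearGroup (Fin n) F)) γ = Nat.gcd n (p ^ f - 1)) := by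
  have D := KSG.Graph.dictL (F := F) hn
  obtain ⟨B, hB⟩ := D.ex γ ⟨hγ, hγ2⟩
  have hG := D.good hB
  obtain ⟨E, hE, hs⟩ := hB.split (by omega)
  have hc : Nat.card Fˣ = p ^ f - 1 := by rw [Nat.card_units, Nat.card_eq_fintype_card, hF]
  have hp : CharP F p := KSG.charP_of_card F hF
  have h2 : Odd p → (2 : F) ≠ 0 := fun h => Class.QF.two_ne_zero_of_odd_card (hF ▸ h.pow)
  rw [hs, ← hc]
  refine ⟨fun ⟨⟨m, hm⟩, ho, ⟨e⟩⟩ => ?_, fun ⟨⟨m, hm⟩, ho, he⟩ => ?_, fun h => ?_⟩
  · obtain rfl : n = 2 * m := by omega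
    have hA : B.IsAlt := KSG.Graph.isAlt_of_skew (h2 ho) (hG.symm.resolve_left fun hs =>
      KSG.Graph.isEmpty_pgsp (h2 ho) hG hs (m := 2 * m / 2) (by simp) (by omega)
        ⟨(D.cent hB).some.symm.trans e⟩)
    have hS := KSG.Graph.similar_symp hG hA (m := m) (by simp)
    rw [Nat.mul_div_cancel_left _ two_pos]
    refine KSG.Graph.index_sup_half fun x => (hE x).trans (exists_congr fun c => ?_)
    rw [← Units.val_inj, Units.val_pow_eq_pow_val, ← KSG.Graph.md_symp_iff m c.ne_zero]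
    exact ⟨hS.md, hS.symm.md⟩
  · obtain rfl : n = 2 * m := by omega
    have hS : ∀ u v, B u v = B v u := hG.symm.resolve_right fun hs => he (D.cent' hB
      (KSG.Graph.similar_symp hG (KSG.Graph.isAlt_of_skew (h2 ho) hs) (by simp)).nonempty_equiv)
    refine KSG.Graph.index_sup_pm (z := -1) (orderOf_eq_prime (by simp) fun h => h2 ho ?_)
      fun x => (hE x).trans (exists_congr fun c => ?_)
    · have : (-1 : F) = 1 := congrArg Units.val h
      linear_combination -this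
    · rw [KSG.Graph.md_symm_iff (h2 ho) hG hS (m := m) (by simp) (by omega) c.ne_zero]
      simp [← Units.val_inj]
  · refine KSG.Graph.index_sup_of_le fun x hx => ?_
    obtain ⟨c, hm⟩ := (hE x).1 hx
    obtain ⟨a, h3, h4⟩ : ∃ a, (c : F) = a ^ 2 ∧ (x : F) = a ^ Fintype.card (Fin n) := by
      by_cases he : Even n
      · obtain rfl : p = 2 := ((Fact.out : p.Prime).eq_two_or_odd').resolve_right fun h' => h ⟨he, h'⟩
        exact hG.md_two hm
      · exact hG.md_odd (by simpa using he) c.ne_zero hm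
    refine ⟨Units.mk0 a fun h0 => c.ne_zero (by simp [h3, h0]), Units.ext ?_⟩
    simpa using h4

end Cfsg.Agent.S2702
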