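import Mathlib
import Cfsg.Statements.S2703
import Cfsg.Agent.KSG.GraphPSL

set_option autoImplicit false
open Cfsg

namespace Cfsg.Agent.S2703

/-- Let T = PSL_n(F) over the field with q elements, q odd, n = 2m ≥ 4 even, and ι the inverse-transpose automorphism. Its centralizer in G = Inndiag(T) (the image of PGL_n(F)) is isomorphic to the projective conformal orthogonal group of the plus-type form Σ xᵢ yᵢ in dimension n when n(q − 1)/4 is even, and to that of a minus-type form (Σ xᵢ yᵢ + z₁² + a z₁ z₂ + b z₂² with anisotropic binary part) when n(q − 1)/4 is odd. -/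
theorem result {F : Type*} [Field F] [Fintype F] (hodd : Odd (Fintype.card F)) {n m : ℕ} (hm : 2 ≤ m) (hnm : n = 2 * m) (ι : MulAut (Matrix.ProjectiveSpecialLinearGroup (Fin n) F)) (hι : Cfsg.IsInverseTransposeAutPSL ι) :
    (Even (n * (Fintype.card F - 1) / 4) → Nonempty (↥(Cfsg.inndiagPSL n F ⊓ Subgroup.centralizer {ι}) ≃* Cfsg.PGO F (Cfsg.quadFormPlus m F))) ∧ (¬ Even (n * (Fintype.card F - 1) / 4) → ∃ a b : F, (∀ z₁ z₂ : F, z₁ ^ 2 + a * z₁ * z₂ + b * z₂ ^ 2 = 0 → z₁ = 0 ∧ z₂ = 0) ∧ Nonempty (↥(Cfsg.inndiagPSL n F ⊓ Subgroup.centralizer {ι}) ≃* Cfsg.PGO F (Cfsg.quadFormMinus (m - 1) F a b))) := by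
  have D := KSG.Graph.dictL (F := F) (n := n) (by omega)
  have h2 := Class.QF.two_ne_zero_of_odd_card hodd
  obtain rfl := KSG.isInverseTransposePSL_iff.1 hι
  have hB : ∀ u v : Fin n → F, Matrix.toBilin' ((1 : GL (Fin n) F)⁻¹).1 u v = u ⬝ᵥ v := fun u v => by
    simp [Matrix.toBilin'_apply']
  have hs : ∀ u v : Fin n → F, Matrix.toBilin' ((1 : GL (Fin n) F)⁻¹).1 u v =
      Matrix.toBilin' ((1 : GL (Fin n) F)⁻¹).1 v u := fun u v => by rw [hB, hB, dotProduct_comm]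
  have hG : KSG.Graph.Good (Matrix.toBilin' ((1 : GL (Fin n) F)⁻¹).1) :=
    ⟨fun x hx => funext fun i => by simpa using (hB _ _).symm.trans (hx (Pi.single i 1)), Or.inl hs⟩
  have hR : KSG.Graph.RL (KSG.Graph.graphL (Fin n) F) _ := ⟨hG, 1, by simp, rfl⟩
  have hc : Fintype.card (Fin n) = 2 * m := by simp [hnm]
  have hp : Class.QF.IsPlus (LinearMap.BilinMap.toQuadraticMap
      (Matrix.toBilin' ((1 : GL (Fin n) F)⁻¹).1)) ↔ Even (n * (Fintype.card F - 1) / 4) := by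
    rw [KSG.Graph.isPlus_dot_iff h2 hB hc, Class.QF.isSquare_neg_one_pow]
    obtain ⟨k, hk⟩ := hodd
    have : n * (Fintype.card F - 1) / 4 = m * k := by
      rw [hnm, hk, Nat.add_sub_cancel, show 2 * m * (2 * k) = 4 * (m * k) by ring]
      omega
    rw [this, Nat.even_mul, hk, Nat.even_iff (n := k)]
    exact or_congr_right (by omega)
  refine ⟨fun h => D.cent' hR (KSG.Graph.nonempty_pgo_plus h2 hG hs hc (hp.2 h)), fun h => ?_⟩
  obtain ⟨b, hb⟩ := Class.QF.exists_aniso (F := F)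
  exact ⟨1, b, hb, D.cent' hR (KSG.Graph.nonempty_pgo_minus h2 hG hs (by rw [hc]; omega)
    (hp.not.2 h) hb)⟩

end Cfsg.Agent.S2703
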