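import Cfsg.Statements.S2704
import Cfsg.Agent.KSG.AutPSL3

set_option autoImplicit false
open Cfsg

namespace Cfsg.Agent.S2704

/-- Let T = PSL_n(F) over the field F with p^f elements, n ≥ 3, and G = Inndiag(T) the image of PGL_n(F). If x is an involutory graph-field automorphism of T then f is even; x is G-conjugate to every other involutory graph-field automorphism; C_G(x) is isomorphic to the projective general unitary group PGU_n(q₀) with q₀² = p^f, realised over F itself through the Hermitian form Σ uᵢ vᵢ^{q₀}; and the G-class of x is the union of exactly gcd(n, q₀ − 1) T-classes. -/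
theorem result {F : Type*} [Field F] [Fintype F] {p f : ℕ} [Fact p.Prime] (hF : Fintype.card F = p ^ f) (hf : 1 ≤ f) {n : ℕ} (hn : 3 ≤ n) (x : MulAut (Matrix.ProjectiveSpecialLinearGroup (Fin n) F)) (hx : Cfsg.IsGraphFieldAutClassPSL x) (hx2 : orderOf x = 2) :
    Even f ∧ (∀ y : MulAut (Matrix.ProjectiveSpecialLinearGroup (Fin n) F), Cfsg.IsGraphFieldAutClassPSL y → orderOf y = 2 → Cfsg.IsConjUnder (Cfsg.inndiagPSL n F) x y) ∧ Nonempty (↥(Cfsg.inndiagPSL n F ⊓ Subgroup.centralizer {x}) ≃* Cfsg.PGU n F (p ^ (f / 2))) ∧ Cfsg.splitClassCount (Cfsg.inndiagPSL n F) (Cfsg.Inn (Matrix.ProjectiveSpecialLinearGroup (Fin n) F)) x = Nat.gcd n (p ^ (f / 2) - 1) := by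
  have hn' : 2 ≤ Fintype.card (Fin n) := by simp; omega
  rw [KSG.inndiagPSL_eq']
  have := KSG.range_iotaL_normal (F := F) hn'
  obtain ⟨π, hπ, -, hk⟩ := KSG.exists_projL3 (F := F) (ι := Fin n) (by simpa using hn)
  have key : ∀ y : MulAut (Matrix.ProjectiveSpecialLinearGroup (Fin n) F),
      Cfsg.IsGraphFieldAutClassPSL y → orderOf y = 2 → ∃ α σ, orderOf σ = 2 ∧
      α * y * α⁻¹ = KSG.psiL (Fin n) F (SemidirectProduct.inr (σ, Multiplicative.ofAdd 1)) ∧
      π y = (σ, Multiplicative.ofAdd 1) := by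
    rintro y ⟨-, α, φ, γ, σ, hσ, hφ, hγ, h⟩ hy
    rw [KSG.isStdFieldPSL_iff.1 hφ, KSG.isInverseTransposePSL_iff.1 hγ, ← map_mul, ← map_mul,
      Prod.mk_mul_mk, mul_one, one_mul] at h
    have h0 := hπ (SemidirectProduct.inr (σ, Multiplicative.ofAdd 1))
    rw [SemidirectProduct.right_inr] at h0
    have h1 : π y = (σ, Multiplicative.ofAdd 1) := by
      rw [← h0, ← h, map_mul, map_mul, map_inv, eq_mul_inv_iff_mul_eq]
      exact Prod.ext (KSG.ringAut_comm _ _) (mul_comm _ _)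
    refine ⟨α, σ, orderOf_eq_prime ?_ hσ, h, h1⟩
    have : π y ^ 2 = 1 := by rw [← map_pow, orderOf_dvd_iff_pow_eq_one.1 hy.dvd, map_one]
    rw [h1] at this
    exact congrArg Prod.fst this
  obtain ⟨α, σ, hσ, h, h1⟩ := key x hx hx2
  have hev : Even f := by
    have := (KSG.card_fixF hF σ).1
    rwa [hσ, ← even_iff_two_dvd] at this
  have : Class.U.UF F (p ^ (f / 2)) := Class.U.UF.of_card (by
    rw [hF, ← pow_mul, Nat.div_mul_cancel hev.two_dvd])
  have := KSG.isCyclic_ringAut F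
  obtain rfl := KSG.eq_of_orderOf_two hσ (KSG.orderOf_conjAut (q := p ^ (f / 2)))
  refine ⟨hev, fun y hy hy2 => ?_, ?_, ?_⟩
  · obtain ⟨α', σ', hσ', -, h1'⟩ := key y hy hy2
    rw [KSG.eq_of_orderOf_two hσ' hσ, ← h1] at h1'
    have h2 : y * x⁻¹ ∈ (KSG.iotaL (Fin n) F).range := by
      rw [← hk, MonoidHom.mem_ker, map_mul, map_inv, h1', mul_inv_cancel]
    have h3 := (KSG.coset_iff_of_conj (α := α) hx2 (by
      rw [h]; exact KSG.graphField_coset_L hn' KSG.conjAut_ne_one KSG.conjAut_mul_self) h2).1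
    rw [inv_mul_cancel_right] at h3
    exact h3 hy2
  · obtain ⟨e1⟩ := KSG.nonempty_centralizer_conj (H := (KSG.iotaL (Fin n) F).range) α x
    rw [h] at e1
    obtain ⟨e2⟩ := KSG.graphField_centralizer_equiv_L (F := F) (q := p ^ (f / 2)) (n := n) (by omega)
    exact ⟨e1.trans e2⟩
  · rw [← KSG.splitClassCount_conj α, h, KSG.graphField_split_L (by omega)]

end Cfsg.Agent.S2704
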