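import Mathlib
import Cfsg.Statements.S2709
import Cfsg.Agent.KSG.GraphPSU

set_option autoImplicit false
open Cfsg

namespace Cfsg.Agent.S2709

/-- Let T = PSU_n(q) be simple (n ≥ 3, (n,q) ≠ (3,2), q = p^f), realised over the field F with q² elements, G = Inndiag(T) the image of PGU_n(q), and γ an involutory graph automorphism of T. The G-class of γ is the union of exactly c T-classes, where: if n is even and q is odd, c = gcd(n/2, q + 1) when C_G(γ) is isomorphic to PGSp_n(F₀) for a field F₀ with q elements (symplectic type) and c = gcd(n, q + 1)/2 otherwise; and c = gcd(n, q + 1) when n is odd or q is even. -/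
theorem result {F : Type*} [Field F] [Fintype F] {p f q : ℕ} [Fact p.Prime] (hq : q = p ^ f) (hf : 1 ≤ f) (hF : Fintype.card F = q ^ 2) {n : ℕ} (hn : 3 ≤ n) (hs : ¬ (n = 3 ∧ q = 2)) (F₀ : Type*) [Field F₀] [Fintype F₀] (hF₀ : Fintype.card F₀ = q) (γ : MulAut (Cfsg.PSU n F q)) (hγ : Cfsg.IsGraphAutClassPSU γ) (hγ2 : orderOf γ = 2) :
    ((Even n ∧ Odd q ∧ Nonempty (↥(Cfsg.inndiagPSU n F q ⊓ Subgroup.centralizer {γ}) ≃* Cfsg.PGSp (n / 2) F₀)) → Cfsg.splitClassCount (Cfsg.inndiagPSU n F q) (Cfsg.Inn (Cfsg.PSU n F q)) γ = Nat.gcd (n / 2) (q + 1)) ∧ ((Even n ∧ Odd q ∧ ¬ Nonempty (↥(Cfsg.inndiagPSU n F q ⊓ Subgroup.centralizer {γ}) ≃* Cfsg.PGSp (n / 2) F₀)) → Cfsg.splitClassCount (Cfsg.inndiagPSU n F q) (Cfsg.Inn (Cfsg.PSU n F q)) γ = Nat.gcd n (q + 1) / 2) ∧ (¬ (Even n ∧ Odd q) → Cfsg.splitClassCount (Cfsg.inndiagPSU n F q) (Cfsg.Inn (Cfsg.PSU n F q)) γ = Nat.gcd n (q + 1)) := by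
  have := Class.U.UF.of_card hF
  obtain ⟨j, hj⟩ := KSG.Graph.exists_hom_conj (F := F) hF₀
  have D := KSG.Graph.dictU hj hn hs
  obtain ⟨B, hB⟩ := D.ex γ ⟨hγ, hγ2⟩
  have hG := D.good hB
  obtain ⟨E, hE, hsp⟩ := hB.split hj hn hs
  have hc := Class.U.card_range_detGU (F := F) (q := q) (n := n) (by omega)
  have h2 : Odd q → (2 : F₀) ≠ 0 := fun h => Class.QF.two_ne_zero_of_odd_card (hF₀ ▸ h)
  rw [hsp, ← hc]
  refine ⟨fun ⟨⟨m, hm⟩, ho, ⟨e⟩⟩ => ?_, fun ⟨⟨m, hm⟩, ho, he⟩ => ?_, fun h => ?_⟩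
  · obtain rfl : n = 2 * m := by omega
    have hA : B.IsAlt := KSG.Graph.isAlt_of_skew (h2 ho) (hG.symm.resolve_left fun hs =>
      KSG.Graph.isEmpty_pgsp (h2 ho) hG hs (m := 2 * m / 2) (by simp) (by omega)
        ⟨(D.cent hB).some.symm.trans e⟩)
    have hS := KSG.Graph.similar_symp hG hA (m := m) (by simp)
    rw [Nat.mul_div_cancel_left _ two_pos]
    refine KSG.Graph.index_sup_half fun x => (hE x).trans (Iff.trans ?_
      ((KSG.Graph.exists_norm_iff hj (n := 2 * m) (by omega) x.1 1 m).trans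
        (exists_congr fun a => by simp [Subtype.ext_iff, Units.ext_iff])))
    refine exists₂_congr fun b μ => ⟨fun ⟨δ, h1, h3, h4⟩ => ⟨h3, ?_⟩, fun ⟨h3, h4⟩ =>
      ⟨_, hS.symm.md ((KSG.Graph.md_symp_iff m μ.ne_zero).2 rfl), h3, by simpa using h4⟩⟩
    simpa [(KSG.Graph.md_symp_iff m μ.ne_zero).1 (hS.md h1)] using h4
  · obtain rfl : n = 2 * m := by omega
    have hS : ∀ u v, B u v = B v u := hG.symm.resolve_right fun hs => he (D.cent' hB
      (KSG.Graph.similar_symp hG (KSG.Graph.isAlt_of_skew (h2 ho) hs) (by simp)).nonempty_equiv)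
    have hz : (-1 : Fˣ) ∈ (Class.U.detGU : GU (2 * m) F q →* Fˣ).range :=
      (Class.U.mem_range_detGU (by omega)).2 (by simp)
    refine KSG.Graph.index_sup_pm (z := ⟨-1, hz⟩) (orderOf_eq_prime (Subtype.ext (by simp))
      fun h => h2 ho (j.injective ?_)) fun x => (hE x).trans ?_
    · have : (-1 : F) = 1 := congrArg (fun x => x.1.1) h
      rw [map_ofNat, map_zero]
      linear_combination -this
    · have h1 := KSG.Graph.exists_norm_iff hj (n := 2 * m) (by omega) x.1 1 m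
      have h3 := KSG.Graph.exists_norm_iff hj (n := 2 * m) (by omega) x.1 (-1) m
      simp only [KSG.Graph.md_symm_iff (h2 ho) hG hS (m := m) (by simp) (by omega) (Units.ne_zero _),
        or_and_right, exists_or, exists_eq_left, map_neg, map_pow]
      simp only [one_mul, neg_mul] at h1 h3
      rw [h1, h3]
      simp [Subtype.ext_iff, Units.ext_iff]
  · refine KSG.Graph.index_sup_of_le fun x hx => ?_
    obtain ⟨b, c, δ, hm, hb, hx⟩ := (hE x).1 hx
    obtain ⟨a, h3, h4⟩ : ∃ a, (c : F₀) = a ^ 2 ∧ δ = a ^ Fintype.card (Fin n) := by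
      by_cases he : Even n
      · obtain rfl : p = 2 := ((Fact.out : p.Prime).eq_two_or_odd').resolve_right fun h' =>
          h ⟨he, hq ▸ h'.pow⟩
        have := KSG.charP_of_card F₀ (hF₀.trans hq)
        exact hG.md_two hm
      · exact hG.md_odd (by simpa using he) c.ne_zero hm
    have h0 : (b : F) * j a ≠ 0 := mul_ne_zero b.ne_zero
      ((map_ne_zero j).2 fun h0 => c.ne_zero (by simp [h3, h0]))
    refine ⟨⟨Units.mk0 _ h0, (Class.U.mem_range_detGU (by omega)).2 ?_⟩,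
      Subtype.ext (Units.ext ?_)⟩
    · have h5 : Class.U.conj F q (j a) = j a := (hj _).2 ⟨_, rfl⟩
      rw [Units.val_mk0, map_mul, h5, ← hb, h3, map_pow]; ring
    · simp [hx, h4, mul_pow]

end Cfsg.Agent.S2709
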