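import Mathlib
import Cfsg.Statements.S2710
import Cfsg.Agent.KSG.GraphPSU

set_option autoImplicit false
open Cfsg

namespace Cfsg.Agent.S2710

/-- Let T = PSU_n(q) with n ≥ 4 divisible by 4 (n = 2m) and q odd, realised over the field F with q² elements, G = Inndiag(T) the image of PGU_n(q), and φ the standard field automorphism of T attached to the q-th power map of F (it induces inverse-transpose on the unitary matrices and is a graph automorphism). Its centralizer in G is isomorphic to the projective conformal orthogonal group of the plus-type form Σ xᵢ yᵢ in dimension n over a field F₀ with q elements. (Dimensions n ≡ 2 (mod 4) are not covered.) -/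
theorem result {F : Type*} [Field F] [Fintype F] {q : ℕ} (hodd : Odd q) (hF : Fintype.card F = q ^ 2) {n m : ℕ} (hm : 2 ≤ m) (hnm : n = 2 * m) (h4 : 4 ∣ n) (F₀ : Type*) [Field F₀] [Fintype F₀] (hF₀ : Fintype.card F₀ = q) (σ : F ≃+* F) (hσ : ∀ a : F, σ a = a ^ q) (φ : MulAut (Cfsg.PSU n F q)) (hφ : Cfsg.IsFieldAutPSUOf σ φ) :
    Nonempty (↥(Cfsg.inndiagPSU n F q ⊓ Subgroup.centralizer {φ}) ≃* Cfsg.PGO F₀ (Cfsg.quadFormPlus m F₀)) := by
  have := Class.U.UF.of_card hF
  obtain ⟨j, hj⟩ := KSG.Graph.exists_hom_conj (F := F) hF₀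
  have D := KSG.Graph.dictU (n := n) hj (by omega) (by omega)
  have h2 := Class.QF.two_ne_zero_of_odd_card (hF₀ ▸ hodd)
  obtain rfl : σ = KSG.conjAut F q := RingEquiv.ext hσ
  obtain rfl := KSG.isFieldPSU_iff.1 hφ
  have hB : ∀ u v : Fin n → F₀, Matrix.toBilin' (1 : GL (Fin n) F₀).1 u v = u ⬝ᵥ v := fun u v => by
    simp [Matrix.toBilin'_apply']
  have hs : ∀ u v : Fin n → F₀, Matrix.toBilin' (1 : GL (Fin n) F₀).1 u v =
      Matrix.toBilin' (1 : GL (Fin n) F₀).1 v u := fun u v => by rw [hB, hB, dotProduct_comm]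
  have hG : KSG.Graph.Good (Matrix.toBilin' (1 : GL (Fin n) F₀).1) :=
    ⟨fun x hx => funext fun i => by simpa using (hB _ _).symm.trans (hx (Pi.single i 1)), Or.inl hs⟩
  have hR : KSG.Graph.RU j (KSG.Graph.graphU n F q) _ :=
    ⟨hG, 1, 1, 1, 1, by simp, rfl, ⟨1, by simp⟩, by simp⟩
  have hc : Fintype.card (Fin n) = 2 * m := by simp [hnm]
  refine D.cent' hR (KSG.Graph.nonempty_pgo_plus h2 hG hs hc ?_)
  rw [KSG.Graph.isPlus_dot_iff h2 hB hc, Even.neg_one_pow (Nat.even_iff.2 (by omega))]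
  exact IsSquare.one

end Cfsg.Agent.S2710
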