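import Cfsg.Statements.S2711
import Cfsg.Agent.KSG.AutPSU2

set_option autoImplicit false
open Cfsg

namespace Cfsg.Agent.S2711

/-- Let T = PSU_n(q) be simple (n ≥ 3, (n,q) ≠ (3,2)), realised over the field F with q² elements, and let x be a field automorphism of T (conjugate to a standard field automorphism of odd order) of prime order r. Then an element y of the coset Inndiag(T)·x (y = δ x with δ in the image of PGU_n(q)) has order r if and only if y is conjugate to x by an element of Inndiag(T). (T has no graph-field automorphisms.) -/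
theorem result {F : Type*} [Field F] [Fintype F] {p f q : ℕ} [Fact p.Prime] (hq : q = p ^ f) (hf : 1 ≤ f) (hF : Fintype.card F = q ^ 2) {n : ℕ} (hn : 3 ≤ n) (hs : ¬ (n = 3 ∧ q = 2)) (x δ : MulAut (Cfsg.PSU n F q)) (hx : Cfsg.IsFieldAutClassPSU x) {r : ℕ} (hr : r.Prime) (hxr : orderOf x = r) (hδ : δ ∈ Cfsg.inndiagPSU n F q) :
    orderOf (δ * x) = r ↔ Cfsg.IsConjUnder (Cfsg.inndiagPSU n F q) x (δ * x) := by
  have := Class.U.UF.of_card hF
  rw [KSG.inndiagPSU_eq] at hδ ⊢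
  have := KSG.range_iotaU_normal (F := F) hn hs
  obtain ⟨α, φ, σ, -, hodd, hφ, h⟩ := hx
  rw [KSG.isFieldPSU_iff.1 hφ] at h
  obtain ⟨h1, h2⟩ := KSG.card_fixF (p := p) (f := f * 2) (by rw [hF, hq, pow_mul]) σ
  have h3 : orderOf σ ∣ f := (Nat.Coprime.dvd_mul_right hodd.coprime_two_right).1 h1
  have : Class.U.UF (KSG.fixF σ) (p ^ (f / orderOf σ)) :=
    ⟨inferInstance, by rw [h2, ← pow_mul, Nat.div_mul_right_comm h3]⟩
  refine KSG.coset_iff_of_conj (α := α) hxr ?_ hδ
  rw [← hxr, ← KSG.orderOf_conj' α, h, KSG.orderOf_psiU_field hn hs]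
  exact KSG.field_coset_U (KSG.map_conj_of_odd (q₀ := p ^ (f / orderOf σ)) (KSG.fixF σ).subtype hodd
    (by rw [← pow_mul, Nat.div_mul_cancel h3, hq]))
    (fun x => ⟨fun hx => ⟨⟨x, hx⟩, rfl⟩, fun ⟨y, hy⟩ => hy ▸ y.2⟩) hn hs

end Cfsg.Agent.S2711
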