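import Cfsg.Statements.S2712
import Cfsg.Agent.KSG.AutPSp

set_option autoImplicit false
open Cfsg

namespace Cfsg.Agent.S2712

/-- Let T = PSp_{2m}(F) be simple over the field F with p^f elements (m ≥ 2, (2m, |F|) ≠ (4, 2)), G = Inndiag(T) the image of the projective conformal symplectic group PGSp_{2m}(F), and x a field automorphism of T of prime order r. Then r divides f; C_G(x) is isomorphic to PGSp_{2m}(F₀) for a field F₀ with p^(f/r) elements; and the G-class of x is the union of exactly gcd(gcd(2, p^f − 1), r) T-classes. -/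
theorem result {F : Type*} [Field F] [Fintype F] {p f : ℕ} [Fact p.Prime] (hF : Fintype.card F = p ^ f) (hf : 1 ≤ f) {m : ℕ} (hm : 2 ≤ m) (hs : m = 2 → 3 ≤ Fintype.card F) (x : MulAut (Cfsg.PSp m F)) (hx : Cfsg.IsFieldAutClassPSp x) {r : ℕ} (hr : r.Prime) (hxr : orderOf x = r) (F₀ : Type*) [Field F₀] [Fintype F₀] (hF₀ : Fintype.card F₀ = p ^ (f / r)) :
    r ∣ f ∧ Nonempty (↥(Cfsg.inndiagPSp m F ⊓ Subgroup.centralizer {x}) ≃* Cfsg.PGSp m F₀) ∧ Cfsg.splitClassCount (Cfsg.inndiagPSp m F) (Cfsg.Inn (Cfsg.PSp m F)) x = Nat.gcd (Nat.gcd 2 (p ^ f - 1)) r := by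
  rw [KSG.inndiagPSp_eq]
  have := KSG.range_iotaS_normal (F := F) hm
  obtain ⟨α, σ, -, h⟩ := hx
  rw [KSG.isStdFieldPSp_iff] at h
  have hr' : orderOf σ = r := by rw [← hxr, ← KSG.orderOf_conj' α, h, KSG.orderOf_psiS_field hm]
  obtain ⟨h1, h2⟩ := KSG.card_fixF hF σ
  rw [hr'] at h1 h2
  obtain ⟨j, hj⟩ := KSG.exists_hom_fixed (K := F₀) σ (by rw [hF₀, h2])
  refine ⟨h1, ?_, ?_⟩
  · obtain ⟨e1⟩ := KSG.nonempty_centralizer_conj (H := (KSG.iotaS m F).range) α x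
    rw [h] at e1
    obtain ⟨e2⟩ := KSG.field_centralizer_equiv_S hj hm
    exact ⟨e1.trans e2⟩
  · rw [← KSG.splitClassCount_conj α, h, KSG.field_split_S hj hm, Nat.card_eq_fintype_card,
      Nat.card_eq_fintype_card, hF, hF₀]
    have h3 : 2 ≤ p ^ (f / r) := hF₀ ▸ Fintype.one_lt_card
    have h4 : p ^ f = (p ^ (f / r)) ^ r := by rw [← pow_mul, Nat.div_mul_cancel h1]
    rw [h4, ← Nat.geomSum_eq h3]
    generalize p ^ (f / r) = a at h3
    rcases Nat.even_or_odd a with ha | ha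
    · have : Nat.gcd 2 (a ^ r - 1) = 1 := Nat.coprime_two_left.2
        (Nat.Even.sub_odd (Nat.one_le_pow _ _ (by omega)) (ha.pow_of_ne_zero hr.ne_zero) odd_one)
      simp [this]
    · rw [Nat.gcd_eq_left (ha.pow.tsub_odd odd_one).two_dvd, Nat.gcd_rec, Nat.gcd_rec 2 r,
        Finset.sum_nat_mod, Finset.sum_congr rfl fun i _ => Nat.odd_iff.1 ha.pow]
      simp

end Cfsg.Agent.S2712
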