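import Cfsg.Statements.S2714
import Mathlib
import Cfsg.Agent.KSG.AutOrth12

set_option autoImplicit false
open Cfsg

namespace Cfsg.Agent.S2714

open Cfsg.Agent.Class.Orth Cfsg.Agent.KSG Cfsg.Agent.KSG.SS QuadraticMap Module
set_option maxHeartbeats 1000000

/-- Let T = Ω_{2m+1}(F) (m ≥ 3, |F| = p^f odd; realised as PΩ of the form x₀² + Σ xᵢ yᵢ), G = Inndiag(T) the image of the conformal orthogonal group in Aut(T), and x a field automorphism of T of prime order r. Then r divides f; C_G(x) is isomorphic to Inndiag(Ω_{2m+1}(F₀)) for a field F₀ with p^(f/r) elements; and the G-class of x is a single T-class when r is odd and the union of exactly two T-classes when r = 2. -/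
theorem result {F : Type*} [Field F] [Fintype F] {p f : ℕ} [Fact p.Prime] (hF : Fintype.card F = p ^ f) (hf : 1 ≤ f) (hodd : Odd (Fintype.card F)) {m : ℕ} (hm : 3 ≤ m) (x : MulAut (Cfsg.POmega F (Cfsg.quadFormOdd m F))) (hx : Cfsg.IsFieldAutClassPOmega (Cfsg.quadFormOdd m F) x) {r : ℕ} (hr : r.Prime) (hxr : orderOf x = r) (F₀ : Type*) [Field F₀] [Fintype F₀] (hF₀ : Fintype.card F₀ = p ^ (f / r)) :
    r ∣ f ∧ Nonempty (↥(Cfsg.inndiagPOmegaOdd m F ⊓ Subgroup.centralizer {x}) ≃* ↥(Cfsg.inndiagPOmegaOdd m F₀)) ∧ (Odd r → Cfsg.splitClassCount (Cfsg.inndiagPOmegaOdd m F) (Cfsg.Inn (Cfsg.POmega F (Cfsg.quadFormOdd m F))) x = 1) ∧ (r = 2 → Cfsg.splitClassCount (Cfsg.inndiagPOmegaOdd m F) (Cfsg.Inn (Cfsg.POmega F (Cfsg.quadFormOdd m F))) x = 2) := by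
  have h2 := two_ne_zero_of_odd_card hodd
  obtain ⟨α, σ, hσ, h1⟩ := exists_of_fieldClass _ (oddQF_apply m F) (map_oddQF m) hx
  have hQ := nd_oddQF m F h2
  have h5 : 5 ≤ finrank F (Unit ⊕ (Fin m ⊕ Fin m) → F) := by rw [finrank_odd]; omega
  have hV : Odd (finrank F (Unit ⊕ (Fin m ⊕ Fin m) → F)) :=
    finrank_odd (F := F) m ▸ odd_two_mul_add_one m
  have h3 : orderOf σ = r := (matRep _ (oddQF_apply m F)).orderOf_σ hQ h5
    (t := fieldSS σ (map_oddQF m σ)) hσ hr (by rw [← h1, conj_pow, ← hxr, pow_orderOf_eq_one]; simp)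
  obtain ⟨j, hj⟩ := exists_ringHom_fixed hF σ (h3.symm ▸ hF₀)
  have h := desc_field (Q₀ := oddQF m F₀) (map_oddQF m σ) hj
    fun v => by simp [oddQF_apply, quadFormOdd]
  obtain ⟨h4, h6⟩ := h.package (matRep _ (oddQF_apply m F)) (matRep _ (oddQF_apply m F₀)) hQ h5
    le_rfl le_rfl ZO_le_GOs (fun x => iff_of_true (h.ext_σ x) x.2)
    (inndiag_odd_eq m) (inndiag_odd_eq m)
    (by rw [inndiag_odd_eq]; exact map_normal_of_surjective (psi_surjective_odd h2 hm) _) h1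
  exact ⟨h3 ▸ (card_fixF hF σ).1, h4,
    fun h7 => h6.trans (h.index_odd_odd hQ h2 (by omega) hV (h3.symm ▸ h7)),
    fun h7 => h6.trans (h.index_odd_two hQ h2 (by omega) hV (h3.trans h7))⟩

end Cfsg.Agent.S2714
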