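import Cfsg.Statements.S2716
import Mathlib
import Cfsg.Agent.KSG.AutOrth12

set_option autoImplicit false
open Cfsg

namespace Cfsg.Agent.S2716

open Cfsg.Agent.Class.Orth Cfsg.Agent.KSG Cfsg.Agent.KSG.SS QuadraticMap Module
set_option maxHeartbeats 1000000

/-- Let T = PΩ⁻_{2m+2}(F) (m ≥ 3, |F| = p^f; the form Σ xᵢ yᵢ + z₁² + a z₁ z₂ + b z₂² with anisotropic binary part), G = Inndiag(T), and x a field automorphism of T of prime order r. Then r is odd and divides f; C_G(x) is isomorphic to Inndiag(PΩ⁻_{2m+2}(F₀)) for a field F₀ with p^(f/r) elements and some anisotropic binary part over F₀; and the G-class of x is a single T-class. -/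
theorem result {F : Type*} [Field F] [Fintype F] {p f : ℕ} [Fact p.Prime] (hF : Fintype.card F = p ^ f) (hf : 1 ≤ f) {m : ℕ} (hm : 3 ≤ m) (a b : F) (hab : (∀ z₁ z₂ : F, z₁ ^ 2 + a * z₁ * z₂ + b * z₂ ^ 2 = 0 → z₁ = 0 ∧ z₂ = 0)) (x : MulAut (Cfsg.POmega F (Cfsg.quadFormMinus m F a b))) (hx : Cfsg.IsFieldAutClassPOmegaMinus m x) {r : ℕ} (hr : r.Prime) (hxr : orderOf x = r) (F₀ : Type*) [Field F₀] [Fintype F₀] (hF₀ : Fintype.card F₀ = p ^ (f / r)) :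
    Odd r ∧ r ∣ f ∧ (∃ a₀ b₀ : F₀, (∀ z₁ z₂ : F₀, z₁ ^ 2 + a₀ * z₁ * z₂ + b₀ * z₂ ^ 2 = 0 → z₁ = 0 ∧ z₂ = 0) ∧ Nonempty (↥(Cfsg.inndiagPOmegaMinus m F a b ⊓ Subgroup.centralizer {x}) ≃* ↥(Cfsg.inndiagPOmegaMinus m F₀ a₀ b₀))) ∧ Cfsg.splitClassCount (Cfsg.inndiagPOmegaMinus m F a b) (Cfsg.Inn (Cfsg.POmega F (Cfsg.quadFormMinus m F a b))) x = 1 := by
  obtain ⟨t', ht', h1⟩ := exists_of_fieldClass_minus hm hab hx
  have hQ := nd_minusQF m hab
  have h5 : 5 ≤ finrank F ((Fin m ⊕ Fin m) ⊕ Fin 2 → F) := by rw [finrank_minus]; omega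
  have he := even_minus (F := F) m
  let D := matRep _ (minusQF_apply m F a b)
  have hp : D.psi t' ^ r = 1 := by rw [← h1, ← hxr, pow_orderOf_eq_one]
  have h3 := D.orderOf_σ hQ h5 ht' hr hp
  obtain ⟨c, hc⟩ := D.exists_normalize hQ h5 ht' hr hp
  obtain ⟨j, hj⟩ := exists_ringHom_fixed hF t'.σ (h3.symm ▸ hF₀)
  obtain ⟨a₀, hab₀⟩ := Class.QF.exists_aniso (F := F₀)
  have hn : ¬ Class.QF.IsPlus (minusQF m F a b) := Class.QF.not_isPlus_of_equiv_minus hab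
    (LinearEquiv.refl F _) fun v => (minusQF_apply m F a b v).symm
  have hσ : (sO _ c * t').σ = t'.σ := one_mul _
  obtain ⟨e, l, h⟩ := (exists_desc_even hQ (t := sO _ c * t') (j := j) (by rwa [hσ]) (by rwa [hσ])
    (finrank_minus m) hab₀).resolve_left fun ⟨_, _, h⟩ => hn (h.isPlus hQ (isPlus_plusQF _))
  have hodd : Odd r := hr.eq_two_or_odd'.resolve_left fun h2 =>
    hn (h.isPlus_of_two (by rw [hσ, h3, h2]))
  obtain ⟨h4, h6⟩ := h.package D (matRep _ (minusQF_apply m F₀ 1 a₀)) hQ h5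
    GOp_le_GOs GOp_le_GOs (ZO_le_GOp he) (h.ext_mem_GOp_iff hQ (hQ.reflGen (Or.inr (by omega)))
      ((h.nd hQ).reflGen (Or.inr (by rw [finrank_minus]; omega))) he)
    (inndiag_minus_eq (by omega) hab) (inndiag_minus_eq (by omega) hab₀)
    (by rw [inndiag_minus_eq (by omega) hab]
        exact map_normal_of_surjective (psi_surjective_minus hm hab) _) (α := 1) (x := x)
    (by rw [map_mul, D.psi_sO, h1]; simp [D])
  refine ⟨hodd, h3 ▸ (card_fixF hF _).1, ⟨1, a₀, hab₀, h4⟩, h6.trans ?_⟩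
  by_cases h2 : (2 : F₀) = 0
  · exact h.index_even_odd hQ he (x := 1) rfl (fun h => absurd h2 h) (by rwa [hσ, h3])
  obtain ⟨μ, hμ⟩ := exists_unit_not_isSquare h2
  obtain ⟨z, hz, hz', -⟩ := exists_sq_minus m hab₀ μ
  exact h.index_even_odd hQ he hz (fun _ => hz' ▸ hμ) (by rwa [hσ, h3])

end Cfsg.Agent.S2716
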