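import Cfsg.Statements.S2717
import Mathlib
import Cfsg.Agent.KSG.AutOrth12

set_option autoImplicit false
open Cfsg

namespace Cfsg.Agent.S2717

open Cfsg.Agent.Class.Orth Cfsg.Agent.KSG Cfsg.Agent.KSG.SS QuadraticMap Module
set_option maxHeartbeats 4000000

theorem eq_of_two {A : Type*} [Group A] [Finite A] [IsCyclic A] {x y : A} (hx : orderOf x = 2)
    (hy : orderOf y = 2) : x = y := by
  classical
  have := Fintype.ofFinite A
  have h := IsCyclic.card_orderOf_eq_totient (α := A) (hx ▸ orderOf_dvd_card)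
  rw [Nat.totient_two, Finset.card_eq_one] at h
  obtain ⟨a, ha⟩ := h
  have h1 : ∀ z, orderOf z = 2 → z = a := fun z hz => Finset.mem_singleton.1 (by simp [← ha, hz])
  rw [h1 x hx, h1 y hy]

theorem aux {F V : Type*} [Field F] [AddCommGroup V] [Module F V] {Q : QuadraticForm F V}
    {G : Type*} [Group G] (D : OmegaRep Q G) [Finite F] [FiniteDimensional F V] (hQ : ND Q)
    (h5 : 5 ≤ finrank F V) {t : SS Q} {g : OG Q} (hσ : t.σ ≠ 1) {α x : MulAut (G ⧸ Subgroup.center G)}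
    (hx : orderOf x = 2) (h : α * x * α⁻¹ = D.psi (oO Q g * t)) : orderOf t.σ = 2 := by
  simpa using D.orderOf_σ hQ h5 (t := oO Q g * t) (by simpa using hσ) Nat.prime_two
    (by rw [← h, conj_pow, ← hx, pow_orderOf_eq_one]; simp)

/-- Let T = PΩ⁺_{2m}(F) with m ≥ 5 (dimension 2m ≠ 8) and |F| = p^f, G = Inndiag(T), and x an involutory graph-field automorphism of T. Then f is even; any two involutory graph-field automorphisms of T are G-conjugate; C_G(x) is isomorphic to Inndiag(PΩ⁻_{2m}(F₀)) for a field F₀ with p^(f/2) elements (some anisotropic binary part over F₀); and the G-class of x is the union of exactly c T-classes with c = 1 if p = 2, c = 4 if p is odd, m is odd and p^(f/2) ≡ 1 (mod 4), and c = 2 otherwise. -/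
theorem result {F : Type*} [Field F] [Fintype F] {p f : ℕ} [Fact p.Prime] (hF : Fintype.card F = p ^ f) (hf : 1 ≤ f) {m : ℕ} (hm : 5 ≤ m) (x : MulAut (Cfsg.POmega F (Cfsg.quadFormPlus m F))) (hx : Cfsg.IsGraphFieldAutClassPOmegaPlus m x) (hx2 : orderOf x = 2) (F₀ : Type*) [Field F₀] [Fintype F₀] (hF₀ : Fintype.card F₀ = p ^ (f / 2)) :
    Even f ∧ (∀ y : MulAut (Cfsg.POmega F (Cfsg.quadFormPlus m F)), Cfsg.IsGraphFieldAutClassPOmegaPlus m y → orderOf y = 2 → Cfsg.IsConjUnder (Cfsg.inndiagPOmegaPlus m F) x y) ∧ (∃ a₀ b₀ : F₀, (∀ z₁ z₂ : F₀, z₁ ^ 2 + a₀ * z₁ * z₂ + b₀ * z₂ ^ 2 = 0 → z₁ = 0 ∧ z₂ = 0) ∧ Nonempty (↥(Cfsg.inndiagPOmegaPlus m F ⊓ Subgroup.centralizer {x}) ≃* ↥(Cfsg.inndiagPOmegaMinus (m - 1) F₀ a₀ b₀))) ∧ (p = 2 → Cfsg.splitClassCount (Cfsg.inndiagPOmegaPlus m F) (Cfsg.Inn (Cfsg.POmega F (Cfsg.quadFormPlus m F))) x = 1) ∧ ((p ≠ 2 ∧ Odd m ∧ p ^ (f / 2) % 4 = 1) → Cfsg.splitClassCount (Cfsg.inndiagPOmegaPlus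 m F) (Cfsg.Inn (Cfsg.POmega F (Cfsg.quadFormPlus m F))) x = 4) ∧ ((p ≠ 2 ∧ ¬ (Odd m ∧ p ^ (f / 2) % 4 = 1)) → Cfsg.splitClassCount (Cfsg.inndiagPOmegaPlus m F) (Cfsg.Inn (Cfsg.POmega F (Cfsg.quadFormPlus m F))) x = 2) := by
  obtain ⟨m, rfl⟩ : ∃ k, m = k + 1 := ⟨m - 1, by omega⟩
  have hQ := nd_plusQF (m + 1) F
  have h5 : 5 ≤ finrank F (Fin (m + 1) ⊕ Fin (m + 1) → F) := by rw [finrank_plus]; omega
  have he := even_plus (F := F) (m + 1)
  have hR := KSG.reflGen_plus (F := F) (m := m + 1) (by omega)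
  have hS := inndiag_plus_eq (F := F) (m := m + 1) (by omega)
  have := nontrivial_plus (F := F) (m := m + 1) (by omega)
  have := nontrivial_plus (F := F₀) (m := m + 1) (by omega)
  have := (card_ringAut F hF).2
  let D := matRep _ (plusQF_apply (m + 1) F)
  obtain ⟨σ, hσ⟩ : ∃ σ : RingAut F, orderOf σ = 2 := by
    obtain ⟨α, σ, v, hσ, -, h1⟩ := exists_of_graphField hx
    exact ⟨σ, aux D hQ h5 hσ hx2 h1⟩
  obtain ⟨j, hj⟩ := exists_ringHom_fixed hF σ (hσ.symm ▸ hF₀)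
  have h := desc_field (Q₀ := plusQF (m + 1) F₀) (map_plusQF _ σ) hj
    fun v => by simp [plusQF_apply, quadFormPlus]
  have hw : plusQF (m + 1) F (swapVec F 0) ≠ 0 := by simp [plusQF_swapVec]
  obtain ⟨t, ht⟩ : ∃ t, t = oO _ (refl _ (swapVec F 0)) * fieldSS σ (map_plusQF (m + 1) σ) := ⟨_, rfl⟩
  have htσ : t.σ = σ := by rw [ht]; exact one_mul _
  have ht2 : t ^ 2 = 1 := by
    have := h.commute_refl (swapVec F₀ 0)
    rw [map_swapVec] at this
    rw [ht, this.symm.mul_pow, fieldSS_pow _ _ (hσ ▸ pow_orderOf_eq_one σ), pow_two, refl_mul_self',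
      one_mul]
  have key : ∀ y, IsGraphFieldAutClassPOmegaPlus (m + 1) y → orderOf y = 2 →
      ∃ g ∈ inndiagPOmegaPlus (m + 1) F, y = g * D.psi t * g⁻¹ := fun y hy hy2 => by
    obtain ⟨α, σ', v, hσ', hv, h1⟩ := exists_of_graphField hy
    obtain rfl := eq_of_two hσ (y := σ') (aux D hQ h5 hσ' hy2 h1)
    obtain ⟨z, hz⟩ := D.exists_of_conj (psi_surjective_plus hm) h1
    have h3 := mul_mem (comm_mem_GOp hQ hR he z (oO _ (refl _ v) * fieldSS σ (map_plusQF _ σ)))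
      (mul_mem_GOp hQ hR he (y := (oO _ (refl _ (swapVec F 0)))⁻¹) rfl (by simp)
        (refl_notMem_GOp hQ hR he hv)
        (mt (inv_mem_iff).1 (refl_notMem_GOp hQ hR he hw)))
    obtain ⟨g, hg, h8⟩ := D.isConj_even hQ h5 (t := t) (by rwa [htσ]) Nat.prime_two
      (by rw [← map_pow, ht2, map_one]) he
      (t' := z * (oO _ (refl _ v) * fieldSS σ (map_plusQF _ σ)) * z⁻¹)
      (by rw [← hz, ← hy2, pow_orderOf_eq_one]) (by simpa [ht, mul_assoc] using h3)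
    exact ⟨g, hS.ge hg, hz.trans h8⟩
  obtain ⟨g, hg, hxg⟩ := key x hx hx2
  obtain ⟨a₀, hab₀⟩ := Class.QF.exists_aniso (F := F₀)
  obtain ⟨e, l, h'⟩ := (exists_desc_even hQ (t := t) (j := j) (by rwa [htσ, hσ]) (by rwa [htσ])
    (finrank_plus _) hab₀).resolve_left fun ⟨_, _, h'⟩ => refl_notMem_GOp hQ hR he hw
      (by simpa [ht] using h.mul_inv_mem_GOp hQ hR he h' htσ)
  obtain ⟨h4, h6⟩ := h'.package D (matRep _ (minusQF_apply m F₀ 1 a₀)) hQ h5
    GOp_le_GOs GOp_le_GOs (ZO_le_GOp he) (h'.ext_mem_GOp_iff hQ hR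
      ((h'.nd hQ).reflGen (Or.inr (by rw [finrank_minus]; omega))) he)
    hS (inndiag_minus_eq (by omega) hab₀)
    (by rw [hS]; exact map_normal_of_surjective (psi_surjective_plus hm) _) (α := g⁻¹) (x := x)
    (by rw [hxg]; simp [mul_assoc])
  generalize splitClassCount (inndiagPOmegaPlus (m + 1) F) _ x = N at h6 ⊢
  have key2 : p ≠ 2 → ∃ g : OG (plusQF (m + 1) F), (g ∈ commutator _ ↔
      (Odd (m + 1) ∧ p ^ (f / 2) % 4 = 1)) ∧
      (g ∈ commutator _ → N = 4) ∧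
      (g ∉ commutator _ → N = 2) := by
    intro hp
    have h2 := two_ne_zero_of_card hF hp
    obtain ⟨a, g, ha, hg, hc, hg'⟩ := exists_levi_graph (m := m + 1) hσ hj h2 0
    rw [← ht] at hc
    obtain ⟨μ, hμ⟩ := exists_unit_not_isSquare h2
    obtain ⟨z, hz, hz', -⟩ := exists_sq_plus (m + 1) μ
    have hn := negOne_mem_of_two (m := m + 1) hσ hj h2
    rw [← htσ] at hσ ha
    rw [← hz'] at hμ
    rw [hF₀] at hg'
    exact ⟨g, hg', fun h => h6.trans (h'.index_four hQ he h2 hσ ha hg hc hn hz hμ h),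
      fun h => h6.trans (h'.index_two hQ he h2 hσ ha hg hc hn hz hμ h)⟩
  refine ⟨even_iff_two_dvd.2 (hσ ▸ (card_fixF hF σ).1), fun y hy hy2 => ?_, ⟨1, a₀, hab₀, h4⟩,
    fun h7 => h6.trans ?_, fun h7 => ?_, fun h7 => ?_⟩
  · obtain ⟨k, hk, hyk⟩ := key y hy hy2
    exact ⟨k * g⁻¹, mul_mem hk (inv_mem hg), by rw [hxg, hyk]; simp [mul_assoc]⟩
  · subst h7
    rw [Subgroup.relIndex_eq_one, GOp_eq_ZO he (two_eq_zero_of_card hF)]; exact le_sup_left
  · obtain ⟨g, h8, h9, -⟩ := key2 h7.1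
    exact h9 (h8.2 h7.2)
  · obtain ⟨g, h8, -, h9⟩ := key2 h7.1
    exact h9 fun h => h7.2 (h8.1 h)

end Cfsg.Agent.S2717
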