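import Cfsg.Statements.S2718
import Mathlib
import Cfsg.Agent.KSG.AutOrth15

set_option autoImplicit false
open Cfsg

namespace Cfsg.Agent.S2718

open Cfsg.Agent.Class.Orth Cfsg.Agent.KSG Cfsg.Agent.KSG.SS QuadraticMap Module
set_option maxHeartbeats 1000000

/-- Let T = PΩ⁺_{2m}(F) with m ≥ 4 and |F| = q odd, G = Inndiag(T), and γ an involutory graph automorphism of T induced by a similarity (one interchanging the two classes of maximal totally singular subspaces). Then the G-class of γ is either a single T-class or the union of exactly two T-classes, and it is the union of two unless m is odd and q ≡ 3 (mod 4). -/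
theorem result {F : Type*} [Field F] [Fintype F] (hodd : Odd (Fintype.card F)) {m : ℕ} (hm : 4 ≤ m) (γ : MulAut (Cfsg.POmega F (Cfsg.quadFormPlus m F))) (hγ : Cfsg.IsSimilarityGraphAutPOmegaPlus m γ) (hγ2 : orderOf γ = 2) :
    (Cfsg.splitClassCount (Cfsg.inndiagPOmegaPlus m F) (Cfsg.Inn (Cfsg.POmega F (Cfsg.quadFormPlus m F))) γ = 1 ∨ Cfsg.splitClassCount (Cfsg.inndiagPOmegaPlus m F) (Cfsg.Inn (Cfsg.POmega F (Cfsg.quadFormPlus m F))) γ = 2) ∧ (¬ (Odd m ∧ Fintype.card F % 4 = 3) → Cfsg.splitClassCount (Cfsg.inndiagPOmegaPlus m F) (Cfsg.Inn (Cfsg.POmega F (Cfsg.quadFormPlus m F))) γ = 2) := by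
  have h2 := two_ne_zero_of_odd_card hodd
  have hQ := nd_plusQF m F
  obtain ⟨μ, hμ⟩ := exists_unit_not_isSquare h2
  obtain ⟨z, hz, hc, -⟩ := exists_sq_plus m μ
  have h7 : γ ^ 2 = 1 := by rw [← hγ2, pow_orderOf_eq_one]
  obtain ⟨g, h1, h3, h4⟩ := hγ
  obtain ⟨t, h5, ht⟩ := exists_SS_of_sim _ (plusQF_apply m F) h1
  rw [preserves_iff _ (plusQF_apply m F) hQ (KSG.reflGen_plus (by omega)) (finrank_plus m)
    (KSG.isPlus_plusQF m) g t ht h5] at h3
  obtain rfl := (isInduced_iff _ (plusQF_apply m F) h5 γ).1 h4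
  have h := OmegaRep.split_graph _ hQ (even_plus m) ht h2 h3 h7
    (by rw [finrank_plus]; omega) hz (hc ▸ hμ) (inndiag_plus_eq (by omega))
  exact ⟨h.1, fun h6 => h.2 (Or.inl ((negOne_mem_plus_iff h2 m).2 h6))⟩

end Cfsg.Agent.S2718
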