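import Cfsg.Statements.S2719
import Mathlib
import Cfsg.Agent.KSG.AutOrth15

set_option autoImplicit false
open Cfsg

namespace Cfsg.Agent.S2719

open Cfsg.Agent.Class.Orth Cfsg.Agent.KSG Cfsg.Agent.KSG.SS QuadraticMap Module
set_option maxHeartbeats 1000000

/-- Let T = PΩ⁻_{2m+2}(F) with m ≥ 3 and |F| = q odd (form with anisotropic binary part z₁² + a z₁ z₂ + b z₂²), G = Inndiag(T), and γ an involutory graph automorphism of T (an automorphism in the image of the semisimilarity group, not inner-diagonal, of order 2). Then the G-class of γ is either a single T-class or the union of exactly two T-classes, and it is the union of two unless m is even and q ≡ 1 (mod 4). -/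
theorem result {F : Type*} [Field F] [Fintype F] (hodd : Odd (Fintype.card F)) {m : ℕ} (hm : 3 ≤ m) (a b : F) (hab : (∀ z₁ z₂ : F, z₁ ^ 2 + a * z₁ * z₂ + b * z₂ ^ 2 = 0 → z₁ = 0 ∧ z₂ = 0)) (γ : MulAut (Cfsg.POmega F (Cfsg.quadFormMinus m F a b))) (hγ : Cfsg.IsGraphAutClassPOmegaMinus m a b γ) (hγ2 : orderOf γ = 2) :
    (Cfsg.splitClassCount (Cfsg.inndiagPOmegaMinus m F a b) (Cfsg.Inn (Cfsg.POmega F (Cfsg.quadFormMinus m F a b))) γ = 1 ∨ Cfsg.splitClassCount (Cfsg.inndiagPOmegaMinus m F a b) (Cfsg.Inn (Cfsg.POmega F (Cfsg.quadFormMinus m F a b))) γ = 2) ∧ (¬ (Even m ∧ Fintype.card F % 4 = 1) → Cfsg.splitClassCount (Cfsg.inndiagPOmegaMinus m F a b) (Cfsg.Inn (Cfsg.POmega F (Cfsg.quadFormMinus m F a b))) γ = 2) := by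
  have h2 := two_ne_zero_of_odd_card hodd
  have hQ := nd_minusQF m hab
  have h5 : 5 ≤ finrank F ((Fin m ⊕ Fin m) ⊕ Fin 2 → F) := by rw [finrank_minus]; omega
  obtain ⟨μ, hμ⟩ := exists_unit_not_isSquare h2
  obtain ⟨z, hz, hc, -⟩ := exists_sq_minus m hab μ
  have h1 : γ ^ 2 = 1 := orderOf_dvd_iff_pow_eq_one.1 hγ2.dvd
  obtain ⟨t, rfl⟩ := psi_surjective_minus hm hab γ
  have ht : t.σ = 1 := by_contra fun h => Nat.not_odd_iff_even.2 even_two
    (OmegaRep.exists_desc_minus _ hQ h5 h Nat.prime_two h1 (Class.QF.not_isPlus_of_equiv_minus hab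
      (LinearEquiv.refl F _) fun v => (minusQF_apply m F _ _ v).symm) (finrank_minus m)).1
  have h4 := inndiag_minus_eq (F := F) (m := m) (by omega) hab
  have h := OmegaRep.split_graph _ hQ (even_minus m) ht h2
    (fun h => hγ.2.1 (h4.ge (Subgroup.mem_map_of_mem _ h))) h1 h5 hz (hc ▸ hμ) h4
  refine ⟨h.1, fun h6 => h.2 ?_⟩
  rw [negOne_mem_minus_iff h2 m hab, finrank_minus, Nat.mul_div_cancel_left _ two_pos]
  rw [Nat.odd_iff] at hodd
  simp only [Nat.even_iff] at h6 ⊢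
  omega

end Cfsg.Agent.S2719
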