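import Cfsg.Statements.S2722
import Mathlib
import Cfsg.Agent.KSG.AutOrth8

set_option autoImplicit false
open Cfsg

namespace Cfsg.Agent.S2722

open Cfsg.Agent.Class.Orth Cfsg.Agent.KSG QuadraticMap

/-- Let T = PΩ⁺_{2m}(F) with m ≥ 4 and |F| = q odd. Inside Aut(T), the image G̃ of the conformal orthogonal group of the form modulo the image of the special orthogonal group is elementary abelian of order 4. -/
theorem result {F : Type*} [Field F] [Fintype F] (hodd : Odd (Fintype.card F)) {m : ℕ} (hm : 4 ≤ m) :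
    (∃ φ : ↥(Cfsg.pgoAut F (Cfsg.quadFormPlus m F)) →* Multiplicative (ZMod 2 × ZMod 2), Function.Surjective φ ∧ φ.ker = (Cfsg.psoAut F (Cfsg.quadFormPlus m F)).subgroupOf (Cfsg.pgoAut F (Cfsg.quadFormPlus m F))) := by
  have h2 := two_ne_zero_of_odd_card hodd
  obtain ⟨μ, hμ⟩ := exists_unit_not_isSquare h2
  obtain ⟨x, hx, hc, hx2⟩ := SS.exists_sq_plus m μ
  have := nontrivial_plus (F := F) (m := m) (by omega)
  have hQ := nd_plusQF m F
  have h5 : 5 ≤ Module.finrank F (Fin m ⊕ Fin m → F) := by rw [finrank_plus]; omega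
  have he := even_plus (F := F) m
  let D := matRep _ (plusQF_apply m F)
  have hπ := D.ker_out hQ h5
  exact D.exists_hom_klein hQ h5 h2 he hx (hc ▸ hμ) (pgoAut_eq _ _) (psoAut_eq _ _)

end Cfsg.Agent.S2722
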