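import Cfsg.Statements.S2723
import Mathlib
import Cfsg.Agent.KSG.AutOrth8

set_option autoImplicit false
open Cfsg

namespace Cfsg.Agent.S2723

open Cfsg.Agent.Class.Orth Cfsg.Agent.KSG QuadraticMap

/-- Let T = PΩ⁺_{2m}(F) with m ≥ 4 and |F| = q odd. The image of the special orthogonal group in Aut(T) contains the inner automorphism group T with index 1 (they coincide) when m is odd and q ≡ 3 (mod 4), and with index 2 otherwise (the index is 2 exactly when the discriminant of the form is a square). -/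
theorem result {F : Type*} [Field F] [Fintype F] (hodd : Odd (Fintype.card F)) {m : ℕ} (hm : 4 ≤ m) :
    ((Odd m ∧ Fintype.card F % 4 = 3) → (Cfsg.Inn (Cfsg.POmega F (Cfsg.quadFormPlus m F))).relIndex (Cfsg.psoAut F (Cfsg.quadFormPlus m F)) = 1) ∧ (¬ (Odd m ∧ Fintype.card F % 4 = 3) → (Cfsg.Inn (Cfsg.POmega F (Cfsg.quadFormPlus m F))).relIndex (Cfsg.psoAut F (Cfsg.quadFormPlus m F)) = 2) := by
  have h2 := two_ne_zero_of_odd_card hodd
  obtain ⟨μ, hμ⟩ := exists_unit_not_isSquare h2
  obtain ⟨x, hx, hc, hx2⟩ := SS.exists_sq_plus m μ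
  have := nontrivial_plus (F := F) (m := m) (by omega)
  have hQ := nd_plusQF m F
  have h5 : 5 ≤ Module.finrank F (Fin m ⊕ Fin m → F) := by rw [finrank_plus]; omega
  have he := even_plus (F := F) m
  let D := matRep _ (plusQF_apply m F)
  have hπ := D.ker_out hQ h5
  rw [psoAut_eq _ (plusQF_apply m F), D.relIndex_inn hQ h5 SS.ZO_le_ZSO, ← not_not (a := Odd m ∧ _),
    ← negOne_mem_plus_iff h2, not_not]
  exact ⟨fun h => by rw [SS.ZSO_eq_ZO hQ h2 he h, Subgroup.relIndex_self],
    SS.relIndex_ZO_ZSO hQ h2 (by omega)⟩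

end Cfsg.Agent.S2723
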