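import Cfsg.Statements.S2724
import Mathlib
import Cfsg.Agent.KSG.AutOrth8

set_option autoImplicit false
open Cfsg

namespace Cfsg.Agent.S2724

open Cfsg.Agent.Class.Orth Cfsg.Agent.KSG QuadraticMap

/-- Let T = PΩ⁺_{2m}(F) with m ≥ 4 and |F| = q odd. The image G̃ of the conformal orthogonal group in Aut(T), taken modulo the inner automorphism group T, is elementary abelian of order 4 when m is odd and q ≡ 3 (mod 4), and dihedral of order 8 otherwise. -/
theorem result {F : Type*} [Field F] [Fintype F] (hodd : Odd (Fintype.card F)) {m : ℕ} (hm : 4 ≤ m) :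
    ((Odd m ∧ Fintype.card F % 4 = 3) → (∃ φ : ↥(Cfsg.pgoAut F (Cfsg.quadFormPlus m F)) →* Multiplicative (ZMod 2 × ZMod 2), Function.Surjective φ ∧ φ.ker = (Cfsg.Inn (Cfsg.POmega F (Cfsg.quadFormPlus m F))).subgroupOf (Cfsg.pgoAut F (Cfsg.quadFormPlus m F)))) ∧ (¬ (Odd m ∧ Fintype.card F % 4 = 3) → (∃ φ : ↥(Cfsg.pgoAut F (Cfsg.quadFormPlus m F)) →* DihedralGroup 4, Function.Surjective φ ∧ φ.ker = (Cfsg.Inn (Cfsg.POmega F (Cfsg.quadFormPlus m F))).subgroupOf (Cfsg.pgoAut F (Cfsg.quadFormPlus m F)))) := by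
  have h2 := two_ne_zero_of_odd_card hodd
  obtain ⟨μ, hμ⟩ := exists_unit_not_isSquare h2
  obtain ⟨x, hx, hc, hx2⟩ := SS.exists_sq_plus m μ
  have := nontrivial_plus (F := F) (m := m) (by omega)
  have hQ := nd_plusQF m F
  have h5 : 5 ≤ Module.finrank F (Fin m ⊕ Fin m → F) := by rw [finrank_plus]; omega
  have he := even_plus (F := F) m
  let D := matRep _ (plusQF_apply m F)
  have hπ := D.ker_out hQ h5
  have h3 := negOne_mem_plus_iff h2 m
  have h4 := pgoAut_eq _ (plusQF_apply m F)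
  exact ⟨fun h => D.exists_hom hQ h5 h4 (SS.GOs_equiv_klein hQ h2 he hπ hμ hx hc fun h' => h3.1 h' h),
    fun h => D.exists_hom hQ h5 h4 (SS.GOs_equiv_dihedral hQ h2 he hπ hμ hx hc hx2 (h3.2 h))⟩

end Cfsg.Agent.S2724
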