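import Cfsg.Statements.S2726
import Mathlib
import Cfsg.Agent.KSG.AutOrth8

set_option autoImplicit false
open Cfsg

namespace Cfsg.Agent.S2726

open Cfsg.Agent.Class.Orth Cfsg.Agent.KSG QuadraticMap

/-- Let T = PΩ⁻_{2m+2}(F) with m ≥ 3 and |F| = q odd (form with anisotropic binary part). Inside Aut(T), the image G̃ of the conformal orthogonal group of the form modulo the image of the special orthogonal group is elementary abelian of order 4. -/
theorem result {F : Type*} [Field F] [Fintype F] (hodd : Odd (Fintype.card F)) {m : ℕ} (hm : 3 ≤ m) (a b : F) (hab : (∀ z₁ z₂ : F, z₁ ^ 2 + a * z₁ * z₂ + b * z₂ ^ 2 = 0 → z₁ = 0 ∧ z₂ = 0)) :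
    (∃ φ : ↥(Cfsg.pgoAut F (Cfsg.quadFormMinus m F a b)) →* Multiplicative (ZMod 2 × ZMod 2), Function.Surjective φ ∧ φ.ker = (Cfsg.psoAut F (Cfsg.quadFormMinus m F a b)).subgroupOf (Cfsg.pgoAut F (Cfsg.quadFormMinus m F a b))) := by
  have h2 := two_ne_zero_of_odd_card hodd
  obtain ⟨μ, hμ⟩ := exists_unit_not_isSquare h2
  obtain ⟨x, hx, hc, hx2⟩ := SS.exists_sq_minus m hab μ
  have hQ := nd_minusQF m hab
  have h5 : 5 ≤ Module.finrank F ((Fin m ⊕ Fin m) ⊕ Fin 2 → F) := by rw [finrank_minus]; omega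
  have he := even_minus (F := F) m
  let D := matRep _ (minusQF_apply m F a b)
  have hπ := D.ker_out hQ h5
  exact D.exists_hom_klein hQ h5 h2 he hx (hc ▸ hμ) (pgoAut_eq _ _) (psoAut_eq _ _)

end Cfsg.Agent.S2726
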