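import Cfsg.Statements.S2729
import Mathlib
import Cfsg.Agent.KSG.AutOrth9

set_option autoImplicit false
open Cfsg

namespace Cfsg.Agent.S2729

open Cfsg.Agent.Class.Orth Cfsg.Agent.KSG QuadraticMap

set_option maxHeartbeats 1000000


/-- Let T = PΩ⁻_{2m+2}(F) with m ≥ 3 and |F| = q odd (form with anisotropic binary part). The inner-diagonal group G = Inndiag(T) (image of the class-preserving similarities) taken modulo the inner automorphism group T is cyclic of order 4 when m is even and q ≡ 3 (mod 4), and of order 2 otherwise. -/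
theorem result {F : Type*} [Field F] [Fintype F] (hodd : Odd (Fintype.card F)) {m : ℕ} (hm : 3 ≤ m) (a b : F) (hab : (∀ z₁ z₂ : F, z₁ ^ 2 + a * z₁ * z₂ + b * z₂ ^ 2 = 0 → z₁ = 0 ∧ z₂ = 0)) :
    ((Even m ∧ Fintype.card F % 4 = 3) → (∃ φ : ↥(Cfsg.inndiagPOmegaMinus m F a b) →* Multiplicative (ZMod 4), Function.Surjective φ ∧ φ.ker = (Cfsg.Inn (Cfsg.POmega F (Cfsg.quadFormMinus m F a b))).subgroupOf (Cfsg.inndiagPOmegaMinus m F a b))) ∧ (¬ (Even m ∧ Fintype.card F % 4 = 3) → (∃ φ : ↥(Cfsg.inndiagPOmegaMinus m F a b) →* Multiplicative (ZMod 2), Function.Surjective φ ∧ φ.ker = (Cfsg.Inn (Cfsg.POmega F (Cfsg.quadFormMinus m F a b))).subgroupOf (Cfsg.inndiagPOmegaMinus m F a b))) := by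
  have h2 := two_ne_zero_of_odd_card hodd
  obtain ⟨μ, hμ⟩ := exists_unit_not_isSquare h2
  obtain ⟨x, hx, hc, hx2⟩ := SS.exists_sq_minus m hab μ
  have hQ := nd_minusQF m hab
  have h5 : 5 ≤ Module.finrank F ((Fin m ⊕ Fin m) ⊕ Fin 2 → F) := by rw [finrank_minus]; omega
  have he := even_minus (F := F) m
  let D := matRep _ (minusQF_apply m F a b)
  have hπ := D.ker_out hQ h5
  have h3 : Module.finrank F ((Fin m ⊕ Fin m) ⊕ Fin 2 → F) / 2 = m + 1 := by
    rw [finrank_minus]; omega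
  have h4 := inndiag_minus_eq (F := F) (m := m) (by omega) hab
  refine ⟨fun h => D.exists_hom hQ h5 h4 (SS.GOp_equiv_cyclic hQ h2 he hπ hμ hx hc hx2
      ((negOne_mem_minus_iff h2 m hab).2 h) (h3.symm ▸ h.1.add_one)),
    fun h => D.exists_hom hQ h5 h4 (nonempty_equiv_zmod_two (SS.card_GOp_of_notMem hQ h2 he hπ hμ
    hx hc (by rwa [negOne_mem_minus_iff h2 m hab])))⟩

end Cfsg.Agent.S2729
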