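import Cfsg.Statements.S2734
import Cfsg.Agent.Chev.FoldInst
-- import your own Cfsg.Agent.* helpers here

set_option autoImplicit false
open Cfsg

namespace Cfsg.Agent.S2734

attribute [local instance] Chev.goodD4 Chev.goodG2

theorem isGraph_sq {F : Type*} [Field F] {π : Equiv.Perm (Fin Lie.chevD4.rank)}
    {τ : MulAut (Lie.chevD4.group F)} (h : Chev.IsGraph Lie.chevD4 π τ) :
    Chev.IsGraph Lie.chevD4 (π * π) (τ * τ) := by
  rw [Chev.isGraph_iff_of_symm Chev.cm_symm_D4] at h ⊢
  intro i t
  simp [h]


/-- In the Chevalley group of type D₄ over a finite field F (the matrix group generated by the root elements), a graph automorphism attached to a symmetry π of the Dynkin diagram (sending each fundamental root element x_p(t) to x_{π(p)}(t) and each x_{−p}(t) to x_{−π(p)}(t)) that has order 3 — a standard triality graph automorphism, π being a 3-cycle of the three outer nodes — has fixed-point subgroup isomorphic to the Chevalley group of type G₂ over F. -/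
theorem result {F : Type*} [Field F] [Fintype F] (τ : MulAut ↥(Cfsg.Lie.chevD4.group F)) (hτ : Cfsg.Lie.chevD4.IsGraphAut τ) (hτ3 : orderOf τ = 3) :
    Nonempty (↥(MonoidHom.eqLocus τ.toMonoidHom (MonoidHom.id ↥(Cfsg.Lie.chevD4.group F))) ≃* ↥(Cfsg.Lie.chevG2.group F)) := by
  obtain ⟨π, h2, h3⟩ := Chev.isGraphAut_iff.mp hτ
  obtain ⟨Φ, h4, -, h5⟩ := Chev.exists_G2_D4 (F := F)
  have key : π * π ≠ 1 := fun e => by
    have : τ ^ 2 = 1 := by
      rw [sq]; exact (e ▸ isGraph_sq h3 :).unique Chev.rootTableD4 Chev.isGraph_one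
    exact absurd (hτ3 ▸ orderOf_dvd_of_pow_eq_one this) (by decide)
  have h6 : π = Chev.rotD4 ∨ π * π = Chev.rotD4 := by
    clear h3
    revert π
    decide +kernel
  refine ⟨(MulEquiv.subgroupCongr (Subgroup.ext fun g => ?_)).trans (MonoidHom.ofInjective h4).symm⟩
  rcases h6 with rfl | e
  · exact h5 τ h3 g
  · refine Iff.trans ⟨fun h => ?_, fun h => ?_⟩ (h5 (τ * τ) (e ▸ isGraph_sq h3) g)
    · have h : τ g = g := h
      rw [MulAut.mul_apply, h, h]
    · have e3 : τ * (τ * τ) = 1 := by rw [← pow_three, ← hτ3, pow_orderOf_eq_one]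
      change τ g = g
      conv_lhs => rw [← h, ← MulAut.mul_apply, e3, MulAut.one_apply]

end Cfsg.Agent.S2734
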