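import Cfsg.Statements.S2735
import Mathlib
import Cfsg.Agent.KSG.AutOrth12

set_option autoImplicit false
open Cfsg

namespace Cfsg.Agent.S2735

open Cfsg.Agent.Class.Orth Cfsg.Agent.KSG Cfsg.Agent.KSG.SS QuadraticMap Module
set_option maxHeartbeats 1000000

/-- Let T = Ω_{2m+1}(F) (m ≥ 3, |F| odd) and x a field automorphism of T of prime order r. Then an element y of the coset Inndiag(T)·x (y = δ x with δ induced by a similarity of the form) has order r if and only if y is conjugate to x by an element of Inndiag(T). (T has no graph or graph-field automorphisms.) -/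
theorem result {F : Type*} [Field F] [Fintype F] (hodd : Odd (Fintype.card F)) {m : ℕ} (hm : 3 ≤ m) (x δ : MulAut (Cfsg.POmega F (Cfsg.quadFormOdd m F))) (hx : Cfsg.IsFieldAutClassPOmega (Cfsg.quadFormOdd m F) x) {r : ℕ} (hr : r.Prime) (hxr : orderOf x = r) (hδ : δ ∈ Cfsg.inndiagPOmegaOdd m F) :
    orderOf (δ * x) = r ↔ Cfsg.IsConjUnder (Cfsg.inndiagPOmegaOdd m F) x (δ * x) := by
  have h2 := two_ne_zero_of_odd_card hodd
  obtain ⟨α, σ, hσ, h1⟩ := exists_of_fieldClass _ (oddQF_apply m F) (map_oddQF m) hx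
  obtain ⟨y, hy⟩ := OmegaRep.exists_of_conj _ (psi_surjective_odd h2 hm) h1
  exact OmegaRep.coset_odd _ (nd_oddQF m F h2) (by rw [finrank_odd]; omega) (conj_σ_ne_one hσ y) hr hy
    hxr hδ (finrank_odd (F := F) m ▸ odd_two_mul_add_one m) (inndiag_odd_eq m)

end Cfsg.Agent.S2735
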