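import Cfsg.Statements.S2736
import Mathlib
import Cfsg.Agent.KSG.AutOrth12

set_option autoImplicit false
open Cfsg

namespace Cfsg.Agent.S2736

open Cfsg.Agent.Class.Orth Cfsg.Agent.KSG Cfsg.Agent.KSG.SS QuadraticMap Module
set_option maxHeartbeats 1000000

/-- Let T = PΩ⁺_{2m}(F) with m ≥ 5 (dimension ≠ 8) and x a field automorphism or a graph-field automorphism of T of prime order r. Then an element y of the coset Inndiag(T)·x (y = δ x with δ induced by a class-preserving similarity) has order r if and only if y is conjugate to x by an element of Inndiag(T). -/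
theorem result {F : Type*} [Field F] [Fintype F] {m : ℕ} (hm : 5 ≤ m) (x δ : MulAut (Cfsg.POmega F (Cfsg.quadFormPlus m F))) (hx : Cfsg.IsFieldAutClassPOmega (Cfsg.quadFormPlus m F) x ∨ Cfsg.IsGraphFieldAutClassPOmegaPlus m x) {r : ℕ} (hr : r.Prime) (hxr : orderOf x = r) (hδ : δ ∈ Cfsg.inndiagPOmegaPlus m F) :
    orderOf (δ * x) = r ↔ Cfsg.IsConjUnder (Cfsg.inndiagPOmegaPlus m F) x (δ * x) := by
  obtain ⟨α, t, ht, h1⟩ : ∃ α, ∃ t : SS (plusQF m F), t.σ ≠ 1 ∧
      α * x * α⁻¹ = (matRep _ (plusQF_apply m F)).psi t := by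
    rcases hx with hx | hx
    · obtain ⟨α, σ, hσ, h1⟩ := exists_of_fieldClass _ (plusQF_apply m F) (map_plusQF m) hx
      exact ⟨α, _, hσ, h1⟩
    · obtain ⟨α, σ, v, hσ, -, h1⟩ := exists_of_graphField hx
      exact ⟨α, _, by simpa [fieldSS] using hσ, h1⟩
  obtain ⟨y, hy⟩ := OmegaRep.exists_of_conj _ (psi_surjective_plus hm) h1
  exact OmegaRep.coset_even _ (nd_plusQF m F) (by rw [finrank_plus]; omega) (conj_σ_ne_one ht y) hr hy
    hxr hδ (even_plus m) (inndiag_plus_eq (by omega))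

end Cfsg.Agent.S2736
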