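import Cfsg.Statements.S2738
import Mathlib
import Cfsg.Agent.Class.LinearBasic

set_option autoImplicit false
open Cfsg

namespace Cfsg.Agent.S2738

/-- The special linear group SL(3, 4) has centre of order 3 and does not split over it: no subgroup is a complement to the centre (so SL(3, 4) is a non-split central extension of PSL(3, 4) by a group of order 3). -/
theorem result (F : Type*) [Field F] [Fintype F] (hF : Fintype.card F = 4) : Nat.card ↥(Subgroup.center (Matrix.SpecialLinearGroup (Fin 3) F)) = 3 ∧ ¬ ∃ K : Subgroup (Matrix.SpecialLinearGroup (Fin 3) F), Subgroup.IsComplement' (Subgroup.center (Matrix.SpecialLinearGroup (Fin 3) F)) K := by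
  classical
  have hc : Nat.card (Subgroup.center (Matrix.SpecialLinearGroup (Fin 3) F)) = 3 := by
    rw [Class.card_center_SL, Nat.card_eq_fintype_card, hF]; simp
  refine ⟨hc, ?_⟩
  rintro ⟨K, hK⟩
  have hp := Class.SL_commutator_eq_top (ι := Fin 3) (F := F) (by simp)
  have h1 : commutator (Matrix.SpecialLinearGroup (Fin 3) F) ≤ K := by
    rw [commutator_def, Subgroup.commutator_le]
    intro a _ b _
    obtain ⟨⟨⟨z, hz⟩, ⟨x, hx⟩⟩, rfl⟩ := hK.2 a
    obtain ⟨⟨⟨w, hw⟩, ⟨y, hy⟩⟩, rfl⟩ := hK.2 b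
    have e : z * x * (w * y) * (z * x)⁻¹ * (w * y)⁻¹ = x * y * x⁻¹ * y⁻¹ := by
      have hz' := Subgroup.mem_center_iff.1 hz
      have hw' := Subgroup.mem_center_iff.1 hw
      calc z * x * (w * y) * (z * x)⁻¹ * (w * y)⁻¹ = z * (x * w * y * x⁻¹) * z⁻¹ * y⁻¹ * w⁻¹ := by group
        _ = x * w * y * x⁻¹ * y⁻¹ * w⁻¹ := by rw [← hz']; group
        _ = w * (x * y * x⁻¹ * y⁻¹) * w⁻¹ := by rw [hw' x]; group
        _ = _ := by rw [← hw']; group
    change z * x * (w * y) * (z * x)⁻¹ * (w * y)⁻¹ ∈ K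
    rw [e]
    exact K.mul_mem (K.mul_mem (K.mul_mem hx hy) (K.inv_mem hx)) (K.inv_mem hy)
  rw [hp, top_le_iff] at h1
  have h2 := hK.disjoint
  rw [h1, disjoint_top] at h2
  rw [h2] at hc
  simp at hc

end Cfsg.Agent.S2738
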