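import Cfsg.Statements.S2739
import Mathlib
import Cfsg.Agent.KSG.PrimeOrder

set_option autoImplicit false
open scoped Pointwise
open Cfsg

namespace Cfsg.Agent.S2739

open Polynomial in
theorem aux {F : Type*} [Field F] [Fintype F] (hF : Fintype.card F = 4)
    (g : Matrix.SpecialLinearGroup (Fin 3) F) (hg : g ∉ Subgroup.center _)
    (h3 : g ^ 3 ∈ Subgroup.center _) :
    aeval (g : Matrix (Fin 3) (Fin 3) F) (X ^ 3 - C 1 : F[X]) = 0 ∧
      (g : Matrix (Fin 3) (Fin 3) F).charpoly = X ^ 3 - C 1 := by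
  classical
  have hcube : ∀ a : F, a ≠ 0 → a ^ 3 = 1 := fun a ha => by
    have := FiniteField.pow_card_sub_one_eq_one a ha
    rwa [hF] at this
  have h2 : (2 : F) = 0 := by
    have := FiniteField.cast_card_eq_zero F
    rw [hF] at this
    have h4 : (2 : F) ^ 2 = 0 := by rw [← this]; norm_num
    exact pow_eq_zero_iff (two_ne_zero) |>.1 h4
  obtain ⟨c, hc1, hc⟩ := Matrix.SpecialLinearGroup.mem_center_iff.1 h3
  set A : Matrix (Fin 3) (Fin 3) F := g.1 with hA
  have hA3 : A ^ 3 = c • (1 : Matrix (Fin 3) (Fin 3) F) := by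
    rw [hA, ← Matrix.SpecialLinearGroup.coe_pow, ← hc]
    ext i j; simp [Matrix.diagonal_apply, Matrix.one_apply]
  have hd := (KSG.pow_eq_smul_one_iff_mdiv A 3 c).1 hA3
  have hsum := KSG.sum_natDegree_mdiv A
  have hprod := KSG.prod_mdiv A
  have hdet : A.charpoly.coeff 0 = -1 := by
    have := Matrix.det_eq_sign_charpoly_coeff A
    rw [g.2] at this
    simp at this
    linear_combination this
  have hc0 : c ≠ 0 := by rintro rfl; simp at hc1
  by_cases hc2 : c = 1
  · subst hc2
    refine ⟨(KSG.aeval_eq_zero_iff_mdiv _ _).2 hd, ?_⟩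
    have hsq : Squarefree (X ^ 3 - C 1 : F[X]) := by
      refine (X_pow_sub_one_separable_iff.2 ?_).squarefree
      rw [show ((3 : ℕ) : F) = 1 by linear_combination h2]; exact one_ne_zero
    have hlin : ∀ b ∈ KSG.mdiv A, ∃ a : F, a ≠ 0 ∧ b = X - C a := fun b hb => by
      have hirr := (KSG.isPP_of_mem_mdiv hb).irreducible_of_dvd_squarefree hsq (hd b hb)
      have h5 : b ∣ X ^ Fintype.card F - X := (hd b hb).trans ⟨X, by rw [hF]; simp; ring⟩
      have h6 := prod_multiset_X_sub_C_of_monic_of_roots_card_eq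
        (monic_X_pow_sub (R := F) (n := Fintype.card F) (p := X) (by rw [hF]; simp))
        (by rw [FiniteField.roots_X_pow_card_sub_X, FiniteField.X_pow_card_sub_X_natDegree_eq F
          Fintype.one_lt_card]; rfl)
      rw [← h6] at h5
      obtain ⟨a, -, ha⟩ := hirr.prime.exists_mem_multiset_map_dvd h5
      have hb2 := eq_of_monic_of_associated (KSG.isPP_of_mem_mdiv hb).monic (monic_X_sub_C a)
        (hirr.associated_of_dvd (irreducible_X_sub_C a) ha)
      refine ⟨a, fun h0 => ?_, hb2⟩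
      have := hd b hb
      rw [hb2, dvd_iff_isRoot, h0] at this
      simp at this
    have hcard : Multiset.card (KSG.mdiv A) = 3 := by
      rw [Multiset.map_congr rfl (g := fun _ => 1) fun b hb => by
        obtain ⟨a, -, rfl⟩ := hlin b hb; exact natDegree_X_sub_C a] at hsum
      simpa using hsum
    obtain ⟨b1, b2, b3, hb⟩ := Multiset.card_eq_three.1 hcard
    obtain ⟨a1, h1, rfl⟩ := hlin b1 (by simp [hb])
    obtain ⟨a2, h2', rfl⟩ := hlin b2 (by simp [hb])
    obtain ⟨a3, h3', rfl⟩ := hlin b3 (by simp [hb])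
    have hp : A.charpoly = (X - C a1) * ((X - C a2) * (X - C a3)) := by rw [← hprod, hb]; simp
    have hdet2 : a1 * a2 * a3 = 1 := by
      rw [hp, coeff_zero_eq_eval_zero] at hdet
      simp at hdet
      linear_combination hdet
    have hne : ¬ (a1 = a2 ∧ a2 = a3) := by
      rintro ⟨rfl, rfl⟩
      apply hg
      have h6 := (KSG.pow_eq_smul_one_iff_mdiv A 1 a1).2 (by simp [hb])
      refine Matrix.SpecialLinearGroup.mem_center_iff.2 ⟨a1, by simpa using hcube a1 h1, ?_⟩
      rw [← hA, ← pow_one A, h6]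
      ext i j; simp [Matrix.diagonal_apply, Matrix.one_apply]
    have e1 := hcube a1 h1
    have e2 := hcube a2 h2'
    have e3 := hcube a3 h3'
    have h12 : a1 ≠ a2 := by
      rintro rfl
      exact hne ⟨rfl, by linear_combination (-a1) * hdet2 + a3 * e1⟩
    have k1 : a1 ^ 2 + a1 * a2 + a2 ^ 2 = 0 :=
      mul_left_cancel₀ (sub_ne_zero.2 h12) (by linear_combination e1 - e2)
    have k3 : a3 = a1 ^ 2 * a2 ^ 2 := by
      linear_combination (a1 ^ 2 * a2 ^ 2) * hdet2 - a3 * a2 ^ 3 * e1 - a3 * e2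
    have s1 : a1 + a2 + a3 = 0 := by
      refine mul_left_cancel₀ (mul_ne_zero h1 h2') ?_
      rw [k3]
      linear_combination a1 * k1 + (a2 ^ 3 - 1) * e1 + e2
    have s2 : a1 * a2 + a1 * a3 + a2 * a3 = 0 := by
      linear_combination (a1 + a2) * s1 - k1
    rw [hp]
    have s1' := congrArg C s1
    have s2' := congrArg C s2
    have s3' := congrArg C hdet2
    simp only [map_add, map_mul, map_zero, map_one] at s1' s2' s3' ⊢
    linear_combination (-X ^ 2) * s1' + X * s2' - s3'
  · exfalso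
    have hirr : Irreducible (X ^ 3 - C c : F[X]) := by
      refine (irreducible_iff_roots_eq_zero_of_degree_le_three ?_ ?_).2 ?_
      · rw [natDegree_X_pow_sub_C]; omega
      · rw [natDegree_X_pow_sub_C]
      · refine Multiset.eq_zero_of_forall_notMem fun a ha => ?_
        have := (mem_roots'.1 ha).2
        simp only [IsRoot, eval_sub, eval_pow, eval_X, eval_C, sub_eq_zero] at this
        exact hc2 (this ▸ hcube a (by rintro rfl; exact hc0 (by simpa using this.symm)))
    have hall : ∀ b ∈ KSG.mdiv A, b = X ^ 3 - C c := fun b hb =>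
      eq_of_monic_of_associated (KSG.isPP_of_mem_mdiv hb).monic (monic_X_pow_sub_C c (by omega))
        (((KSG.isPP_of_mem_mdiv hb).irreducible_of_dvd_squarefree hirr.squarefree
          (hd b hb)).associated_of_dvd hirr (hd b hb))
    have h7 : KSG.mdiv A = Multiset.replicate (Multiset.card (KSG.mdiv A)) (X ^ 3 - C c) :=
      Multiset.eq_replicate.2 ⟨rfl, hall⟩
    have h8 : Multiset.card (KSG.mdiv A) = 1 := by
      rw [h7] at hsum
      simp at hsum
      omega
    rw [h7, h8] at hprod
    rw [← hprod] at hdet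
    simp at hdet
    exact hc2 hdet

/-- In the projective special linear group PSL(3, 4) all subgroups of order 3 are conjugate. -/
theorem result (F : Type*) [Field F] [Fintype F] (hF : Fintype.card F = 4) (X Y : Subgroup (Matrix.ProjectiveSpecialLinearGroup (Fin 3) F)) (hX : Nat.card ↥X = 3) (hY : Nat.card ↥Y = 3) : ∃ g : Matrix.ProjectiveSpecialLinearGroup (Fin 3) F, MulAut.conj g • X = Y := by
  classical
  have := Fact.mk Nat.prime_three
  have key : ∀ X : Subgroup (Matrix.ProjectiveSpecialLinearGroup (Fin 3) F), Nat.card X = 3 →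
      ∃ g : Matrix.SpecialLinearGroup (Fin 3) F, g ∉ Subgroup.center _ ∧ g ^ 3 ∈ Subgroup.center _ ∧
        X = Subgroup.zpowers (QuotientGroup.mk g) := fun X hX => by
    have : Finite X := Nat.finite_of_card_ne_zero (by omega)
    obtain ⟨x, hx⟩ := exists_prime_orderOf_dvd_card' (G := X) 3 (by rw [hX])
    obtain ⟨g, hg⟩ := QuotientGroup.mk_surjective x.1
    have hx' : orderOf (QuotientGroup.mk g : Matrix.ProjectiveSpecialLinearGroup (Fin 3) F) = 3 := by
      rw [hg, Subgroup.orderOf_coe, hx]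
    refine ⟨g, fun h => ?_, ?_, ?_⟩
    · rw [(QuotientGroup.eq_one_iff g).2 h] at hx'
      simp at hx'
    · rw [← QuotientGroup.eq_one_iff, QuotientGroup.mk_pow]
      exact orderOf_dvd_iff_pow_eq_one.1 (by rw [hx'])
    · refine (Subgroup.eq_of_le_of_card_ge (by rw [hg]; simp) ?_).symm
      rw [Nat.card_zpowers, hx', hX]
  obtain ⟨a, a1, a2, rfl⟩ := key X hX
  obtain ⟨b, b1, b2, rfl⟩ := key Y hY
  obtain ⟨a3, a4⟩ := aux hF a a1 a2
  obtain ⟨b3, b4⟩ := aux hF b b1 b2
  have hsq : Squarefree (Polynomial.X ^ 3 - Polynomial.C 1 : Polynomial F) := by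
    refine (Polynomial.X_pow_sub_one_separable_iff.2 fun h => ?_).squarefree
    have h4 := FiniteField.cast_card_eq_zero F
    rw [hF] at h4
    exact one_ne_zero (α := F) (by push_cast at h h4; linear_combination h4 - h)
  obtain ⟨c, hc⟩ := KSG.exists_mem_mdiv (a : Matrix (Fin 3) (Fin 3) F)
  obtain ⟨g, hg⟩ := isConj_iff.1 (KSG.SL_isConj_of_irreducible_mem hc
    ((KSG.isPP_of_mem_mdiv hc).irreducible_of_dvd_squarefree hsq
      ((KSG.aeval_eq_zero_iff_mdiv _ _).1 a3 c hc))
    (KSG.isConj_of_squarefree_of_charpoly hsq hsq a3 b3 (a4.trans b4.symm)))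
  refine ⟨QuotientGroup.mk g, ?_⟩
  rw [← hg]
  exact MonoidHom.map_zpowers _ _

end Cfsg.Agent.S2739
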