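import Cfsg.Statements.S2762
import Mathlib
import Cfsg.Agent.PLocal.QdStruct

set_option autoImplicit false
open Cfsg

namespace Cfsg.Agent.S2762

open Cfsg.Agent.PLocal Cfsg.Agent.PLocal.Qd Subgroup

/-- The translation group as the additive group of column vectors. -/
noncomputable def trEquiv {F : Type*} [Field F] : (Fin 2 → F) ≃+ Additive (V F) :=
  AddEquiv.ofBijective (AddMonoidHom.mk' (fun v => Additive.ofMul ⟨aff 1 v, aff_mem_V.2 rfl⟩)
    fun v w => congrArg Additive.ofMul (Subtype.ext (tr_mul v w).symm))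
    ⟨fun v w h => (aff_inj.1 (congrArg Subtype.val (Additive.ofMul.injective h))).2,
      fun x => (mem_V.1 (Additive.toMul x).2).elim fun v hv =>
        ⟨v, congrArg Additive.ofMul (Subtype.ext hv)⟩⟩

theorem exists_tr {F : Type*} [Field F] : ∃ ψ : Additive (V F) ≃+ (Fin 2 → F),
    ∀ v, ψ (Additive.ofMul ⟨aff 1 v, aff_mem_V.2 rfl⟩) = v :=
  ⟨trEquiv.symm, fun v => trEquiv.symm_apply_apply v⟩


/-- Structure of Qd over a finite field F of characteristic p (the affine subgroup of SL₃(F)): its largest normal p-subgroup is the group of translations (matrices with upper-left block the identity), the block-diagonal matrices form a complement isomorphic to SL₂(F), and the translation subgroup is a natural SL₂(F)-module for that complement. -/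
theorem result {F : Type*} [Field F] [Fintype F] {p : ℕ} [Fact p.Prime] [CharP F p] : (∀ M : ↥(Cfsg.qdOver F), M ∈ Cfsg.pCore p ↥(Cfsg.qdOver F) ↔ ((M : Matrix.SpecialLinearGroup (Fin 3) F) : Matrix (Fin 3) (Fin 3) F) 0 0 = 1 ∧ ((M : Matrix.SpecialLinearGroup (Fin 3) F) : Matrix (Fin 3) (Fin 3) F) 0 1 = 0 ∧ ((M : Matrix.SpecialLinearGroup (Fin 3) F) : Matrix (Fin 3) (Fin 3) F) 1 0 = 0 ∧ ((M : Matrix.SpecialLinearGroup (Fin 3) F) : Matrix (Fin 3) (Fin 3) F) 1 1 = 1) ∧ ∃ K : Subgroup ↥(Cfsg.qdOver F), (∀ M : ↥(Cfsg.qdOver F), M ∈ K ↔ ((M : Matrix.SpecialLinearGroup (Fin 3) F) : Matrix (Fin 3) (Fin 3) F) 0 2 = 0 ∧ ((M : Matrix.SpecialLinearGroup (Fin 3) F) : Matrix (Fin 3) (Fin 3) F) 1 2 = 0) ∧ K ⊓ Cfsg.pCore p ↥(Cfsg.qdOver F) = ⊥ ∧ K ⊔ Cfsg.pCore p ↥(Cfsg.qdOver F) = ⊤ ∧ Nonempty (↥K ≃* Matrix.SpecialLinearGroup (Fin 2) F) ∧ Cfsg.IsNaturalSL2Module F (Cfsg.pCore p ↥(Cfsg.qdOver F)) K := by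
  rw [pCore_eq]
  have hinf : (blk (F := F)).range ⊓ V F = ⊥ := by
    rw [eq_bot_iff]
    rintro x ⟨⟨A, rfl⟩, hx'⟩
    rw [mem_bot, blk_apply, aff_mem_V.1 hx', aff_one]
  refine ⟨fun M => ?_, blk.range, fun M => ?_, hinf, ?_, ⟨(MonoidHom.ofInjective blk_injective).symm⟩,
    le_normalizer_of_normal, ?_⟩
  · obtain ⟨A, v, rfl⟩ := exists_aff M
    rw [aff_mem_V]
    refine ⟨fun h => by subst h; simp [aff], fun h => Subtype.ext ?_⟩
    ext i j
    fin_cases i <;> fin_cases j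
    exacts [h.1, h.2.1, h.2.2.1, h.2.2.2]
  · obtain ⟨A, v, rfl⟩ := exists_aff M
    refine ⟨fun ⟨B, h⟩ => ?_, fun h => ⟨A, aff_inj.2 ⟨rfl, ?_⟩⟩⟩
    · rw [← (aff_inj.1 h).2]
      exact ⟨rfl, rfl⟩
    · ext i
      fin_cases i
      exacts [h.1.symm, h.2.symm]
  · rw [eq_top_iff]
    intro M _
    obtain ⟨A, v, rfl⟩ := exists_aff M
    have : aff A v = aff 1 v * aff A 0 := by rw [aff_mul]; simp
    rw [this]
    exact mul_mem (mem_sup_right (aff_mem_V.2 rfl)) (mem_sup_left ⟨A, rfl⟩)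
  · obtain ⟨ψ, hψ⟩ := exists_tr (F := F)
    refine ⟨lin.comp (Subgroup.subtype _), ψ, fun A => ⟨⟨_, A, rfl⟩, lin_aff A 0⟩, ?_, ?_⟩
    · rw [centralizer_V]
      rfl
    · rintro l ⟨v, hv⟩
      obtain ⟨v, rfl⟩ := mem_V.1 hv
      refine ⟨⟨_, aff_mem_V.2 rfl⟩, (conj_tr _ _).symm, ?_⟩
      rw [hψ, hψ]
      rfl

end Cfsg.Agent.S2762
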