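import Cfsg.Statements.S2772
import Cfsg.Agent.PLocal.AmalgamS4
import Cfsg.Agent.Grp.Cores

set_option autoImplicit false
open Cfsg

namespace Cfsg.Agent.S2772

open Cfsg.Agent.PLocal Cfsg.Agent.PLocal.Amb

/-- Sims' Theorem in local form: let H be a finite non-abelian simple group and G a maximal subgroup of H with C_G(O₂(G)) ≤ O₂(G), such that N_H(S) is not contained in G for a Sylow 2-subgroup S of G and G/O₂(G) is dihedral of order 2q for a prime q. Then G is isomorphic to the symmetric group of degree 4 or to its direct product with a group of order 2. -/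
theorem result {H : Type*} [Group H] [Finite H] [IsSimpleGroup H] (hna : ¬ IsMulCommutative H) (G : Subgroup H) (hG : IsCoatom G) (hchar : Subgroup.centralizer (Cfsg.pCore 2 ↥G : Set ↥G) ≤ Cfsg.pCore 2 ↥G) (S : Sylow 2 ↥G) (hN : ¬ Subgroup.normalizer (((S : Subgroup ↥G).map G.subtype : Subgroup H) : Set H) ≤ G) (q : ℕ) (hq : q.Prime) (hD : Nonempty (↥G ⧸ Cfsg.pCore 2 ↥G ≃* DihedralGroup q)) : Nonempty (↥G ≃* Equiv.Perm (Fin 4)) ∨ Nonempty (↥G ≃* Equiv.Perm (Fin 4) × Multiplicative (ZMod 2)) := by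
  obtain ⟨x, hx, hxG⟩ := SetLike.not_le_iff_exists.1 hN
  have hs := isSylowIn_map S
  set T := (S : Subgroup G).map G.subtype
  obtain ⟨e⟩ := hD
  have hc : Nat.card (G ⧸ pCore 2 G) = 2 * q := by
    rw [Nat.card_congr e.toEquiv, DihedralGroup.nat_card]
  have hq2 : q ≠ 2 := by
    rintro rfl
    have h1 : IsPGroup 2 (G ⧸ pCore 2 G) := IsPGroup.of_card (n := 2) hc
    have h2 := Grp.pCore_eq_top_iff.2 h1
    rw [Grp.pCore_quotient_pCore] at h2
    have := Subgroup.card_top (G := G ⧸ pCore 2 G)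
    rw [← h2, Subgroup.card_bot] at this
    omega
  obtain ⟨k1, k2⟩ := Amal.relIndex_of_card_quotient hs (hq.odd_of_ne_two hq2) hc
  have hxT : cj(x, T) = T := cj_of_mem_normalizer hx
  have hT1 : T ≠ ⊥ := fun e => by rw [e, Subgroup.relIndex_bot_right] at k2; omega
  have hcore : ∀ N : Subgroup H, N ≤ T → G ≤ 𝐍[N] → cj(x, G) ≤ 𝐍[N] → N = ⊥ := by
    intro N hN n1 n2
    by_cases h1 : 𝐍[N] = ⊤
    · rcases (Subgroup.normalizer_eq_top_iff.1 h1).eq_bot_or_eq_top with h2 | h2
      · exact h2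
      · exact absurd (eq_top_iff.2 (h2.ge.trans (hN.trans hs.le))) hG.1
    · have h2 : 𝐍[N] = G := ((hG.le_iff.1 n1).resolve_left h1)
      rw [h2] at n2
      have h3 := mem_normalizer_of_cj_le n2
      rcases hG.le_iff.1 (Subgroup.le_normalizer : G ≤ 𝐍[G]) with h4 | h4
      · rcases (Subgroup.normalizer_eq_top_iff.1 h4).eq_bot_or_eq_top with h5 | h5
        · exact absurd (le_bot_iff.1 (h5 ▸ hs.le)) hT1
        · exact absurd h5 hG.1
      · exact absurd (h4.le h3) hxG
  have d1 : Amal.DPar G T := by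
    refine ⟨inferInstance, hs.le, hs.isPGroup, k1 ▸ hq, k1 ▸ hq2, k2, Amal.charP_iff.1 hchar,
      fun hle => Amal.omegaOne_center_ne_bot hs.isPGroup hT1 (hcore _
        ((omegaOne_le _).trans inf_le_left) (hle.trans (centralizer_le_normalizer' _)) ?_)⟩
    have := cj_mono x hle
    rw [← centralizer_cj, ← Amal.omegaOne_center_cj, hxT] at this
    exact this.trans (centralizer_le_normalizer' _)
  have d2 := d1.cj x
  rw [hxT] at d2
  have k := Amal.s4Pair d1 d2 (by rw [← Amal.relIndex_cj x T G, hxT]) hcore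
  rcases k.card with h | h
  · exact Or.inl (k.iso_sym4 d1 h)
  · obtain ⟨e⟩ := k.iso_two_sym4 d1 d2 h
    exact Or.inr ⟨e.trans MulEquiv.prodComm⟩

end Cfsg.Agent.S2772
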