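import Cfsg.Statements.S2779
import Mathlib
import Cfsg.Agent.PLocal.SL2NatSyl

set_option autoImplicit false
open Cfsg

namespace Cfsg.Agent.S2779

open Subgroup Cfsg.Agent.PLocal.Amb Cfsg.Agent.PLocal.SL2Nat

/-- Let L act on the elementary abelian p-group V (inside a finite group, by conjugation, faithfully) as SL₂(F) on its natural module, F a field with p^n elements, and let S be a Sylow p-subgroup of L. Then [V, S, S] = 1; |V| = p^(2n) and |C_V(S)| = p^n; and for every nonidentity s ∈ S and every v ∈ V outside C_V(S): C_V(s) = C_V(S) = [V, S] = [V, s] = the subgroup generated by the commutators [v, t], t ∈ S. -/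
theorem result {G : Type*} [Group G] [Finite G] {p : ℕ} [Fact p.Prime] {F : Type*} [Field F] [Fintype F] (n : ℕ) (hF : Fintype.card F = p ^ n) (V L : Subgroup G) (hnat : Cfsg.IsNaturalSL2Module F V L) (hf : L ⊓ Subgroup.centralizer (V : Set G) = ⊥) (S : Sylow p ↥L) (T : Subgroup G) (hT : T = ((S : Subgroup ↥L).map L.subtype)) : ⁅⁅V, T⁆, T⁆ = ⊥ ∧ Nat.card V = p ^ (2 * n) ∧ Nat.card ↥(V ⊓ Subgroup.centralizer ((T : Subgroup G) : Set G)) = p ^ n ∧ ∀ s ∈ T, s ≠ 1 → (V ⊓ Subgroup.centralizer ({s} : Set G)) = (V ⊓ Subgroup.centralizer ((T : Subgroup G) : Set G)) ∧ ⁅V, T⁆ = (V ⊓ Subgroup.centralizer ((T : Subgroup G) : Set G)) ∧ ⁅V, Subgroup.zpowers s⁆ = (V ⊓ Subgroup.centralizer ((T : Subgroup G) : Set G)) ∧ ∀ v ∈ V, v ∉ Subgroup.centralizer (T : Set G) → Subgroup.closure {x : G | ∃ t ∈ T, x = v * t * v⁻¹ * t⁻¹} = (V ⊓ Subgroup.centralizer ((T : Subgroup G) : Set G)) := by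
  have := charP_of_card_eq_prime_pow hF
  obtain ⟨D₀⟩ := exists_natData_of_isNatural hnat
  obtain ⟨D, h⟩ := D₀.exists_upStd hf (hT ▸ isSyl_map_subtype S)
  refine ⟨?_, ?_, ?_, fun s hs h1 => ⟨h.inf_centralizer_singleton hs h1, ?_, ?_, fun v hv hvT => ?_⟩⟩
  · rw [commutator_eq_bot_iff_le_centralizer]
    exact h.commutator_le_C.trans inf_le_right
  · rw [← D.card_mul, card_bot, mul_one, Nat.card_eq_fintype_card, hF, ← pow_mul, mul_comm]
  · rw [h.card_C, Nat.card_eq_fintype_card, hF]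
  · exact le_antisymm h.commutator_le_C ((h.C_le_commutator_zpowers hs h1).trans
      (commutator_mono le_rfl (zpowers_le.2 hs)))
  · exact le_antisymm ((commutator_mono le_rfl (zpowers_le.2 hs)).trans h.commutator_le_C)
      (h.C_le_commutator_zpowers hs h1)
  · refine le_antisymm ((closure_le _).2 ?_) fun w hw => ?_
    · rintro _ ⟨t, ht, rfl⟩
      have h2 := inv_mem (h.comm_mem_C ht hv)
      rwa [commutatorElement_inv, commutatorElement_def] at h2
    · obtain ⟨t, ht, e⟩ := h.exists_comm_eq hv hvT (inv_mem hw)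
      refine subset_closure ⟨t, ht, ?_⟩
      rw [← commutatorElement_def, ← commutatorElement_inv, ← e, inv_inv]

end Cfsg.Agent.S2779
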