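import Cfsg.Statements.S2781
import Mathlib
import Cfsg.Agent.PLocal.RelNorm

set_option autoImplicit false
open Cfsg

namespace Cfsg.Agent.S2781

open Subgroup Cfsg.Agent.PLocal Cfsg.Agent.PLocal.CP Cfsg.Agent.Grp
open scoped commutatorElement Cfsg.Agent.PLocal.Amb

/-- Let H act faithfully by conjugation on the elementary abelian p-subgroup V of a finite group, let O^p(H) be the subgroup of H generated by its elements of order prime to p, and T a Sylow p-subgroup of O^p(H). If V is generated by the H-conjugates of C_V(T) (V is the smallest H-invariant subgroup containing C_V(T)), then V = [V, O^p(H)]·C_V(O^p(H)). -/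
theorem result {G : Type*} [Group G] [Finite G] {p : ℕ} [Fact p.Prime] (V H : Subgroup G) (hV : Cfsg.IsElementaryAbelian p V) (hHV : H ≤ Subgroup.normalizer (V : Set G)) (hf : H ⊓ Subgroup.centralizer (V : Set G) = ⊥) (R : Subgroup G) (hR : R = (Cfsg.pResidual p ↥H).map H.subtype) (S : Sylow p ↥R) (T : Subgroup G) (hT : T = ((S : Subgroup ↥R).map R.subtype)) (hgen : ∀ W : Subgroup G, H ≤ Subgroup.normalizer (W : Set G) → (V ⊓ Subgroup.centralizer ((T : Subgroup G) : Set G)) ≤ W → V ≤ W) : ⁅V, R⁆ ⊔ (V ⊓ Subgroup.centralizer ((R : Subgroup G) : Set G)) = V := by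
  subst hR
  have hT' : Amb.IsSyl p T 𝐎[p, H] := hT ▸ Amb.isSyl_map_subtype S
  have hRV : 𝐎[p, H] ≤ 𝐍[V] := (Amb.pRes_le p H).trans hHV
  refine le_antisymm (sup_le (le_normalizer_iff_commutator_le_left.1 hRV) inf_le_left) ?_
  refine hgen _ (le_normalizer_sup (le_normalizer_commutator hHV (Amb.le_normalizer_pRes p H))
    (le_normalizer_inf hHV (le_normalizer_centralizer (Amb.le_normalizer_pRes p H)))) ?_
  have h1 := inf_centralizer_le_of_isSyl (isEA_le_centralizer hV) (isEA_isPGroup hV) hRV hT'
  rw [Amb.pRes_pRes, sup_comm] at h1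
  exact h1.trans (sup_le_sup_right inf_le_left _)

end Cfsg.Agent.S2781
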