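import Cfsg.Statements.S2787
import Mathlib
import Cfsg.Agent.PLocal.NoQuad
import Cfsg.Agent.S1152

set_option autoImplicit false
open Cfsg

namespace Cfsg.Agent.S2787

open Subgroup Cfsg.Agent.PLocal.Amb Cfsg.Agent.PLocal.NoQuad

/-- Let p be a prime and let H act by conjugation on the elementary abelian p-subgroup V of a finite group, irreducibly (no H-invariant subgroups of V other than 1 and V) and nontrivially, and suppose H/C_H(V) is isomorphic to PSL₂(F) for a field F with p^n elements, p^n odd, or p = 3 and H/C_H(V) is isomorphic to a Ree group ²G₂(3^(2m+1)), m ≥ 1. Then no subgroup A of H acting nontrivially on V acts quadratically: [V, A, A] = 1 forces [V, A] = 1. -/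
theorem result {G : Type*} [Group G] [Finite G] {p : ℕ} [Fact p.Prime] (V H : Subgroup G) (hV : Cfsg.IsElementaryAbelian p V) (hHV : H ≤ Subgroup.normalizer (V : Set G)) (hirr : ∀ U : Subgroup G, U ≤ V → H ≤ Subgroup.normalizer (U : Set G) → U = ⊥ ∨ U = V) (hnt : ¬ H ≤ Subgroup.centralizer (V : Set G)) [hn : ((Subgroup.centralizer (V : Set G)).subgroupOf H).Normal] (hq : (∃ (F : Type) (_ : Field F) (_ : Fintype F) (n : ℕ), Fintype.card F = p ^ n ∧ Odd (Fintype.card F) ∧ Nonempty (↥H ⧸ (Subgroup.centralizer (V : Set G)).subgroupOf H ≃* Matrix.ProjectiveSpecialLinearGroup (Fin 2) F)) ∨ (p = 3 ∧ Cfsg.Lie.IsoRee (↥H ⧸ (Subgroup.centralizer (V : Set G)).subgroupOf H))) (A : Subgroup G) (hA : A ≤ H) (hquad : ⁅⁅V, A⁆, A⁆ = ⊥) : ⁅V, A⁆ = ⊥ := by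
  have h : Cfsg.Agent.PLocal.TransvFree p (↥H ⧸ (Subgroup.centralizer (V : Set G)).subgroupOf H) := by
    rcases hq with ⟨F, _, _, n, hF, hodd, ⟨e⟩⟩ | ⟨rfl, K, _, _, m, hm, hK, ⟨e⟩⟩
    · have hp2 : p ≠ 2 := by
        rintro rfl
        rw [hF, Nat.odd_pow_iff] at hodd
        · exact absurd hodd (by decide)
        · rintro rfl
          exact Fintype.one_lt_card.ne' hF
      have := charP_of_card_eq_prime_pow hF
      have h2 : (2 : F) ≠ 0 := fun h => hp2 ((Nat.prime_dvd_prime_iff_eq Fact.out Nat.prime_two).1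
        ((CharP.cast_eq_zero_iff F p 2).1 h))
      exact ((dihLike_psl2 h2).of_injective e.toMonoidHom e.injective).transvFree hp2
    · obtain ⟨R, -⟩ := Ree.exists_sys hK
      have := R.finiteG
      obtain ⟨S⟩ : Nonempty (Sylow 2 ↥(Cfsg.Lie.twistedG2 K (3 ^ m))) := inferInstance
      refine (Cfsg.Agent.PLocal.transvFree_of_sylow_two_comm (by norm_num) S ⟨⟨fun x y => Subtype.ext ?_⟩⟩).of_injective
        e.toMonoidHom e.injective
      have h1 := fun x (hx : x ∈ S) => R.mul_self_of_isPGroup S.isPGroup' hx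
      have h2 : ∀ x ∈ S, x⁻¹ = x := fun x hx => inv_eq_of_mul_eq_one_right (h1 x hx)
      rw [coe_mul, coe_mul, ← h2 _ (mul_mem x.2 y.2), mul_inv_rev, h2 _ x.2, h2 _ y.2]
  rw [commutator_eq_bot_iff_le_centralizer, le_centralizer_iff]
  intro a ha
  refine mem_centralizer_of_quadratic hV hHV hirr h (hA ha) (le_bot_iff.1 (le_trans ?_ hquad.le))
  exact commutator_mono (commutator_mono le_rfl (zpowers_le.2 ha)) (zpowers_le.2 ha)

end Cfsg.Agent.S2787
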