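import Cfsg.Statements.S2788
import Mathlib
import Cfsg.Agent.PLocal.PPDBound

set_option autoImplicit false
open Cfsg

namespace Cfsg.Agent.S2788

open Subgroup Cfsg.Agent.PLocal.Amb Cfsg.Agent.PLocal.PPD

/-- Let H act faithfully by conjugation on the elementary abelian p-subgroup V of a finite group with H ≅ SL₂(F), F a field with p^n elements, S a Sylow p-subgroup of H, and A ≤ S a subgroup of order at least 3 acting quadratically on V ([V, A, A] = 1). Then |V/C_V(a)| ≥ p^n for every nonidentity a ∈ A. -/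
theorem result {G : Type*} [Group G] [Finite G] {p : ℕ} [Fact p.Prime] (V H : Subgroup G) (hV : Cfsg.IsElementaryAbelian p V) (hHV : H ≤ Subgroup.normalizer (V : Set G)) (hf : H ⊓ Subgroup.centralizer (V : Set G) = ⊥) {F : Type*} [Field F] [Fintype F] (n : ℕ) (hF : Fintype.card F = p ^ n) (hiso : Nonempty (↥H ≃* Matrix.SpecialLinearGroup (Fin 2) F)) (S : Sylow p ↥H) (T : Subgroup G) (hT : T = ((S : Subgroup ↥H).map H.subtype)) (A : Subgroup G) (hA : A ≤ T) (hA3 : 3 ≤ Nat.card A) (hquad : ⁅⁅V, A⁆, A⁆ = ⊥) : ∀ a ∈ A, a ≠ 1 → p ^ n ≤ ((V ⊓ Subgroup.centralizer ({a} : Set G))).relIndex V := by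
  obtain ⟨e⟩ := hiso
  have hS : IsSyl p T H := hT ▸ isSyl_map_subtype S
  exact fun a ha h1 => sl2_bound (Cfsg.Agent.PLocal.elemAb_isPGroup hV) hHV hf hF e (hS.le (hA ha))
    (isPGroup_iff.1 hS.pgrp a (hA ha)) h1

end Cfsg.Agent.S2788
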