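import Cfsg.Statements.S2792
import Mathlib
import Cfsg.Agent.Transfer.Yoshida

set_option autoImplicit false
open Cfsg

namespace Cfsg.Agent.S2792

/-- Let S be a Sylow p-subgroup of the finite group G and W a subgroup of S weakly closed in S with respect to G. If S ∩ G' ≠ S ∩ (N_G(W))', then there are x ∈ S, z ∈ W and a maximal subgroup W₀ of W such that the iterated commutator [x, z; p−1] (with [x, z] = x⁻¹z⁻¹xz and [x, z; i+1] = [[x, z; i], z]) lies in W₀ but not in the Frattini subgroup of W₀; in particular [x, z; p−1] ≠ 1. -/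
theorem result {G : Type*} [Group G] [Finite G] {p : ℕ} [Fact p.Prime] (S : Sylow p G) (W : Subgroup G) (hW : Cfsg.IsWeaklyClosed W (S : Subgroup G)) (h : (S : Subgroup G) ⊓ commutator G ≠ (S : Subgroup G) ⊓ ⁅Subgroup.normalizer (W : Set G), Subgroup.normalizer (W : Set G)⁆) : ∃ x ∈ (S : Subgroup G), ∃ z ∈ W, ∃ W₀ : Subgroup ↥W, IsCoatom W₀ ∧ (fun y : G => y⁻¹ * z⁻¹ * y * z)^[p - 1] x ∈ W₀.map W.subtype ∧ (fun y : G => y⁻¹ * z⁻¹ * y * z)^[p - 1] x ∉ ((frattini ↥W₀).map W₀.subtype).map W.subtype := by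
  have hpp : p.Prime := Fact.out
  obtain ⟨u, hu, z, hz, W₀, hW₀, hi, lam, hy, hl⟩ :=
    Cfsg.Agent.Transfer.yoshida S hW (fun h' => h
      (Cfsg.Agent.Transfer.inf_commutator_eq_of_inf_pResidual_eq S
        (Cfsg.Agent.Transfer.sylow_le_normalizer_of_weaklyClosed S hW) h'))
  refine ⟨u, hu, z, hz, W₀.subgroupOf W, ?_, ?_, ?_⟩
  · have hi' : (W₀.subgroupOf W).index = p := hi
    refine ⟨?_, fun K hK => ?_⟩
    · intro ht
      rw [ht, Subgroup.index_top] at hi'
      exact hpp.one_lt.ne hi'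
    · have h1 := Subgroup.relIndex_mul_index hK.le
      rw [hi'] at h1
      rcases (Nat.dvd_prime hpp).1 (Dvd.intro_left _ h1) with h2 | h2
      · exact Subgroup.index_eq_one.1 h2
      · rw [h2] at h1
        have h3 : (W₀.subgroupOf W).relIndex K = 1 := by
          have := hpp.pos
          nlinarith
        exact absurd (Subgroup.relIndex_eq_one.1 h3) (not_le_of_gt hK)
  · rw [Subgroup.subgroupOf_map_subtype]
    exact ⟨hy, hW₀ hy⟩
  · rintro ⟨_, ⟨b, hb, rfl⟩, hb2⟩
    apply hl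
    have h1 := Cfsg.Agent.Transfer.frattini_le_ker_zmod
      (lam.comp (Subgroup.subgroupOfEquivOfLe hW₀).toMonoidHom) hb
    rw [MonoidHom.mem_ker] at h1
    rw [← h1]
    exact congrArg lam (Subtype.ext hb2.symm)

end Cfsg.Agent.S2792
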