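import Cfsg.Statements.S2856
import Cfsg.Agent.PLocal.AmalgamCharP

set_option autoImplicit false
open Cfsg

namespace Cfsg.Agent.S2856

open Cfsg.Agent.PLocal Cfsg.Agent.PLocal.Amal Cfsg.Agent.PLocal.Amb

/-- Let (M₁, M₂) be an amalgam pair in X satisfying the rank-two standing hypothesis (characteristic p, the normalizers in M₁ and in M₂ of a Sylow p-subgroup of M₁ ∩ M₂ equal and contained in M₁ ∩ M₂, and strongly p-embedded residues), λ a vertex of the coset graph, L_λ the subgroup of its stabilizer generated by the p-elements, Q_λ = O_p of the stabilizer, O^p(L_λ) the subgroup of L_λ generated by its elements of order prime to p, and V_λ^{(k)} the subgroup generated by the Z_μ over the vertices μ at distance at most k from λ (Z_μ being generated by the Ω₁(Z(S)), S a Sylow p-subgroup of the stabilizer of μ). If n ≥ 1 and V_λ^{(n)} ≤ Q_λ, then O^p(L_λ) does not centralize V_λ^{(n)}/[V_λ^{(n)}, Q_λ], that is, [V_λ^{(n)}, O^p(L_λ)] is not contained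 in [V_λ^{(n)}, Q_λ]. -/
theorem result {X : Type*} [Group X] {p : ℕ} [Fact p.Prime] (M₁ M₂ : Subgroup X) (h : Cfsg.IsSpeAmalgamPair p M₁ M₂) (lam : Cfsg.CosetVertex M₁ M₂) (n : ℕ) (hn : 1 ≤ n) (V : Subgroup X) (hV : V = Cfsg.vertexVIter p M₁ M₂ n lam) (hVQ : V ≤ Cfsg.vertexQ p lam) : ¬ ⁅V, ((Cfsg.pResidual p ↥(Cfsg.pElementClosure p (MulAction.stabilizer X lam))).map (Cfsg.pElementClosure p (MulAction.stabilizer X lam)).subtype)⁆ ≤ ⁅V, Cfsg.vertexQ p lam⁆ := by
  intro hle
  obtain ⟨m, rfl⟩ : ∃ m, n = m + 1 := ⟨n - 1, by omega⟩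
  obtain ⟨μ, hμ⟩ := exists_adj lam
  have := finite_stabilizer h.1 lam
  have := finite_of_le (vertexQ_le (p := p) lam)
  set W := Cfsg.vertexVIter p M₁ M₂ m μ with hW
  set Q := Cfsg.vertexQ p lam with hQ
  have hWV : W ≤ V := hV ▸ vertexVIter_le_of_adj hμ
  have hVn : MulAction.stabilizer X lam ≤ 𝐍[V] := hV ▸ le_normalizer_vertexVIter _ _
  have hCn : MulAction.stabilizer X lam ≤ 𝐍[⁅V, Q⁆] :=
    le_normalizer_commutator hVn (le_normalizer_vertexQ lam)
  have hCV : ⁅V, Q⁆ ≤ V :=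
    Subgroup.le_normalizer_iff_commutator_le_left.1 ((vertexQ_le lam).trans hVn)
  have hn : MulAction.stabilizer X lam ≤ 𝐍[W ⊔ ⁅V, Q⁆] := by
    refine stabilizer_le_of_spe h hμ ?_ (le_normalizer_sup
      (inf_le_right.trans (le_normalizer_vertexVIter _ _)) (inf_le_left.trans hCn))
    rw [Subgroup.le_normalizer_iff_commutator_le_left]
    exact (Subgroup.commutator_mono (sup_le hWV hCV) le_rfl).trans (hle.trans le_sup_right)
  have hVW : V ≤ W ⊔ ⁅V, Q⁆ := by
    refine hV.le.trans (vertexVIter_succ_le h.1 fun ν hν => ?_)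
    obtain ⟨g, hg, rfl⟩ := exists_smul_eq_of_adj hμ hν
    rw [vertexVIter_smul]
    exact cj_le_of_mem_normalizer le_sup_left (hn hg)
  have hVW' : V ≤ W := le_of_le_sup_commutator (isPGroup_vertexQ lam) hVQ (hWV.trans hVQ)
    ((vertexQ_le_of_adj h.1 hμ).trans (le_normalizer_vertexVIter _ _)) hVW
  have he : W = V := le_antisymm hWV hVW'
  have hb : W = ⊥ := eq_bot_of_normalized h.1.1 hμ (hWV.trans (hVQ.trans (vertexQ_le lam)))
    (hWV.trans (hVQ.trans (vertexQ_le_of_adj h.1 hμ))) (he ▸ hVn) (le_normalizer_vertexVIter _ _)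
  exact vertexZ_ne_bot h.1 μ (le_bot_iff.1 (hb ▸ vertexZ_le_vertexVIter (by simp)))

end Cfsg.Agent.S2856
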