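import Cfsg.Statements.S2947
import Mathlib
import Cfsg.Agent.PLocal.StrongPEmb
import Cfsg.Agent.PLocal.Amb
import Cfsg.Agent.Grp.Cores

set_option autoImplicit false
open Cfsg

namespace Cfsg.Agent.S2947

open Cfsg.Agent.PLocal

/-- Let G be a finite group of characteristic 2 type in which every 2-local subgroup is solvable and the centralizer of Ω₁(Z(S)) lies in N_G(S) for every Sylow 2-subgroup S; suppose O₂(G) = 1, fix a Sylow 2-subgroup S and a 2-local subgroup M containing N_G(J(S)) (J the Thompson subgroup generated by the elementary abelian 2-subgroups of largest order). Then M is strongly embedded in G (a proper subgroup of even order whose intersection with each conjugate by an element outside M has odd order) if and only if no nontrivial 2-subgroup of M lies in a 2-local subgroup of G not contained in M. -/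
theorem result {G : Type*} [Group G] [Finite G] (hL : Cfsg.IsCharacteristicTwoType G) (hN : ∀ N : Subgroup G, Cfsg.IsTwoLocal N → Group.IsSolvable ↥N)
    (hZ : ∀ S : Sylow 2 G, Subgroup.centralizer (Cfsg.omegaCenterOf (S : Subgroup G) : Set G) ≤ Subgroup.normalizer ((S : Subgroup G) : Set G)) (hO : Cfsg.pCore 2 G = ⊥) (S : Sylow 2 G) (M : Subgroup G) (hM : Cfsg.IsTwoLocal M)
    (hMJ : Subgroup.normalizer (Cfsg.thompsonSubgroupOf 2 (S : Subgroup G) : Set G) ≤ M) :
    Cfsg.IsStronglyEmbedded M ↔ Cfsg.straddlingTwoSubgroups M = ∅ := by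
  have e : Cfsg.IsStronglyEmbedded M ↔ Cfsg.IsStronglyPEmbedded 2 M := by
    rw [SPE.iff_not_dvd_card_inf, Cfsg.IsStronglyEmbedded, even_iff_two_dvd]
    simp only [← Nat.not_even_iff_odd, even_iff_two_dvd]
  rw [e]
  constructor
  · intro h
    rw [Set.eq_empty_iff_forall_notMem]
    rintro T ⟨hT, hT1, hTM, L, ⟨Q, hQ, hQ1, rfl⟩, hTL, hLM⟩
    apply hLM
    have h1 := Amb.inf_centralizer_ne_bot hT hQ hTL hQ1
    have h2 : Q ≤ M := SPE.le_of_inf_ne_bot h hQ fun hb => h1 (le_bot_iff.1 (hb ▸
      inf_le_inf_left Q ((Amb.centralizer_le_normalizer' T).trans (SPE.normalizer_le h hTM hT hT1))))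
    exact SPE.normalizer_le h h2 hQ hQ1
  · intro h
    obtain ⟨Q, hQ, hQ1, rfl⟩ := hM
    refine SPE.of_normalizer_le ?_ (dvd_card_of_ne_bot hQ hQ1 Subgroup.le_normalizer) ?_
    · intro htop
      have hn : Q.Normal := Subgroup.normalizer_eq_top_iff.1 htop
      exact hQ1 (le_bot_iff.1 (hO ▸ Grp.le_pCore hn hQ))
    · intro A hA hAp hA1
      by_contra hn
      have : A ∈ Cfsg.straddlingTwoSubgroups (Subgroup.normalizer (Q : Set G)) :=
        ⟨hAp, hA1, hA, _, ⟨A, hAp, hA1, rfl⟩, Subgroup.le_normalizer, hn⟩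
      rw [h] at this
      exact this


end Cfsg.Agent.S2947
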