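import Cfsg.Statements.S2950
import Mathlib
import Cfsg.Agent.PLocal.JCompMax

set_option autoImplicit false
open Cfsg

namespace Cfsg.Agent.S2950

open Cfsg.Agent.PLocal Cfsg.Agent.PLocal.JC

/-- Uniqueness of the maximal 2-local overgroup. Let G be a finite group of characteristic 2 type in which every 2-local subgroup is solvable and the centralizer of Ω₁(Z(S)) lies in N_G(S) for every Sylow 2-subgroup S; suppose O₂(G) = 1, fix a Sylow 2-subgroup S and a 2-local subgroup M containing N_G(J(S)) (J the Thompson subgroup generated by the elementary abelian 2-subgroups of largest order). Let T be maximal (for the order of a largest elementary abelian subgroup, then the order of J(T), then the order of T) among the nontrivial 2-subgroups of M lying in a 2-local subgroup not inside M, and let K be a J(T)-component not contained in M with J(T) the Thompson subgroup of every Sylow 2-subgroup of N_G(W_K) containing J(T), and O₂(⟨K, T⟩) ≠ 1. Then there is exactly one maximal 2-local subgroup L of G containing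 ⟨K, J(T)⟩; moreover K is subnormal in L and T is a Sylow 2-subgroup of L. -/
theorem result {G : Type*} [Group G] [Finite G] (hL : Cfsg.IsCharacteristicTwoType G) (hN : ∀ N : Subgroup G, Cfsg.IsTwoLocal N → Group.IsSolvable ↥N)
    (hZ : ∀ S : Sylow 2 G, Subgroup.centralizer (Cfsg.omegaCenterOf (S : Subgroup G) : Set G) ≤ Subgroup.normalizer ((S : Subgroup G) : Set G)) (hO : Cfsg.pCore 2 G = ⊥) (S : Sylow 2 G) (M : Subgroup G) (hM : Cfsg.IsTwoLocal M)
    (hMJ : Subgroup.normalizer (Cfsg.thompsonSubgroupOf 2 (S : Subgroup G) : Set G) ≤ M) (T : Subgroup G) (hT : T ∈ Cfsg.maxStraddlingTwoSubgroups M)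
    (K : Subgroup G) (hK : K ∈ Cfsg.jComponentsOutside M T) :
    ∃ L : Subgroup G, Cfsg.IsMaximalTwoLocal L ∧ K ⊔ Cfsg.thompsonSubgroupOf 2 T ≤ L ∧
      (∀ L' : Subgroup G, Cfsg.IsMaximalTwoLocal L' → K ⊔ Cfsg.thompsonSubgroupOf 2 T ≤ L' → L' = L) ∧
      (K.subgroupOf L).IsSubnormal ∧ Cfsg.IsSylowTwoIn T L := by
  have h : Sit (S : Subgroup G) M := ⟨⟨hL, hN, hZ⟩, Amb.isSyl_top S, hM, hMJ⟩
  obtain ⟨k, h1, h2⟩ := (mem_outside_iff h hT).1 hK
  obtain ⟨L, t⟩ := h.exists_top hT k h1
  have h3 : K ≤ L := le_sup_left.trans t.le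
  have h4 : ¬ L ≤ M := fun h' => h1 (h3.trans h')
  exact ⟨L, t.isMax, t.le, fun L' => t.eq,
    ((h.ov hT t.loc h4 (le_sup_right.trans t.le)).snIn h.zn k h3).isSubnormal_subgroupOf,
    isSylowTwoIn_iff.2 (h.isSyl hT t.loc h4 (t.T_le h2))⟩

end Cfsg.Agent.S2950
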