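import Cfsg.Statements.S3084
import Cfsg.Agent.Grp.Clifford

set_option autoImplicit false
open Cfsg

namespace Cfsg.Agent.S3084

/-- Let K be a group acting faithfully and linearly on a finite-dimensional vector space U of dimension 2n ≥ 2 over the field with two elements, preserving a quadratic form q whose polar bilinear form is non-degenerate and which vanishes on some n-dimensional subspace (a non-singular form of plus type). Then there is a finite group R with a normal extraspecial 2-subgroup Q of order 2^(2n+1), an isomorphism of R/Q with K, and a surjective homomorphism χ from Q onto (the additive group of) U with kernel the centre of Q, such that χ carries conjugation by any r in R to the action of the image of r in K, and an element a of Q squares to the identity exactly when q vanishes at χ(a). -/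
theorem result {K : Type*} [Group K] {U : Type*} [AddCommGroup U] [Module (ZMod 2) U] [Module.Finite (ZMod 2) U] (n : ℕ) (hn1 : 1 ≤ n) (hn : Module.finrank (ZMod 2) U = 2 * n) (ρ : Representation (ZMod 2) K U) (hρ : Function.Injective ρ) (q : QuadraticForm (ZMod 2) U) (hq : ∀ (k : K) (u : U), q (ρ k u) = q u) (hnd : (QuadraticMap.polarBilin q).Nondegenerate) (hplus : ∃ W : Submodule (ZMod 2) U, Module.finrank (ZMod 2) ↥W = n ∧ ∀ w ∈ W, q w = 0) : ∃ (R : Type) (_ : Group R) (_ : Finite R) (Q : Subgroup R) (hN : Q.Normal) (e : R ⧸ Q ≃* K) (χ : ↥Q →* Multiplicative U), Cfsg.IsExtraspecial 2 ↥Q ∧ Nat.card ↥Q = 2 ^ (2 * n + 1) ∧ Function.Surjective χ ∧ χ.ker = Subgroup.center ↥Q ∧ (∀ (r : R) (a : ↥Q), χ ⟨r * a * r⁻¹, hN.conj_mem (a : R) a.2 r⟩ = Multiplicative.ofAdd (ρ (e (r : R ⧸ Q)) (Multiplicative.toAdd (χ a)))) ∧ ∀ a : ↥Q, a * a = 1 ↔ q (Multiplicative.toAdd (χ a)) = 0 := by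
  classical
  let φ : U ≃ₗ[ZMod 2] (Fin (2 * n) → ZMod 2) := LinearEquiv.ofFinrankEq _ _ (by simp [hn])
  let β := (q.comp φ.symm.toLinearMap).toBilin (Pi.basisFun (ZMod 2) (Fin (2 * n)))
  have hβ : ∀ u, β u u = q (φ.symm u) := fun u =>
    DFunLike.congr_fun (QuadraticMap.toQuadraticMap_toBilin (q.comp φ.symm.toLinearMap) _) u
  have hN : Cliff.Nd β := fun w hw => φ.symm.map_eq_zero_iff.1 (hnd.1 _ fun v => by
    obtain ⟨v, rfl⟩ := φ.symm.surjective v
    rw [QuadraticMap.polarBilin_apply_apply, QuadraticMap.polar, ← map_add, ← hβ, ← hβ, ← hβ]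
    simp only [map_add, LinearMap.add_apply, hw v]
    generalize β w w = a, β w v = b, β v v = c; revert a b c; decide)
  let ρ' : K →* Equiv.Perm (Fin (2 * n) → ZMod 2) := MonoidHom.toHomPerm
    { toFun := fun k u => φ (ρ k (φ.symm u))
      map_one' := funext fun u => by simp [Function.End.one_def]
      map_mul' := fun a b => funext fun u => by
        change _ = φ (ρ a (φ.symm (φ (ρ b (φ.symm u))))); simp }
  have h' : ∀ k u, ρ' k u = φ (ρ k (φ.symm u)) := fun _ _ => rfl
  have hi : Function.Injective ρ' := fun a b e => hρ (LinearMap.ext fun u => φ.injective (by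
    simpa [h'] using DFunLike.congr_fun e (φ u)))
  have hs := Cliff.proj_surj (H := ρ'.range) hN (by rintro _ ⟨k, rfl⟩ u v; simp [h'])
    (by rintro _ ⟨k, rfl⟩ u; simp [h', hβ, hq])
  have hc : Nat.card (Cliff.proj β ρ'.range).ker = 2 ^ (2 * n + 1) := by
    rw [← Nat.card_congr (Equiv.ofBijective _ (Cliff.f_bij hN))]; simp [pow_succ']
  have : Finite (Cliff.proj β ρ'.range).ker := Nat.finite_of_card_ne_zero (by rw [hc]; positivity)
  have : Nonempty (Fin (2 * n)) := ⟨⟨0, by omega⟩⟩
  have hx := Cliff.xs (H := ρ'.range) hN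
  let χ := (AddMonoidHom.toMultiplicative φ.symm.toAddMonoidHom).comp (Cliff.vec (H := ρ'.range) hN)
  have hχ : ∀ c w, χ (Cliff.f β _ c w) = Multiplicative.ofAdd (φ.symm w) := fun c w => by
    simp [χ, Cliff.vec_f]
  refine ⟨Cliff.grp β ρ'.range, inferInstance, (Cliff.proj β _).finite_iff_finite_ker_range.2
    ⟨inferInstance, inferInstance⟩, (Cliff.proj β _).ker, inferInstance,
    (QuotientGroup.quotientKerEquivOfSurjective _ hs).trans (MonoidHom.ofInjective hi).symm, χ,
    hx.isExtraspecial_of_top, hc, fun u => ⟨Cliff.f β _ 0 (φ u.toAdd), by simp [hχ]⟩, ?_, fun r a => ?_,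
    fun a => ?_⟩
  · ext a
    obtain ⟨c, w, rfl⟩ := Cliff.f_surj hN a
    simp [hx.mem_center_top, hχ, ← Cliff.f_zero, Cliff.f_inj, ← or_and_right, Cliff.bit c]
  · obtain ⟨c, w, rfl⟩ := Cliff.f_surj hN a
    obtain ⟨b, hb⟩ := Cliff.f_conj r c w
    obtain ⟨k, hk⟩ := r.2.1
    have e : (MonoidHom.ofInjective hi).symm (Cliff.proj β _ r) = k :=
      (MulEquiv.symm_apply_eq _).2 (Subtype.ext hk.symm)
    rw [show (⟨_, _⟩ : (Cliff.proj β ρ'.range).ker) = Cliff.f β _ b (r.1.1 w) from Subtype.ext hb, hχ, hχ,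
      ← hk, h']
    simp [← e]; rfl
  · obtain ⟨c, w, rfl⟩ := Cliff.f_surj hN a
    simp [hχ, Cliff.f_mul, ← Cliff.f_zero, Cliff.f_inj, Cliff.aa, hβ]

end Cfsg.Agent.S3084
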