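import Cfsg.Statements.S3085
import Cfsg.Agent.TT.XS

set_option autoImplicit false
open Cfsg

namespace Cfsg.Agent.S3085

open Subgroup Cfsg.Agent.TT in
/-- The "reflection" automorphism attached to an element of order four. -/
noncomputable def refl {Q : Type*} [Group Q] {z : Q} (h : XS (⊤ : Subgroup Q) z) (a : Q)
    (ha : a * a = z) : MulAut Q := by
  classical
  have hz : ∀ x : Q, x * z = z * x := fun x => h.z_comm x trivial
  let f : Q → Q := fun x => if x * a = a * x then x else x * a
  let g : Q → Q := fun x => if x * a = a * x then x else x * a⁻¹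
  have h1 : ∀ x : Q, (x * a * a = a * (x * a) ↔ x * a = a * x) := fun x => by
    rw [← mul_assoc]; exact mul_left_inj a
  have h2 : ∀ x : Q, (x * a⁻¹ * a = a * (x * a⁻¹) ↔ x * a = a * x) := fun x => by
    constructor
    · intro e
      have : x * a = (x * a⁻¹ * a) * a := by group
      rw [this, e]; group
    · intro e
      have : a * (x * a⁻¹) = (a * x) * a⁻¹ := by group
      rw [this, ← e]; group
  refine ⟨⟨f, g, fun x => ?_, fun x => ?_⟩, fun x y => ?_⟩
  · by_cases hx : x * a = a * x
    · simp only [f, g, hx, if_true]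
    · simp only [f, g, hx, if_false, h1]; group
  · by_cases hx : x * a = a * x
    · simp only [f, g, hx, if_true]
    · simp only [f, g, hx, if_false, h2]; group
  · show f (x * y) = f x * f y
    by_cases hx : x * a = a * x <;> by_cases hy : y * a = a * y
    · have : x * y * a = a * (x * y) := by rw [mul_assoc, hy, ← mul_assoc, hx, mul_assoc]
      simp only [f, hx, hy, this, if_true]
    · have : ¬ x * y * a = a * (x * y) := fun e => hy (by
        have : x * (y * a) = x * (a * y) := by rw [← mul_assoc, e, ← mul_assoc, ← hx, mul_assoc]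
        exact mul_left_cancel this)
      simp only [f, hx, hy, this, if_true, if_false]
      rw [mul_assoc]
    · have : ¬ x * y * a = a * (x * y) := fun e => hx (by
        have : (x * a) * y = (a * x) * y := by rw [mul_assoc, ← hy, ← mul_assoc, e, mul_assoc]
        exact mul_right_cancel this)
      simp only [f, hx, hy, this, if_true, if_false]
      rw [mul_assoc, hy, mul_assoc]
    · have : x * y * a = a * (x * y) := h.mul_comm_of_not_comm trivial trivial trivial hx hy
      simp only [f, hx, hy, this, if_true, if_false]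
      have e : a * y = y * a * z := h.comm_of_ne trivial trivial (fun e => hy e.symm)
      calc x * y = x * y * (z * z) := by rw [h.z_sq, mul_one]
        _ = x * (y * (a * a) * z) := by rw [ha]; group
        _ = x * (y * a * (a * z)) := by group
        _ = x * (y * a * (z * a)) := by rw [hz a]
        _ = x * ((y * a * z) * a) := by group
        _ = x * a * (y * a) := by rw [← e]; group

open Subgroup Cfsg.Agent.TT in
theorem refl_pos {Q : Type*} [Group Q] {z : Q} (h : XS (⊤ : Subgroup Q) z) (a : Q)
    (ha : a * a = z) {x : Q} (hx : x * a = a * x) : refl h a ha x = x := by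
  classical
  show (if x * a = a * x then x else x * a) = x
  rw [if_pos hx]

open Subgroup Cfsg.Agent.TT in
theorem refl_neg {Q : Type*} [Group Q] {z : Q} (h : XS (⊤ : Subgroup Q) z) (a : Q)
    (ha : a * a = z) {x : Q} (hx : x * a ≠ a * x) : refl h a ha x = x * a := by
  classical
  show (if x * a = a * x then x else x * a) = x * a
  rw [if_neg hx]

open Subgroup Cfsg.Agent.TT in
theorem exists_lift {Q : Type*} [Group Q] {L : Subgroup (MulAut Q)}
    (hL : (Cfsg.Inn Q).IsComplement' L) (ρ : MulAut Q) : ∃ q : Q, MulAut.conj q * ρ ∈ L := by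
  obtain ⟨⟨i, l⟩, hil⟩ := (hL.existsUnique ρ).exists
  obtain ⟨q, hq⟩ := i.2
  refine ⟨q⁻¹, ?_⟩
  have : MulAut.conj q⁻¹ * ρ = l := by
    rw [← hil, map_inv, hq]; simp
  rw [this]; exact l.2

open Subgroup Cfsg.Agent.TT in
theorem eq_of_lift {Q : Type*} [Group Q] {L : Subgroup (MulAut Q)}
    (hL : (Cfsg.Inn Q).IsComplement' L) {s t : MulAut Q} (hs : s ∈ L) (ht : t ∈ L) (q : Q)
    (e : s = MulAut.conj q * t) (x : Q) : q * x = x * q := by
  have h1 : s * t⁻¹ ∈ Cfsg.Inn Q ⊓ L :=
    ⟨⟨q, by rw [e]; simp⟩, L.mul_mem hs (L.inv_mem ht)⟩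
  rw [hL.disjoint.eq_bot, Subgroup.mem_bot, e, mul_inv_cancel_right] at h1
  have := DFunLike.congr_fun h1 x
  simp only [MulAut.conj_apply, MulAut.one_apply] at this
  calc q * x = (q * x * q⁻¹) * q := by group
    _ = x * q := by rw [this]


/-- Let Q be an extraspecial 2-group of order 2^(2n+1) with n ≥ 3 that is of plus type (it contains an elementary abelian subgroup of order 2^(n+1)). Then the group of inner automorphisms of Q has no complement in the full automorphism group of Q: the extension of the inner automorphism group (elementary abelian of order 2^(2n)) by the outer automorphism group (the orthogonal group of plus type) does not split. -/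
theorem result {Q : Type*} [Group Q] [Finite Q] (n : ℕ) (hn : 3 ≤ n) (hQ : Cfsg.IsExtraspecial 2 Q) (hcard : Nat.card Q = 2 ^ (2 * n + 1)) (hplus : ∃ E : Subgroup Q, Cfsg.IsElementaryAbelian 2 E ∧ Nat.card ↥E = 2 ^ (n + 1)) (L : Subgroup (MulAut Q)) : ¬ (Cfsg.Inn Q).IsComplement' L := by
  intro hL
  open Cfsg.Agent.TT in
  obtain ⟨z, h⟩ := exists_XS_top hQ
  have hz : ∀ x : Q, x * z = z * x := fun x => h.z_comm x trivial
  -- lifts of reflections do not commute with their centre
  have key : ∀ (a : Q) (ha : a * a = z) (q : Q), MulAut.conj q * refl h a ha ∈ L →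
      q * a ≠ a * q := by
    intro a ha q hq hc
    have h2 : (MulAut.conj q * refl h a ha) * (MulAut.conj q * refl h a ha) =
        MulAut.conj (q * q * a) * 1 := by
      ext x
      rw [mul_one]
      show q * refl h a ha (q * refl h a ha x * q⁻¹) * q⁻¹ = q * q * a * x * (q * q * a)⁻¹
      rw [map_mul, map_mul, map_inv, refl_pos h a ha hc]
      have e0 : q * q * a * x * (q * q * a)⁻¹ = q * (q * (a * x * a⁻¹) * q⁻¹) * q⁻¹ := by group
      rw [e0]
      by_cases hx : x * a = a * x
      · rw [refl_pos h a ha hx, refl_pos h a ha hx]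
        have : a * x * a⁻¹ = x := by rw [← hx]; group
        rw [this]
      · rw [refl_neg h a ha hx, map_mul, refl_neg h a ha hx, refl_pos h a ha rfl]
        have : a * x * a⁻¹ = x * a * a := by
          rw [h.conj_of_ne trivial trivial (fun e => hx e.symm), mul_assoc, ha]
        rw [this]
    have h3 := eq_of_lift hL (L.mul_mem hq hq) L.one_mem _ h2
    have h4 : ∀ x, a * x = x * a := fun x => by
      have e := h3 x
      have e2 := h.sq_comm (x := q) (y := x) trivial trivial
      have : q * q * (a * x) = q * q * (x * a) := by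
        rw [← mul_assoc, e, ← mul_assoc (q * q), e2]; group
      exact mul_left_cancel this
    rcases h.cent a trivial (fun y _ => h4 y) with rfl | rfl
    · exact h.z_ne (by rw [← ha, one_mul])
    · exact h.z_ne (by rw [← ha, h.z_sq])
  -- an element of order four
  obtain ⟨a, ha⟩ : ∃ a : Q, a * a = z := by
    obtain ⟨x, -, y, -, hxy⟩ := h.exists_noncomm_pair
    rcases h.sq (x := x) trivial with hx | hx
    · rcases h.sq (x := y) trivial with hy | hy
      · refine ⟨x * y, ?_⟩
        calc x * y * (x * y) = y * x * z * (x * y) := by rw [← hxy]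
          _ = y * (x * (z * x)) * y := by group
          _ = y * (x * x * z) * y := by rw [← hz x]; group
          _ = (y * y) * z := by rw [hx, one_mul, mul_assoc, ← hz y]; group
          _ = z := by rw [hy, one_mul]
      · exact ⟨y, hy⟩
    · exact ⟨x, hx⟩
  obtain ⟨w, hw⟩ := exists_lift hL (refl h a ha)
  have hwa := key a ha w hw
  -- a noncentral involution commuting with `a` and `w`
  obtain ⟨E, ⟨hEc, hE2⟩, hE⟩ := hplus
  obtain ⟨s, hsE, hsa, hsw, hs1, hsz⟩ : ∃ s ∈ E, s * a = a * s ∧ s * w = w * s ∧ s ≠ 1 ∧ s ≠ z := by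
    by_contra hcon
    push Not at hcon
    have c1 := card_le_two_mul_of_mul_mem (A := E) (B := E ⊓ Subgroup.centralizer {a}) inf_le_left
      (fun x hx y hy hx' hy' => Subgroup.mem_inf.2 ⟨E.mul_mem hx hy, by
        rw [Subgroup.mem_centralizer_singleton_iff]
        refine h.mul_comm_of_not_comm trivial trivial trivial
          (fun e => hx' (Subgroup.mem_inf.2 ⟨hx, ?_⟩))
          (fun e => hy' (Subgroup.mem_inf.2 ⟨hy, ?_⟩)) <;>
          rwa [Subgroup.mem_centralizer_singleton_iff]⟩)
    have c2 := card_le_two_mul_of_mul_mem (A := E ⊓ Subgroup.centralizer {a})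
      (B := E ⊓ Subgroup.centralizer {a} ⊓ Subgroup.centralizer {w}) inf_le_left
      (fun x hx y hy hx' hy' => Subgroup.mem_inf.2 ⟨Subgroup.mul_mem _ hx hy, by
        rw [Subgroup.mem_centralizer_singleton_iff]
        refine h.mul_comm_of_not_comm trivial trivial trivial
          (fun e => hx' (Subgroup.mem_inf.2 ⟨hx, ?_⟩))
          (fun e => hy' (Subgroup.mem_inf.2 ⟨hy, ?_⟩)) <;>
          rwa [Subgroup.mem_centralizer_singleton_iff]⟩)
    have c3 : Nat.card (E ⊓ Subgroup.centralizer {a} ⊓ Subgroup.centralizer {w} : Subgroup Q) ≤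
        Nat.card (Subgroup.zpowers z) := by
      apply Subgroup.card_le_of_le
      intro x hx0
      obtain ⟨hx1, hxw⟩ := Subgroup.mem_inf.1 hx0
      obtain ⟨hx, hxa⟩ := Subgroup.mem_inf.1 hx1
      rw [mem_zpowers_invol h.z_sq]
      rw [Subgroup.mem_centralizer_singleton_iff] at hxa hxw
      by_cases h1 : x = 1
      · exact Or.inl h1
      · exact Or.inr (hcon x hx hxa hxw h1)
    rw [Nat.card_zpowers, h.orderOf_z] at c3
    have c4 : 2 ^ 4 ≤ 2 ^ (n + 1) := Nat.pow_le_pow_right (by norm_num) (by omega)
    omega
  have hss : s * s = 1 := by rw [← pow_two]; exact hE2 s hsE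
  have hb : (a * s) * (a * s) = z := by
    calc a * s * (a * s) = a * (s * a) * s := by group
      _ = (a * a) * (s * s) := by rw [hsa]; group
      _ = z := by rw [ha, hss, mul_one]
  have hba : (a * s) * a = a * (a * s) := by rw [mul_assoc, hsa]
  have hab : a * (a * s) = (a * s) * a := hba.symm
  have hwb : w * (a * s) ≠ (a * s) * w := fun e => hwa (by
    have : (w * a) * s = (a * w) * s := by rw [mul_assoc, e, mul_assoc, hsw, mul_assoc]
    exact mul_right_cancel this)
  obtain ⟨v, hv⟩ := exists_lift hL (refl h (a * s) hb)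
  -- the two reflections commute
  have hcomm : refl h a ha * refl h (a * s) hb = refl h (a * s) hb * refl h a ha := by
    ext x
    simp only [MulAut.mul_apply]
    by_cases hx : x * a = a * x <;> by_cases hy : x * (a * s) = (a * s) * x
    · rw [refl_pos h _ hb hy, refl_pos h _ ha hx, refl_pos h _ hb hy]
    · rw [refl_neg h _ hb hy, refl_pos h _ ha hx, refl_neg h _ hb hy, map_mul, refl_pos h _ ha hx,
        refl_pos h _ ha hba]
    · rw [refl_pos h _ hb hy, refl_neg h _ ha hx, map_mul, refl_pos h _ hb hy, refl_pos h _ hb hab]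
    · rw [refl_neg h _ hb hy, refl_neg h _ ha hx, map_mul (refl h a ha) x, map_mul _ x a,
        refl_neg h _ ha hx,
        refl_neg h _ hb hy, refl_pos h _ ha hba, refl_pos h _ hb hab, mul_assoc, hab, ← mul_assoc]
  have conj_eq : ∀ (ρ : MulAut Q) (q : Q), ρ * MulAut.conj q = MulAut.conj (ρ q) * ρ := by
    intro ρ q; ext x; simp
  have e1 : (MulAut.conj w * refl h a ha) * (MulAut.conj v * refl h (a * s) hb) =
      MulAut.conj (w * refl h a ha v * (v * (w * (a * s)))⁻¹) *
        ((MulAut.conj v * refl h (a * s) hb) * (MulAut.conj w * refl h a ha)) := by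
    rw [mul_assoc (MulAut.conj w), ← mul_assoc (refl h a ha), conj_eq, mul_assoc (MulAut.conj v),
      ← mul_assoc (refl h (a * s) hb), conj_eq, refl_neg h _ hb hwb, mul_assoc, mul_assoc, hcomm]
    simp only [map_mul, map_inv]
    group
  have e2 := eq_of_lift hL (L.mul_mem hw hv) (L.mul_mem hv hw) _ e1
  have cz : ∀ x y : Q, x * y = y * x ∨ x * y = y * x * z := fun x y => h.comm x trivial y trivial
  -- read off that `a s` or `s` is central
  have central : ∀ c : Q, (∀ x, c * x = x * c) → c = 1 ∨ c = z := fun c hc =>
    h.cent c trivial (fun y _ => hc y)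
  have hzz := h.z_sq
  have hc := central _ e2
  have hzi := h.z_inv
  by_cases hva : v * a = a * v
  · rw [refl_pos h _ ha hva] at hc
    have : a * s = 1 ∨ a * s = z := by
      rcases hc with hc | hc
      · rw [mul_inv_eq_one] at hc
        rcases cz w v with e | e
        · left; rw [e, ← mul_assoc] at hc; exact (mul_eq_left.1 hc.symm)
        · right; rw [e, ← mul_assoc] at hc; exact (mul_left_cancel hc).symm
      · rw [mul_inv_eq_iff_eq_mul, ← hz, ← mul_assoc] at hc
        rcases cz w v with e | e
        · right
          rw [e, mul_assoc] at hc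
          have := (mul_eq_left.1 hc.symm)
          rw [mul_eq_one_iff_eq_inv, hzi] at this; exact this
        · left
          rw [e] at hc
          have := mul_right_cancel hc
          exact (mul_eq_left.1 this.symm)
    rcases this with e | e
    · rw [e, one_mul] at hb; exact h.z_ne hb.symm
    · rw [e, hzz] at hb; exact h.z_ne hb.symm
  · rw [refl_neg h _ ha hva] at hc
    have e0 : v * (w * (a * s)) = (v * w * a) * s := by group
    rw [e0, ← mul_assoc] at hc
    rcases hc with hc | hc
    · rw [mul_inv_eq_one] at hc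
      rcases cz w v with e | e
      · rw [e] at hc; exact hs1 (mul_eq_left.1 hc.symm)
      · rw [e, mul_assoc (v * w), ← hz a, ← mul_assoc] at hc
        exact hsz (mul_left_cancel hc).symm
    · rw [mul_inv_eq_iff_eq_mul, ← hz] at hc
      rcases cz w v with e | e
      · rw [e, mul_assoc (v * w * a)] at hc
        have := (mul_eq_left.1 hc.symm)
        rw [mul_eq_one_iff_eq_inv, hzi] at this; exact hsz this
      · rw [e, mul_assoc (v * w), ← hz a, ← mul_assoc] at hc
        have := mul_right_cancel hc
        exact hs1 (mul_eq_left.1 this.symm)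

end Cfsg.Agent.S3085
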