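import Cfsg.Statements.S3105
import Mathlib
import Cfsg.Agent.GHE.L32C
import Cfsg.Agent.S0249
import Cfsg.Agent.S0255
import Cfsg.Agent.PLocal.PrimeCoreAmb
import Cfsg.Agent.Misc.AutElem

set_option autoImplicit false
open Cfsg

namespace Cfsg.Agent.S3105

open Subgroup GHE in
theorem equiv_prod {G : Type*} [Group G] [Finite G] {R U : Subgroup G} {e c : G}
    (sp : Sp R e U c) : Nonempty (zpowers c × U ≃* R) := by
  have cm : ∀ x : zpowers c, (x : G) ∈ R := fun x => zpowers_le.2 sp.mem x.2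
  let φ : zpowers c × U →* R := MonoidHom.mk' (fun p => ⟨p.1 * p.2, mul_mem (cm _) (sp.le p.2.2)⟩)
    fun a b => Subtype.ext ((sp.comm _ (cm b.1) _ (sp.le a.2.2)).mul_mul_mul_comm _ _)
  refine ⟨MulEquiv.ofBijective φ ⟨(injective_iff_map_eq_one φ).2 ?_, fun r => ?_⟩⟩
  · rintro ⟨⟨_, i, rfl⟩, u, hu⟩ h
    have h : c ^ i * u = 1 := congrArg Subtype.val h
    have h1 : u = 1 := sp.fpf u hu (by
      rw [eq_inv_of_mul_eq_one_right h, (sp.ec.zpow_right i).inv_right.eq, mul_inv_cancel_right])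
    exact Prod.ext (Subtype.ext (by simpa [h1] using h)) (Subtype.ext h1)
  · obtain ⟨u, hu, i, h⟩ := sp.dec r r.2
    exact ⟨(⟨c ^ i, npow_mem_zpowers c i⟩, ⟨u, hu⟩),
      Subtype.ext (((sp.cu u hu).pow_left i).eq.trans h.symm)⟩

open Subgroup GHE in
theorem equiv_e8 {U : Type*} [Group U] [Finite U] (h : ∀ u : U, u * u = 1) (h8 : Nat.card U = 8) :
    Nonempty (U ≃* (Fin 3 → Multiplicative (ZMod 2))) := by
  obtain ⟨κ, ρ, co⟩ := exists_co (G := U) (n := 3) (bot_le : ⊥ ≤ ⊤) (fun x _ => h x) (by simp [h8])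
  let φ : U →* Multiplicative (Fin 3 → ZMod 2) := MonoidHom.mk' (fun u => Multiplicative.ofAdd (κ u))
    fun a b => congrArg Multiplicative.ofAdd (co.mul a trivial b trivial)
  refine ⟨(MulEquiv.ofBijective φ ⟨(injective_iff_map_eq_one φ).2 fun a ha =>
    (co.zero a trivial).1 ha, fun v => ?_⟩).trans (MulEquiv.funMultiplicative _ _)⟩
  obtain ⟨x, -, hx⟩ := co.surj v.toAdd
  exact ⟨x, congrArg Multiplicative.ofAdd hx⟩

/-- Let X be a finite nonsolvable 2-constrained group with no nontrivial normal subgroup of odd order and of sectional 2-rank at most 4, and suppose X/O₂(X) is isomorphic to the projective special linear group of dimension 3 over the field with 2 elements. Then O₂(X) is elementary abelian of order 8 or 16, or is isomorphic to the direct product of a cyclic group of order 4 and an elementary abelian group of order 8. -/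
theorem result {X : Type*} [Group X] [Finite X] (hns : ¬ Group.IsSolvable X) (hc : Cfsg.IsPConstrained 2 X) (hO : Cfsg.oddCore X = ⊥)
    (h4 : Cfsg.SectionalPRankLE 2 4 X) {F : Type*} [Field F] [Fintype F] (hF : Fintype.card F = 2)
    (hQ : Nonempty (X ⧸ Cfsg.pCore 2 X ≃* Matrix.ProjectiveSpecialLinearGroup (Fin 3) F)) :
    (Cfsg.IsElementaryAbelian 2 (Cfsg.pCore 2 X) ∧ (Nat.card ↥(Cfsg.pCore 2 X) = 8 ∨ Nat.card ↥(Cfsg.pCore 2 X) = 16)) ∨
      Nonempty (↥(Cfsg.pCore 2 X) ≃* Multiplicative (ZMod 4) × (Fin 3 → Multiplicative (ZMod 2))) := by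
  have : Fact (Nat.Prime 2) := ⟨Nat.prime_two⟩
  obtain ⟨f⟩ := hQ
  have := S0249.result (F := F) 3 le_rfl
  have hS : Nat.card (Matrix.ProjectiveSpecialLinearGroup (Fin 3) F) = 168 := by
    obtain ⟨e1⟩ := S0255.result (ZMod.card 7) hF
    obtain ⟨e2⟩ := S0255.model
    rw [← Nat.card_congr e1.toEquiv, Nat.card_congr e2.toEquiv, S0255.card_SL32]
  have hk : (f.toMonoidHom.comp (QuotientGroup.mk' (pCore 2 X))).ker = pCore 2 X := by
    ext x; simp
  obtain ⟨e, U, c, sp, c4⟩ := GHE.l32 hS (f.surjective.comp (QuotientGroup.mk'_surjective _) :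
    Function.Surjective (f.toMonoidHom.comp (QuotientGroup.mk' (pCore 2 X))))
    (by rw [hk]; exact Grp.pCore_isPGroup 2 X) h4
    (by rw [hk]; exact PLocal.PCA.charP_of_isPConstrained hc hO)
  rw [hk] at sp
  obtain ⟨g⟩ := equiv_prod sp
  by_cases c2 : c * c = 1
  · refine Or.inl ⟨⟨⟨⟨fun x y => Subtype.ext (sp.comm _ x.2 _ y.2)⟩⟩, fun x hx => ?_⟩, ?_⟩
    · obtain ⟨u, hu, i, rfl⟩ := sp.dec x hx
      rw [pow_two, sp.sqr hu, ← (Commute.refl c).mul_pow, c2, one_pow]
    · rw [← Nat.card_congr g.toEquiv, Nat.card_prod, sp.card, Nat.card_zpowers]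
      rcases (Nat.dvd_prime Nat.prime_two).1 (orderOf_dvd_of_pow_eq_one ((pow_two c).trans c2)) with
        h | h <;> simp [h]
  · obtain ⟨g'⟩ := equiv_e8 (U := U) (fun u => Subtype.ext (sp.sq u u.2)) sp.card
    refine Or.inr ⟨g.symm.trans (MulEquiv.prodCongr (mulEquivOfCyclicCardEq ?_) g')⟩
    rw [Nat.card_zpowers, orderOf_eq_prime_pow (p := 2) (n := 1) (by simpa [pow_two] using c2) c4]
    simp

end Cfsg.Agent.S3105
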