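import Cfsg.Statements.S3106
import Mathlib
import Cfsg.Agent.GHE.Five
import Cfsg.Agent.Fus.GenES
import Cfsg.Agent.PLocal.PrimeCoreAmb

set_option autoImplicit false
open Cfsg

namespace Cfsg.Agent.S3106

open scoped commutatorElement in
open Subgroup GHE Grp.ES in
theorem decomp {G : Type*} [Group G] [Finite G] {z : G} {a : Fin 5 → G} (F : Fr ⊤ z a) :
    ∃ A B : Subgroup G, Nonempty (↥A ≃* QuaternionGroup 2) ∧ Nonempty (↥B ≃* DihedralGroup 4) ∧
      (∀ a ∈ A, ∀ b ∈ B, a * b = b * a) ∧ A ⊔ B = ⊤ ∧ A ⊓ B = Subgroup.center G := by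
  have : Fact (Nat.Prime 2) := ⟨Nat.prime_two⟩
  have h := F.es
  have t := fun x : G => mem_top x
  have z1 := h.z_ne_one
  have zz := h.z_mul_z
  have c := F.comm
  have cm : ∀ i j k, i ≠ j → i ≠ k → Commute (a i) (a j * a k) := fun i j k h1 h2 =>
    commutatorElement_eq_one_iff_commute.1 (by rw [h.mul_right (t _) (t _) (t _), c i j h1, c i k h2, zz])
  have sq : ∀ i j, i ≠ j → (a i * a j) ^ 2 = z := fun i j h1 => by
    rw [h.mul_sq (t _) (t _), c i j h1, pow_two, pow_two, F.sq, F.sq, one_mul, one_mul]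
  have hxy : ⁅a 2 * a 3, a 3 * a 4⁆ = z := by
    rw [h.mul_left (t _) (t _) (t _), h.mul_right (t _) (t _) (t _), h.mul_right (t _) (t _) (t _),
      c 2 3 (by decide), c 2 4 (by decide), c 3 4 (by decide), commutatorElement_self, zz, one_mul,
      one_mul]
  have h01 := c 0 1 (by decide)
  have hx : a 2 * a 3 ∈ ⊤ ⊓ centralizer {a 0, a 1} :=
    IsES.mem_inf_centralizer.2 ⟨t _, cm _ _ _ (by decide) (by decide), cm _ _ _ (by decide) (by decide)⟩
  have hy : a 3 * a 4 ∈ ⊤ ⊓ centralizer {a 0, a 1} :=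
    IsES.mem_inf_centralizer.2 ⟨t _, cm _ _ _ (by decide) (by decide), cm _ _ _ (by decide) (by decide)⟩
  have h0 : a 0 ∈ ⊤ ⊓ centralizer {a 2 * a 3, a 3 * a 4} := IsES.mem_inf_centralizer.2
    ⟨t _, (cm _ _ _ (by decide) (by decide)).symm, (cm _ _ _ (by decide) (by decide)).symm⟩
  have h1 : a 1 ∈ ⊤ ⊓ centralizer {a 2 * a 3, a 3 * a 4} := IsES.mem_inf_centralizer.2
    ⟨t _, (cm _ _ _ (by decide) (by decide)).symm, (cm _ _ _ (by decide) (by decide)).symm⟩
  have cA := h.card_eq_mul (t _) (t _) h01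
  have cB := h.card_eq_mul (t _) (t _) hxy
  have hA := h.inf_centralizer (t _) (t _) h01
  have cC := hA.card_eq_mul hx hy hxy
  have hC := hA.inf_centralizer hx hy hxy
  rw [F.card] at cA cB
  have eC : zpowers z = ⊤ ⊓ centralizer {a 0, a 1} ⊓ centralizer {a 2 * a 3, a 3 * a 4} :=
    eq_of_le_of_card_ge hC.zpowers_le (by rw [Nat.card_zpowers, h.ord]; omega)
  refine ⟨⊤ ⊓ centralizer {a 0, a 1}, ⊤ ⊓ centralizer {a 2 * a 3, a 3 * a 4},
    Fus.AC.nonempty_equiv_Q8 (by omega) (x := ⟨_, hx⟩) (y := ⟨_, hy⟩)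
      (fun e => z1 ((sq 2 3 (by decide)).symm.trans (congrArg Subtype.val e)))
      (fun e => z1 ((sq 3 4 (by decide)).symm.trans (congrArg Subtype.val e)))
      (fun e => z1 (hxy.symm.trans (congrArg Subtype.val e))),
    Fus.AC.nonempty_equiv_D8 (by omega) (x := ⟨_, h0⟩) (y := ⟨_, h1⟩)
      (Subtype.ext ((pow_two _).trans (F.sq 0))) (Subtype.ext ((pow_two _).trans (F.sq 1)))
      (fun e => z1 (h01.symm.trans (congrArg Subtype.val e))), fun u hu v hv => ?_, ?_, ?_⟩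
  · obtain ⟨i, j, w, hw, rfl⟩ := hA.exists_decomp hx hy hxy hu
    obtain ⟨-, e1, e2⟩ := IsES.mem_inf_centralizer.1 hv
    exact (((e1.zpow_left i).mul_left (e2.zpow_left j)).mul_left
      (h.commute_of_mem (t v) (eC ▸ hw)).symm).eq
  · refine eq_top_iff.2 fun s _ => ?_
    obtain ⟨i, j, w, hw, rfl⟩ := h.exists_decomp (t _) (t _) h01 (t s)
    exact mul_mem (mul_mem (zpow_mem (mem_sup_right h0) _) (zpow_mem (mem_sup_right h1) _))
      (mem_sup_left hw)
  · rw [h.center_eq, eC]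
    ext x
    simp


/-- Let X be a finite nonsolvable 2-constrained group with no nontrivial normal subgroup of odd order and of sectional 2-rank at most 4, and suppose X/O₂(X) contains a subgroup isomorphic to the alternating group of degree 5. Then O₂(X) is elementary abelian of order 16, or O₂(X) is a central product of a quaternion group of order 8 and a dihedral group of order 8 (it has order 32 and is generated by two elementwise-commuting subgroups, one quaternion of order 8 and one dihedral of order 8, meeting in the centre). -/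
theorem result {X : Type*} [Group X] [Finite X] (hns : ¬ Group.IsSolvable X) (hc : Cfsg.IsPConstrained 2 X) (hO : Cfsg.oddCore X = ⊥)
    (h4 : Cfsg.SectionalPRankLE 2 4 X)
    (hQ : ∃ A : Subgroup (X ⧸ Cfsg.pCore 2 X), Nonempty (↥A ≃* ↥(alternatingGroup (Fin 5)))) :
    (Cfsg.IsElementaryAbelian 2 (Cfsg.pCore 2 X) ∧ Nat.card ↥(Cfsg.pCore 2 X) = 16) ∨
      (Nat.card ↥(Cfsg.pCore 2 X) = 32 ∧ ∃ A B : Subgroup ↥(Cfsg.pCore 2 X),
        Nonempty (↥A ≃* QuaternionGroup 2) ∧ Nonempty (↥B ≃* DihedralGroup 4) ∧ (∀ a ∈ A, ∀ b ∈ B, a * b = b * a) ∧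
          A ⊔ B = ⊤ ∧ A ⊓ B = Subgroup.center ↥(Cfsg.pCore 2 X)) := by
  have : Fact (Nat.Prime 2) := ⟨Nat.prime_two⟩
  obtain ⟨A, ⟨e⟩⟩ := hQ
  rcases GHE.five (Grp.pCore_isPGroup 2 X) (PLocal.PCA.charP_of_isPConstrained hc hO) h4 A e with
    ⟨h1, h2⟩ | ⟨z, a, F⟩
  · exact Or.inl ⟨⟨⟨⟨fun x y => Subtype.ext (GHE.comm_of_sq h1 x.2 y.2)⟩⟩,
      fun x hx => (pow_two x).trans (h1 x hx)⟩, h2⟩
  · exact Or.inr ⟨F.card, decomp (a := fun i => ⟨a i, F.mem i⟩) ⟨F.es.subgroupOf_self,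
      by rw [Subgroup.card_top, F.card], fun _ => trivial, fun i => Subtype.ext (F.sq i),
      fun i j h => Subtype.ext (F.comm i j h)⟩⟩

end Cfsg.Agent.S3106
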