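import Cfsg.Statements.S3355
import Cfsg.Agent.R23.Min
import Cfsg.Agent.R23.Even
import Cfsg.Agent.R23.Tw
import Cfsg.Agent.R23.Root6
import Cfsg.Agent.R23.Leech

set_option autoImplicit false
open Cfsg

namespace Cfsg.Agent.S3355

/-- Let G be a finite group with a faithful irreducible rational representation of degree 23 (an injective homomorphism into GL(23, ℚ) leaving no proper non-zero subspace invariant) and with no subgroup of index 23 or 24. Then G is isomorphic to a subgroup of the direct product of a group of order 2 with the second Conway group, or of a group of order 2 with the third Conway group. -/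
theorem result {G : Type*} [Group G] [Finite G]
    (ρ : G →* GL (Fin 23) ℚ) (hρ : Function.Injective ρ)
    (hirr : ∀ W : Submodule ℚ (Fin 23 → ℚ), (∀ g : G, ∀ w ∈ W, ((ρ g : GL (Fin 23) ℚ) : Matrix (Fin 23) (Fin 23) ℚ).mulVec w ∈ W) → W = ⊥ ∨ W = ⊤)
    (hidx : ∀ H : Subgroup G, H.index ≠ 23 ∧ H.index ≠ 24) :
    (∃ f : G →* Multiplicative (ZMod 2) × Cfsg.Spor.Co2, Function.Injective f) ∨
    (∃ f : G →* Multiplicative (ZMod 2) × Cfsg.Spor.Co3, Function.Injective f) := by
  open Cfsg.Agent.R23 in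
  let τ : G →* Module.End ℚ V :=
    (Matrix.toLinAlgEquiv' : Matrix (Fin 23) (Fin 23) ℚ ≃ₐ[ℚ] _).toMonoidHom.comp
      ((Units.coeHom _).comp ρ)
  have hτ : Function.Injective τ :=
    (Matrix.toLinAlgEquiv' : Matrix (Fin 23) (Fin 23) ℚ ≃ₐ[ℚ] _).injective.comp
      (Units.val_injective.comp hρ)
  have nb : ¬ Bad G := fun ⟨K, hK⟩ => hK.elim (hidx K).1 (hidx K).2
  obtain ⟨b, h0⟩ := exists_R0 (τ := τ) hirr
  obtain ⟨σ, y, h1⟩ := h0.exists_Rp hτ
  obtain ⟨b, L, h2⟩ := h1.exists_ML hτ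
  obtain ⟨y, L, D, h3⟩ := h2.exists_EL nb
  have n10 : D ≠ 10 := fun e => (e ▸ h3).ne10
  obtain ⟨ε, τ', h4, he⟩ := h3.twist n10
  have fin : ∀ {K : Type} [Group K] (f : G →* K), (∀ g, f g = 1 → τ' g = 1) →
      ∃ f : G →* Multiplicative (ZMod 2) × K, Function.Injective f := fun f hf =>
    ⟨ε.prod f, (injective_iff_map_eq_one _).2 fun g a => hτ (by
      rw [map_one, ← he g (congrArg Prod.fst a), hf g (congrArg Prod.snd a)])⟩
  rcases h3.cases with rfl | rfl | rfl | rfl | rfl
  · exact (nb h4.root2).elim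
  · obtain ⟨f, hf⟩ := h4.leech4 fun p hp e => nb (h4.root4 ⟨p, hp, e⟩)
    exact .inl (fin f hf)
  · obtain ⟨f, hf⟩ := h4.leech6 fun p hp e => nb (h4.root6 ⟨p, hp, e⟩)
    exact .inr (fin f hf)
  · exact (n10 rfl).elim
  · exact (nb h4.idx12).elim

end Cfsg.Agent.S3355
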