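import Cfsg.Statements.S3357
import Cfsg.Agent.FGS.FpfFun

set_option autoImplicit false
open Cfsg

namespace Cfsg.Agent.S3357

open FGS.FrobCompl in

/-- Let G be a finite group that occurs as a Frobenius complement. Then G has a faithful irreducible representation over an algebraic closure of the rationals in which no non-identity element of G has 1 as an eigenvalue: there are n ≥ 1 and an injective homomorphism ρ from G to GL(n) over that field, with no invariant subspace other than 0 and the whole space, such that for g ≠ 1 the only vector fixed by ρ(g) is 0. -/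
theorem result {G : Type*} [Group G] [Finite G]
    (hFC : ∃ (L : Type) (_ : Group L) (_ : Finite L) (H : Subgroup L), Cfsg.IsFrobeniusComplement H ∧ Nonempty (G ≃* H)) :
    ∃ (n : ℕ) (ρ : G →* GL (Fin n) (AlgebraicClosure ℚ)), 0 < n ∧ Function.Injective ρ ∧
      (∀ W : Submodule (AlgebraicClosure ℚ) (Fin n → AlgebraicClosure ℚ),
        (∀ g : G, ∀ w ∈ W, ((ρ g : GL (Fin n) (AlgebraicClosure ℚ)) : Matrix (Fin n) (Fin n) (AlgebraicClosure ℚ)).mulVec w ∈ W) → W = ⊥ ∨ W = ⊤) ∧
      ∀ g : G, g ≠ 1 → ∀ v : Fin n → AlgebraicClosure ℚ,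
        ((ρ g : GL (Fin n) (AlgebraicClosure ℚ)) : Matrix (Fin n) (Fin n) (AlgebraicClosure ℚ)).mulVec v = v → v = 0 := by
  set F := AlgebraicClosure ℚ with hF
  obtain ⟨f₀, hf₀, hf0⟩ := Occurs.exists_int hFC
  let τ : G →* Module.End F (G → F) :=
    { toFun := fun x => LinearMap.funLeft F F (fun g => x⁻¹ * g)
      map_one' := by ext f g; simp
      map_mul' := fun x y => by ext f g; simp [mul_assoc] }
  have hτ : ∀ x f g, τ x f g = f (x⁻¹ * g) := fun _ _ _ => rfl
  let U : Submodule F (G → F) :=
    { carrier := {f | FpfFun f}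
      add_mem' := fun h1 h2 => (fpfSub G F).add_mem h1 h2
      zero_mem' := (fpfSub G F).zero_mem
      smul_mem' := fun c f hf => FpfFun.map hf (AddMonoidHom.mulLeft c) }
  let P : Submodule F (G → F) → Prop := fun W => W ≠ ⊥ ∧ W ≤ U ∧ ∀ x, ∀ f ∈ W, τ x f ∈ W
  have hU : P U := by
    refine ⟨?_, le_rfl, fun x f hf => FpfFun.left hf x⁻¹⟩
    rw [Submodule.ne_bot_iff]
    refine ⟨fun g => (f₀ g : F), hf₀.map (Int.castAddHom F), fun h => hf0 ?_⟩
    funext g
    exact Int.cast_eq_zero.1 (congrFun h g)
  obtain ⟨W, ⟨hW0, hWU, hWτ⟩, hmin⟩ := exists_minimal_of_wellFoundedLT P ⟨U, hU⟩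
  have hfpf : ∀ x : G, x ≠ 1 → ∀ f ∈ U, τ x f = f → f = 0 := by
    intro x hx f hf h
    have h1 : orderOf x ≠ 1 := by simpa using hx
    obtain ⟨r, hr, hra⟩ := Nat.exists_prime_and_dvd h1
    have h2 : orderOf (x ^ (orderOf x / r)) = r :=
      orderOf_pow_orderOf_div (orderOf_pos x).ne' hra
    have h3 : ∀ (i : ℕ) g, f (x ^ i * g) = f g := by
      intro i g
      induction i with
      | zero => simp
      | succ i ih => rw [← ih, ← congrFun h (x ^ (i + 1) * g), hτ, pow_succ', mul_assoc,
          inv_mul_cancel_left]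
    funext g
    have h4 := hf _ (h2.symm ▸ hr) g
    simp only [← pow_mul, h3, Finset.sum_const, Finset.card_range, h2] at h4
    simpa [hr.ne_zero] using h4
  let e : W ≃ₗ[F] (Fin (Module.finrank F W) → F) := (Module.finBasis F W).equivFun
  let σ : G →* Module.End F W :=
    { toFun := fun x => (τ x).restrict (hWτ x)
      map_one' := by ext f g; simp
      map_mul' := fun x y => by ext f g; simp }
  have hσ : ∀ x (w : W), (σ x w : G → F) = τ x w := fun _ _ => rfl
  let ρ : G →* Matrix (Fin (Module.finrank F W)) (Fin (Module.finrank F W)) F :=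
    { toFun := fun x => LinearMap.toMatrix' (e.conj (σ x))
      map_one' := by rw [map_one, Module.End.one_eq_id, LinearEquiv.conj_id, LinearMap.toMatrix'_id]
      map_mul' := fun x y => by
        rw [map_mul, Module.End.mul_eq_comp, LinearEquiv.conj_comp, LinearMap.toMatrix'_comp] }
  have hρ : ∀ x v, (ρ x).mulVec v = e (σ x (e.symm v)) := fun x v => by
    change (LinearMap.toMatrix' (e.conj (σ x))).mulVec v = _
    rw [LinearMap.toMatrix'_mulVec]
    rfl
  have hlast : ∀ g : G, g ≠ 1 → ∀ v, (ρ g).mulVec v = v → v = 0 := by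
    intro g hg v hv
    rw [hρ, ← LinearEquiv.eq_symm_apply] at hv
    have := hfpf g hg _ (hWU (e.symm v).2) (congrArg Subtype.val hv)
    exact e.symm.injective ((Subtype.ext this).trans (map_zero _).symm)
  have hn : 0 < Module.finrank F W := by
    haveI : Nontrivial W := Submodule.nontrivial_iff_ne_bot.2 hW0
    exact Module.finrank_pos
  refine ⟨Module.finrank F W, ρ.toHomUnits, hn, ?_, ?_, hlast⟩
  · rw [injective_iff_map_eq_one]
    intro g hg
    by_contra h1
    have h2 : ρ g = 1 := congrArg Units.val hg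
    have h3 := hlast g h1 1 (by rw [h2, Matrix.one_mulVec])
    exact one_ne_zero (congrFun h3 ⟨0, hn⟩)
  · intro W' hW'
    by_cases h0 : W' = ⊥
    · exact Or.inl h0
    right
    let W'' : Submodule F (G → F) := W'.map (W.subtype ∘ₗ e.symm.toLinearMap)
    have hle : W'' ≤ W := by
      rintro _ ⟨v, -, rfl⟩
      exact (e.symm v).2
    have hP : P W'' := by
      refine ⟨?_, hle.trans hWU, ?_⟩
      · intro h
        apply h0
        rw [eq_bot_iff]
        intro v hv
        have h1 : (W.subtype ∘ₗ e.symm.toLinearMap) v ∈ W'' := ⟨v, hv, rfl⟩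
        rw [h, Submodule.mem_bot] at h1
        exact e.symm.injective ((Subtype.ext h1).trans (map_zero _).symm)
      · rintro x _ ⟨v, hv, rfl⟩
        refine ⟨_, hW' x v hv, ?_⟩
        change ((e.symm ((ρ x).mulVec v) : W) : G → F) = _
        rw [hρ, LinearEquiv.symm_apply_apply]
        rfl
    have h1 := hmin hP hle
    rw [eq_top_iff]
    intro v _
    obtain ⟨v', hv', h2⟩ := h1 (e.symm v).2
    have h3 : v' = v := e.symm.injective (Subtype.ext h2)
    exact h3 ▸ hv'

end Cfsg.Agent.S3357
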