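import Cfsg.Statements.S3361
import Cfsg.Agent.S3360
import Cfsg.Agent.S3742
import Cfsg.Agent.FGS.RankOneStruct
import Cfsg.Agent.Transfer.Q8SL23
import Cfsg.Agent.Transfer.Frobenius
import Cfsg.Agent.PLocal.SL2Recog
import Cfsg.Agent.Perm.SimplePower

set_option autoImplicit false
open Cfsg

namespace Cfsg.Agent.S3361

open FGS.FrobCompl Perm.SemiLin

section
variable {G : Type*} [Group G] [Finite G]

theorem exists_index_two_of_quot (N : Subgroup G) [N.Normal] (h : IsPGroup 2 (G ⧸ N))
    (hN : N ≠ ⊤) : ∃ M : Subgroup G, M.index = 2 := by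
  haveI : Nontrivial (G ⧸ N) := QuotientGroup.nontrivial_iff.2 hN
  obtain ⟨k, hk, hk'⟩ := h.nontrivial_iff_card.1 inferInstance
  obtain ⟨k, rfl⟩ : ∃ j, k = j + 1 := ⟨k - 1, by omega⟩
  obtain ⟨K, hK⟩ := Sylow.exists_subgroup_card_pow_prime (G := G ⧸ N) 2 (n := k)
    (hk' ▸ pow_dvd_pow 2 k.le_succ)
  refine ⟨K.comap (QuotientGroup.mk' N), ?_⟩
  rw [Subgroup.index_comap_of_surjective _ (QuotientGroup.mk'_surjective N)]
  have := K.card_mul_index
  rw [hK, hk', pow_succ] at this
  exact Nat.eq_of_mul_eq_mul_left (by positivity) this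

theorem exists_index_two (h : HasNormalPComplement 2 G) (h2 : 2 ∣ Nat.card G) :
    ∃ M : Subgroup G, M.index = 2 := by
  obtain ⟨P, N, hN, hc⟩ := h
  refine exists_index_two_of_quot N (P.isPGroup'.of_equiv hc.symm.QuotientMulEquiv.symm) ?_
  rintro rfl
  exact P.ne_bot_of_dvd_card h2 (Subgroup.isComplement'_top_left.1 hc)

theorem exists_index_two_of_sqfree (Q : Subgroup G) [Q.Normal] (h : Squarefree Q.index)
    (h2 : 2 ∣ Q.index) : ∃ M : Subgroup G, M.index = 2 := by
  haveI : IsZGroup (G ⧸ Q) := IsZGroup.of_squarefree h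
  obtain ⟨M, hM⟩ := exists_index_two (G := G ⧸ Q) hasNormalPComplement_two_of_isZGroup h2
  exact ⟨M.comap (QuotientGroup.mk' Q), by
    rw [Subgroup.index_comap_of_surjective _ (QuotientGroup.mk'_surjective Q), hM]⟩

theorem exists_SL23 (hN : ¬ HasNormalPComplement 2 G) (Q : Subgroup G) [Q.Normal]
    (e : Q ≃* QuaternionGroup 2) (hc : Nat.card G ∣ 120) :
    ∃ H : Subgroup G, Nonempty (H ≃* Matrix.SpecialLinearGroup (Fin 2) (ZMod 3)) := by
  have hQ : Nat.card Q = 2 ^ 3 := by
    rw [Nat.card_congr e.toEquiv, Nat.card_eq_fintype_card, QuaternionGroup.card]; norm_num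
  obtain ⟨B, q, g, hB, hq, hq2, ⟨k, hk⟩, hg, hgc⟩ :=
    Transfer.exists_qElement_of_not_hasNormalPComplement hN
  have hQi : ¬ 2 ∣ Q.index := fun h => by
    have h1 := (Nat.mul_dvd_mul_left (Nat.card Q) h).trans (Q.card_mul_index ▸ hc)
    rw [hQ] at h1
    norm_num at h1
  have hBQ : B ≤ Q := by
    let P : Sylow 2 G := (IsPGroup.of_card hQ).toSylow hQi
    haveI : (P : Subgroup G).Normal := (inferInstance : Q.Normal)
    obtain ⟨R, hR⟩ := hB.exists_le_sylow
    haveI := P.unique_of_normal inferInstance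
    exact hR.trans (le_of_eq (congrArg Sylow.toSubgroup (Subsingleton.elim R P)))
  have hodd : Odd (orderOf g) := hk ▸ (hq.odd_of_ne_two hq2).pow
  obtain ⟨ψ, hψ, -⟩ := Transfer.exists_surjective_sl23 e (g := g)
    (by rw [Subgroup.normalizer_eq_top]; trivial) hodd
    (fun h => hgc (Subgroup.centralizer_le hBQ h))
  refine ⟨_, ⟨MulEquiv.ofBijective ψ ((Nat.bijective_iff_surjective_and_card _).2 ⟨hψ, ?_⟩)⟩⟩
  have h1 := Subgroup.card_dvd_of_surjective ψ hψ
  rw [PLocal.card_sl2_three] at h1 ⊢
  have h2 : Nat.card (Q ⊔ Subgroup.zpowers g : Subgroup G) ∣ 8 * orderOf g := by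
    have h3 := (Q.subgroupOf (Q ⊔ Subgroup.zpowers g)).card_mul_index
    rw [Nat.card_congr (Subgroup.subgroupOfEquivOfLe le_sup_left).toEquiv, hQ] at h3
    rw [← h3]
    apply Nat.mul_dvd_mul_left
    rw [← Subgroup.relIndex, Subgroup.relIndex_sup_left, ← Nat.card_zpowers]
    exact Subgroup.relIndex_dvd_card _ _
  have h3 : q = 3 := by
    have h4 : 3 ∣ 8 * orderOf g := (Dvd.dvd.trans (by norm_num) h1).trans h2
    rw [hk] at h4
    have h5 := (Nat.Coprime.dvd_of_dvd_mul_left (by norm_num) h4)
    exact ((Nat.prime_dvd_prime_iff_eq Nat.prime_three hq).1 (Nat.prime_three.dvd_of_dvd_pow h5)).symm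
  subst h3
  have h4 : orderOf g ∣ 3 := by
    have h5 : 3 ^ k ∣ 3 * 40 := hk ▸ (orderOf_dvd_natCard g).trans hc
    rw [hk]
    exact (Nat.Coprime.pow_left k (by norm_num : Nat.Coprime 3 40)).dvd_of_dvd_mul_right h5
  exact Nat.dvd_antisymm (h2.trans (Nat.mul_dvd_mul_left 8 h4)) h1

theorem equiv_prod (hN : ¬ HasNormalPComplement 2 G) (Q : Subgroup G) [Q.Normal]
    (e : Q ≃* QuaternionGroup 2) (hc : Nat.card G = 120) (hno : ∀ M : Subgroup G, M.index ≠ 2) :
    Nonempty (G ≃* Matrix.SpecialLinearGroup (Fin 2) (ZMod 3) × Multiplicative (ZMod 5)) := by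
  haveI : Fact (Nat.Prime 5) := ⟨Nat.prime_five⟩
  obtain ⟨H, ⟨f⟩⟩ := exists_SL23 hN Q e hc.dvd
  have hH : Nat.card H = 24 := by rw [Nat.card_congr f.toEquiv, PLocal.card_sl2_three]
  have hQ : Nat.card Q = 8 := by
    rw [Nat.card_congr e.toEquiv, Nat.card_eq_fintype_card, QuaternionGroup.card]
  obtain ⟨P⟩ : Nonempty (Sylow 5 G) := inferInstance
  have hP : Nat.card (P : Subgroup G) = 5 := by
    rw [P.card_eq_multiplicity, hc]
    have : Nat.factorization 120 5 = 1 := by
      rw [show 120 = 5 * 24 by norm_num, Nat.factorization_mul (by norm_num) (by norm_num)]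
      simp [Nat.prime_five.factorization, Nat.factorization_eq_zero_of_not_dvd]
    rw [this]; norm_num
  obtain ⟨ε⟩ := S3742.result
  have hPQ : (P : Subgroup G) ≤ Subgroup.centralizer (Q : Set G) := by
    rw [← ker_conjNormal, ← Subgroup.map_eq_bot_iff]
    apply Subgroup.eq_bot_of_card_eq
    have h1 := (P : Subgroup G).card_map_dvd (MulAut.conjNormal : G →* MulAut Q)
    have h2 := ((P : Subgroup G).map (MulAut.conjNormal : G →* MulAut Q)).card_subgroup_dvd_card
    rw [Nat.card_congr ((MulAut.congr e).trans ε).toEquiv, Nat.card_perm] at h2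
    rw [hP] at h1
    exact Nat.eq_one_of_dvd_coprimes (by simp [Nat.factorial]; norm_num) h1 h2
  have hPn : (P : Subgroup G).Normal := by
    rw [← Subgroup.normalizer_eq_top_iff, ← Subgroup.index_eq_one]
    have h1 : 8 ∣ Nat.card (Subgroup.normalizer ((P : Subgroup G) : Set G)) :=
      hQ ▸ Subgroup.card_dvd_of_le ((Subgroup.le_centralizer_iff.1 hPQ).trans
        (Subgroup.centralizer_le_normalizer _))
    have h2 : 5 ∣ Nat.card (Subgroup.normalizer ((P : Subgroup G) : Set G)) :=
      hP.symm.dvd.trans (Subgroup.card_dvd_of_le Subgroup.le_normalizer)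
    obtain ⟨c, h3⟩ := Nat.Coprime.mul_dvd_of_dvd_of_dvd (by norm_num) h1 h2
    have h4 := (Subgroup.normalizer ((P : Subgroup G) : Set G)).card_mul_index
    have h5 := card_sylow_modEq_one 5 G
    rw [P.card_eq_index_normalizer] at h5
    rw [h3, hc] at h4
    change (Subgroup.normalizer ((P : Subgroup G) : Set G)).index ≡ 1 [MOD 5] at h5
    have h6 : (Subgroup.normalizer ((P : Subgroup G) : Set G)).index ∣ 3 := ⟨c, by nlinarith⟩
    rcases (Nat.dvd_prime Nat.prime_three).1 h6 with h7 | h7
    · exact h7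
    · rw [h7] at h5; exact absurd h5 (by decide)
  haveI : IsCyclic (P : Subgroup G) := isCyclic_of_prime_card hP
  have hcent : Subgroup.centralizer ((P : Subgroup G) : Set G) = ⊤ := by
    by_contra h1
    have h2 : IsPGroup 2 (G ⧸ Subgroup.centralizer ((P : Subgroup G) : Set G)) := by
      have h3 : (Subgroup.centralizer ((P : Subgroup G) : Set G)).index ∣ 2 ^ 2 := by
        rw [← ker_conjNormal, Subgroup.index_ker]
        have := (MulAut.conjNormal : G →* MulAut (P : Subgroup G)).range.card_subgroup_dvd_card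
        rwa [IsCyclic.card_mulAut, hP, Nat.totient_prime Nat.prime_five] at this
      obtain ⟨k, -, hk⟩ := (Nat.dvd_prime_pow Nat.prime_two).1 h3
      exact IsPGroup.of_card hk
    obtain ⟨M, hM⟩ := exists_index_two_of_quot _ h2 h1
    exact hno M hM
  have hd : Disjoint H (P : Subgroup G) :=
    disjoint_iff.2 (Subgroup.inf_eq_bot_of_coprime (by rw [hH, hP]; norm_num))
  obtain ⟨g⟩ := Perm.nonempty_sup_mulEquiv_prod H (P : Subgroup G)
    (fun a _ b hb => ((hcent ▸ Subgroup.mem_top a : a ∈ Subgroup.centralizer _) b hb).symm) hd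
  have htop : H ⊔ (P : Subgroup G) = ⊤ := by
    apply Subgroup.eq_top_of_card_eq
    rw [Nat.card_congr g.toEquiv, Nat.card_prod, hH, hP, hc]
  exact ⟨(Subgroup.topEquiv.symm.trans (MulEquiv.subgroupCongr htop.symm)).trans
    (g.trans (f.prodCongr (mulEquivOfPrimeCardEq hP (by simp))))⟩

end

/-- Let q be a prime and V a non-trivial finite vector space over the field with q elements, and let G be a finite solvable group acting faithfully and linearly on V and regularly on the non-zero vectors (transitively, with only the identity fixing a non-zero vector). Then either V can be identified with the additive group of a finite field F so that every element of G acts as x ↦ a·σ(x) (a ∈ F, σ a field automorphism), or V has 5^2, 7^2, 11^2 or 23^2 elements. Moreover, if q ≠ 2 then G has a normal subgroup of index 2, except that when V has 25 elements G may be isomorphic to SL(2,3) and when V has 121 elements G may be isomorphic to SL(2,3) × C₅. -/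
theorem result
    (q : ℕ) [Fact q.Prime] {V : Type*} [AddCommGroup V] [Module (ZMod q) V] [Finite V] [Nontrivial V]
    {G : Type*} [Group G] [Finite G] (hsol : Group.IsSolvable G)
    (ρ : G →* (V ≃ₗ[ZMod q] V)) (hρ : Function.Injective ρ)
    (htrans : ∀ v w : V, v ≠ 0 → w ≠ 0 → ∃ g : G, ρ g v = w)
    (hreg : ∀ v : V, v ≠ 0 → ∀ g : G, ρ g v = v → g = 1) :
    ((∃ (F : Type) (_ : Field F) (_ : Fintype F) (e : V ≃+ F),
        ∀ g : G, ∃ (a : F) (σ : F ≃+* F), ∀ v : V, e (ρ g v) = a * σ (e v)) ∨
      Nat.card V ∈ ({25, 49, 121, 529} : Set ℕ)) ∧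
    (q ≠ 2 → (∃ N : Subgroup G, N.Normal ∧ N.index = 2) ∨
      (Nat.card V = 25 ∧ Nonempty (G ≃* Matrix.SpecialLinearGroup (Fin 2) (ZMod 3))) ∨
      (Nat.card V = 121 ∧ Nonempty (G ≃* Matrix.SpecialLinearGroup (Fin 2) (ZMod 3) × Multiplicative (ZMod 5)))) := by
  have hq : q.Prime := Fact.out
  let ρ' : G →* Module.End (ZMod q) V :=
    { toFun := fun g => (ρ g : V →ₗ[ZMod q] V), map_one' := by simp; rfl
      map_mul' := fun a b => by simp }
  have hρ' : Function.Injective ρ' := fun a b h => hρ (LinearEquiv.toLinearMap_injective h)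
  have ht : Trans ρ' := htrans
  obtain ⟨n, hn⟩ : ∃ n, Nat.card V = q ^ n :=
    ⟨_, by rw [Module.natCard_eq_pow_finrank (K := ZMod q), Nat.card_zmod]⟩
  have hn0 : n ≠ 0 := by
    rintro rfl
    exact Finite.one_lt_card.ne' hn
  have hcard : Nat.card G = Nat.card V - 1 := by
    obtain ⟨v, hv⟩ := exists_ne (0 : V)
    have h1 : Nat.card {w : V // w ≠ 0} = Nat.card V - 1 := by
      classical
      haveI := Fintype.ofFinite V
      rw [Nat.card_eq_fintype_card, Fintype.card_subtype_compl, Nat.card_eq_fintype_card]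
      simp
    rw [← h1]
    refine Nat.card_congr (Equiv.ofBijective
      (fun g : G => (⟨ρ g v, by simpa using hv⟩ : {w : V // w ≠ 0})) ⟨?_, ?_⟩)
    · intro a b hab
      have h2 : ρ a v = ρ b v := congrArg Subtype.val hab
      have := hreg v hv (b⁻¹ * a) (by rw [map_mul, LinearEquiv.mul_apply, h2]; simp)
      exact (inv_mul_eq_one.1 this).symm
    · rintro ⟨w, hw⟩
      obtain ⟨h, hh⟩ := htrans v w hv hw
      exact ⟨h, Subtype.ext hh⟩
  have hR : RankOne G := by
    rcases subsingleton_or_nontrivial G with h | h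
    · intro K _; infer_instance
    let φ : G →* MulAut (Multiplicative V) :=
      { toFun := fun h => AddEquiv.toMultiplicative (ρ h).toAddEquiv
        map_one' := by rw [map_one]; rfl
        map_mul' := fun _ _ => by rw [map_mul]; rfl }
    refine Occurs.rankOne (occurs_of_isFpf φ fun a v hv => ?_)
    by_cases h0 : v = 1
    · exact Or.inr h0
    · exact Or.inl (hreg v.toAdd h0 a hv)
  have key : ∀ A : Subgroup G, A.Normal → IsMulCommutative A → ¬ q ∣ Nat.card A →
      (∀ k < n, 0 < k → ¬ Nat.card A ∣ q ^ k - 1) →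
      ∃ (F : Type) (_ : Field F) (_ : Fintype F) (e : V ≃+ F),
        ∀ g : G, ∃ (a : F) (σ : F ≃+* F), ∀ v : V, e (ρ g v) = a * σ (e v) := by
    intro A hA hAc h1 h2
    have hc : ∀ a ∈ A, ∀ b ∈ A, a * b = b * a := fun a ha b hb =>
      congrArg Subtype.val (hAc.is_comm.comm (⟨a, ha⟩ : A) ⟨b, hb⟩)
    obtain ⟨f, hf⟩ := semilinear_of_normal ρ' A
      (fun a ha b hb => by rw [← map_mul, hc a ha b hb, map_mul]) (fun W hW => by
        have h3 := ht.card_dvd_of_abelian hρ' hc h1 W hW
        rw [card_submodule] at h3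
        by_contra h4
        push Not at h4
        haveI : Nontrivial W := Submodule.nontrivial_iff_ne_bot.2 h4.1
        exact h2 _ (finrank_eq_of_card hn ▸ Submodule.finrank_lt h4.2) Module.finrank_pos h3) hn
    refine ⟨GaloisField q n, inferInstance, Fintype.ofFinite _, f.toAddEquiv, fun g => ?_⟩
    obtain ⟨a, σ, -, h⟩ := hf g
    exact ⟨a, σ, h⟩
  have part1 : (∃ (F : Type) (_ : Field F) (_ : Fintype F) (e : V ≃+ F),
        ∀ g : G, ∃ (a : F) (σ : F ≃+* F), ∀ v : V, e (ρ g v) = a * σ (e v)) ∨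
      Nat.card V ∈ ({25, 49, 121, 529} : Set ℕ) := by
    rcases S3360.result q hsol ρ hρ htrans with h | h
    · exact Or.inl h
    simp only [Set.mem_insert_iff, Set.mem_singleton_iff] at h ⊢
    have h3 : ∀ m, Nat.card V = 3 ^ m → q = 3 ∧ n = m := fun m hm => by
      have h1 : q = 3 := (Nat.prime_dvd_prime_iff_eq hq Nat.prime_three).1
        (hq.dvd_of_dvd_pow (hm ▸ hn ▸ dvd_pow_self q hn0))
      subst h1
      exact ⟨rfl, Nat.pow_right_injective (by norm_num) (hn.symm.trans hm)⟩
    rcases h with h | h | h | h | h | h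
    · left
      obtain ⟨rfl, rfl⟩ := h3 2 h
      obtain ⟨A, hA⟩ := Sylow.exists_subgroup_card_pow_prime (G := G) 2 (n := 2)
        (by rw [hcard, h]; norm_num)
      have hi := A.card_mul_index
      rw [hA, hcard, h] at hi
      refine key A (A.normal_of_index_eq_two (by omega))
        (IsPGroup.isMulCommutative_of_card_eq_prime_sq hA) (by rw [hA]; norm_num) ?_
      rw [hA]; decide
    · exact Or.inr (Or.inl h)
    · exact Or.inr (Or.inr (Or.inl h))
    · exact Or.inr (Or.inr (Or.inr (Or.inl h)))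
    · exact Or.inr (Or.inr (Or.inr (Or.inr h)))
    · left
      obtain ⟨rfl, rfl⟩ := h3 4 h
      rw [h] at hcard
      have hN : HasNormalPComplement 2 G := by
        by_contra hN
        obtain ⟨e⟩ := hR.hasNormalPComplement_or_Q8.resolve_left hN
        obtain ⟨ε⟩ := S3742.result
        obtain ⟨θ, -, h2⟩ := hR.exists_perm_four hN _ e ε
        have h4 := θ.range.card_mul_index
        have h5 := Subgroup.card_range_dvd θ
        rw [Nat.card_perm, Nat.card_eq_fintype_card (α := Fin 4), Fintype.card_fin] at h4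
        rw [hcard] at h5
        rcases (Nat.dvd_prime Nat.prime_two).1 h2 with h6 | h6 <;> rw [h6] at h4
        · rw [show Nat.card θ.range = 24 by simpa [Nat.factorial] using h4] at h5
          norm_num at h5
        · rw [show Nat.card θ.range = 12 by
            rw [show Nat.factorial 4 = 24 from rfl] at h4; omega] at h5
          norm_num at h5
      obtain ⟨P, N, hN, hc⟩ := hN
      have hP : Nat.card (P : Subgroup G) = 16 := by
        rw [P.card_eq_multiplicity, hcard]
        have : Nat.factorization (81 - 1) 2 = 4 := by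
          rw [show 81 - 1 = 2 ^ 4 * 5 by norm_num, Nat.factorization_mul (by norm_num) (by norm_num),
            Nat.prime_two.factorization_pow]
          simp [Nat.factorization_eq_zero_of_not_dvd]
        rw [this]; norm_num
      have h5 := hc.card_mul
      rw [hP, hcard] at h5
      have h6 : Nat.card N = 5 := by omega
      haveI : Fact (Nat.Prime 5) := ⟨Nat.prime_five⟩
      haveI : IsCyclic N := isCyclic_of_prime_card h6
      refine key N hN inferInstance (by rw [h6]; norm_num) ?_
      rw [h6]; decide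
  refine ⟨part1, fun hq2 => ?_⟩
  have hodd : Odd (Nat.card V) := hn ▸ (hq.odd_of_ne_two hq2).pow
  by_cases hex : ∃ M : Subgroup G, M.index = 2
  · obtain ⟨M, hM⟩ := hex
    exact Or.inl ⟨M, M.normal_of_index_eq_two hM, hM⟩
  right
  have heven : 2 ∣ Nat.card G := by
    rw [hcard]
    obtain ⟨c, hc⟩ := hodd
    exact ⟨c, by omega⟩
  have hN : ¬ HasNormalPComplement 2 G := fun h => hex (exists_index_two h heven)
  obtain ⟨e⟩ := hR.hasNormalPComplement_or_Q8.resolve_left hN
  have hQ : Nat.card (pCore 2 G) = 8 := by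
    rw [Nat.card_congr e.toEquiv, Nat.card_eq_fintype_card, QuaternionGroup.card]
  have hQi := (pCore 2 G).card_mul_index
  rw [hQ, hcard] at hQi
  rcases part1 with ⟨F, _, _, f, hf⟩ | h
  · exfalso
    apply hex
    classical
    have hF : ringChar F ≠ 2 := by
      rw [Ne, FiniteField.even_card_iff_char_two, ← Nat.card_eq_fintype_card,
        ← Nat.card_congr f.toEquiv]
      exact Nat.odd_iff.1 hodd ▸ one_ne_zero
    have hv : f.symm 1 ≠ 0 := by simp
    have hne : ∀ g, f (ρ g (f.symm 1)) ≠ 0 := fun g => by simpa using hv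
    have hσ : ∀ (σ : F ≃+* F) (b : F), quadraticChar F (σ b) = quadraticChar F b := by
      intro σ b
      have : IsSquare (σ b) ↔ IsSquare b :=
        ⟨fun h => by simpa using h.map σ.symm, fun h => h.map σ⟩
      simp [quadraticChar_apply, quadraticCharFun, this]
    let χ : G →* ℤ :=
      { toFun := fun g => quadraticChar F (f (ρ g (f.symm 1)))
        map_one' := by simp
        map_mul' := fun a b => by
          obtain ⟨c, σ, h⟩ := hf a
          rw [map_mul, LinearEquiv.mul_apply, h, h, map_mul, map_mul, hσ, hσ]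
          simp }
    refine ⟨χ.toHomUnits.ker, ?_⟩
    rw [Subgroup.index_ker, MonoidHom.range_eq_top.2, Subgroup.card_top, Nat.card_eq_fintype_card,
      Fintype.card_units_int]
    intro u
    rcases Int.units_eq_one_or u with rfl | rfl
    · exact ⟨1, map_one _⟩
    · obtain ⟨b, hb⟩ := FiniteField.exists_nonsquare hF
      have hb0 : b ≠ 0 := by rintro rfl; exact hb IsSquare.zero
      obtain ⟨g, hg⟩ := htrans (f.symm 1) (f.symm b) hv (by simpa using hb0)
      refine ⟨g, Units.ext ?_⟩
      change quadraticChar F (f (ρ g (f.symm 1))) = -1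
      rw [hg, AddEquiv.apply_symm_apply, quadraticChar_neg_one_iff_not_isSquare]
      exact hb
  simp only [Set.mem_insert_iff, Set.mem_singleton_iff] at h
  rcases h with h | h | h | h <;> rw [h] at hQi hcard
  · obtain ⟨H, ⟨g⟩⟩ := exists_SL23 hN _ e (by rw [hcard]; norm_num)
    have htop : H = ⊤ := by
      apply Subgroup.eq_top_of_card_eq
      rw [Nat.card_congr g.toEquiv, PLocal.card_sl2_three, hcard]
    exact Or.inl ⟨h, ⟨(Subgroup.topEquiv.symm.trans (MulEquiv.subgroupCongr htop.symm)).trans g⟩⟩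
  · have h1 : (pCore 2 G).index = 2 * 3 := by omega
    refine absurd (exists_index_two_of_sqfree (pCore 2 G) ?_ (by rw [h1]; norm_num)) hex
    rw [h1, Nat.squarefree_mul_iff]
    exact ⟨by norm_num, Nat.prime_two.squarefree, Nat.prime_three.squarefree⟩
  · exact Or.inr ⟨h, equiv_prod hN _ e hcard fun M hM => hex ⟨M, hM⟩⟩
  · have h1 : (pCore 2 G).index = 2 * (3 * 11) := by omega
    refine absurd (exists_index_two_of_sqfree (pCore 2 G) ?_ (by rw [h1]; norm_num)) hex
    rw [h1, Nat.squarefree_mul_iff, Nat.squarefree_mul_iff]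
    exact ⟨by norm_num, Nat.prime_two.squarefree, by norm_num, Nat.prime_three.squarefree,
      Nat.prime_eleven.squarefree⟩

end Cfsg.Agent.S3361
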