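import Cfsg.Statements.S3362
import Cfsg.Agent.Spor.WittSmall
import Cfsg.Agent.Spor.SetAut
import Cfsg.Agent.S0425
-- import your own Cfsg.Agent.* helpers here

set_option autoImplicit false
open Cfsg

namespace Cfsg.Agent.S3362

open Subgroup Cfsg.Agent.Spor Cfsg.Agent.Comp.Mask

/-- the hexads -/
def std : List ℕ := [63, 219, 237, 246, 350, 363, 373, 413, 430, 435, 455, 504, 591, 627, 636, 670, 679, 697, 725, 746, 791, 813, 826, 857, 870, 907, 948, 972, 978, 993, 1117, 1127, 1146, 1175, 1195, 1212, 1230, 1265, 1295, 1334, 1337, 1363, 1388, 1434, 1445, 1481, 1492, 1506, 1563, 1582, 1589, 1622, 1641, 1677, 1714, 1731, 1752, 1764, 1820, 1827, 1861, 1866, 1904, 1926, 1937, 1960, 2135, 2158, 2169, 2191, 2229, 2234, 2268, 2275, 2331, 2343, 2364, 2381, 2418, 2454, 2473, 2506, 2513, 2532, 2589, 2603, 2614, 2650, 2661, 2707, 2732, 2758, 2761, 2800, 2830, 2865, 2883, 2900, 2920, 2949, 2968, 2978, 3102, 3117,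 3123, 3147, 3188, 3225, 3238, 3269, 3282, 3304, 3349, 3370, 3398, 3416, 3425, 3459, 3468, 3504, 3591, 3640, 3660, 3665, 3682, 3722, 3732, 3745, 3849, 3858, 3876, 4032]

theorem chk1 : ∀ m ∈ std, m < 2 ^ 12 ∧ pc 12 m = 6 := by decide +kernel

theorem chk2' : ∀ a < 64, ∀ b < 64, pc 12 (64 * a + b) = 5 →
    (std.filter fun m => (64 * a + b) &&& m == (64 * a + b)).length = 1 := by decide +kernel

theorem chk2 (d : ℕ) (hd : d < 2 ^ 12) : pc 12 d = 5 →
    (std.filter fun m => d &&& m == d).length = 1 := by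
  have := chk2' (d / 64) (by omega) (d % 64) (Nat.mod_lt _ (by norm_num))
  rwa [Nat.div_add_mod] at this

theorem steiner : IsSteinerSystem 5 6 (maskSys 12 std) := by
  refine ⟨?_, fun s hs => ?_⟩
  · rintro _ ⟨m, hm, rfl⟩
    rw [card_ofMask, (chk1 m hm).2]
  · obtain ⟨d, hd, rfl⟩ := exists_ofMask s
    rw [card_ofMask] at hs
    obtain ⟨m, hm⟩ := List.length_eq_one_iff.1 (chk2 d hd hs)
    have h1 : ∀ x, x ∈ std ∧ d &&& x = d ↔ x = m := fun x => by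
      rw [← List.mem_singleton (a := x), ← hm, List.mem_filter, beq_iff_eq]
    refine ⟨ofMask 12 m, ⟨⟨m, ((h1 m).2 rfl).1, rfl⟩, ofMask_subset_of_land_eq ((h1 m).2 rfl).2⟩, ?_⟩
    rintro _ ⟨⟨x, hx, rfl⟩, h⟩
    rw [(h1 x).1 ⟨hx, land_eq_of_ofMask_subset hd h⟩]

theorem mem_aut {σ : Equiv.Perm (Fin 12)} {l : List ℕ} (hl : l.length = 12)
    (h : ∀ i, (σ i : ℕ) = l.getD i 0) (h2 : ∀ m ∈ std, pull l m ∈ std) :
    σ ∈ setSystemAut (maskSys 12 std) := by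
  rw [← inv_mem_iff]
  refine mem_setSystemAut_of_image_mem ?_
  rintro _ ⟨m, hm, rfl⟩
  refine ⟨pull l m, h2 m hm, ?_⟩
  ext i
  rw [mem_ofMask, testBit_pull l m i (by omega), ← h, ← mem_ofMask, Finset.mem_image]
  exact ⟨fun h => ⟨_, h, by simp⟩, by rintro ⟨j, hj, rfl⟩; simpa using hj⟩

theorem card_step {α : Type*} [Fintype α] [DecidableEq α] {H K : Subgroup (Equiv.Perm α)}
    (hHK : H ≤ K) {p : α} (hp : ∀ h ∈ H, h p = p) (T : Finset α) (hT : ∀ x ∈ T, ∃ k ∈ K, k p = x) :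
    T.card * Nat.card H ≤ Nat.card K := by
  have h1 := (MulAction.stabilizer K p).index_mul_card
  rw [MulAction.index_stabilizer] at h1
  rw [← h1]
  refine Nat.mul_le_mul ?_ ?_
  · rw [← Set.ncard_coe_finset]
    refine Set.ncard_le_ncard fun x hx => ?_
    obtain ⟨k, hk, rfl⟩ := hT x hx
    exact ⟨⟨k, hk⟩, rfl⟩
  · exact Nat.card_le_card_of_injective (fun h => ⟨⟨h, hHK h.2⟩, hp h h.2⟩)
      fun a b e => Subtype.ext (congrArg (fun x => (x.1 : Equiv.Perm α)) e)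

theorem fix_closure {α : Type*} {S : Set (Equiv.Perm α)} {p : α} (h : ∀ g ∈ S, g p = p) :
    ∀ g ∈ closure S, g p = p := fun _ hg =>
  (closure_le (MulAction.stabilizer (Equiv.Perm α) p)).2 h hg

set_option maxHeartbeats 2000000 in
/-- An explicit construction of the Mathieu groups of degrees 11 and 12. On the points 0, …, 11 let s = (3 4 5)(6 7 8)(9 10 11), t = (3 6 9)(4 7 10)(5 8 11), u = (4 6 5 9)(7 8 11 10), v = (4 7 5 11)(6 10 9 8), w = (4 10 5 8)(6 11 9 7), x₁ = (0 3)(6 7)(8 10)(9 11), x₂ = (0 1)(6 9)(7 10)(8 11), x₃ = (1 2)(6 11)(7 9)(8 10) (each written as a product of transpositions). Then the group M₁₂ generated by all eight permutations is sharply 5-transitive on the 12 points and has order 95040, and the group M₁₁ generated by the first seven has order 7920 and is the stabilizer of the point 2 in M₁₂. -/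
theorem result
    (s t u v w x₁ x₂ x₃ : Equiv.Perm (Fin 12))
    (hs : s = Equiv.swap (3 : Fin 12) 5 * Equiv.swap (3 : Fin 12) 4 * Equiv.swap (6 : Fin 12) 8 * Equiv.swap (6 : Fin 12) 7 * Equiv.swap (9 : Fin 12) 11 * Equiv.swap (9 : Fin 12) 10) (ht : t = Equiv.swap (3 : Fin 12) 9 * Equiv.swap (3 : Fin 12) 6 * Equiv.swap (4 : Fin 12) 10 * Equiv.swap (4 : Fin 12) 7 * Equiv.swap (5 : Fin 12) 11 * Equiv.swap (5 : Fin 12) 8)
    (hu : u = Equiv.swap (4 : Fin 12) 9 * Equiv.swap (4 : Fin 12) 5 * Equiv.swap (4 : Fin 12) 6 * Equiv.swap (7 : Fin 12) 10 * Equiv.swap (7 : Fin 12) 11 * Equiv.swap (7 : Fin 12) 8) (hv : v = Equiv.swap (4 : Fin 12) 11 * Equiv.swap (4 : Fin 12) 5 * Equiv.swap (4 : Fin 12) 7 * Equiv.swap (6 : Fin 12) 8 * Equiv.swap (6 : Fin 12) 9 * Equiv.swap (6 : Fin 12) 10) (hw : w = Equiv.swap (4 : Fin 12) 8 * Equiv.swap (4 : Fin 12) 5 * Equiv.swap (4 : Fin 12) 10 * Equiv.swap (6 : Fin 12) 7 * Equiv.swap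 (6 : Fin 12) 9 * Equiv.swap (6 : Fin 12) 11)
    (hx₁ : x₁ = Equiv.swap (0 : Fin 12) 3 * Equiv.swap (6 : Fin 12) 7 * Equiv.swap (8 : Fin 12) 10 * Equiv.swap (9 : Fin 12) 11) (hx₂ : x₂ = Equiv.swap (0 : Fin 12) 1 * Equiv.swap (6 : Fin 12) 9 * Equiv.swap (7 : Fin 12) 10 * Equiv.swap (8 : Fin 12) 11)
    (hx₃ : x₃ = Equiv.swap (1 : Fin 12) 2 * Equiv.swap (6 : Fin 12) 11 * Equiv.swap (7 : Fin 12) 9 * Equiv.swap (8 : Fin 12) 10)
    (M₁₂ M₁₁ : Subgroup (Equiv.Perm (Fin 12))) (hM₁₂ : M₁₂ = Subgroup.closure {s, t, u, v, w, x₁, x₂, x₃})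
    (hM₁₁ : M₁₁ = Subgroup.closure {s, t, u, v, w, x₁, x₂}) :
    MulAction.IsMultiplyPretransitive M₁₂ (Fin 12) 5 ∧ (∀ y : Fin 5 ↪ Fin 12, MulAction.stabilizer M₁₂ y = ⊥) ∧
    Nat.card M₁₂ = 95040 ∧ Nat.card M₁₁ = 7920 ∧
    M₁₁ = M₁₂ ⊓ MulAction.stabilizer (Equiv.Perm (Fin 12)) (2 : Fin 12) := by
  have hA := S0425.result (α := Fin 12) (by simp) steiner
  have auts : s ∈ setSystemAut (maskSys 12 std) :=
    mem_aut (l := [0, 1, 2, 4, 5, 3, 7, 8, 6, 10, 11, 9]) rfl (by rw [hs]; decide) (by decide +kernel)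
  have vs : ∀ i, s i = ![0, 1, 2, 4, 5, 3, 7, 8, 6, 10, 11, 9] i := by rw [hs]; decide
  have autt : t ∈ setSystemAut (maskSys 12 std) :=
    mem_aut (l := [0, 1, 2, 6, 7, 8, 9, 10, 11, 3, 4, 5]) rfl (by rw [ht]; decide) (by decide +kernel)
  have vt : ∀ i, t i = ![0, 1, 2, 6, 7, 8, 9, 10, 11, 3, 4, 5] i := by rw [ht]; decide
  have autu : u ∈ setSystemAut (maskSys 12 std) :=
    mem_aut (l := [0, 1, 2, 3, 6, 9, 5, 8, 11, 4, 7, 10]) rfl (by rw [hu]; decide) (by decide +kernel)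
  have vu : ∀ i, u i = ![0, 1, 2, 3, 6, 9, 5, 8, 11, 4, 7, 10] i := by rw [hu]; decide
  have autv : v ∈ setSystemAut (maskSys 12 std) :=
    mem_aut (l := [0, 1, 2, 3, 7, 11, 10, 5, 6, 8, 9, 4]) rfl (by rw [hv]; decide) (by decide +kernel)
  have vv : ∀ i, v i = ![0, 1, 2, 3, 7, 11, 10, 5, 6, 8, 9, 4] i := by rw [hv]; decide
  have autw : w ∈ setSystemAut (maskSys 12 std) :=
    mem_aut (l := [0, 1, 2, 3, 10, 8, 11, 6, 4, 7, 5, 9]) rfl (by rw [hw]; decide) (by decide +kernel)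
  have vw : ∀ i, w i = ![0, 1, 2, 3, 10, 8, 11, 6, 4, 7, 5, 9] i := by rw [hw]; decide
  have autx₁ : x₁ ∈ setSystemAut (maskSys 12 std) :=
    mem_aut (l := [3, 1, 2, 0, 4, 5, 7, 6, 10, 11, 8, 9]) rfl (by rw [hx₁]; decide) (by decide +kernel)
  have vx₁ : ∀ i, x₁ i = ![3, 1, 2, 0, 4, 5, 7, 6, 10, 11, 8, 9] i := by rw [hx₁]; decide
  have autx₂ : x₂ ∈ setSystemAut (maskSys 12 std) :=
    mem_aut (l := [1, 0, 2, 3, 4, 5, 9, 10, 11, 6, 7, 8]) rfl (by rw [hx₂]; decide) (by decide +kernel)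
  have vx₂ : ∀ i, x₂ i = ![1, 0, 2, 3, 4, 5, 9, 10, 11, 6, 7, 8] i := by rw [hx₂]; decide
  have autx₃ : x₃ ∈ setSystemAut (maskSys 12 std) :=
    mem_aut (l := [0, 2, 1, 3, 4, 5, 11, 9, 10, 7, 8, 6]) rfl (by rw [hx₃]; decide) (by decide +kernel)
  have vx₃ : ∀ i, x₃ i = ![0, 2, 1, 3, 4, 5, 11, 9, 10, 7, 8, 6] i := by rw [hx₃]; decide
  clear hs ht hu hv hw hx₁ hx₂ hx₃
  have c0 : 8 * Nat.card (⊥ : Subgroup (Equiv.Perm (Fin 12))) ≤
      Nat.card (closure ({u, v, w} : Set (Equiv.Perm (Fin 12)))) := by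
    have mu : u ∈ closure ({u, v, w} : Set (Equiv.Perm (Fin 12))) := subset_closure (by simp)
    have mv : v ∈ closure ({u, v, w} : Set (Equiv.Perm (Fin 12))) := subset_closure (by simp)
    have mw : w ∈ closure ({u, v, w} : Set (Equiv.Perm (Fin 12))) := subset_closure (by simp)
    refine card_step (α := Fin 12) (p := 4) bot_le
      (fun h hh => by rw [mem_bot.1 hh]; rfl) {4, 5, 6, 7, 8, 9, 10, 11} fun x hx => ?_
    simp only [Finset.mem_insert, Finset.mem_singleton] at hx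
    rcases hx with rfl | rfl | rfl | rfl | rfl | rfl | rfl | rfl
    · exact ⟨1, one_mem _, by simp []⟩
    · exact ⟨u * (u), mul_mem mu (mu), by simp [vu]⟩
    · exact ⟨u, mu, by simp [vu]⟩
    · exact ⟨v, mv, by simp [vv]⟩
    · exact ⟨u * (v), mul_mem mu (mv), by simp [vu, vv]⟩
    · exact ⟨v * (w), mul_mem mv (mw), by simp [vv, vw]⟩
    · exact ⟨w, mw, by simp [vw]⟩
    · exact ⟨w * (u), mul_mem mw (mu), by simp [vu, vw]⟩
  have c1 : 9 * Nat.card (closure ({u, v, w} : Set (Equiv.Perm (Fin 12)))) ≤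
      Nat.card (closure ({s, t, u, v, w} : Set (Equiv.Perm (Fin 12)))) := by
    have ms : s ∈ closure ({s, t, u, v, w} : Set (Equiv.Perm (Fin 12))) := subset_closure (by simp)
    have mt : t ∈ closure ({s, t, u, v, w} : Set (Equiv.Perm (Fin 12))) := subset_closure (by simp)
    have mu : u ∈ closure ({s, t, u, v, w} : Set (Equiv.Perm (Fin 12))) := subset_closure (by simp)
    have mv : v ∈ closure ({s, t, u, v, w} : Set (Equiv.Perm (Fin 12))) := subset_closure (by simp)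
    have mw : w ∈ closure ({s, t, u, v, w} : Set (Equiv.Perm (Fin 12))) := subset_closure (by simp)
    refine card_step (α := Fin 12) (p := 3) (closure_mono (by intro x; simp only [Set.mem_insert_iff, Set.mem_singleton_iff]; tauto))
      (fix_closure (by
      rintro g (rfl | rfl | rfl) <;> simp [vu, vv, vw])) {3, 4, 5, 6, 7, 8, 9, 10, 11} fun x hx => ?_
    simp only [Finset.mem_insert, Finset.mem_singleton] at hx
    rcases hx with rfl | rfl | rfl | rfl | rfl | rfl | rfl | rfl | rfl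
    · exact ⟨1, one_mem _, by simp []⟩
    · exact ⟨s, ms, by simp [vs]⟩
    · exact ⟨s * (s), mul_mem ms (ms), by simp [vs]⟩
    · exact ⟨t, mt, by simp [vt]⟩
    · exact ⟨t * (s), mul_mem mt (ms), by simp [vs, vt]⟩
    · exact ⟨t * (s * (s)), mul_mem mt (mul_mem ms (ms)), by simp [vs, vt]⟩
    · exact ⟨t * (t), mul_mem mt (mt), by simp [vt]⟩
    · exact ⟨w * (s), mul_mem mw (ms), by simp [vs, vw]⟩
    · exact ⟨w * (t), mul_mem mw (mt), by simp [vt, vw]⟩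
  have c2 : 10 * Nat.card (closure ({s, t, u, v, w} : Set (Equiv.Perm (Fin 12)))) ≤
      Nat.card (closure ({s, t, u, v, w, x₁} : Set (Equiv.Perm (Fin 12)))) := by
    have ms : s ∈ closure ({s, t, u, v, w, x₁} : Set (Equiv.Perm (Fin 12))) := subset_closure (by simp)
    have mt : t ∈ closure ({s, t, u, v, w, x₁} : Set (Equiv.Perm (Fin 12))) := subset_closure (by simp)
    have mu : u ∈ closure ({s, t, u, v, w, x₁} : Set (Equiv.Perm (Fin 12))) := subset_closure (by simp)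
    have mv : v ∈ closure ({s, t, u, v, w, x₁} : Set (Equiv.Perm (Fin 12))) := subset_closure (by simp)
    have mw : w ∈ closure ({s, t, u, v, w, x₁} : Set (Equiv.Perm (Fin 12))) := subset_closure (by simp)
    have mx₁ : x₁ ∈ closure ({s, t, u, v, w, x₁} : Set (Equiv.Perm (Fin 12))) := subset_closure (by simp)
    refine card_step (α := Fin 12) (p := 0) (closure_mono (by intro x; simp only [Set.mem_insert_iff, Set.mem_singleton_iff]; tauto))
      (fix_closure (by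
      rintro g (rfl | rfl | rfl | rfl | rfl) <;> simp [vs, vt, vu, vv, vw])) {0, 3, 4, 5, 6, 7, 8, 9, 10, 11} fun x hx => ?_
    simp only [Finset.mem_insert, Finset.mem_singleton] at hx
    rcases hx with rfl | rfl | rfl | rfl | rfl | rfl | rfl | rfl | rfl | rfl
    · exact ⟨1, one_mem _, by simp []⟩
    · exact ⟨x₁, mx₁, by simp [vx₁]⟩
    · exact ⟨s * (x₁), mul_mem ms (mx₁), by simp [vs, vx₁]⟩
    · exact ⟨s * (s * (x₁)), mul_mem ms (mul_mem ms (mx₁)), by simp [vs, vx₁]⟩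
    · exact ⟨t * (x₁), mul_mem mt (mx₁), by simp [vt, vx₁]⟩
    · exact ⟨t * (s * (x₁)), mul_mem mt (mul_mem ms (mx₁)), by simp [vs, vt, vx₁]⟩
    · exact ⟨t * (s * (s * (x₁))), mul_mem mt (mul_mem ms (mul_mem ms (mx₁))), by simp [vs, vt, vx₁]⟩
    · exact ⟨t * (t * (x₁)), mul_mem mt (mul_mem mt (mx₁)), by simp [vt, vx₁]⟩
    · exact ⟨w * (s * (x₁)), mul_mem mw (mul_mem ms (mx₁)), by simp [vs, vw, vx₁]⟩
    · exact ⟨w * (t * (x₁)), mul_mem mw (mul_mem mt (mx₁)), by simp [vt, vw, vx₁]⟩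
  have c3 : 11 * Nat.card (closure ({s, t, u, v, w, x₁} : Set (Equiv.Perm (Fin 12)))) ≤
      Nat.card (closure ({s, t, u, v, w, x₁, x₂} : Set (Equiv.Perm (Fin 12)))) := by
    have ms : s ∈ closure ({s, t, u, v, w, x₁, x₂} : Set (Equiv.Perm (Fin 12))) := subset_closure (by simp)
    have mt : t ∈ closure ({s, t, u, v, w, x₁, x₂} : Set (Equiv.Perm (Fin 12))) := subset_closure (by simp)
    have mu : u ∈ closure ({s, t, u, v, w, x₁, x₂} : Set (Equiv.Perm (Fin 12))) := subset_closure (by simp)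
    have mv : v ∈ closure ({s, t, u, v, w, x₁, x₂} : Set (Equiv.Perm (Fin 12))) := subset_closure (by simp)
    have mw : w ∈ closure ({s, t, u, v, w, x₁, x₂} : Set (Equiv.Perm (Fin 12))) := subset_closure (by simp)
    have mx₁ : x₁ ∈ closure ({s, t, u, v, w, x₁, x₂} : Set (Equiv.Perm (Fin 12))) := subset_closure (by simp)
    have mx₂ : x₂ ∈ closure ({s, t, u, v, w, x₁, x₂} : Set (Equiv.Perm (Fin 12))) := subset_closure (by simp)
    refine card_step (α := Fin 12) (p := 1) (closure_mono (by intro x; simp only [Set.mem_insert_iff, Set.mem_singleton_iff]; tauto))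
      (fix_closure (by
      rintro g (rfl | rfl | rfl | rfl | rfl | rfl) <;> simp [vs, vt, vu, vv, vw, vx₁])) {0, 1, 3, 4, 5, 6, 7, 8, 9, 10, 11} fun x hx => ?_
    simp only [Finset.mem_insert, Finset.mem_singleton] at hx
    rcases hx with rfl | rfl | rfl | rfl | rfl | rfl | rfl | rfl | rfl | rfl | rfl
    · exact ⟨x₂, mx₂, by simp [vx₂]⟩
    · exact ⟨1, one_mem _, by simp []⟩
    · exact ⟨x₁ * (x₂), mul_mem mx₁ (mx₂), by simp [vx₁, vx₂]⟩
    · exact ⟨s * (x₁ * (x₂)), mul_mem ms (mul_mem mx₁ (mx₂)), by simp [vs, vx₁, vx₂]⟩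
    · exact ⟨s * (s * (x₁ * (x₂))), mul_mem ms (mul_mem ms (mul_mem mx₁ (mx₂))), by simp [vs, vx₁, vx₂]⟩
    · exact ⟨t * (x₁ * (x₂)), mul_mem mt (mul_mem mx₁ (mx₂)), by simp [vt, vx₁, vx₂]⟩
    · exact ⟨t * (s * (x₁ * (x₂))), mul_mem mt (mul_mem ms (mul_mem mx₁ (mx₂))), by simp [vs, vt, vx₁, vx₂]⟩
    · exact ⟨t * (s * (s * (x₁ * (x₂)))), mul_mem mt (mul_mem ms (mul_mem ms (mul_mem mx₁ (mx₂)))), by simp [vs, vt, vx₁, vx₂]⟩
    · exact ⟨t * (t * (x₁ * (x₂))), mul_mem mt (mul_mem mt (mul_mem mx₁ (mx₂))), by simp [vt, vx₁, vx₂]⟩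
    · exact ⟨w * (s * (x₁ * (x₂))), mul_mem mw (mul_mem ms (mul_mem mx₁ (mx₂))), by simp [vs, vw, vx₁, vx₂]⟩
    · exact ⟨w * (t * (x₁ * (x₂))), mul_mem mw (mul_mem mt (mul_mem mx₁ (mx₂))), by simp [vt, vw, vx₁, vx₂]⟩
  have c4 : 12 * Nat.card (closure ({s, t, u, v, w, x₁, x₂} : Set (Equiv.Perm (Fin 12)))) ≤
      Nat.card (closure ({s, t, u, v, w, x₁, x₂, x₃} : Set (Equiv.Perm (Fin 12)))) := by
    have ms : s ∈ closure ({s, t, u, v, w, x₁, x₂, x₃} : Set (Equiv.Perm (Fin 12))) := subset_closure (by simp)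
    have mt : t ∈ closure ({s, t, u, v, w, x₁, x₂, x₃} : Set (Equiv.Perm (Fin 12))) := subset_closure (by simp)
    have mu : u ∈ closure ({s, t, u, v, w, x₁, x₂, x₃} : Set (Equiv.Perm (Fin 12))) := subset_closure (by simp)
    have mv : v ∈ closure ({s, t, u, v, w, x₁, x₂, x₃} : Set (Equiv.Perm (Fin 12))) := subset_closure (by simp)
    have mw : w ∈ closure ({s, t, u, v, w, x₁, x₂, x₃} : Set (Equiv.Perm (Fin 12))) := subset_closure (by simp)
    have mx₁ : x₁ ∈ closure ({s, t, u, v, w, x₁, x₂, x₃} : Set (Equiv.Perm (Fin 12))) := subset_closure (by simp)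
    have mx₂ : x₂ ∈ closure ({s, t, u, v, w, x₁, x₂, x₃} : Set (Equiv.Perm (Fin 12))) := subset_closure (by simp)
    have mx₃ : x₃ ∈ closure ({s, t, u, v, w, x₁, x₂, x₃} : Set (Equiv.Perm (Fin 12))) := subset_closure (by simp)
    refine card_step (α := Fin 12) (p := 2) (closure_mono (by intro x; simp only [Set.mem_insert_iff, Set.mem_singleton_iff]; tauto))
      (fix_closure (by
      rintro g (rfl | rfl | rfl | rfl | rfl | rfl | rfl) <;> simp [vs, vt, vu, vv, vw, vx₁, vx₂])) {0, 1, 2, 3, 4, 5, 6, 7, 8, 9, 10, 11} fun x hx => ?_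
    simp only [Finset.mem_insert, Finset.mem_singleton] at hx
    rcases hx with rfl | rfl | rfl | rfl | rfl | rfl | rfl | rfl | rfl | rfl | rfl | rfl
    · exact ⟨x₂ * (x₃), mul_mem mx₂ (mx₃), by simp [vx₂, vx₃]⟩
    · exact ⟨x₃, mx₃, by simp [vx₃]⟩
    · exact ⟨1, one_mem _, by simp []⟩
    · exact ⟨x₁ * (x₂ * (x₃)), mul_mem mx₁ (mul_mem mx₂ (mx₃)), by simp [vx₁, vx₂, vx₃]⟩
    · exact ⟨s * (x₁ * (x₂ * (x₃))), mul_mem ms (mul_mem mx₁ (mul_mem mx₂ (mx₃))), by simp [vs, vx₁, vx₂, vx₃]⟩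
    · exact ⟨s * (s * (x₁ * (x₂ * (x₃)))), mul_mem ms (mul_mem ms (mul_mem mx₁ (mul_mem mx₂ (mx₃)))), by simp [vs, vx₁, vx₂, vx₃]⟩
    · exact ⟨t * (x₁ * (x₂ * (x₃))), mul_mem mt (mul_mem mx₁ (mul_mem mx₂ (mx₃))), by simp [vt, vx₁, vx₂, vx₃]⟩
    · exact ⟨t * (s * (x₁ * (x₂ * (x₃)))), mul_mem mt (mul_mem ms (mul_mem mx₁ (mul_mem mx₂ (mx₃)))), by simp [vs, vt, vx₁, vx₂, vx₃]⟩
    · exact ⟨t * (s * (s * (x₁ * (x₂ * (x₃))))), mul_mem mt (mul_mem ms (mul_mem ms (mul_mem mx₁ (mul_mem mx₂ (mx₃))))), by simp [vs, vt, vx₁, vx₂, vx₃]⟩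
    · exact ⟨t * (t * (x₁ * (x₂ * (x₃)))), mul_mem mt (mul_mem mt (mul_mem mx₁ (mul_mem mx₂ (mx₃)))), by simp [vt, vx₁, vx₂, vx₃]⟩
    · exact ⟨w * (s * (x₁ * (x₂ * (x₃)))), mul_mem mw (mul_mem ms (mul_mem mx₁ (mul_mem mx₂ (mx₃)))), by simp [vs, vw, vx₁, vx₂, vx₃]⟩
    · exact ⟨w * (t * (x₁ * (x₂ * (x₃)))), mul_mem mw (mul_mem mt (mul_mem mx₁ (mul_mem mx₂ (mx₃)))), by simp [vt, vw, vx₁, vx₂, vx₃]⟩
  rw [card_bot] at c0
  rw [← hM₁₁] at c3 c4
  rw [← hM₁₂] at c4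
  have hle : M₁₂ ≤ setSystemAut (maskSys 12 std) := by
    rw [hM₁₂, closure_le]
    rintro g (rfl | rfl | rfl | rfl | rfl | rfl | rfl | rfl) <;> assumption
  have hc := hA.1.2
  have he : M₁₂ = setSystemAut (maskSys 12 std) := eq_of_le_of_card_ge hle (by omega)
  have h11 : M₁₁ ≤ M₁₂ ⊓ MulAction.stabilizer (Equiv.Perm (Fin 12)) (2 : Fin 12) := by
    refine le_inf ?_ ?_
    · rw [hM₁₁, hM₁₂]
      exact closure_mono (by intro x; simp only [Set.mem_insert_iff, Set.mem_singleton_iff]; tauto)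
    · rw [hM₁₁]
      refine fix_closure ?_
      rintro g (rfl | rfl | rfl | rfl | rfl | rfl | rfl) <;> simp [vs, vt, vu, vv, vw, vx₁, vx₂]
  have c5 := card_step (H := M₁₂ ⊓ MulAction.stabilizer (Equiv.Perm (Fin 12)) (2 : Fin 12))
    (K := M₁₂) inf_le_left (p := 2) (fun h hh => hh.2) Finset.univ fun x _ => by
      have := hA.2.1
      have := MulAction.isMultiplyPretransitive_of_le (G := setSystemAut (maskSys 12 std))
        (α := Fin 12) (n := 5) (m := 1) (by norm_num) (by simp)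
      rw [MulAction.is_one_pretransitive_iff] at this
      obtain ⟨k, hk⟩ := this.exists_smul_eq (2 : Fin 12) x
      exact ⟨k, he ▸ k.2, hk⟩
  rw [← he] at hA hc
  simp only [Finset.card_univ, Fintype.card_fin] at c5
  have c6 := card_le_of_le h11
  exact ⟨hA.2.1, hA.2.2, hc, by omega, eq_of_le_of_card_ge h11 (by omega)⟩

end Cfsg.Agent.S3362
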