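import Cfsg.Statements.S3375
import Mathlib


set_option autoImplicit false
open Cfsg

namespace Cfsg.Agent.S3375

/-- Let γ be an automorphism of order 2 of a finite group H. (i) If γ fixes only the identity, then H is abelian and γ inverts every element. (ii) If γ has exactly two fixed points and H has a subgroup of index 2, then H has a γ-invariant abelian subgroup of index 2 on which γ acts by inversion. -/
theorem result {H : Type*} [Group H] [Finite H] (γ : MulAut H) (hγ : orderOf γ = 2) :
    ((∀ h : H, γ h = h → h = 1) → (∀ a b : H, a * b = b * a) ∧ ∀ h : H, γ h = h⁻¹) ∧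
    ((Nat.card {h : H // γ h = h} = 2 ∧ ∃ M : Subgroup H, M.index = 2) →
      ∃ A : Subgroup H, A.index = 2 ∧ IsMulCommutative A ∧ (∀ a ∈ A, γ a ∈ A) ∧ ∀ a ∈ A, γ a = a⁻¹) := by
  have hinv : Function.Involutive γ := by
    intro x
    have := pow_orderOf_eq_one γ
    rw [hγ, pow_two] at this
    simpa using congrArg (fun f : MulAut H => f x) this
  refine ⟨fun h => ⟨fun a b => MonoidHom.FixedPointFree.commute_all_of_involutive h hinv a b,
    fun x => congrFun (MonoidHom.FixedPointFree.coe_eq_inv_of_involutive h hinv) x⟩, ?_⟩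
  rintro ⟨hfix, M, hM⟩
  have hex : ∃ A : Subgroup H, A.index = 2 ∧ ∀ x, γ x ∈ A ↔ x ∈ A := by
    by_cases h : ∀ x, γ x ∈ M ↔ x ∈ M
    · exact ⟨M, hM, h⟩
    · push Not at h
      let A : Subgroup H :=
        { carrier := {x | γ x ∈ M ↔ x ∈ M}
          mul_mem' := by
            intro a b ha hb
            simp only [Set.mem_setOf_eq, map_mul, Subgroup.mul_mem_iff_of_index_two hM] at *
            tauto
          one_mem' := by simp
          inv_mem' := by
            intro a ha
            simpa only [Set.mem_setOf_eq, map_inv, inv_mem_iff] using ha }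
      have hA : ∀ x, x ∈ A ↔ (γ x ∈ M ↔ x ∈ M) := fun x => Iff.rfl
      obtain ⟨a, ha⟩ := h
      refine ⟨A, Subgroup.index_eq_two_iff.2 ⟨a, fun b => ?_⟩, fun x => ?_⟩
      · simp only [hA, map_mul, Subgroup.mul_mem_iff_of_index_two hM, Xor]
        tauto
      · rw [hA, hA, hinv x]; tauto
  obtain ⟨A, hA, hγA⟩ := hex
  let C : Subgroup H := γ.toMonoidHom.eqLocus (MonoidHom.id H)
  have hC : Nat.card C = 2 := hfix
  let f : H ⧸ C → A := Quotient.lift (fun x => (⟨x * (γ x)⁻¹, by
      rw [Subgroup.mul_mem_iff_of_index_two hA, inv_mem_iff, hγA]⟩ : A)) (by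
    intro a b hab
    have h1 : a⁻¹ * b ∈ C := QuotientGroup.leftRel_apply.1 hab
    have h2 : γ (a⁻¹ * b) = a⁻¹ * b := h1
    rw [map_mul, map_inv] at h2
    apply Subtype.ext
    simp only
    calc a * (γ a)⁻¹ = a * ((γ a)⁻¹ * γ b) * (γ b)⁻¹ := by group
      _ = b * (γ b)⁻¹ := by rw [h2]; group)
  have hf : Function.Injective f := by
    intro a b
    induction a using Quotient.inductionOn with | _ a => ?_
    induction b using Quotient.inductionOn with | _ b => ?_
    intro hab
    have h1 : a * (γ a)⁻¹ = b * (γ b)⁻¹ := congrArg Subtype.val hab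
    apply Quotient.sound
    apply QuotientGroup.leftRel_apply.2
    show γ (a⁻¹ * b) = a⁻¹ * b
    rw [map_mul, map_inv]
    calc (γ a)⁻¹ * γ b = a⁻¹ * (a * (γ a)⁻¹) * γ b := by group
      _ = a⁻¹ * b := by rw [h1]; group
  have hcard : Nat.card (H ⧸ C) = Nat.card A := by
    have h1 := Subgroup.card_eq_card_quotient_mul_card_subgroup C
    have h2 := A.card_mul_index
    rw [hC] at h1
    rw [hA] at h2
    omega
  have hsurj : Function.Surjective f :=
    (hf.bijective_of_nat_card_le hcard.ge).2
  have hinvA : ∀ a ∈ A, γ a = a⁻¹ := by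
    intro a ha
    obtain ⟨x, hx⟩ := hsurj ⟨a, ha⟩
    induction x using Quotient.inductionOn with | _ x => ?_
    have h1 : x * (γ x)⁻¹ = a := congrArg Subtype.val hx
    rw [← h1, map_mul, map_inv, hinv x]; group
  refine ⟨A, hA, ⟨⟨fun a b => Subtype.ext ?_⟩⟩, fun a ha => (hγA a).2 ha, hinvA⟩
  have h1 := hinvA _ (A.mul_mem a.2 b.2)
  rw [map_mul, hinvA a a.2, hinvA b b.2] at h1
  have h2 := congrArg (·⁻¹) h1
  simpa using h2.symm

end Cfsg.Agent.S3375
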