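import Cfsg.Statements.S3379
import Cfsg.Agent.FGS.ZGroupPres
-- import your own Cfsg.Agent.* helpers here

set_option autoImplicit false
open Cfsg

namespace Cfsg.Agent.S3379

/-- Let G be a finite group all of whose Sylow subgroups are cyclic. Then G is generated by two elements x and y of coprime orders n and m with x⁻¹yx = y^r, where gcd(r − 1, m) = 1 and r^n ≡ 1 (mod m). -/
theorem result {G : Type*} [Group G] [Finite G]
    (hZ : ∀ (p : ℕ) [Fact p.Prime] (P : Sylow p G), IsCyclic (P : Subgroup G)) :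
    ∃ (x y : G) (n m r : ℕ), Subgroup.closure {x, y} = ⊤ ∧ orderOf x = n ∧ orderOf y = m ∧
      x⁻¹ * y * x = y ^ r ∧ Nat.Coprime (r - 1) m ∧ Nat.Coprime n m ∧ 1 ≤ r ∧ r ^ n % m = 1 % m := by
  haveI : IsZGroup G := ⟨fun p hp P => by haveI := Fact.mk hp; exact hZ p P⟩
  obtain ⟨x, y, r, hr, hcop, hxy, hgen, -, hr1⟩ := FGS.ZPres.exists_gens G
  refine ⟨x, y, orderOf x, orderOf y, r, hgen, rfl, rfl, hxy, hr1, hcop, hr, ?_⟩
  have key : ∀ k : ℕ, (x ^ k)⁻¹ * y * x ^ k = y ^ (r ^ k) := by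
    intro k
    induction k with
    | zero => simp
    | succ k ih =>
      have : (x ^ (k + 1))⁻¹ * y * x ^ (k + 1) = x⁻¹ * ((x ^ k)⁻¹ * y * x ^ k) * x := by
        rw [pow_succ]; group
      rw [this, ih]
      have h2 : x⁻¹ * y ^ (r ^ k) * x = (x⁻¹ * y * x) ^ (r ^ k) := by
        have := conj_pow (a := x⁻¹) (b := y) (i := r ^ k)
        simpa using this.symm
      rw [h2, hxy, ← pow_mul, pow_succ']
  have h := key (orderOf x)
  rw [pow_orderOf_eq_one] at h
  simp only [inv_one, one_mul, mul_one] at h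
  have h' : y ^ (r ^ orderOf x) = y ^ 1 := by rw [pow_one]; exact h.symm
  exact pow_eq_pow_iff_modEq.1 h'

end Cfsg.Agent.S3379
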