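import Cfsg.Statements.S3381
import Mathlib


set_option autoImplicit false
open Cfsg

namespace Cfsg.Agent.S3381

open Module

/-- Let G be a finite group acting faithfully and linearly on a non-trivial finite vector space V over the field with q elements (q prime) so that every non-zero vector has a stabilizer of order 2, and suppose G has a central involution. Then V has q^(2r) elements for some r and G contains exactly q^r + 1 non-central involutions. -/
theorem result
    (q : ℕ) [Fact q.Prime] {V : Type*} [AddCommGroup V] [Module (ZMod q) V] [Finite V] [Nontrivial V]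
    {G : Type*} [Group G] [Finite G] (ρ : G →* (V ≃ₗ[ZMod q] V)) (hρ : Function.Injective ρ)
    (hstab : ∀ v : V, v ≠ 0 → Nat.card {g : G // ρ g v = v} = 2)
    (z : G) (hz : orderOf z = 2) (hzc : z ∈ Subgroup.center G) :
    ∃ r : ℕ, Nat.card V = q ^ (2 * r) ∧
      Nat.card {g : G // orderOf g = 2 ∧ g ∉ Subgroup.center G} = q ^ r + 1 := by
  classical
  have hq : 1 < q := (Fact.out : q.Prime).one_lt
  have huniq : ∀ v : V, v ≠ 0 → ∀ s t : G, s ≠ 1 → t ≠ 1 → ρ s v = v → ρ t v = v → s = t := by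
    intro v hv s t hs ht h1 h2
    obtain ⟨y, -, hy⟩ := (Nat.card_eq_two_iff' (⟨1, by simp⟩ : {g : G // ρ g v = v})).1 (hstab v hv)
    have e1 := hy ⟨s, h1⟩ (fun h => hs (congrArg Subtype.val h))
    have e2 := hy ⟨t, h2⟩ (fun h => ht (congrArg Subtype.val h))
    exact congrArg Subtype.val (e1.trans e2.symm)
  have hex : ∀ v : V, v ≠ 0 → ∃ t : G, t ≠ 1 ∧ t * t = 1 ∧ ρ t v = v := by
    intro v hv
    obtain ⟨y, hy, -⟩ := (Nat.card_eq_two_iff' (⟨1, by simp⟩ : {g : G // ρ g v = v})).1 (hstab v hv)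
    have h1 : (y : G) ≠ 1 := fun h => hy (Subtype.ext h)
    refine ⟨y, h1, ?_, y.2⟩
    by_contra h
    exact h1 (mul_eq_left.1 (huniq v hv _ _ h h1 (by simp [y.2]) y.2))
  have hmove : ∀ c : G, c ≠ 1 → ∃ u, ρ c u ≠ u := by
    intro c hc
    by_contra h
    push Not at h
    exact hc (hρ (by rw [map_one]; exact LinearEquiv.ext h))
  have hmul : ∀ (a b : G) (v : V), ρ (a * b) v = ρ a (ρ b v) := fun a b v => by simp
  -- central involutions act as `-1`
  have hcen : ∀ c : G, c ≠ 1 → c * c = 1 → c ∈ Subgroup.center G →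
      (2 : ZMod q) ≠ 0 ∧ ∀ u, ρ c u = -u := by
    intro c hc hcc hcz
    have h1 : ∀ u, ρ c u ≠ u → ρ c u = -u := by
      intro u hu
      have hu0 : u ≠ 0 := fun h => hu (by simp [h])
      obtain ⟨s, hs, -, hsu⟩ := hex u hu0
      by_contra h
      have h2 : u + ρ c u ≠ 0 := fun h2 => h (eq_neg_of_add_eq_zero_right h2)
      have h3 := huniq _ h2 s c hs hc
        (by rw [map_add, hsu, ← hmul, Subgroup.mem_center_iff.1 hcz s, hmul, hsu])
        (by rw [map_add, ← hmul, hcc, add_comm]; simp)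
      exact hu (h3 ▸ hsu)
    obtain ⟨u, hu⟩ := hmove c hc
    have h2 : (2 : ZMod q) ≠ 0 := by
      intro h2
      apply hu
      rw [h1 u hu, neg_eq_iff_add_eq_zero, ← two_smul (ZMod q), h2, zero_smul]
    refine ⟨h2, fun w => ?_⟩
    by_cases hw : ρ c w = w
    · have h3 := h1 (u + w) (by rw [map_add, hw]; simpa using hu)
      rw [map_add, hw, h1 u hu, neg_add, add_right_inj, eq_neg_iff_add_eq_zero,
        ← two_smul (ZMod q)] at h3
      have : w = 0 := (smul_eq_zero.1 h3).resolve_left h2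
      simp [this]
    · exact h1 w hw
  have hz1 : z ≠ 1 := fun h => by simp [h] at hz
  have hzz : z * z = 1 := by rw [← pow_two, ← hz, pow_orderOf_eq_one]
  obtain ⟨h2, hzv⟩ := hcen z hz1 hzz hzc
  have hneg : ∀ v : V, -v = v → v = 0 := fun v hv => by
    rw [neg_eq_iff_add_eq_zero, ← two_smul (ZMod q)] at hv
    exact (smul_eq_zero.1 hv).resolve_left h2
  let I : G → Prop := fun g => orderOf g = 2 ∧ g ∉ Subgroup.center G
  have hI : ∀ g, I g ↔ g ≠ 1 ∧ g * g = 1 ∧ g ≠ z := by
    intro g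
    constructor
    · rintro ⟨h1, h3⟩
      exact ⟨fun h => by simp [h] at h1, by rw [← pow_two, ← h1, pow_orderOf_eq_one],
        fun h => h3 (h ▸ hzc)⟩
    · rintro ⟨h1, h3, h4⟩
      refine ⟨orderOf_eq_prime (by rw [pow_two, h3]) h1, fun h => h4 (hρ ?_)⟩
      exact LinearEquiv.ext fun v => by rw [(hcen g h1 h3 h).2, hzv]
  have hIz : ∀ g, I g → I (g * z) := by
    intro g hg
    obtain ⟨h1, h3, h4⟩ := (hI g).1 hg
    refine (hI _).2 ⟨fun h => h4 ?_, ?_, fun h => h1 (mul_eq_right.1 h)⟩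
    · rw [eq_inv_of_mul_eq_one_left h, inv_eq_of_mul_eq_one_left hzz]
    · rw [mul_assoc, ← mul_assoc z, ← Subgroup.mem_center_iff.1 hzc g, mul_assoc, hzz, mul_one, h3]
  let F : G → Submodule (ZMod q) V := fun g => LinearMap.eqLocus (ρ g : V →ₗ[ZMod q] V) LinearMap.id
  have hF : ∀ g v, v ∈ F g ↔ ρ g v = v := fun g v => Iff.rfl
  have hdis : ∀ s t, I s → I t → s ≠ t → Disjoint (F s) (F t) := by
    intro s t hs ht hst
    rw [Submodule.disjoint_def]
    intro v h1 h3
    by_contra hv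
    exact hst (huniq v hv s t ((hI s).1 hs).1 ((hI t).1 ht).1 h1 h3)
  have hexI : ∀ v : V, v ≠ 0 → ∃ t, I t ∧ v ∈ F t := by
    intro v hv
    obtain ⟨t, h1, h3, h4⟩ := hex v hv
    exact ⟨t, (hI t).2 ⟨h1, h3, fun h => hv (hneg v (by rw [← hzv, ← h, h4]))⟩, h4⟩
  have hne : ∀ t, I t → t ≠ t * z := fun t _ h => hz1 (mul_eq_left.1 h.symm)
  have hsup : ∀ t, I t → F t ⊔ F (t * z) = ⊤ := by
    intro t ht
    rw [eq_top_iff]
    intro v _
    have htt : ∀ w, ρ t (ρ t w) = w := fun w => by rw [← hmul, ((hI t).1 ht).2.1]; simp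
    have : v = (2 : ZMod q)⁻¹ • (v + ρ t v) + (2 : ZMod q)⁻¹ • (v - ρ t v) := by
      rw [← smul_add, add_add_sub_cancel, ← two_smul (ZMod q), smul_smul, inv_mul_cancel₀ h2,
        one_smul]
    rw [this]
    refine Submodule.add_mem _ (Submodule.mem_sup_left (Submodule.smul_mem _ _ ?_))
      (Submodule.mem_sup_right (Submodule.smul_mem _ _ ?_))
    · rw [hF, map_add, htt, add_comm]
    · rw [hF, hmul, hzv, map_neg, map_sub, htt, neg_sub]
  have hFne : ∀ t, I t → ∃ a ∈ F t, a ≠ 0 := by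
    intro t ht
    by_contra h
    push Not at h
    have h1 := hsup t ht
    rw [(Submodule.eq_bot_iff _).2 h, bot_sup_eq] at h1
    obtain ⟨u, hu⟩ := hmove _ ((hI _).1 (hIz t ht)).1
    exact hu ((hF _ _).1 (h1 ▸ Submodule.mem_top))
  have hle : ∀ s t, I s → I t → s ≠ t →
      finrank (ZMod q) (F s) + finrank (ZMod q) (F t) ≤ finrank (ZMod q) V :=
    fun s t hs ht hst => Submodule.finrank_add_finrank_le_of_disjoint (hdis s t hs ht hst)
  have heq : ∀ t, I t →
      finrank (ZMod q) (F t) + finrank (ZMod q) (F (t * z)) = finrank (ZMod q) V :=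
    fun t ht => Submodule.finrank_add_eq_of_isCompl
      ⟨hdis _ _ ht (hIz t ht) (hne t ht), codisjoint_iff.2 (hsup t ht)⟩
  have hzz' : ∀ t : G, t * z * z = t := fun t => by rw [mul_assoc, hzz, mul_one]
  have hhalf : ∀ t, I t → 2 * finrank (ZMod q) (F t) ≤ finrank (ZMod q) V := by
    intro t ht
    obtain ⟨a, ha, ha0⟩ := hFne t ht
    obtain ⟨b, hb, hb0⟩ := hFne _ (hIz t ht)
    have hd := Submodule.disjoint_def.1 (hdis _ _ ht (hIz t ht) (hne t ht))
    have hab : a + b ≠ 0 := fun h => ha0 (hd a ha (by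
      rw [eq_neg_of_add_eq_zero_left h]; exact neg_mem hb))
    obtain ⟨s, hs, hsv⟩ := hexI _ hab
    have h1 : s ≠ t := fun h => hb0 (hd b (by
      have := sub_mem (h ▸ hsv) ha
      rwa [add_sub_cancel_left] at this) hb)
    have h3 : s * z ≠ t := fun h => ha0 (hd a ha (by
      have h' : s = t * z := by rw [← h, hzz']
      have := sub_mem (h' ▸ hsv) hb
      rwa [add_sub_cancel_right] at this))
    have := hle _ _ hs ht h1
    have := hle _ _ (hIz s hs) ht h3
    have := heq s hs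
    omega
  have hdim : ∀ t, I t → 2 * finrank (ZMod q) (F t) = finrank (ZMod q) V := by
    intro t ht
    have := hhalf t ht
    have := hhalf _ (hIz t ht)
    have := heq t ht
    omega
  obtain ⟨v₀, hv₀⟩ := exists_ne (0 : V)
  obtain ⟨t₀, ht₀, -⟩ := hexI v₀ hv₀
  set r := finrank (ZMod q) (F t₀) with hr
  have hV : Nat.card V = q ^ (2 * r) := by
    rw [Module.natCard_eq_pow_finrank (K := ZMod q), Nat.card_zmod, hdim t₀ ht₀]
  have hFc : ∀ t, I t → Nat.card (F t) = q ^ r := by
    intro t ht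
    rw [Module.natCard_eq_pow_finrank (K := ZMod q), Nat.card_zmod]
    have := hdim t ht
    have := hdim t₀ ht₀
    congr 1; omega
  refine ⟨r, hV, ?_⟩
  have hr0 : r ≠ 0 := by
    intro h
    have : 1 < Nat.card V := Finite.one_lt_card
    rw [hV, h] at this
    simp at this
  have hnz : ∀ (W : Type _) [AddCommGroup W] [Finite W], Nat.card {w : W // w ≠ 0} + 1 = Nat.card W := by
    intro W _ _
    have := Fintype.ofFinite W
    have h1 : 0 < Fintype.card W := Fintype.card_pos
    simp only [Nat.card_eq_fintype_card, Fintype.card_subtype_compl, Fintype.card_unique]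
    omega
  let e : (Σ t : {g // I g}, {w : F t // w ≠ 0}) → {v : V // v ≠ 0} :=
    fun x => ⟨x.2.1, fun h => x.2.2 (Subtype.ext h)⟩
  have he : Function.Bijective e := by
    constructor
    · rintro ⟨⟨s, hs⟩, ⟨a, ha⟩, ha0⟩ ⟨⟨t, ht⟩, ⟨b, hb⟩, hb0⟩ h
      have hab : a = b := congrArg Subtype.val h
      subst hab
      have : s = t := by
        by_contra hst
        exact ha0 (Subtype.ext (Submodule.disjoint_def.1 (hdis s t hs ht hst) a ha hb))
      subst this
      rfl
    · rintro ⟨v, hv⟩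
      obtain ⟨t, ht, h⟩ := hexI v hv
      exact ⟨⟨⟨t, ht⟩, ⟨v, h⟩, fun h' => hv (congrArg Subtype.val h')⟩, rfl⟩
  have h1 := Nat.card_eq_of_bijective e he
  have := Fintype.ofFinite {g // I g}
  have h3 : ∀ t : {g // I g}, Nat.card {w : F t // w ≠ 0} = q ^ r - 1 := fun t => by
    have := hnz (F t)
    rw [hFc t t.2] at this
    omega
  rw [Nat.card_sigma] at h1
  simp only [h3, Finset.sum_const, Finset.card_univ, smul_eq_mul, ← Nat.card_eq_fintype_card] at h1
  have h4 := hnz V
  rw [← h1, hV, mul_comm 2, pow_mul] at h4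
  have h5 : 1 < q ^ r := Nat.one_lt_pow hr0 hq
  change Nat.card {g // I g} = _
  generalize Nat.card {g // I g} = k at h4
  generalize q ^ r = Q at h4 h5
  obtain ⟨Q, rfl⟩ : ∃ Q', Q = Q' + 1 := ⟨Q - 1, by omega⟩
  rw [Nat.add_sub_cancel] at h4
  have h6 : k * Q = (Q + 1 + 1) * Q := by nlinarith
  exact Nat.eq_of_mul_eq_mul_right (by omega) h6

end Cfsg.Agent.S3381
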