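import Cfsg.Statements.S3382
import Mathlib
import Cfsg.Agent.Inv.AutCyc
import Cfsg.Agent.PLocal.AmbSyl

set_option autoImplicit false
open Cfsg

namespace Cfsg.Agent.S3382

section
variable {F : Type*} [Field F]

/-- diagonal maps -/
def IsD (f : (Fin 2 → F) ≃ₗ[F] (Fin 2 → F)) (a b : F) : Prop := ∀ v, f v = ![a * v 0, b * v 1]
/-- antidiagonal maps -/
def IsA (f : (Fin 2 → F) ≃ₗ[F] (Fin 2 → F)) (a b : F) : Prop := ∀ v, f v = ![b * v 1, a * v 0]

variable {f g : (Fin 2 → F) ≃ₗ[F] (Fin 2 → F)} {a b c d : F}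

theorem IsD.mul (h : IsD f a b) (h' : IsD g c d) : IsD (f * g) (a * c) (b * d) := fun v => by
  change f (g v) = _
  rw [h, h']; simp [mul_assoc]
theorem IsD.mulA (h : IsD f a b) (h' : IsA g c d) : IsA (f * g) (b * c) (a * d) := fun v => by
  change f (g v) = _
  rw [h, h']; simp [mul_assoc]
theorem IsA.mulD (h : IsA f a b) (h' : IsD g c d) : IsA (f * g) (a * c) (b * d) := fun v => by
  change f (g v) = _
  rw [h, h']; simp [mul_assoc]
theorem IsA.mul (h : IsA f a b) (h' : IsA g c d) : IsD (f * g) (b * c) (a * d) := fun v => by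
  change f (g v) = _
  rw [h, h']; simp [mul_assoc]
theorem IsD.eq (h : IsD f a b) (h' : IsD g a b) : f = g :=
  LinearEquiv.ext fun v => by rw [h, h']
theorem IsA.eq (h : IsA f a b) (h' : IsA g a b) : f = g :=
  LinearEquiv.ext fun v => by rw [h, h']
theorem isD_one : IsD (1 : (Fin 2 → F) ≃ₗ[F] (Fin 2 → F)) 1 1 := fun v => by
  ext i; fin_cases i <;> simp
theorem IsD.inj (h : IsD f a b) (h' : IsD f c d) : a = c ∧ b = d := by
  have := (h ![1, 1]).symm.trans (h' ![1, 1])
  simpa using this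
theorem IsA.inj (h : IsA f a b) (h' : IsA f c d) : a = c ∧ b = d := by
  have := (h ![1, 1]).symm.trans (h' ![1, 1])
  simpa [and_comm] using this
theorem IsD.not_isA (h : IsD f a b) (h' : IsA f c d) : a = 0 := by
  have := (h ![1, 0]).symm.trans (h' ![1, 0])
  simp at this
  exact this.1
theorem IsD.pow (h : IsD f a b) (n : ℕ) : IsD (f ^ n) (a ^ n) (b ^ n) := by
  induction n with
  | zero => simpa using isD_one
  | succ n ih => rw [pow_succ, pow_succ, pow_succ]; exact ih.mul h

theorem exists_isD (ha : a ≠ 0) (hb : b ≠ 0) : ∃ f, IsD f a b :=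
  ⟨{ toFun := fun v => ![a * v 0, b * v 1]
     invFun := fun v => ![a⁻¹ * v 0, b⁻¹ * v 1]
     map_add' := fun v w => by ext i; fin_cases i <;> simp [mul_add]
     map_smul' := fun c w => by ext i; fin_cases i <;> simp [mul_left_comm]
     left_inv := fun v => by ext i; fin_cases i <;> simp [ha, hb]
     right_inv := fun v => by ext i; fin_cases i <;> simp [ha, hb] }, fun _ => rfl⟩

theorem exists_isA (ha : a ≠ 0) (hb : b ≠ 0) : ∃ f, IsA f a b :=
  ⟨{ toFun := fun v => ![b * v 1, a * v 0]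
     invFun := fun v => ![a⁻¹ * v 1, b⁻¹ * v 0]
     map_add' := fun v w => by ext i; fin_cases i <;> simp [mul_add]
     map_smul' := fun c w => by ext i; fin_cases i <;> simp [mul_left_comm]
     left_inv := fun v => by ext i; fin_cases i <;> simp [ha, hb]
     right_inv := fun v => by ext i; fin_cases i <;> simp [ha, hb] }, fun _ => rfl⟩
end

theorem step {X : Type*} [Group X] [Finite X] (hX : IsPGroup 2 X) {α : MulAut X}
    (hα : (orderOf α).Coprime 2) {x : X} (h : α (x * α x) = x * α x) (h2 : α (x * x) = x * x) :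
    α x = x := by
  set k := x⁻¹ * α x with hk
  have hk' : α k = k := by
    have : k = (x * x)⁻¹ * (x * α x) := by rw [hk]; group
    rw [this, map_mul, map_inv, h, h2]
  have h1 : ∀ n : ℕ, (α ^ n) x = x * k ^ n := by
    intro n
    induction n with
    | zero => simp
    | succ n ih =>
      rw [pow_succ', MulAut.mul_apply, ih, map_mul, map_pow, hk', pow_succ', ← mul_assoc, hk,
        mul_inv_cancel_left]
  have h3 := h1 (orderOf α)
  rw [pow_orderOf_eq_one, MulAut.one_apply, left_eq_mul] at h3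
  obtain ⟨n, hn⟩ := hX k
  have h4 : k = 1 := orderOf_eq_one_iff.1 (Nat.eq_one_of_dvd_coprimes (hα.pow_right n)
    (orderOf_dvd_of_pow_eq_one h3) (orderOf_dvd_of_pow_eq_one hn))
  rw [hk] at h4
  exact (inv_mul_eq_one.1 h4).symm

/-- Let q = 2^m + 1 be a prime other than 5. Then the automorphism group of the group of linear maps of F_q² of the forms (x, y) ↦ (a x, ± a⁻¹ y) and (x, y) ↦ (± a⁻¹ y, a x) with a ≠ 0 is itself a 2-group. -/
theorem result (q m : ℕ) [Fact q.Prime] (hq : q = 2 ^ m + 1) (hq5 : q ≠ 5)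
    (T : Subgroup ((Fin 2 → ZMod q) ≃ₗ[ZMod q] (Fin 2 → ZMod q)))
    (hT : ∀ f, f ∈ T ↔ ∃ a s : ZMod q, a ≠ 0 ∧ (s = 1 ∨ s = -1) ∧
      ((∀ v, f v = ![a * v 0, s * a⁻¹ * v 1]) ∨ (∀ v, f v = ![s * a⁻¹ * v 1, a * v 0]))) :
    IsPGroup 2 (MulAut T) := by
  have : Fact (Nat.Prime 2) := ⟨Nat.prime_two⟩
  have : Finite ((Fin 2 → ZMod q) ≃ₗ[ZMod q] (Fin 2 → ZMod q)) :=
    Finite.of_injective _ DFunLike.coe_injective
  have : Finite (MulAut T) := Finite.of_injective _ DFunLike.coe_injective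
  have hT' : ∀ f, f ∈ T ↔ ∃ a b : ZMod q, (a * b = 1 ∨ a * b = -1) ∧ (IsD f a b ∨ IsA f a b) := by
    intro f
    rw [hT]
    constructor
    · rintro ⟨a, s, ha, hs, h⟩
      exact ⟨a, s * a⁻¹, by rwa [mul_left_comm, mul_inv_cancel₀ ha, mul_one], h⟩
    · rintro ⟨a, b, hab, h⟩
      have ha : a ≠ 0 := by rintro rfl; simp at hab
      refine ⟨a, a * b, ha, hab, ?_⟩
      rwa [mul_right_comm, mul_inv_cancel₀ ha, one_mul]
  have hne : ∀ {a b : ZMod q}, (a * b = 1 ∨ a * b = -1) → a ≠ 0 ∧ b ≠ 0 := fun hab =>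
    ⟨by rintro rfl; simp at hab, by rintro rfl; simp at hab⟩
  have hsq : ∀ {s : ZMod q}, (s = 1 ∨ s = -1) → s * s = 1 := fun h => by
    rcases h with rfl | rfl <;> simp
  have hpow : ∀ a : ZMod q, a ≠ 0 → a ^ 2 ^ m = 1 := fun a ha => by
    have := ZMod.pow_card_sub_one_eq_one ha
    rwa [show q - 1 = 2 ^ m from Nat.sub_eq_of_eq_add hq] at this
  have hT2 : IsPGroup 2 T := by
    intro x
    obtain ⟨a, b, hab, h | h⟩ := (hT' x).1 x.2
    · refine ⟨m, Subtype.ext ?_⟩
      have := h.pow (2 ^ m)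
      rw [hpow a (hne hab).1, hpow b (hne hab).2] at this
      exact this.eq isD_one
    · refine ⟨2, Subtype.ext ?_⟩
      have := (h.mul h).mul (h.mul h)
      rw [mul_comm b a, hsq hab] at this
      refine Eq.trans ?_ (this.eq isD_one)
      simp [pow_succ, mul_assoc]
  suffices h : ∀ α : MulAut T, (orderOf α).Coprime 2 → ∀ x, α x = x from
    (PLocal.Amb.isPGroup_of_forall_coprime (L := ⊤) fun α _ hα => MulEquiv.ext (h α hα)).of_equiv
      Subgroup.topEquiv
  intro α hα
  have hst := fun {x : T} => step hT2 hα (x := x)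
  rcases m with _ | _ | _ | m
  · -- `q = 2`
    subst hq
    have h1 : ∀ x : T, x ≠ 1 → IsA x.1 1 1 := by
      intro x hx
      obtain ⟨a, b, hab, h⟩ := (hT' x).1 x.2
      have e : ∀ a : ZMod (2 ^ 0 + 1), a ≠ 0 → a = 1 := fun a ha => by simpa using hpow a ha
      rw [e a (hne hab).1, e b (hne hab).2] at h
      exact h.resolve_left fun h => hx (Subtype.ext (h.eq isD_one))
    intro x
    by_cases hx : x = 1
    · simp [hx]
    · exact Subtype.ext ((h1 _ (by simpa using hx)).eq (h1 x hx))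
  · -- `q = 3`
    have e : ∀ a : ZMod q, a ≠ 0 → a = 1 ∨ a = -1 := fun a ha =>
      mul_self_eq_one_iff.1 (by simpa [pow_two] using hpow a ha)
    have e2 : (1 : ZMod q) ≠ -1 := by
      intro h
      have h1 : ((2 : ℕ) : ZMod q) = 0 := by push_cast; linear_combination h
      rw [ZMod.natCast_eq_zero_iff, hq] at h1
      norm_num at h1
    have hsc : ∀ x : T, ∃ s, (s = 1 ∨ s = -1) ∧ IsD (x * x).1 s s := by
      intro x
      obtain ⟨a, b, hab, h | h⟩ := (hT' x).1 x.2
      · have := h.mul h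
        rw [hsq (e a (hne hab).1), hsq (e b (hne hab).2)] at this
        exact ⟨1, Or.inl rfl, this⟩
      · have := h.mul h
        rw [mul_comm b a] at this
        exact ⟨_, hab, this⟩
    have h1 : ∀ x : T, α (x * x) = x * x := by
      intro x
      by_cases hx : x * x = 1
      · rw [hx, map_one]
      · have key : ∀ y : T, y * y ≠ 1 → IsD (y * y).1 (-1) (-1) := fun y hy => by
          obtain ⟨s, rfl | rfl, h⟩ := hsc y
          · exact absurd (Subtype.ext (h.eq isD_one)) hy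
          · exact h
        rw [map_mul]
        exact Subtype.ext ((key _ (by rw [← map_mul]; exact (map_ne_one_iff _ α.injective).2 hx)).eq (key x hx))
    have h2 : ∀ (x : T) (s : ZMod q), s ≠ 0 → IsD x.1 s s → α x = x := by
      intro x s hs h
      rcases e s hs with rfl | rfl
      · rw [show x = 1 from Subtype.ext (h.eq isD_one), map_one]
      · obtain ⟨j, hj⟩ := exists_isA (a := (1 : ZMod q)) (b := -1) one_ne_zero (by simp)
        have hjT : j ∈ T := (hT' j).2 ⟨1, -1, by simp, Or.inr hj⟩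
        have : x = ⟨j, hjT⟩ * ⟨j, hjT⟩ := Subtype.ext (h.eq (by simpa using hj.mul hj))
        rw [this, h1]
    have h3 : ∀ x : T, x * x ≠ 1 → ∃ a, a ≠ 0 ∧ IsA x.1 a (-a) := by
      intro x hx
      obtain ⟨a, b, hab, h | h⟩ := (hT' x).1 x.2
      · have := h.mul h
        rw [hsq (e a (hne hab).1), hsq (e b (hne hab).2)] at this
        exact absurd (Subtype.ext (this.eq isD_one)) hx
      · refine ⟨a, (hne hab).1, ?_⟩
        have h' := h.mul h
        rcases e a (hne hab).1 with rfl | rfl <;> rcases e b (hne hab).2 with rfl | rfl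
        · exact absurd (Subtype.ext (IsD.eq (by simpa using h') isD_one)) hx
        · exact h
        · simpa using h
        · exact absurd (Subtype.ext (IsD.eq (by simpa using h') isD_one)) hx
    have h4 : ∀ x : T, x * x ≠ 1 → α x = x := by
      intro x hx
      obtain ⟨a, ha, h⟩ := h3 x hx
      obtain ⟨c, hc, h'⟩ := h3 (α x) (by rw [← map_mul]; exact (map_ne_one_iff _ α.injective).2 hx)
      refine hst (h2 _ (-(a * c)) (by simp [ha, hc]) ?_) (h1 x)
      simpa using h.mul h'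
    have h5 : ∀ x : T, α x ≠ x → ∃ a, a ≠ 0 ∧ (IsD x.1 a (-a) ∨ IsA x.1 a a) := by
      intro x hx
      obtain ⟨a, b, hab, h | h⟩ := (hT' x).1 x.2
      · refine ⟨a, (hne hab).1, Or.inl ?_⟩
        rcases e a (hne hab).1 with rfl | rfl <;> rcases e b (hne hab).2 with rfl | rfl
        · exact absurd (h2 x _ one_ne_zero h) hx
        · exact h
        · simpa using h
        · exact absurd (h2 x _ (by simp) h) hx
      · refine ⟨a, (hne hab).1, Or.inr ?_⟩
        have h' := h.mul h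
        have h6 : x * x = 1 := by_contra fun h6 => hx (h4 x h6)
        have h7 := (h'.inj (show IsD (x * x).1 1 1 from h6 ▸ isD_one)).1
        rcases e a (hne hab).1 with rfl | rfl <;> rcases e b (hne hab).2 with rfl | rfl
        · exact h
        · exact absurd h7.symm (by simpa using e2)
        · exact absurd h7.symm (by simpa using e2)
        · exact h
    intro x
    by_contra hx
    obtain ⟨a, ha, h⟩ := h5 x hx
    obtain ⟨c, hc, h'⟩ := h5 (α x) (by simpa using hx)
    have hac := mul_ne_zero ha hc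
    refine hx (hst ?_ (h1 x))
    have h8 : ∀ y : T, IsA y.1 (-(a * c)) (a * c) ∨ IsA y.1 (a * c) (-(a * c)) → α y = y := by
      intro y hy
      refine h4 y fun h6 => e2 ?_
      have h9 : IsD (y * y).1 1 1 := h6 ▸ isD_one
      rcases hy with hy | hy
      · have := (h9.inj (hy.mul hy)).1
        rwa [mul_neg, hsq (e _ hac)] at this
      · have := (h9.inj (hy.mul hy)).1
        rwa [neg_mul, hsq (e _ hac)] at this
    rcases h with h | h <;> rcases h' with h' | h'
    · exact h2 _ _ hac (by simpa using h.mul h')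
    · exact h8 _ (Or.inl (by simpa using h.mulA h'))
    · exact h8 _ (Or.inr (by simpa using h.mulD h'))
    · exact h2 _ _ hac (h.mul h')
  · exact absurd hq hq5
  -- `q ≥ 9`
  obtain ⟨g, hg⟩ := IsCyclic.exists_monoid_generator (α := (ZMod q)ˣ)
  have hgo : orderOf g = 2 ^ (m + 1 + 1 + 1) := by
    rw [orderOf_eq_card_of_forall_mem_powers hg, Nat.card_eq_fintype_card, ZMod.card_units]
    exact Nat.sub_eq_of_eq_add hq
  obtain ⟨d, hd⟩ := exists_isD (a := (g : ZMod q)) (b := (g⁻¹ : (ZMod q)ˣ)) g.ne_zero (g⁻¹).ne_zero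
  have hdT : d ∈ T := (hT' d).2 ⟨_, _, Or.inl (Units.mul_inv g), Or.inl hd⟩
  set D : T := ⟨d, hdT⟩
  have hDsq : ∀ (x : T) (a b : ZMod q), a ≠ 0 → IsD x.1 (a * a) b → a * a * b = 1 →
      x ∈ Subgroup.zpowers (D * D) := by
    intro x a b ha h hab
    obtain ⟨n, hn⟩ := hg (Units.mk0 a ha)
    have hn' : (g : ZMod q) ^ n = a := by simpa using congrArg Units.val hn
    refine ⟨n, Subtype.ext ?_⟩
    have h1 := (hd.mul hd).pow n
    rw [mul_pow, hn'] at h1
    have h2 : (((g⁻¹ : (ZMod q)ˣ) : ZMod q) * (g⁻¹ : (ZMod q)ˣ)) ^ n = b := by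
      rw [eq_inv_of_mul_eq_one_right hab, ← hn', Units.val_inv_eq_inv_val, mul_pow, inv_pow, mul_inv]
    rw [h2] at h1
    simpa using h1.eq h
  have hsc : ∀ (x : T) (s : ZMod q), (s = 1 ∨ s = -1) → IsD x.1 s s →
      x ∈ Subgroup.zpowers (D * D) := by
    rintro x s (rfl | rfl) h
    · exact hDsq x 1 1 one_ne_zero (by simpa using h) (by simp)
    · obtain ⟨c, hc⟩ := (ZMod.exists_sq_eq_neg_one_iff (p := q)).2 (by
        rw [hq, pow_succ, pow_succ]; omega)
      exact hDsq x c (-1) (by rintro rfl; simp at hc) (by rwa [← hc]) (by rw [← hc]; simp)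
  have hall : ∀ x : T, x * x ∈ Subgroup.zpowers (D * D) := by
    intro x
    obtain ⟨a, b, hab, h | h⟩ := (hT' x).1 x.2
    · exact hDsq _ a _ (hne hab).1 (h.mul h) (by linear_combination hsq hab)
    · exact hsc _ _ hab (by simpa [mul_comm b a] using h.mul h)
  have hDD : α (D * D) = D * D := by
    obtain ⟨n, hn⟩ := IsPGroup.iff_orderOf.1 hT2 (D * D)
    have h1 := Inv.AutCyc.pow_two_pow_apply_eq α hn (by rw [map_mul]; exact hall _)
    have h2 : α ^ 2 ^ n ∈ MulAction.stabilizer (MulAut T) (D * D) := h1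
    exact PLocal.Amb.mem_of_pow_mem_of_coprime h2 (hα.pow_right n)
  have hfix : ∀ x ∈ Subgroup.zpowers (D * D), α x = x := by
    rintro _ ⟨n, rfl⟩
    simp only [map_zpow, hDD]
  have hdiag : ∀ x : T, (∃ a b, IsD x.1 a b) ↔ x * (D * D) = (D * D) * x := by
    intro x
    constructor
    · rintro ⟨a, b, h⟩
      refine Subtype.ext ((h.mul (hd.mul hd)).eq ?_)
      rw [mul_comm a, mul_comm b]
      exact (hd.mul hd).mul h
    · intro hx
      obtain ⟨a, b, hab, h | h⟩ := (hT' x).1 x.2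
      · exact ⟨a, b, h⟩
      · exfalso
        have h1 : IsA (x * (D * D)).1 _ _ := h.mulD (hd.mul hd)
        have h2 : IsA ((D * D) * x).1 _ _ := (hd.mul hd).mulA h
        rw [hx] at h1
        have h3 := (h1.inj h2).1
        rw [mul_comm a, mul_left_inj' (hne hab).1, ← Units.val_mul, ← Units.val_mul,
          Units.val_inj] at h3
        have h4 : g ^ 2 ^ 2 = 1 := by
          calc g ^ 2 ^ 2 = g * g * (g * g) := by simp [pow_succ, mul_assoc]
            _ = 1 := by nth_rewrite 1 [h3]; group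
        have h5 := orderOf_dvd_of_pow_eq_one h4
        rw [hgo, Nat.pow_dvd_pow_iff_le_right (by norm_num)] at h5
        omega
  have hdiag' : ∀ x : T, (∃ a b, IsD (α x).1 a b) ↔ ∃ a b, IsD x.1 a b := by
    intro x
    rw [hdiag, hdiag]
    conv_lhs => rw [← hDD, ← map_mul, ← map_mul]
    exact α.injective.eq_iff
  have hinv : ∀ (x : T) (a b : ZMod q), IsD x.1 a b → x * x = 1 → α x ≠ x →
      (a = 1 ∨ a = -1) ∧ b = -a := by
    intro x a b h hx hx'
    obtain ⟨h1, h2⟩ := (h.mul h).inj (show IsD (x * x).1 1 1 from hx ▸ isD_one)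
    rcases mul_self_eq_one_iff.1 h1 with rfl | rfl <;>
      rcases mul_self_eq_one_iff.1 h2 with rfl | rfl
    · exact absurd (hfix x (hsc x _ (Or.inl rfl) h)) hx'
    · simp
    · simp
    · exact absurd (hfix x (hsc x _ (Or.inr rfl) h)) hx'
  have h1 : ∀ (x : T), (∃ a b, IsD x.1 a b) → x * x = 1 → α x = x := by
    intro x hx hxx
    obtain ⟨c, e, h'⟩ := (hdiag' x).2 hx
    obtain ⟨a, b, h⟩ := hx
    by_contra hx'
    obtain ⟨ha, rfl⟩ := hinv x a b h hxx hx'
    obtain ⟨hc, rfl⟩ := hinv (α x) c e h' (by rw [← map_mul, hxx, map_one]) (by simpa using hx')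
    refine hx' (hst (hfix _ (hsc _ (a * c) ?_ (by simpa using h.mul h'))) (hfix _ (hall x)))
    rcases ha with rfl | rfl <;> rcases hc with rfl | rfl <;> simp
  have h2 : ∀ (x : T), (∃ a b, IsD x.1 a b) → α x = x := by
    intro x hx
    obtain ⟨c, e, h'⟩ := (hdiag' x).2 hx
    obtain ⟨a, b, h⟩ := hx
    have hcm : Commute x (α x) := Subtype.ext ((h.mul h').eq (by
      rw [mul_comm a, mul_comm b]; exact h'.mul h))
    have h3 : α (x⁻¹ * α x) = x⁻¹ * α x := by
      refine h1 _ ((hdiag _).2 ?_) ?_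
      · exact (Commute.mul_left (Commute.inv_left ((hdiag x).1 ⟨a, b, h⟩))
          ((hdiag _).1 ⟨c, e, h'⟩)).eq
      · rw [← pow_two, hcm.inv_left.mul_pow, pow_two (α x), ← map_mul, hfix _ (hall x), inv_pow,
          pow_two, inv_mul_cancel]
    refine hst ?_ (hfix _ (hall x))
    rw [show x * α x = (x * x) * (x⁻¹ * α x) by group, map_mul, h3, hfix _ (hall x)]
  intro x
  obtain ⟨a, b, hab, h | h⟩ := (hT' x).1 x.2
  · exact h2 x ⟨a, b, h⟩
  obtain ⟨c, e, -, h' | h'⟩ := (hT' _).1 (α x).2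
  · exact h2 x ((hdiag' x).1 ⟨c, e, h'⟩)
  · exact hst (h2 _ ⟨_, _, h.mul h'⟩) (hfix _ (hall x))

end Cfsg.Agent.S3382
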