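import Cfsg.Statements.S3383
import Mathlib


set_option autoImplicit false
open Cfsg

namespace Cfsg.Agent.S3383

open scoped Pointwise in
theorem aux {L : Type*} [Group L] [Finite L]
    (H : Subgroup L) (hH : Cfsg.IsFrobeniusComplement H)
    (K : Subgroup L) (hK : (K : Set L) = Cfsg.frobeniusKernel H) (N : Subgroup L) (hN : N.Normal) :
    K ≤ N ∨ N ≤ K := by
  have hmem : ∀ x, x ∈ K ↔ (x = 1 ∨ ∀ g : L, x ∉ MulAut.conj g • H) := fun x => by
    rw [← SetLike.mem_coe, hK]; rfl
  have hsm : ∀ g x : L, x ∈ MulAut.conj g • H ↔ g⁻¹ * x * g ∈ H := by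
    intro g x
    rw [Subgroup.mem_pointwise_smul_iff_inv_smul_mem]
    simp
  have hKn : K.Normal := ⟨fun x hx g => by
    rw [hmem] at hx ⊢
    rcases hx with rfl | hx
    · left; simp
    · right
      intro y hy
      apply hx (g⁻¹ * y)
      rw [hsm] at hy ⊢
      simpa [mul_assoc] using hy⟩
  by_cases hNK : N ≤ K
  · exact Or.inr hNK
  left
  obtain ⟨x, hxN, hxK⟩ := SetLike.not_le_iff_exists.1 hNK
  rw [hmem] at hxK
  push Not at hxK
  obtain ⟨hx1, g, hg⟩ := hxK
  rw [hsm] at hg
  set h := g⁻¹ * x * g with hh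
  have hhN : h ∈ N := by simpa using hN.conj_mem x hxN g⁻¹
  have hh1 : h ≠ 1 := by
    intro h0
    apply hx1
    have : x = g * h * g⁻¹ := by rw [hh]; group
    rw [this, h0]; simp
  have hfpf : MonoidHom.FixedPointFree (MulAut.conjNormal h : MulAut K) := by
    intro k hk
    by_contra hk1
    have hk' : h * k * h⁻¹ = k := by simpa using congrArg Subtype.val hk
    have hkH : (k : L) ∉ H := by
      rcases (hmem k).1 k.2 with h1 | h1
      · exact absurd (Subtype.ext h1) hk1
      · simpa using h1 1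
    have h2 : h ∈ H ⊓ MulAut.conj (k : L) • H := by
      refine ⟨hg, ?_⟩
      show h ∈ MulAut.conj (k : L) • H
      rw [hsm]
      have : (k : L)⁻¹ * h * k = h := by
        calc (k : L)⁻¹ * h * k = (k : L)⁻¹ * (h * k * h⁻¹) * h := by group
          _ = h := by rw [hk']; group
      rwa [this]
    rw [hH.2.2 k hkH] at h2
    exact hh1 (Subgroup.mem_bot.1 h2)
  intro k hk
  obtain ⟨y, hy⟩ := hfpf.commutatorMap_surjective ⟨k, hk⟩
  have h1 : k = y * h * (y : L)⁻¹ * h⁻¹ := by
    have := congrArg Subtype.val hy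
    simp only [MonoidHom.commutatorMap_apply, div_eq_mul_inv, Subgroup.coe_mul, Subgroup.coe_inv,
      MulAut.conjNormal_apply] at this
    rw [← this]; group
  rw [h1]
  exact N.mul_mem (hN.conj_mem h hhN y) (N.inv_mem hhN)

open scoped Pointwise in
theorem normal {L : Type*} [Group L]
    (H : Subgroup L) (K : Subgroup L) (hK : (K : Set L) = Cfsg.frobeniusKernel H) : K.Normal := by
  have hmem : ∀ x, x ∈ K ↔ (x = 1 ∨ ∀ g : L, x ∉ MulAut.conj g • H) := fun x => by
    rw [← SetLike.mem_coe, hK]; rfl
  have hsm : ∀ g x : L, x ∈ MulAut.conj g • H ↔ g⁻¹ * x * g ∈ H := by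
    intro g x
    rw [Subgroup.mem_pointwise_smul_iff_inv_smul_mem]
    simp
  exact ⟨fun x hx g => by
    rw [hmem] at hx ⊢
    rcases hx with rfl | hx
    · left; simp
    · right
      intro y hy
      apply hx (g⁻¹ * y)
      rw [hsm] at hy ⊢
      simpa [mul_assoc] using hy⟩


/-- Let H be a Frobenius complement in a finite group L and K the Frobenius kernel (as a subgroup). Then K is characteristic in L, and every normal subgroup of L either contains K or is contained in K. -/
theorem result {L : Type*} [Group L] [Finite L]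
    (H : Subgroup L) (hH : Cfsg.IsFrobeniusComplement H)
    (K : Subgroup L) (hK : (K : Set L) = Cfsg.frobeniusKernel H) :
    K.Characteristic ∧ ∀ N : Subgroup L, N.Normal → K ≤ N ∨ N ≤ K := by
  refine ⟨?_, aux H hH K hK⟩
  have hKn := normal H K hK
  rw [Subgroup.characteristic_iff_map_eq]
  intro φ
  have hc : Nat.card (K.map φ.toMonoidHom) = Nat.card K :=
    Subgroup.card_map_of_injective φ.injective
  rcases aux H hH K hK (K.map φ.toMonoidHom) (hKn.map _ φ.surjective) with h | h
  · exact (Subgroup.eq_of_le_of_card_ge h hc.le).symm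
  · exact Subgroup.eq_of_le_of_card_ge h hc.ge

end Cfsg.Agent.S3383
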