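import Cfsg.Statements.S3420
import Mathlib
import Cfsg.Agent.Grp.Cores
import Cfsg.Agent.Grp.MinNormal
import Cfsg.Agent.Grp.ConjCount
import Cfsg.Agent.PLocal.AmbSyl
import Cfsg.Agent.NT.TwoPrimes

set_option autoImplicit false
open Cfsg

namespace Cfsg.Agent.S3420

open Subgroup Cfsg.Agent.PLocal.Amb

section
variable {G : Type*} [Group G] [Finite G]

theorem key (K : Subgroup G) [hK : K.Normal] {r s : ℕ} (hr : r.Prime) (hs : s.Prime) (hrs : r ≠ s)
    (h1 : r ∣ Nat.card K) (h2 : ¬ s ∣ Nat.card K) (h3 : s ∣ Nat.card G)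
    (h : ∀ g : G, orderOf g ≠ r * s) : ∃ a, 1 ≤ a ∧ r ^ a ∣ Nat.card G ∧ r ^ a ≡ 1 [MOD s] := by
  have := Fact.mk hr
  have := Fact.mk hs
  obtain ⟨R, hR⟩ := exists_isSyl r K
  have h4 : 𝐍[R] ⊔ K = ⊤ := by
    rw [← hR.frattini_sup (L := ⊤) le_top (by rw [normalizer_eq_top]), top_inf_eq, sup_comm]
  have h5 := Grp.card_sup_dvd_mul_of_normal 𝐍[R] K
  rw [h4, card_top] at h5
  obtain ⟨⟨x, hxN⟩, hx⟩ := exists_prime_orderOf_dvd_card' s
    (((Nat.Prime.dvd_mul hs).1 (h3.trans h5)).resolve_right h2)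
  rw [orderOf_mk] at hx
  have h6 := Grp.ConjCount.card_modEq (p := s) (P := zpowers x)
    (IsPGroup.of_card (n := 1) (by rw [Nat.card_zpowers, hx, pow_one])) (R : Set G)
    fun g hg y hy => conj_mem_of_mem_normalizer (zpowers_le.2 hxN hg) hy
  have h7 : Nat.card {y : G // y ∈ (R : Set G) ∧ y ∈ centralizer (zpowers x : Set G)} = 1 := by
    refine Nat.card_eq_one_iff_exists.2 ⟨⟨1, one_mem _, one_mem _⟩, fun ⟨y, hy, hc⟩ => ?_⟩
    by_contra hy1
    have hy1 : y ≠ 1 := fun e => hy1 (Subtype.ext e)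
    obtain ⟨k, hk⟩ := IsPGroup.iff_orderOf.1 hR.2 ⟨y, hy⟩
    rw [orderOf_mk] at hk
    have h8 : r ∣ orderOf y := hk ▸ dvd_pow_self r fun e => hy1 (orderOf_eq_one_iff.1 (by simp [hk, e]))
    have h9 := orderOf_pow_orderOf_div (orderOf_pos y).ne' h8
    have hc : Commute (y ^ (orderOf y / r)) x :=
      Commute.pow_left (show Commute y x from (hc x (mem_zpowers x)).symm) _
    exact h _ (by rw [hc.orderOf_mul_eq_mul_orderOf_of_coprime
      (by rw [h9, hx]; exact (Nat.coprime_primes hr hs).2 hrs), h9, hx])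
  rw [h7, show Nat.card (R : Set G) = Nat.card R from rfl, hR.card_eq_pow] at h6
  exact ⟨_, hr.factorization_pos_of_dvd Nat.card_pos.ne' h1,
    hR.card_eq_pow ▸ card_subgroup_dvd_card R, h6⟩

theorem simple_of_min (M : Subgroup G) [hM : M.Normal] {p : ℕ} (hp : p.Prime)
    (h1 : p ∣ Nat.card M) (h2 : ¬ p ^ 2 ∣ Nat.card M)
    (hmin : ∀ K : Subgroup G, K.Normal → K ≤ M → K = ⊥ ∨ K = M) : IsSimpleGroup M := by
  have := Fact.mk hp
  have : Nontrivial M := Finite.one_lt_card_iff_nontrivial.1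
    (hp.one_lt.trans_le (Nat.le_of_dvd Nat.card_pos h1))
  refine ⟨fun L hL => ?_⟩
  by_cases h : p ∣ Nat.card L
  · right
    obtain ⟨x, hx⟩ := exists_prime_orderOf_dvd_card' p h1
    have h3 : ∀ y : M, y ^ p = 1 → y ∈ L := fun y hy => by
      rw [← QuotientGroup.eq_one_iff, ← orderOf_eq_one_iff]
      refine (Nat.dvd_prime hp).1 (orderOf_dvd_of_pow_eq_one
        (by rw [← QuotientGroup.mk_pow, hy]; rfl)) |>.resolve_right fun e => h2 ?_
      rw [← L.index_mul_card, sq]
      exact mul_dvd_mul (e ▸ orderOf_dvd_natCard _) h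
    have h4 : (closure {y : G | y ∈ M ∧ y ^ p = 1}).Normal := ⟨fun n hn g => by
      refine closure_induction (p := fun n _ => g * n * g⁻¹ ∈ closure {y : G | y ∈ M ∧ y ^ p = 1})
        (fun y hy => Subgroup.subset_closure
        ⟨hM.conj_mem y hy.1 g, by rw [conj_pow, hy.2]; group⟩) (by simp) (fun a b _ _ ha hb => ?_)
        (fun a _ ha => ?_) hn
      · convert mul_mem ha hb using 1; group
      · convert inv_mem ha using 1; group⟩
    have h5 := (hmin _ h4 ((closure_le _).2 fun y hy => hy.1)).resolve_left fun e => by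
      have : (x : G) ∈ closure {y : G | y ∈ M ∧ y ^ p = 1} :=
        Subgroup.subset_closure ⟨x.2, by rw [← coe_pow, ← hx, pow_orderOf_eq_one]; rfl⟩
      rw [e, mem_bot, OneMemClass.coe_eq_one] at this
      simp [this, hp.one_lt.ne] at hx
    have h6 : M ≤ L.map M.subtype := h5.ge.trans ((closure_le _).2 fun y hy =>
      ⟨⟨y, hy.1⟩, h3 _ (Subtype.ext hy.2), rfl⟩)
    refine eq_top_iff.2 fun y _ => ?_
    obtain ⟨z, hz, e⟩ := h6 y.2
    exact (Subtype.ext e : z = y) ▸ hz
  · left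
    have h3 := Grp.le_pPrimeCore hL ((Nat.coprime_comm.1 (hp.coprime_iff_not_dvd.2 h)))
    rcases hmin _ (Grp.normal_map_subtype_of_characteristic M (pPrimeCore p M))
      (map_subtype_le _) with e | e
    · rw [Subgroup.map_eq_bot_iff, ker_subtype] at e
      exact eq_bot_iff.2 (h3.trans e)
    · rw [← e, card_subtype] at h1
      exact (Grp.not_dvd_card_pPrimeCore p M h1).elim
end

theorem alt_order {n r s : ℕ} (hr : r.Prime) (hs : s.Prime) (hrs : r ≠ s) (h : n < r + s)
    (g : alternatingGroup (Fin n)) : orderOf g ≠ r * s := fun e => by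
  rw [← orderOf_coe, ← Equiv.Perm.lcm_cycleType] at e
  have h1 : ∀ t : ℕ, t.Prime → t ∣ r * s → ∃ c ∈ g.1.cycleType, t ∣ c := fun t ht h =>
    ht.prime.exists_mem_multiset_dvd ((e ▸ h : t ∣ g.1.cycleType.lcm).trans
      (Multiset.lcm_dvd.2 fun _ hb => Multiset.dvd_prod hb))
  obtain ⟨c, hc, h2⟩ := h1 r hr (dvd_mul_right _ _)
  obtain ⟨d, hd, h3⟩ := h1 s hs (dvd_mul_left _ _)
  have h4 := g.1.sum_cycleType_le
  rw [Fintype.card_fin] at h4
  have hc0 : 0 < c := (Equiv.Perm.two_le_of_mem_cycleType hc).trans_lt' two_pos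
  have hd0 : 0 < d := (Equiv.Perm.two_le_of_mem_cycleType hd).trans_lt' two_pos
  by_cases hcd : c = d
  · subst hcd
    have h5 := Nat.le_of_dvd hc0 (((Nat.coprime_primes hr hs).2 hrs).mul_dvd_of_dvd_of_dvd h2 h3)
    have h6 := Multiset.single_le_sum (fun _ _ => Nat.zero_le _) c hc
    nlinarith [hr.two_le, hs.two_le]
  · obtain ⟨t, ht⟩ := Multiset.exists_cons_of_mem hc
    rw [ht, Multiset.mem_cons] at hd
    have h6 := Multiset.single_le_sum (fun _ _ => Nat.zero_le _) d (hd.resolve_left (Ne.symm hcd))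
    rw [ht, Multiset.sum_cons] at h4
    have := Nat.le_of_dvd hc0 h2
    have := Nat.le_of_dvd hd0 h3
    omega

/-- Let n ≥ 11 and let G be a finite group with the same order and the same set of element orders as the alternating group of degree n. Then G has normal subgroups N < H such that H/N is a non-abelian simple group whose order is divisible by every prime p with n/2 < p ≤ n. -/
theorem result {G : Type*} [Group G] [Finite G] (n : ℕ) (hn : 11 ≤ n)
    (hcard : Nat.card G = Nat.card ↥(alternatingGroup (Fin n)))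
    (hspec : Set.range (orderOf : G → ℕ) = Set.range (orderOf : ↥(alternatingGroup (Fin n)) → ℕ)) :
    ∃ (N H : Subgroup G) (_ : N.Normal), H.Normal ∧ N < H ∧
      IsSimpleGroup (↥H ⧸ N.subgroupOf H) ∧ ¬ IsMulCommutative (↥H ⧸ N.subgroupOf H) ∧
      ∀ p : ℕ, p.Prime → n < 2 * p → p ≤ n → p ∣ Nat.card (↥H ⧸ N.subgroupOf H) := by
  obtain ⟨p, q, hp, hq, hpq, hp1, hq1⟩ : ∃ p q : ℕ, p.Prime ∧ q.Prime ∧ p < q ∧ n < 2 * p ∧ q ≤ n := by
    rcases (show n < 14 ∨ (14 ≤ n ∧ n < 17) ∨ 17 ≤ n by omega) with h | h | h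
    · exact ⟨7, 11, by norm_num, by norm_num, by norm_num, by omega, hn⟩
    · exact ⟨11, 13, by norm_num, by norm_num, by norm_num, by omega, by omega⟩
    · obtain ⟨p, q, hp, hq, h1, h2, h3⟩ := NT.TwoPrimes.exists_primes h
      exact ⟨p, q, hp, hq, by omega, h1, h3⟩
  have : Nontrivial (Fin n) := Fin.nontrivial_iff_two_le.2 (by omega)
  have hG : 2 * Nat.card G = n.factorial := by
    rw [hcard, two_mul_nat_card_alternatingGroup, Nat.card_perm, Nat.card_fin]
  have hd : ∀ r : ℕ, r.Prime → n < 2 * r → r ≤ n → r ∣ Nat.card G ∧ ¬ r ^ 2 ∣ Nat.card G := by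
    intro r hr h1 h2
    refine ⟨((Nat.coprime_primes hr Nat.prime_two).2 (by omega)).dvd_of_dvd_mul_left
      (hG ▸ Nat.dvd_factorial hr.pos h2), fun h => ?_⟩
    have h3 := (hr.pow_dvd_factorial_iff (b := 2) (Nat.log_lt_of_lt_pow (by omega)
      (by nlinarith))).1 (hG ▸ h.mul_left 2)
    have h4 : n / r < 2 := Nat.div_lt_of_lt_mul (by omega)
    simp at h3
    omega
  have hno : ∀ r s : ℕ, r.Prime → s.Prime → r ≠ s → n < r + s → ∀ g : G, orderOf g ≠ r * s :=
    fun r s hr hs hrs h g e => by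
      obtain ⟨x, hx⟩ : r * s ∈ Set.range (orderOf : alternatingGroup (Fin n) → ℕ) := hspec ▸ ⟨g, e⟩
      exact alt_order hr hs hrs h x hx
  have hall : ∀ K : Subgroup G, K.Normal → ∀ r s : ℕ, r.Prime → n < 2 * r → r ≤ n → s.Prime →
      n < 2 * s → s ≤ n → r ∣ Nat.card K → s ∣ Nat.card K := by
    intro K hK r s hr r1 r2 hs s1 s2 h
    by_contra h2
    have hrs : r ≠ s := fun e => h2 (e ▸ h)
    obtain ⟨a, a1, a2, a3⟩ := key K hr hs hrs h h2 (hd s hs s1 s2).1 (hno r s hr hs hrs (by omega))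
    obtain rfl : a = 1 := by
      by_contra ha
      exact (hd r hr r1 r2).2 ((pow_dvd_pow r (by omega)).trans a2)
    rw [pow_one] at a3
    obtain ⟨k, hk⟩ := (Nat.modEq_iff_dvd' hr.one_le).1 a3.symm
    have := hr.eq_two_or_odd
    have := hs.eq_two_or_odd
    rcases k with _ | _ | k
    · omega
    · omega
    · have : s * (k + 1 + 1) = s * k + 2 * s := by ring
      omega
  have := Fact.mk hp
  obtain ⟨hpG, hp2⟩ := hd p hp hp1 (by omega)
  have hN := Grp.not_dvd_card_pPrimeCore p G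
  have hNq := Grp.pPrimeCore_quotient_pPrimeCore p G
  generalize_proofs hNn at hNq
  generalize pPrimeCore p G = N at hN hNn hNq
  have : Nontrivial (G ⧸ N) := by
    rw [← Finite.one_lt_card_iff_nontrivial]
    refine hp.one_lt.trans_le (Nat.le_of_dvd Nat.card_pos (((Nat.Prime.dvd_mul hp).1 ?_).resolve_right hN))
    rwa [← card_eq_card_quotient_mul_card_subgroup]
  obtain ⟨M, hM, hM1, hmin⟩ := Grp.exists_minNormal (G ⧸ N)
  have hpM : p ∣ Nat.card M := by
    by_contra h
    exact hM1 (Grp.pPrimeCore_eq_bot_iff.1 hNq M hM (hp.coprime_iff_not_dvd.2 h).symm)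
  have hc := Grp.card_comap_mk' N M
  have hM2 : ∀ r : ℕ, r.Prime → n < 2 * r → r ≤ n → r ∣ Nat.card M := fun r hr r1 r2 =>
    ((Nat.Prime.dvd_mul hr).1 (hc ▸ hall _ inferInstance p r hp hp1 (by omega) hr r1 r2
      (hc ▸ hpM.mul_right _))).resolve_right fun h => hN (hall N hNn r p hr r1 r2 hp hp1 (by omega) h)
  have hs := simple_of_min M hp hpM (fun h => hp2 (h.trans ((card_subgroup_dvd_card M).trans
    (card_quotient_dvd_card N)))) hmin
  have hNH : N ≤ M.comap (QuotientGroup.mk' N) := fun x hx => by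
    rw [mem_comap, QuotientGroup.mk'_apply, (QuotientGroup.eq_one_iff x).2 hx]; exact one_mem _
  obtain ⟨e⟩ : Nonempty (M.comap (QuotientGroup.mk' N) ⧸ N.subgroupOf (M.comap (QuotientGroup.mk' N))
      ≃* M) := by
    refine ⟨(QuotientGroup.quotientMulEquivOfEq ?_).trans (QuotientGroup.quotientKerEquivOfSurjective
      ((QuotientGroup.mk' N).subgroupComap M)
      (MonoidHom.subgroupComap_surjective_of_surjective _ _ (QuotientGroup.mk'_surjective N)))⟩
    ext x
    rw [mem_subgroupOf, MonoidHom.mem_ker, Subtype.ext_iff]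
    exact (QuotientGroup.eq_one_iff _).symm
  refine ⟨N, M.comap (QuotientGroup.mk' N), hNn, inferInstance, lt_of_le_of_ne hNH fun h => ?_,
    e.isSimpleGroup, fun h => ?_, fun r hr r1 r2 => Nat.card_congr e.toEquiv ▸ hM2 r hr r1 r2⟩
  · exact hN (h ▸ hc ▸ hpM.mul_right _)
  · have := e.isSimpleGroup
    have h1 := Group.is_simple_iff_prime_card.1 this
    rw [Nat.card_congr e.toEquiv] at h1
    have := (Nat.prime_dvd_prime_iff_eq hp h1).1 hpM
    have := (Nat.prime_dvd_prime_iff_eq hq h1).1 (hM2 q hq (by omega) hq1)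
    omega

end Cfsg.Agent.S3420
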