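import Cfsg.Statements.S3419
import Mathlib
import Cfsg.Agent.S3420

set_option autoImplicit false
open Cfsg

namespace Cfsg.Agent.S3419

open Subgroup

theorem solv {G : Type*} [Group G] [Finite G] [Group.IsSolvable G] {p q : ℕ} (hp : p.Prime)
    (hq : q.Prime) (hpq : p ≠ q) (h1 : p ∣ Nat.card G) (h2 : q ∣ Nat.card G)
    (h : ∀ g : G, orderOf g ≠ p * q) : (∃ a, 1 ≤ a ∧ p ^ a ∣ Nat.card G ∧ p ^ a ≡ 1 [MOD q]) ∨
      ∃ a, 1 ≤ a ∧ q ^ a ∣ Nat.card G ∧ q ^ a ≡ 1 [MOD p] := by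
  obtain ⟨N, ⟨hN, hNp, hNq⟩, hmax⟩ := (wellFounded_gt (α := Subgroup G)).has_min
    {N | N.Normal ∧ ¬ p ∣ Nat.card N ∧ ¬ q ∣ Nat.card N}
    ⟨⊥, inferInstance, by simp [hp.ne_one], by simp [hq.ne_one]⟩
  have : Nontrivial (G ⧸ N) := by
    rw [← Finite.one_lt_card_iff_nontrivial]
    refine hp.one_lt.trans_le (Nat.le_of_dvd Nat.card_pos
      (((Nat.Prime.dvd_mul hp).1 ?_).resolve_right hNp))
    rwa [← card_eq_card_quotient_mul_card_subgroup]
  obtain ⟨r, M, hr, hM, hM1, -, -, hMr, -⟩ := Grp.exists_minNormal_elementaryAbelian (G ⧸ N)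
  have := Fact.mk hr
  obtain ⟨k, hk⟩ := IsPGroup.iff_card.1 hMr
  have hc := Grp.card_comap_mk' N M
  have hd : ∀ s : ℕ, s.Prime → ¬ s ∣ Nat.card N → s ∣ Nat.card (M.comap (QuotientGroup.mk' N)) →
      s = r := fun s hs h1 h2 => (Nat.prime_dvd_prime_iff_eq hs hr).1 (hs.dvd_of_dvd_pow
        (hk ▸ ((Nat.Prime.dvd_mul hs).1 (hc ▸ h2)).resolve_right h1))
  by_cases a1 : p ∣ Nat.card (M.comap (QuotientGroup.mk' N))
  · exact Or.inl (S3420.key _ hp hq hpq a1
      (fun a2 => hpq ((hd p hp hNp a1).trans (hd q hq hNq a2).symm)) h2 h)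
  by_cases a2 : q ∣ Nat.card (M.comap (QuotientGroup.mk' N))
  · exact Or.inr (S3420.key _ hq hp hpq.symm a2 a1 h1 (mul_comm p q ▸ h))
  refine (hmax _ ⟨inferInstance, a1, a2⟩ (lt_of_le_of_ne
    ((QuotientGroup.ker_mk' N).ge.trans (ker_le_comap _ _)) fun e => hM1 ?_)).elim
  rw [← e] at hc
  exact card_eq_one.1 (by nlinarith [Nat.card_pos (α := N)])

/-- Let n ≥ 5 and let G be a finite group with the same order and the same set of element orders as the alternating group of degree n. Then G is not solvable. -/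
theorem result {G : Type*} [Group G] [Finite G] (n : ℕ) (hn : 5 ≤ n)
    (hcard : Nat.card G = Nat.card ↥(alternatingGroup (Fin n)))
    (hspec : Set.range (orderOf : G → ℕ) = Set.range (orderOf : ↥(alternatingGroup (Fin n)) → ℕ)) :
    ¬ Group.IsSolvable G := by
  intro hs
  by_cases h11 : 11 ≤ n
  · obtain ⟨N, H, _, -, -, h1, h2, -⟩ := S3420.result n h11 hcard hspec
    exact h2 (IsSimpleGroup.comm_iff_isSolvable.2 inferInstance |> fun h => ⟨⟨h⟩⟩)
  have : Nontrivial (Fin n) := Fin.nontrivial_iff_two_le.2 (by omega)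
  have hG : 2 * Nat.card G = n.factorial := by
    rw [hcard, two_mul_nat_card_alternatingGroup, Nat.card_perm, Nat.card_fin]
  have hno : ∀ r s : ℕ, r.Prime → s.Prime → r ≠ s → n < r + s → ∀ g : G, orderOf g ≠ r * s :=
    fun r s hr hs hrs h g e => by
      obtain ⟨x, hx⟩ : r * s ∈ Set.range (orderOf : alternatingGroup (Fin n) → ℕ) := hspec ▸ ⟨g, e⟩
      exact S3420.alt_order hr hs hrs h x hx
  have key : ∀ p q : ℕ, p.Prime → q.Prime → p ≠ q → n < p + q → p ∣ Nat.card G → q ∣ Nat.card G →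
      ¬ p ^ 2 ∣ Nat.card G → ¬ q ^ 3 ∣ Nat.card G → ¬ p ^ 1 ≡ 1 [MOD q] → ¬ q ^ 1 ≡ 1 [MOD p] →
      ¬ q ^ 2 ≡ 1 [MOD p] → False := by
    intro p q hp hq hpq h1 h2 h3 h4 h5 h6 h7 h8
    rcases solv hp hq hpq h2 h3 (hno p q hp hq hpq h1) with ⟨a, a1, a2, a3⟩ | ⟨a, a1, a2, a3⟩
    · have : a < 2 := by
        by_contra ha
        exact h4 ((pow_dvd_pow p (by omega)).trans a2)
      interval_cases a
      exact h6 a3
    · have : a < 3 := by
        by_contra ha
        exact h5 ((pow_dvd_pow q (by omega)).trans a2)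
      interval_cases a
      exacts [h7 a3, h8 a3]
  have h10 : n ≤ 10 := by omega
  by_cases h6 : n ≤ 6
  · refine key 5 3 (by norm_num) (by norm_num) (by norm_num) (by omega) ?_ ?_ ?_ ?_
      (by decide) (by decide) (by decide) <;>
    · interval_cases n <;> simp only [Nat.factorial] at hG <;> omega
  · refine key 7 5 (by norm_num) (by norm_num) (by norm_num) (by omega) ?_ ?_ ?_ ?_
      (by decide) (by decide) (by decide) <;>
    · interval_cases n <;> simp only [Nat.factorial] at hG <;> omega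

end Cfsg.Agent.S3419
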