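import Cfsg.Statements.S3704
import Mathlib
import Cfsg.Agent.Char.PermRank
import Cfsg.Agent.Char.PermChar
import Cfsg.Agent.Char.Irr
import Cfsg.Agent.Char.Induction
import Cfsg.Agent.Perm.Derangement

set_option autoImplicit false
open Cfsg
open Cfsg.Agent.Char

namespace Cfsg.Agent.S3704

/-- Let G be a finite group acting faithfully and 2-transitively on a finite set Ω of size n, and let H be a subgroup of index n in G which is not transitive on Ω and fixes no point of Ω. Then H has exactly two orbits on Ω. -/
theorem result {G Ω : Type*} [Group G] [Finite G] [MulAction G Ω] [FaithfulSMul G Ω] [Finite Ω] (h2 : MulAction.IsMultiplyPretransitive G Ω 2) (H : Subgroup G) (hidx : H.index = Nat.card Ω) (hnt : ¬ MulAction.IsPretransitive H Ω) (hfix : ∀ a : Ω, ∃ h : H, h • a ≠ a) : Nat.card (MulAction.orbitRel.Quotient H Ω) = 2 := by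
  classical
  haveI := Fintype.ofFinite G
  haveI := Fintype.ofFinite H
  have htr : MulAction.IsPretransitive G Ω := MulAction.isPretransitive_of_is_two_pretransitive
  have hnt' : Nontrivial Ω := by
    by_contra h
    rw [not_nontrivial_iff_subsingleton] at h
    exact hnt ⟨fun x y => ⟨1, Subsingleton.elim _ _⟩⟩
  have hirr := (Char.isIrr_permChar_sub_one_iff (G := G) Ω).2 h2
  have hθ := Char.isCharacter_permChar_sub_one (G := G) (G ⧸ H)
  have hle := hθ.inner_mul_one_le hirr
  have e1 : Char.permChar G (G ⧸ H) = indFun H (fun _ => 1) := by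
    funext g
    rw [Char.PermChar.indFun_one_eq_card_fixedBy, Char.permChar_apply]
  have e2 : classInner (Char.permChar G (G ⧸ H)) (Char.permChar G Ω) =
      Nat.card (MulAction.orbitRel.Quotient H Ω) := by
    rw [e1, Char.classInner_indFun_left H _ (Char.isCharacter_permChar Ω).isClassFunction,
      Char.classInner_conj_symm']
    have : (fun h : H => Char.permChar G Ω h) = Char.permChar H Ω := by
      funext h; rfl
    rw [this, Char.classInner_permChar_one]
    simp
  have e3 : classInner (fun _ : G => (1 : ℂ)) (Char.permChar G Ω) = 1 := by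
    rw [Char.classInner_conj_symm', Char.classInner_permChar_one_of_isPretransitive]; simp
  have e4 : classInner (fun _ : G => (1 : ℂ)) (fun _ : G => (1 : ℂ)) = 1 := by
    rw [Char.classInner_def]
    simp
  rw [Char.classInner_sub_left, Char.classInner_sub_right, Char.classInner_sub_right, e2, e3, e4,
    Char.classInner_permChar_one_of_isPretransitive] at hle
  simp only [Pi.sub_apply, Char.permChar_one] at hle
  have e5 : Nat.card (G ⧸ H) = Nat.card Ω := hidx
  rw [e5] at hle
  have h1 : 1 < Nat.card Ω := Finite.one_lt_card
  have h3 : ¬ Nat.card (MulAction.orbitRel.Quotient H Ω) ≤ 1 := fun h =>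
    hnt (Perm.Der.isPretransitive_of_card_quotient_le_one h)
  simp at hle
  have h1' : (1 : ℝ) < Nat.card Ω := by exact_mod_cast h1
  have : (Nat.card (MulAction.orbitRel.Quotient H Ω) : ℝ) ≤ 2 := by nlinarith
  have : Nat.card (MulAction.orbitRel.Quotient H Ω) ≤ 2 := by exact_mod_cast this
  omega

end Cfsg.Agent.S3704
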