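import Cfsg.Statements.S3732
import Mathlib
import Cfsg.Agent.Proj.OW
import Cfsg.Agent.Proj.ONan

set_option autoImplicit false
open Cfsg

namespace Cfsg.Agent.S3732

open Cfsg.Agent.Proj Configuration

theorem rep_mk {F V : Type*} [Field F] [AddCommGroup V] [Module F V] (f : Module.Dual F V) (v : V)
    (hv : v ≠ 0) : f (Projectivization.mk F v hv).rep = 0 ↔ f v = 0 := by
  obtain ⟨a, ha⟩ := Projectivization.exists_smul_eq_mk_rep F v hv
  rw [← ha, Units.smul_def, map_smul, smul_eq_zero]
  simp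

/-- The Ostrom–Wagner Theorem. Let Π be a finite projective plane (points P, lines L) whose collineation group is 2-transitive on points: for any two ordered pairs of distinct points there is a permutation of the points, together with a compatible permutation of the lines preserving incidence, carrying the first pair to the second. Then Π is Desarguesian: there is a finite field F and a bijection from P onto the points of the projective plane over F (the 1-dimensional subspaces of F³) under which the lines of Π correspond exactly to the 2-dimensional subspaces of F³. -/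
theorem result
    {P L : Type*} [Membership P L] [Fintype P] [Fintype L] [Configuration.ProjectivePlane P L]
    (h2t : ∀ p₁ p₂ q₁ q₂ : P, p₁ ≠ p₂ → q₁ ≠ q₂ →
      ∃ (σ : Equiv.Perm P) (τ : Equiv.Perm L), (∀ (p : P) (l : L), σ p ∈ τ l ↔ p ∈ l) ∧ σ p₁ = q₁ ∧ σ p₂ = q₂) :
    ∃ (F : Type) (_ : Field F) (_ : Fintype F) (φ : P ≃ Projectivization F (Fin 3 → F)),
      (∀ l : L, ∃ W : Submodule F (Fin 3 → F), Module.finrank F W = 2 ∧
          ∀ p : P, p ∈ l ↔ (φ p).submodule ≤ W) ∧
      (∀ W : Submodule F (Fin 3 → F), Module.finrank F W = 2 →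
          ∃ l : L, ∀ p : P, p ∈ l ↔ (φ p).submodule ≤ W) := by
  obtain ⟨t, c, a, ht1, htc, hta, hca⟩ := exists_elation (G := Col P L) (P := P) (L := L)
    (fun x y x' y' h h' => by
      obtain ⟨σ, τ, h1, h2, h3⟩ := h2t x y x' y' h h'
      exact ⟨⟨(σ, τ), h1⟩, h2, h3⟩)
  have hfix : ∀ (x : P) (u : Col P L), u ∈ elA (Col P L) (Dual L) (L := Dual P) x → u ≠ 1 →
      ∃ b : L, ∀ z : P, u • z = z ↔ z ∈ b := by
    rintro x u ⟨h1, b, hb, h2⟩ hu
    refine ⟨b, fun z => ⟨fun hz => ?_, h2 z⟩⟩
    rcases fixed_point_cases (P := P) (L := L) hu h1 h2 hz with h3 | h3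
    · exact h3 ▸ hb
    · exact h3
  let D : GFam (Col P L) P :=
    { N := fun x => elA (Col P L) (Dual L) (L := Dual P) x
      two := fun x y x' y' h h' => by
        obtain ⟨σ, τ, h1, h2, h3⟩ := h2t x y x' y' h h'
        exact ⟨⟨(σ, τ), h1⟩, h2, h3⟩
      faith := Coll.faithP (L := L)
      conj := fun g x n hn => conj_mem_elA (P := Dual L) (L := Dual P) hn g
      fix := fun x n hn => Centre.fix (L := L) hn.1
      nsr := by
        obtain ⟨y, hy, hyc, -⟩ := exists_mem_ne a c c
        exact ⟨c, y, t, hyc, ⟨htc, a, hca, hta⟩, ht1, hta y hy⟩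
      ti := fun x y n h h1 h2 => eq_one_of_centres (L := L) h h1.1 h2.1
      lp := fun x y w u c hu hu1 hc hy hw => by
        obtain ⟨b, hb⟩ := hfix x u hu hu1
        rw [hb] at hy hw ⊢
        exact smul_mem_of_fix (hc.1 b hy) hw }
  obtain ⟨F, _, _, n, φ, hn, -, -, -, -, h5⟩ := D.exists_proj
  have h6 : ∀ f : Module.Dual F (Fin n → F), f ≠ 0 → ∃ b : L, ∀ z : P, z ∈ b ↔ f (φ z).rep = 0 := by
    intro f hf
    obtain ⟨x, u, hu, hu1, h⟩ := h5 f hf
    obtain ⟨b, hb⟩ := hfix x u hu hu1
    exact ⟨b, fun z => (hb z).symm.trans (h z)⟩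
  obtain rfl : n = 3 := by
    by_contra h3
    have hp : ∀ i : Fin n, (LinearMap.proj i : Module.Dual F (Fin n → F)) ≠ 0 := fun i e => by
      simpa using LinearMap.congr_fun e (Pi.single i 1)
    have hs : ∀ i : Fin n, (Pi.single i 1 : Fin n → F) ≠ 0 := fun i e => by
      simpa using congrFun e i
    choose b hb using fun i => h6 _ (hp i)
    have key : ∀ i j : Fin n, φ.symm (Projectivization.mk F _ (hs j)) ∈ b i ↔ i ≠ j := by
      intro i j
      rw [hb, Equiv.apply_symm_apply, rep_mk]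
      simp [Pi.single_apply]
    have h4 := point_eq (l := b ⟨0, by omega⟩) (m := b ⟨1, by omega⟩)
      (fun e => (key ⟨1, by omega⟩ ⟨1, by omega⟩).1
        (e ▸ (key ⟨0, by omega⟩ ⟨1, by omega⟩).2 (by simp)) rfl)
      ((key _ ⟨2, by omega⟩).2 (by simp)) ((key _ ⟨2, by omega⟩).2 (by simp))
      ((key _ ⟨3, by omega⟩).2 (by simp)) ((key _ ⟨3, by omega⟩).2 (by simp))
    exact (key ⟨3, by omega⟩ ⟨3, by omega⟩).1
      (h4 ▸ (key ⟨3, by omega⟩ ⟨2, by omega⟩).2 (by simp)) rfl
  have h7 : ∀ f : Module.Dual F (Fin 3 → F), f ≠ 0 → Module.finrank F (LinearMap.ker f) = 2 := by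
    intro f hf
    have := Module.Dual.finrank_ker_add_one_of_ne_zero hf
    simpa using this
  have h8 : ∀ (z : P) (W : Submodule F (Fin 3 → F)), (φ z).submodule ≤ W ↔ (φ z).rep ∈ W := by
    intro z W
    rw [Projectivization.submodule_eq, Submodule.span_singleton_le_iff_mem]
  have h9 : ∀ W : Submodule F (Fin 3 → F), Module.finrank F W ≤ 2 →
      ∃ f : Module.Dual F (Fin 3 → F), f ≠ 0 ∧ W ≤ LinearMap.ker f := fun W hW =>
    Submodule.exists_le_ker_of_lt_top W (Submodule.lt_top_of_finrank_lt_finrank (by simp; omega))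
  refine ⟨F, inferInstance, inferInstance, φ, fun l => ?_, fun W hW => ?_⟩
  · obtain ⟨p, hp, -⟩ := exists_meet (P := P) l l
    obtain ⟨q, hq, hqp, -⟩ := exists_mem_ne l p p
    obtain ⟨f, hf, hle⟩ := h9 ((φ p).submodule ⊔ (φ q).submodule) (by
      have := Submodule.finrank_add_le_finrank_add_finrank (φ p).submodule (φ q).submodule
      rwa [Projectivization.finrank_submodule, Projectivization.finrank_submodule] at this)
    obtain ⟨b, hb⟩ := h6 f hf
    have : b = l := line_eq hqp ((hb q).2 ((h8 q _).1 (le_sup_right.trans hle)))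
      ((hb p).2 ((h8 p _).1 (le_sup_left.trans hle))) hq hp
    exact ⟨_, h7 f hf, fun z => by rw [h8, ← this, hb]; rfl⟩
  · obtain ⟨f, hf, hle⟩ := h9 W hW.le
    obtain ⟨b, hb⟩ := h6 f hf
    have : W = LinearMap.ker f := Submodule.eq_of_le_of_finrank_eq hle (by rw [hW, h7 f hf])
    exact ⟨b, fun z => by rw [h8, this, hb]; rfl⟩

end Cfsg.Agent.S3732
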