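import Cfsg.Statements.S3733
import Mathlib


set_option autoImplicit false
open Cfsg

namespace Cfsg.Agent.S3733

open scoped IsMulCommutative in
theorem norm_eq_one {G : Type*} [Group G] [Fintype G] (V : Subgroup G) [IsMulCommutative V]
    (ψ : G → V → V) (A B : Subgroup G) [DecidablePred (· ∈ A)] (hBA : B ≤ A)
    (hψ : ∀ a ∈ A, ∀ v : V, (ψ a v : G) = a * v * a⁻¹)
    (hA : A ≤ Subgroup.normalizer (V : Set G))
    (hC : V ⊓ Subgroup.centralizer (B : Set G) = ⊥) (v : V) :
    ∏ a ∈ Finset.univ.filter (· ∈ A), ψ a v = 1 := by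
  set w := ∏ a ∈ Finset.univ.filter (· ∈ A), ψ a v with hw
  have : (w : G) ∈ V ⊓ Subgroup.centralizer (B : Set G) := by
    refine Subgroup.mem_inf.2 ⟨w.2, ?_⟩
    rw [Subgroup.mem_centralizer_iff]
    intro b hb
    have hbA := hBA hb
    have key : V.normalizerMonoidHom ⟨b, hA hbA⟩ w = w := by
      rw [hw, map_prod]
      refine Finset.prod_bij (fun a _ => b * a) ?_ ?_ ?_ ?_
      · intro a ha
        simp only [Finset.mem_filter, Finset.mem_univ, true_and] at ha ⊢
        exact A.mul_mem hbA ha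
      · intro a _ a' _ h
        exact mul_left_cancel h
      · intro a ha
        simp only [Finset.mem_filter, Finset.mem_univ, true_and] at ha ⊢
        exact ⟨b⁻¹ * a, A.mul_mem (A.inv_mem hbA) ha, by group⟩
      · intro a ha
        simp only [Finset.mem_filter, Finset.mem_univ, true_and] at ha
        apply Subtype.ext
        rw [hψ _ (A.mul_mem hbA ha)]
        change b * (ψ a v : G) * b⁻¹ = _
        rw [hψ _ ha]; group
    have key2 : b * (w : G) * b⁻¹ = w := congrArg Subtype.val key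
    rw [mul_inv_eq_iff_eq_mul] at key2
    exact key2
  rw [hC, Subgroup.mem_bot] at this
  exact Subtype.ext this

/-- Let A and V be subgroups of a finite group with V abelian and nontrivial and A normalizing V. Suppose a nonempty finite family of proper subgroups of A partitions A: every non-identity element of A lies in exactly one member. If the number of members minus one is coprime to the order of V, then some member B of the family has a non-identity fixed point on V, that is V ∩ C(B) ≠ 1. -/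
theorem result {G : Type*} [Group G] [Finite G] (A V : Subgroup G) (hVab : IsMulCommutative V) (hV : V ≠ ⊥) (hAV : A ≤ Subgroup.normalizer (V : Set G)) (𝒜 : Finset (Subgroup G)) (hne : 𝒜.Nonempty) (hprop : ∀ B ∈ 𝒜, B < A) (hpart : ∀ a ∈ A, a ≠ 1 → ∃! B, B ∈ 𝒜 ∧ a ∈ B) (hk : (𝒜.card - 1).Coprime (Nat.card V)) : ∃ B ∈ 𝒜, V ⊓ Subgroup.centralizer (B : Set G) ≠ ⊥ := by
  classical
  by_contra hcon
  push Not at hcon
  have := Fintype.ofFinite G
  open scoped IsMulCommutative in
  let ψ : G → V → V := fun a v =>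
    if h : a ∈ Subgroup.normalizer (V : Set G) then V.normalizerMonoidHom ⟨a, h⟩ v else 1
  have hψ : ∀ a ∈ A, ∀ v : V, (ψ a v : G) = a * v * a⁻¹ := by
    intro a ha v
    simp only [ψ, dif_pos (hAV ha)]
    rfl
  obtain ⟨B₀, hB₀⟩ := hne
  apply hV
  rw [eq_bot_iff]
  intro x hx
  set v : V := ⟨x, hx⟩
  have h1 : ψ 1 v = v := Subtype.ext (by rw [hψ 1 A.one_mem]; simp)
  open scoped IsMulCommutative in
  have hA : ∏ a ∈ (Finset.univ.filter (· ∈ A)).erase 1, ψ a v = v⁻¹ := by
    have := norm_eq_one V ψ A B₀ (hprop _ hB₀).le hψ hAV (hcon _ hB₀) v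
    rw [← Finset.mul_prod_erase _ _ (show (1 : G) ∈ _ by simp), h1] at this
    exact eq_inv_of_mul_eq_one_right this
  open scoped IsMulCommutative in
  have hB : ∀ B ∈ 𝒜, ∏ a ∈ (Finset.univ.filter (· ∈ B)).erase 1, ψ a v = v⁻¹ := by
    intro B hB
    have := norm_eq_one V ψ B B le_rfl (fun a ha => hψ a ((hprop _ hB).le ha))
      ((hprop _ hB).le.trans hAV) (hcon _ hB) v
    rw [← Finset.mul_prod_erase _ _ (show (1 : G) ∈ _ by simp), h1] at this
    exact eq_inv_of_mul_eq_one_right this
  have hU : (Finset.univ.filter (· ∈ A)).erase 1 =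
      𝒜.biUnion (fun B => (Finset.univ.filter (· ∈ B)).erase 1) := by
    ext a
    simp only [Finset.mem_erase, Finset.mem_filter, Finset.mem_univ, true_and, Finset.mem_biUnion]
    constructor
    · rintro ⟨h1, ha⟩
      obtain ⟨B, ⟨hB, haB⟩, -⟩ := hpart a ha h1
      exact ⟨B, hB, h1, haB⟩
    · rintro ⟨B, hB, h1, haB⟩
      exact ⟨h1, (hprop _ hB).le haB⟩
  rw [hU, Finset.prod_biUnion, Finset.prod_congr rfl hB, Finset.prod_const] at hA
  · have hc : 𝒜.card = (𝒜.card - 1) + 1 := by
      have := Finset.card_pos.2 ⟨B₀, hB₀⟩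
      omega
    rw [hc, pow_succ, mul_eq_right, inv_pow, inv_eq_one] at hA
    have h2 : v ^ Nat.card V = 1 := pow_card_eq_one'
    have h3 : orderOf v ∣ 1 := by
      rw [← hk]
      exact Nat.dvd_gcd (orderOf_dvd_of_pow_eq_one hA) (orderOf_dvd_of_pow_eq_one h2)
    have h4 : v = 1 := orderOf_eq_one_iff.1 (Nat.dvd_one.1 h3)
    exact congrArg Subtype.val h4
  · intro B hB B' hB' hne
    rw [Function.onFun, Finset.disjoint_left]
    intro a ha ha'
    simp only [Finset.mem_erase, Finset.mem_filter, Finset.mem_univ, true_and] at ha ha'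
    exact hne ((hpart a ((hprop _ hB).le ha.2) ha.1).unique ⟨hB, ha.2⟩ ⟨hB', ha'.2⟩)

end Cfsg.Agent.S3733
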