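import Cfsg.Statements.S3735
import Mathlib
import Cfsg.Agent.Solv.Coprime
import Cfsg.Agent.FGS.Conj

set_option autoImplicit false
open Cfsg

namespace Cfsg.Agent.S3735


/-- Clifford's Theorem for actions on finite abelian groups, first part. Let H and V be subgroups of a finite group with V abelian and H normalizing V, and let A be a normal subgroup of H. If every H-invariant subgroup of V has an H-invariant complement in V, then every A-invariant subgroup of V has an A-invariant complement in V. -/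
theorem result {G : Type*} [Group G] [Finite G] (H A V : Subgroup G) (hVab : IsMulCommutative V) (hHV : H ≤ Subgroup.normalizer (V : Set G)) (hAH : A ≤ H) (hAn : H ≤ Subgroup.normalizer (A : Set G)) (hss : ∀ U : Subgroup G, U ≤ V → H ≤ Subgroup.normalizer (U : Set G) → ∃ W : Subgroup G, W ≤ V ∧ H ≤ Subgroup.normalizer (W : Set G) ∧ U ⊓ W = ⊥ ∧ U ⊔ W = V) (U : Subgroup G) (hUV : U ≤ V) (hAU : A ≤ Subgroup.normalizer (U : Set G)) : ∃ W : Subgroup G, W ≤ V ∧ A ≤ Subgroup.normalizer (W : Set G) ∧ U ⊓ W = ⊥ ∧ U ⊔ W = V := by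
  have hcomm : ∀ a ∈ V, ∀ b ∈ V, a * b = b * a := fun a ha b hb =>
    congrArg Subtype.val (hVab.is_comm.comm (⟨a, ha⟩ : V) ⟨b, hb⟩)
  have hnorm : ∀ W₁ W₂ : Subgroup G, W₁ ≤ V → W₂ ≤ V → W₁ ≤ Subgroup.normalizer (W₂ : Set G) :=
    fun W₁ W₂ h1 h2 => le_trans (b := Subgroup.centralizer (W₂ : Set G))
      (fun x hx y hy => hcomm y (h2 hy) x (h1 hx)) (Subgroup.centralizer_le_normalizer (W₂ : Set G))
  -- minimal `A`-invariant subgroups
  let P : Subgroup G → Prop := fun M => M ≤ V ∧ M ≠ ⊥ ∧ A ≤ Subgroup.normalizer (M : Set G)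
  let S : Subgroup G := sSup {M | Minimal P M}
  have hSV : S ≤ V := sSup_le fun M hM => hM.prop.1
  have hP : ∀ h ∈ H, ∀ M, P M → P (M.map (MulAut.conj h).toMonoidHom) := by
    intro h hh M hM
    refine ⟨?_, ?_, ?_⟩
    · rw [← FGS.mapConj_of_mem_normalizer (hHV hh)]
      exact Subgroup.map_mono hM.1
    · rw [Ne, Subgroup.map_eq_bot_iff_of_injective _ (MulAut.conj h).injective]
      exact hM.2.1
    · rw [FGS.normalizer_mapConj, ← FGS.mapConj_of_mem_normalizer (hAn hh)]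
      exact Subgroup.map_mono hM.2.2
  have hMin : ∀ h ∈ H, ∀ M, Minimal P M → Minimal P (M.map (MulAut.conj h).toMonoidHom) := by
    intro h hh M hM
    refine ⟨hP h hh M hM.prop, fun N hN hle => ?_⟩
    have h1 := hM.2 (hP h⁻¹ (H.inv_mem hh) N hN) (by
      rw [FGS.mapConj_le_iff, inv_inv]; exact hle)
    rw [FGS.mapConj_le_iff]
    exact h1
  have hHS : H ≤ Subgroup.normalizer (S : Set G) := by
    have h1 : ∀ h ∈ H, S.map (MulAut.conj h).toMonoidHom ≤ S := by
      intro h hh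
      rw [Subgroup.map_le_iff_le_comap]
      refine sSup_le fun M hM => ?_
      rw [← Subgroup.map_le_iff_le_comap]
      exact le_sSup (hMin h hh M hM)
    intro h hh
    rw [← FGS.mapConj_eq_self_iff]
    refine le_antisymm (h1 h hh) ?_
    have := h1 h⁻¹ (H.inv_mem hh)
    rw [FGS.mapConj_le_iff] at this
    simpa using this
  have hS : S = V := by
    obtain ⟨W, hWV, hHW, h1, h2⟩ := hss S hSV hHS
    by_cases hW : W = ⊥
    · rwa [hW, sup_bot_eq] at h2
    · obtain ⟨M, hMW, hM⟩ := exists_minimal_le_of_wellFoundedLT P W ⟨hWV, hW, hAH.trans hHW⟩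
      exact absurd (le_bot_iff.1 (h1 ▸ le_inf (le_sSup hM) hMW)) hM.prop.2.1
  obtain ⟨W, hW⟩ := exists_maximal_of_wellFoundedGT
    (fun W : Subgroup G => W ≤ V ∧ A ≤ Subgroup.normalizer (W : Set G) ∧ U ⊓ W = ⊥)
    ⟨⊥, bot_le, Subgroup.normalizer_eq_top (⊥ : Subgroup G) ▸ le_top, inf_bot_eq _⟩
  obtain ⟨hWV, hAW, hUW⟩ := hW.prop
  refine ⟨W, hWV, hAW, hUW, le_antisymm (sup_le hUV hWV) ?_⟩
  rw [← hS]
  refine sSup_le fun M hM => ?_
  obtain ⟨hMV, hM1, hAM⟩ := hM.prop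
  by_contra hle
  have h1 : M ⊓ (U ⊔ W) = ⊥ := by
    by_contra hne
    exact hle ((hM.2 ⟨inf_le_left.trans hMV, hne,
      Solv.le_normalizer_inf hAM (Solv.le_normalizer_sup hAU hAW)⟩ inf_le_left).trans inf_le_right)
  have h2 : U ⊓ (W ⊔ M) = ⊥ := by
    rw [eq_bot_iff]
    rintro u ⟨hu, hu'⟩
    change u ∈ ((W ⊔ M : Subgroup G) : Set G) at hu'
    rw [Subgroup.coe_mul_of_right_le_normalizer_left _ _ (hnorm M W hMV hWV)] at hu'
    obtain ⟨w, hw, x, hx, rfl⟩ := hu'
    have h3 : x ∈ M ⊓ (U ⊔ W) := ⟨hx, by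
      have : x = w⁻¹ * (w * x) := by group
      rw [SetLike.mem_coe, this]
      exact mul_mem (Subgroup.mem_sup_right (W.inv_mem hw)) (Subgroup.mem_sup_left hu)⟩
    rw [h1, Subgroup.mem_bot] at h3
    subst h3
    rw [← hUW]
    exact ⟨hu, by simpa using hw⟩
  have h4 := hW.2 ⟨sup_le hWV hMV, Solv.le_normalizer_sup hAW hAM, h2⟩ le_sup_left
  exact hle ((le_sup_right.trans h4).trans le_sup_right)

end Cfsg.Agent.S3735
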