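import Cfsg.Statements.S3737
import Mathlib
import Cfsg.Agent.FGS.Baer
import Cfsg.Agent.S3736

set_option autoImplicit false
open Cfsg

namespace Cfsg.Agent.S3737

open scoped commutatorElement

theorem core {X : Type*} [Group X] [Finite X] {p : ℕ} [Fact p.Prime] (hp : p ≠ 2) (P Q G : Subgroup X) (hP : IsPGroup p P) (hQ : (Nat.card Q).Coprime p) (hPQ : P ≤ Subgroup.normalizer (Q : Set X)) (hG : IsPGroup p G) (hPG : P ≤ Subgroup.normalizer (G : Set X)) (hQG : Q ≤ Subgroup.normalizer (G : Set X)) (hC : G ⊓ Subgroup.centralizer (P : Set X) ≤ Subgroup.centralizer (Q : Set X))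
    (hcls : ∀ x y z : G, Commute ⁅x, y⁆ z) : Q ≤ Subgroup.centralizer (G : Set X) := by
  classical
  have hodd : Odd (Nat.card G) := by
    obtain ⟨k, hk⟩ := hG.exists_card_eq
    rw [hk]
    exact ((Fact.out : p.Prime).odd_of_ne_two hp).pow
  obtain ⟨m, hm⟩ := FGS.exists_baerData hodd hcls
  let ψ : Subgroup.normalizer (G : Set X) →* MulAut (FGS.Baer G m) :=
    (FGS.Baer.mapAut m).comp G.normalizerMonoidHom
  have hψ : ∀ (n : Subgroup.normalizer (G : Set X)) (x : G), ψ n (FGS.Baer.of m x) = FGS.Baer.of m x ↔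
      (n : X) * x = x * n := by
    intro n x
    change FGS.Baer.of m (G.normalizerMonoidHom n x) = _ ↔ _
    rw [Equiv.apply_eq_iff_eq, Subtype.ext_iff]
    change (n : X) * x * (n : X)⁻¹ = x ↔ _
    rw [mul_inv_eq_iff_eq_mul]
  have := Fintype.ofFinite Q
  let ι : Q →* Subgroup.normalizer (G : Set X) := Subgroup.inclusion hQG
  let Nm : FGS.Baer G m →* FGS.Baer G m := ∏ q : Q, (ψ (ι q)).toMonoidHom
  have hNm : ∀ v, Nm v = ∏ q : Q, ψ (ι q) v := fun v => by
    simp [Nm, MonoidHom.finsetProd_apply]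
  have hinv : ∀ g : P, ∀ v ∈ Nm.ker, ψ (Subgroup.inclusion hPG g) v ∈ Nm.ker := by
    intro g v hv
    rw [MonoidHom.mem_ker, hNm] at hv ⊢
    have h1 := congrArg (ψ (Subgroup.inclusion hPG g)) hv
    rw [map_prod, map_one] at h1
    rw [← h1]
    symm
    refine Fintype.prod_equiv (Q.normalizerMonoidHom ⟨g, hPQ g.2⟩).toEquiv _ _ fun q => ?_
    rw [← MulAut.mul_apply, ← MulAut.mul_apply, ← map_mul, ← map_mul]
    congr 2
    apply Subtype.ext
    change (g : X) * q = g * q * (g : X)⁻¹ * g
    group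
  letI : MulAction P Nm.ker :=
    { smul := fun g v => ⟨ψ (Subgroup.inclusion hPG g) v, hinv g v v.2⟩
      one_smul := fun v => Subtype.ext (by
        change ψ (Subgroup.inclusion hPG 1) v = v
        rw [map_one, map_one, MulAut.one_apply])
      mul_smul := fun g h v => Subtype.ext (by
        change ψ (Subgroup.inclusion hPG (g * h)) v =
          ψ (Subgroup.inclusion hPG g) (ψ (Subgroup.inclusion hPG h) v)
        rw [map_mul, map_mul, MulAut.mul_apply]) }
  have hsmul : ∀ (g : P) (v : Nm.ker), ((g • v : Nm.ker) : FGS.Baer G m) =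
      ψ (Subgroup.inclusion hPG g) v := fun _ _ => rfl
  have hV : IsPGroup p (FGS.Baer G m) := FGS.Baer.isPGroup hG
  have hker : Nm.ker = ⊥ := by
    by_contra hne
    have hdvd : p ∣ Nat.card Nm.ker := by
      obtain ⟨k, hk⟩ := (hV.to_subgroup Nm.ker).exists_card_eq
      rw [hk]
      refine dvd_pow_self p ?_
      rintro rfl
      exact hne (Subgroup.card_eq_one.1 (by simpa using hk))
    obtain ⟨b, hb, hb1⟩ := hP.exists_fixed_point_of_prime_dvd_card_of_fixed_point Nm.ker hdvd
      (a := 1) (fun g => Subtype.ext (by rw [hsmul]; simp))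
    obtain ⟨b, hbk⟩ := b
    obtain ⟨x, rfl⟩ := (FGS.Baer.of m).surjective b
    have hx : (x : X) ∈ Subgroup.centralizer (Q : Set X) := hC ⟨x.2, fun g hg =>
      (hψ (Subgroup.inclusion hPG ⟨g, hg⟩) x).1 (congrArg Subtype.val (hb ⟨g, hg⟩))⟩
    have h2 := hbk
    rw [MonoidHom.mem_ker, hNm, Finset.prod_congr rfl
      (fun q _ => (hψ (ι q) x).2 (hx q q.2)), Finset.prod_const, Finset.card_univ,
      ← Nat.card_eq_fintype_card] at h2
    obtain ⟨k, hk⟩ := hV (FGS.Baer.of m x)
    have h3 : orderOf (FGS.Baer.of m x) = 1 :=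
      Nat.eq_one_of_dvd_coprimes (hQ.pow_right k) (orderOf_dvd_of_pow_eq_one h2)
        (orderOf_dvd_of_pow_eq_one hk)
    exact hb1 (Subtype.ext (orderOf_eq_one_iff.1 h3).symm)
  intro q hq x hx
  have h4 : (FGS.Baer.of m ⟨x, hx⟩)⁻¹ * ψ (ι ⟨q, hq⟩) (FGS.Baer.of m ⟨x, hx⟩) ∈ Nm.ker := by
    rw [MonoidHom.mem_ker, map_mul, map_inv, inv_mul_eq_one, hNm, hNm]
    exact Fintype.prod_equiv (Equiv.mulRight (⟨q, hq⟩ : Q)).symm _ _ fun a => by
      rw [← MulAut.mul_apply, ← map_mul, ← map_mul]
      simp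
  rw [hker, Subgroup.mem_bot, inv_mul_eq_one] at h4
  exact ((hψ (ι ⟨q, hq⟩) ⟨x, hx⟩).1 h4.symm).symm

/-- Thompson's strengthening of the P × Q lemma for odd primes. Let p be an odd prime and let P, Q and G be subgroups of a finite group with P a p-group, Q of order prime to p and normalized by P, and G a p-group normalized by both P and Q. If every element of G centralized by P is centralized by Q, then Q centralizes G. -/
theorem result {X : Type*} [Group X] [Finite X] {p : ℕ} [Fact p.Prime] (hp : p ≠ 2) (P Q G : Subgroup X) (hP : IsPGroup p P) (hQ : (Nat.card Q).Coprime p) (hPQ : P ≤ Subgroup.normalizer (Q : Set X)) (hG : IsPGroup p G) (hPG : P ≤ Subgroup.normalizer (G : Set X)) (hQG : Q ≤ Subgroup.normalizer (G : Set X)) (hC : G ⊓ Subgroup.centralizer (P : Set X) ≤ Subgroup.centralizer (Q : Set X)) : Q ≤ Subgroup.centralizer (G : Set X) := by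
  induction G using WellFoundedLT.induction with
  | ind G ih =>
    by_cases hnt : ⁅G, Q⁆ = ⊥
    · rw [Subgroup.commutator_comm, Subgroup.commutator_eq_bot_iff_le_centralizer] at hnt
      exact hnt
    have h := (S3736.result (P ⊔ Q) Q G hG (sup_le hPG hQG) le_sup_right
      (sup_le hPQ Subgroup.le_normalizer) hQ hnt (fun U hU hB => by
        rw [Subgroup.commutator_comm, Subgroup.commutator_eq_bot_iff_le_centralizer]
        exact ih U hU (hG.to_le hU.le) (le_sup_left.trans hB) (le_sup_right.trans hB)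
          ((inf_le_inf_right _ hU.le).trans hC))).2.1
    refine core hp P Q G hP hQ hPQ hG hPG hQG hC fun x y z => ?_
    rcases h with h | h
    · rw [(show Commute x y from h.1.is_comm.comm x y).commutator_eq]
      exact Commute.one_left _
    · have : ⁅x, y⁆ ∈ Subgroup.center G := h.2.2 ▸
          Subgroup.commutator_mem_commutator (Subgroup.mem_top x) (Subgroup.mem_top y)
      exact (Subgroup.mem_center_iff.1 this z).symm

end Cfsg.Agent.S3737
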