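import Cfsg.Statements.S3740
import Cfsg.Agent.Class.PGL2Maximal

set_option autoImplicit false
open Cfsg

namespace Cfsg.Agent.S3740

open Cfsg.Agent.Class Cfsg.Agent.Class.Dickson KSG KSG.M2 Matrix MatrixGroups Subgroup
open scoped commutatorElement Pointwise

theorem commutator_sup_le {G : Type*} [Group G] {R : Subgroup G} {a : G}
    (ha : a ∈ normalizer (R : Set G)) : ⁅R ⊔ zpowers a, R ⊔ zpowers a⁆ ≤ R := by
  have h : ∀ g ∈ R ⊔ zpowers a, ∃ r ∈ R, ∃ i : ℤ, g = r * a ^ i := fun g hg => by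
    have : g ∈ (R : Set G) * (zpowers a : Set G) :=
      coe_mul_of_right_le_normalizer_left R _ (zpowers_le.2 ha) ▸ hg
    obtain ⟨r, hr, _, ⟨i, rfl⟩, rfl⟩ := this
    exact ⟨r, hr, i, rfl⟩
  rw [commutator_le]
  intro g hg k hk
  obtain ⟨r, hr, i, rfl⟩ := h g hg
  obtain ⟨s, hs, j, rfl⟩ := h k hk
  rw [show ⁅r * a ^ i, s * a ^ j⁆ = r * (a ^ i * s * (a ^ i)⁻¹) * (a ^ j * r⁻¹ * (a ^ j)⁻¹) * s⁻¹ by
    rw [commutatorElement_def]; group]
  exact mul_mem (mul_mem (mul_mem hr ((mem_normalizer_iff.1 (zpow_mem ha i) s).1 hs))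
    ((mem_normalizer_iff.1 (zpow_mem ha j) _).1 (inv_mem hr))) (inv_mem hs)

theorem eq_bot_or_le {G : Type*} [Group G] {H R : Subgroup G} (hs : IsSimpleGroup H)
    (h : ⁅H, H⁆ ≤ R) (hR : R ≤ H) : R = ⊥ ∨ H ≤ R := by
  have : (R.subgroupOf H).Normal := ⟨fun r hr g => by
    have := mul_mem (h (commutator_mem_commutator g.2 r.2)) (mem_subgroupOf.1 hr)
    rw [commutatorElement_def, inv_mul_cancel_right] at this
    exact this⟩
  refine this.eq_bot_or_eq_top.imp (fun h => ?_) subgroupOf_eq_top.1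
  exact (subgroupOf_eq_bot.1 h).eq_bot_of_le hR

def a1 : SL(2, ZMod 3) := ⟨!![1, 1; 0, 1], by decide⟩
def b1 : SL(2, ZMod 3) := ⟨!![1, 0; 1, 1], by decide⟩

/-- Let F be a finite field of odd characteristic p and let a be a p-element of SL₂(F) normalizing a subgroup R of order prime to p with [R, a] ≠ 1. Then p = 3, R is a quaternion group of order 8, and R⟨a⟩ is isomorphic to SL₂(3). -/
theorem result (F : Type) [Field F] [Fintype F] {p : ℕ} [Fact p.Prime] [CharP F p] (hp : p ≠ 2) (a : Matrix.SpecialLinearGroup (Fin 2) F) (ha : IsPGroup p ↥(Subgroup.zpowers a)) (R : Subgroup (Matrix.SpecialLinearGroup (Fin 2) F)) (hR : (Nat.card R).Coprime p) (haR : a ∈ Subgroup.normalizer (R : Set (Matrix.SpecialLinearGroup (Fin 2) F))) (hnt : ⁅R, Subgroup.zpowers a⁆ ≠ ⊥) : p = 3 ∧ Nonempty (↥R ≃* QuaternionGroup 2) ∧ Nonempty (↥(R ⊔ Subgroup.zpowers a) ≃* Matrix.SpecialLinearGroup (Fin 2) (ZMod 3)) := by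
  have hpp : p.Prime := Fact.out
  have hodd := hpp.odd_of_ne_two hp
  have h2 : (2 : F) ≠ 0 := two_ne_zero_of_charP p hp
  obtain ⟨k, hk⟩ := ha ⟨a, mem_zpowers a⟩
  replace hk : a ^ p ^ k = 1 := congrArg Subtype.val hk
  obtain ⟨x, hx⟩ := exists_unip_of_pow p (g := slTo F a) (n := k) (by rw [← map_pow, hk, map_one])
  have hcomm : ¬ ∀ r ∈ R, slTo F (r * a * r⁻¹) = slTo F a := fun h => hnt (by
    rw [commutator_eq_bot_iff_le_centralizer]
    rintro r hr _ ⟨n, rfl⟩
    refine (Commute.zpow_left ?_ n).eq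
    rcases eq_or_neg_of_slTo_eq (h r hr) with h | h
    · exact (eq_mul_inv_iff_mul_eq.1 (Subtype.ext h : a = r * a * r⁻¹))
    · have h3 : a ^ p ^ k = (-(r * a * r⁻¹)) ^ p ^ k := congrArg (· ^ p ^ k) (Subtype.ext h)
      rw [hodd.pow.neg_pow, conj_pow, hk, mul_one, mul_inv_cancel] at h3
      exact absurd h3.symm (neg_one_ne_one_SL h2))
  have key : ∀ g ∈ R.map (slTo F), g ^ p = 1 → g = 1 := fun g hg h => orderOf_eq_one_iff.1
    (Nat.eq_one_of_dvd_coprimes hR ((orderOf_dvd_natCard _ hg).trans (card_map_dvd _ _))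
      (orderOf_dvd_of_pow_eq_one h))
  have ha1 : slTo F a ≠ 1 := fun h => hcomm fun r _ => by
    rw [map_mul, map_mul, map_inv, h, mul_one, mul_inv_cancel]
  have hap := pow_eq_one_of_mem_unip p hx
  have haR' : slTo F a ∉ R.map (slTo F) := fun h => ha1 (key _ h hap)
  have hc : ⁅(R ⊔ zpowers a).map (slTo F), (R ⊔ zpowers a).map (slTo F)⁆ ≤ R.map (slTo F) := by
    rw [← map_commutator]
    exact map_mono (commutator_sup_le haR)
  have haH : slTo F a ∈ (R ⊔ zpowers a).map (slTo F) := ⟨a, mem_sup_right (mem_zpowers a), rfl⟩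
  have hRH : R.map (slTo F) ≤ (R ⊔ zpowers a).map (slTo F) := map_mono le_sup_left
  obtain ⟨r, hr, hrx⟩ : ∃ r ∈ R, x ≠ slTo F r • x := by
    by_contra! h
    refine hcomm fun r hr => ?_
    rw [map_mul, map_mul, map_inv, ← mul_inv_eq_one]
    exact key _ (hc (commutator_mem_commutator (hRH ⟨r, hr, rfl⟩) haH))
      (pow_eq_one_of_mem_unip p (commutator_mem_unip (h r hr).symm (smul_eq_of_mem_unip hx)))
  have hsimple : ¬ IsSimpleGroup ((R ⊔ zpowers a).map (slTo F)) := fun h => by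
    rcases eq_bot_or_le h hc hRH with h | h
    · refine hcomm fun r hr => ?_
      have : slTo F r = 1 := mem_bot.1 (h ▸ ⟨r, hr, rfl⟩)
      rw [map_mul, map_mul, map_inv, this, one_mul, inv_one, mul_one]
    · exact haR' (h haH)
  rcases wild_odd p hp _ hrx haH (b := slTo F r * slTo F a * (slTo F r)⁻¹)
    (mul_mem (mul_mem (hRH ⟨r, hr, rfl⟩) haH) (inv_mem (hRH ⟨r, hr, rfl⟩))) ha1 (by simpa using ha1) hx
    (by rw [← conj_mem_unip]; simpa [mul_assoc] using hx) with ⟨L, b, hL | hL⟩ | ⟨-, h60, h⟩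
  · obtain ⟨_, ⟨c, rfl⟩, hc'⟩ := hL ▸ haH
    obtain ⟨w, hw⟩ := exists_inverting_PGL c
    have h3 := hc (commutator_mem_commutator (hL.ge ⟨_, ⟨w, rfl⟩, rfl⟩) haH)
    rw [← hc', ← map_commutatorElement, ← map_commutatorElement, commutatorElement_def, hw,
      map_mul, map_mul, map_inv, map_inv, hc', ← sq] at h3
    have h4 := key _ h3 (by rw [← pow_mul, mul_comm, pow_mul, inv_pow, hap, inv_one, one_pow])
    rw [inv_pow, inv_eq_one] at h4
    exact absurd ((Nat.prime_dvd_prime_iff_eq hpp Nat.prime_two).1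
      (orderOf_eq_prime hap ha1 ▸ orderOf_dvd_of_pow_eq_one h4)) hp
  swap
  · have := SmallIso.simple_of_orders h60
      (fun g e => by have := h g g.2; rw [Subgroup.orderOf_coe, e] at this; omega)
      (fun g e => by have := h g g.2; rw [Subgroup.orderOf_coe, e] at this; omega)
      (fun g e => by have := h g g.2; rw [Subgroup.orderOf_coe, e] at this; omega)
    exact absurd this hsimple
  have hL3 : Nat.card L = 3 := by
    by_contra h
    have h3 := Nat.odd_iff.1 (odd_card_of_two_ne (F := L) fun h => h2 (congrArg L.subtype h))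
    have h4 : 1 < Nat.card L := Finite.one_lt_card
    have := Matrix.ProjectiveSpecialLinearGroup.rank_two_simple (F := L) (by omega)
    exact hsimple (((pslOfEquiv _).trans (equivMapOfInjective _ _ (MulAut.conj b).injective)).trans
      (MulEquiv.subgroupCongr hL.symm)).symm.isSimpleGroup
  have := Fintype.ofFinite L
  obtain rfl : p = 3 := by
    obtain ⟨n, -, hn⟩ := FiniteField.card L p
    rw [← Nat.card_eq_fintype_card, hL3] at hn
    exact (Nat.prime_dvd_prime_iff_eq hpp Nat.prime_three).1 (hn ▸ dvd_pow_self p n.ne_zero)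
  let i : L ≃+* ZMod 3 := ringEquivZMod (by rwa [← Nat.card_eq_fintype_card])
  let f : ZMod 3 →+* F := L.subtype.comp i.symm.toRingHom
  have hf : pslOf L.subtype = pslOf f := by
    refine le_antisymm ?_ (pslOf_comp_le _ _)
    have := pslOf_comp_le i.toRingHom f
    rwa [show f.comp i.toRingHom = L.subtype from RingHom.ext fun y => by simp [f]] at this
  obtain ⟨b, rfl⟩ := exists_pmk b
  rw [hf] at hL
  let ψ : SL(2, ZMod 3) →* SL(2, F) := (slConj b).comp (Matrix.SpecialLinearGroup.map f)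
  have hψ : Function.Injective ψ := (slConj_injective b).comp (slMap_injective f)
  have hneg : ψ (-1) = -1 := by
    have h3 : ψ (-1) ^ 2 = 1 := by rw [← map_pow, neg_one_sq, map_one]
    exact ((SL_sq_eq_one_iff h2).1 h3).resolve_left fun h =>
      absurd (hψ (h.trans ψ.map_one.symm)) (by decide)
  have hH : ψ.range = R ⊔ zpowers a := by
    refine le_antisymm ?_ fun h hh => ?_
    · rintro _ ⟨A, rfl⟩
      exact slConj_map_mem 3 hodd f b hL.ge A
    · obtain ⟨_, ⟨_, ⟨c, rfl⟩, rfl⟩, e⟩ := hL ▸ mem_map_of_mem (slTo F) hh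
      obtain ⟨A, rfl⟩ := pslMk_surjective c
      have h3 : slTo F (ψ A) = slTo F h := by
        rw [← e]
        exact (slTo_slConj _ _).trans (by rw [slTo_map]; rfl)
      rcases eq_or_neg_of_slTo_eq h3 with h4 | h4
      · exact ⟨A, (Subtype.ext h4).symm⟩
      · exact ⟨-1 * A, by rw [map_mul, hneg, neg_one_mul]; exact (Subtype.ext h4).symm⟩
  refine ⟨rfl, ?_, ⟨(MulEquiv.subgroupCongr hH.symm).trans (MonoidHom.ofInjective hψ).symm⟩⟩
  have hmem : ∀ u v, ψ ⁅u, v⁆ ∈ R := fun u v => by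
    rw [map_commutatorElement]
    exact commutator_sup_le haR (commutator_mem_commutator (hH ▸ ⟨u, rfl⟩) (hH ▸ ⟨v, rfl⟩))
  have h8 : Nat.card R ∣ 2 ^ 3 := by
    have := card_dvd_of_le (hH ▸ le_sup_left : R ≤ ψ.range)
    rw [← Nat.card_congr (MonoidHom.ofInjective hψ).toEquiv, KSG.M2.card_SL2, Nat.card_zmod] at this
    exact hR.dvd_of_dvd_mul_left this
  obtain ⟨P, hP⟩ := (IsPGroup.of_card_dvd_pow (G := (⊤ : Subgroup R))
    (by rwa [card_top])).exists_le_sylow
  obtain ⟨n, hn, ⟨e⟩⟩ := sylow_two_quaternion R.subtype R.subtype_injective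
    (x := ⟨_, hmem a1 b1⟩) (y := ⟨_, hmem a1 b1⁻¹⟩) ⟨h2, by
      rw [← SL_sq_eq_neg_one_iff]
      change ψ _ * ψ _ = -1
      rw [← map_mul, show ⁅a1, b1⁆ * ⁅a1, b1⁆ = -1 by decide, hneg], by
      change ψ _ * ψ _ * (ψ _)⁻¹ = (ψ _)⁻¹
      rw [← map_inv, ← map_inv, ← map_mul, ← map_mul]
      congr 1
      decide⟩ P
  replace e := (topEquiv.symm.trans (MulEquiv.subgroupCongr (top_le_iff.1 hP).symm)).trans e
  have : NeZero (2 ^ n) := ⟨by positivity⟩
  rw [Nat.card_congr e.toEquiv, Nat.card_eq_fintype_card, QuaternionGroup.card,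
    show 4 * 2 ^ n = 2 ^ (n + 2) by ring, Nat.pow_dvd_pow_iff_le_right one_lt_two] at h8
  obtain rfl : n = 1 := by omega
  exact ⟨e⟩

end Cfsg.Agent.S3740
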