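import Cfsg.Statements.S3741
import Mathlib
import Cfsg.Agent.FGS.Pairing

set_option autoImplicit false
open Cfsg

namespace Cfsg.Agent.S3741


/-- Let A and B be subgroups of a finite p-group with [A, B] ≤ A ∩ B and [A, B] of order at most p. Then |A : C_A(B)| = |B : C_B(A)|. -/
theorem result {G : Type*} [Group G] [Finite G] {p : ℕ} [Fact p.Prime] (hG : IsPGroup p G) (A B : Subgroup G) (hAB : ⁅A, B⁆ ≤ A ⊓ B) (hcard : Nat.card ↥⁅A, B⁆ ≤ p) : (A ⊓ Subgroup.centralizer (B : Set G)).relIndex A = (B ⊓ Subgroup.centralizer (A : Set G)).relIndex B := by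
  have := FGS.isCyclic_of_isPGroup_of_card_le (hG.to_subgroup ⁅A, B⁆) hcard
  exact FGS.relIndex_inf_centralizer_symm A B ⁅A, B⁆ le_rfl
    (FGS.le_centralizer_of_card_le (hG.to_subgroup A)
      (Subgroup.normalizer_commutator_ge_left A B) hcard)
    (FGS.le_centralizer_of_card_le (hG.to_subgroup B)
      (Subgroup.normalizer_commutator_ge_right A B) hcard)

end Cfsg.Agent.S3741
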