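import Cfsg.Statements.S3746
import Mathlib
import Cfsg.Agent.PLocal.Component

set_option autoImplicit false
open Cfsg

namespace Cfsg.Agent.S3746


/-- Let Z ≤ Z(G) be a central subgroup of a finite group G and E a subgroup of G containing Z whose image E/Z is a component of G/Z (subnormal and quasisimple). Then the derived subgroup [E, E] is a component of G. -/
theorem result {G : Type*} [Group G] [Finite G] (Z : Subgroup G) (hZ : Z ≤ Subgroup.center G) [Z.Normal] (E : Subgroup G) (hZE : Z ≤ E) (hE : Cfsg.IsComponent (E.map (QuotientGroup.mk' Z))) : Cfsg.IsComponent ⁅E, E⁆ := by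
  have hcm : (E.map (QuotientGroup.mk' Z)).comap (QuotientGroup.mk' Z) = E :=
    Subgroup.comap_map_eq_self (by rwa [QuotientGroup.ker_mk'])
  have hsn : E.IsSubnormal := hcm ▸ hE.1.comap _
  have hmap : ⁅E, E⁆.map (QuotientGroup.mk' Z) = E.map (QuotientGroup.mk' Z) := by
    rw [Subgroup.map_commutator, PLocal.comp_commutator hE]
  have hdec : ∀ e ∈ E, ∃ a ∈ ⁅E, E⁆, ∃ z ∈ Subgroup.center G, e = a * z := by
    intro e he
    obtain ⟨a, ha, hae⟩ : QuotientGroup.mk' Z e ∈ ⁅E, E⁆.map (QuotientGroup.mk' Z) :=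
      hmap ▸ Subgroup.mem_map_of_mem _ he
    exact ⟨a, ha, a⁻¹ * e, hZ (QuotientGroup.eq.1 hae), by group⟩
  refine ⟨PLocal.subnormal_of_le_normalizer hsn (Subgroup.commutator_le_self E)
    (Subgroup.normalizer_commutator_ge_left E E), ?_⟩
  refine PLocal.qsS_of_map ?_ (QuotientGroup.mk' Z) ?_ (hmap ▸ hE.2)
  · refine le_antisymm (Subgroup.commutator_le_self _) ?_
    rw [Subgroup.commutator_le]
    intro e he f hf
    obtain ⟨a, ha, z, hz, rfl⟩ := hdec e he
    obtain ⟨b, hb, w, hw, rfl⟩ := hdec f hf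
    have := Subgroup.commutator_mem_commutator ha hb
    convert this using 1
    rw [Subgroup.mem_center_iff] at hz hw
    simp only [commutatorElement_def, mul_inv_rev]
    calc a * z * (b * w) * (z⁻¹ * a⁻¹) * (w⁻¹ * b⁻¹)
        = a * (z * (b * w)) * z⁻¹ * a⁻¹ * w⁻¹ * b⁻¹ := by group
      _ = a * b * (w * a⁻¹) * w⁻¹ * b⁻¹ := by rw [← hz]; group
      _ = _ := by rw [← hw]; group
  · rw [QuotientGroup.ker_mk']
    exact inf_le_left.trans (hZ.trans (Subgroup.center_le_centralizer _))

end Cfsg.Agent.S3746
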