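import Cfsg.Statements.S3747
import Mathlib
import Cfsg.Agent.PLocal.FStar
import Cfsg.Agent.PLocal.Layer
import Cfsg.Agent.FGS.Conj

set_option autoImplicit false
open Cfsg

namespace Cfsg.Agent.S3747


/-- Let G be a finite group. (a) If K is a component of G with trivial centre, then the normal closure of K in G is a minimal normal subgroup of G. (b) If the Fitting subgroup of G is trivial, then the layer E(G) is generated by the minimal normal subgroups of G. -/
theorem result {G : Type*} [Group G] [Finite G] : (∀ K : Subgroup G, Cfsg.IsComponent K → Subgroup.center ↥K = ⊥ → (Subgroup.normalClosure (K : Set G) ≠ ⊥ ∧ ∀ N : Subgroup G, N.Normal → N ≤ Subgroup.normalClosure (K : Set G) → N = ⊥ ∨ N = Subgroup.normalClosure (K : Set G))) ∧ (Cfsg.fittingSubgroup G = ⊥ → sSup {N : Subgroup G | N ≠ ⊥ ∧ N.Normal ∧ ∀ N' : Subgroup G, N'.Normal → N' ≤ N → N' = ⊥ ∨ N' = N} = Cfsg.layer G) := by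
  classical
  have ha : ∀ K : Subgroup G, Cfsg.IsComponent K → Subgroup.center ↥K = ⊥ →
      (Subgroup.normalClosure (K : Set G) ≠ ⊥ ∧ ∀ N : Subgroup G, N.Normal →
        N ≤ Subgroup.normalClosure (K : Set G) → N = ⊥ ∨ N = Subgroup.normalClosure (K : Set G)) := by
    intro K hK hZ
    refine ⟨fun h => PLocal.comp_ne_bot hK (le_bot_iff.1 (h ▸ Subgroup.le_normalClosure)), ?_⟩
    intro N hN hle
    rcases PLocal.comp_le_or_commute hK hN.isSubnormal with h | h
    · exact Or.inr (le_antisymm hle (Subgroup.normalClosure_le_normal h))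
    · left
      have := Fintype.ofFinite G
      let s : Finset (Subgroup G) :=
        Finset.univ.image (fun g : G => K.map (MulAut.conj g).toMonoidHom)
      have hs : Subgroup.normalClosure (K : Set G) ≤ ⨆ L ∈ s, L := by
        rw [Subgroup.normalClosure, Subgroup.closure_le]
        intro x hx
        obtain ⟨y, hy, hxy⟩ := Group.mem_conjugatesOfSet_iff.1 hx
        obtain ⟨g, rfl⟩ := isConj_iff.1 hxy
        exact (le_iSup₂_of_le (f := fun L (_ : L ∈ s) => L) _
          (Finset.mem_image_of_mem _ (Finset.mem_univ g)) le_rfl :) (FGS.conj_mem_mapConj g hy)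
      have h1 := PLocal.sup_inf_centralizer_le_of_pairwise s (fun L => L) (by
        intro L hL L' hL' hne
        obtain ⟨g, -, rfl⟩ := Finset.mem_image.1 hL
        obtain ⟨g', -, rfl⟩ := Finset.mem_image.1 hL'
        exact PLocal.comp_commute_of_ne (PLocal.comp_conj hK g) (PLocal.comp_conj hK g') hne)
      have hZ' : K ⊓ Subgroup.centralizer (K : Set G) = ⊥ := by
        rw [← PLocal.map_center_subtype, hZ, Subgroup.map_bot]
      rw [eq_bot_iff]
      refine (le_inf (hle.trans hs) ?_).trans (h1.trans ?_)
      · rw [Subgroup.le_centralizer_iff]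
        refine iSup₂_le fun L hL => ?_
        obtain ⟨g, -, rfl⟩ := Finset.mem_image.1 hL
        rw [FGS.mapConj_le_iff, FGS.mapConj_of_normal]
        exact Subgroup.commutator_eq_bot_iff_le_centralizer.1 h
      · refine iSup₂_le fun L hL => ?_
        obtain ⟨g, -, rfl⟩ := Finset.mem_image.1 hL
        rw [FGS.centralizer_mapConj, ← FGS.mapConj_inf, hZ', Subgroup.map_bot]
  refine ⟨ha, fun hF => ?_⟩
  have hZ : ∀ K : Subgroup G, Cfsg.IsComponent K → Subgroup.center ↥K = ⊥ := by
    intro K hK
    have := PLocal.comp_inf_centralizer_le_fitting hK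
    rw [hF, ← PLocal.map_center_subtype, le_bot_iff,
      Subgroup.map_eq_bot_iff_of_injective _ K.subtype_injective] at this
    exact this
  apply le_antisymm
  · refine sSup_le ?_
    rintro N ⟨hN1, hNn, hmin⟩
    rcases PLocal.exists_comp_or_fitting_inf_ne_bot hNn.isSubnormal hN1 with ⟨K, hK, hKN⟩ | h
    · rcases hmin _ inferInstance (Subgroup.normalClosure_le_normal hKN) with h | h
      · exact absurd h (ha K hK (hZ K hK)).1
      · exact h ▸ Subgroup.normalClosure_le_normal (PLocal.comp_le_layer hK)
    · exact absurd (by rw [hF, bot_inf_eq]) h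
  · rw [PLocal.layer_le_iff]
    intro K hK
    exact Subgroup.le_normalClosure.trans
      (le_sSup ⟨(ha K hK (hZ K hK)).1, inferInstance, (ha K hK (hZ K hK)).2⟩)

end Cfsg.Agent.S3747
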