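import Cfsg.Statements.S3749
import Mathlib
import Cfsg.Agent.Grp.Cores
import Cfsg.Agent.FGS.Conj
import Cfsg.Agent.Solv.CoprimeSylow
import Cfsg.Agent.Solv.Coprime2
import Cfsg.Agent.Block.FixCount
import Cfsg.Agent.Grp.CardProduct

set_option autoImplicit false
open Cfsg

namespace Cfsg.Agent.S3749

theorem map_conjNormal {G : Type*} [Group G] (N : Subgroup G) [N.Normal] {q : ℕ} (Q : Sylow q N)
    (g : G) : ((((MulAut.conjNormal g : MulAut N) • Q : Sylow q N) : Subgroup N)).map N.subtype =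
      ((Q : Subgroup N).map N.subtype).map (MulAut.conj g).toMonoidHom := by
  change ((Q : Subgroup N).map (MulAut.conjNormal g : MulAut N).toMonoidHom).map N.subtype = _
  rw [Subgroup.map_map, Subgroup.map_map]
  rfl

/-- Call a proper subgroup M of G primitive when M = N_G(N) for every non-trivial normal subgroup N of M. Let M be a primitive subgroup of the finite group G, p a prime with O_p(M) ≠ 1, and N a normal subgroup of G with M ∩ N = 1. Then p does not divide the order of N; for every prime q there is exactly one Sylow q-subgroup of N normalized by M; and if the order of N has at least two prime divisors then M is not a maximal subgroup of G. -/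
theorem result {G : Type*} [Group G] [Finite G] (M : Subgroup G) (hM : M ≠ ⊤) (hprim : ∀ N : Subgroup G, N ≤ M → M ≤ Subgroup.normalizer (N : Set G) → N ≠ ⊥ → Subgroup.normalizer (N : Set G) = M) {p : ℕ} [Fact p.Prime] (hOp : Cfsg.pCore p ↥M ≠ ⊥) (N : Subgroup G) [N.Normal] (hMN : M ⊓ N = ⊥) : ¬ p ∣ Nat.card N ∧ (∀ q : ℕ, [Fact q.Prime] → ∃! Q : Sylow q ↥N, M ≤ Subgroup.normalizer ((Q : Subgroup ↥N).map N.subtype : Set G)) ∧ ((∃ q r : ℕ, q.Prime ∧ r.Prime ∧ q ≠ r ∧ q ∣ Nat.card N ∧ r ∣ Nat.card N) → ¬ IsCoatom M) := by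
  have hp : p.Prime := Fact.out
  set P := (pCore p M).map M.subtype with hP
  have hPM : P ≤ M := Subgroup.map_subtype_le _
  have hMP : M ≤ Subgroup.normalizer (P : Set G) :=
    Subgroup.le_normalizer.trans (FGS.normalizer_le_normalizer_map_subtype M _)
  have hPp : IsPGroup p P := (Grp.pCore_isPGroup p M).map _
  have h1 := hprim P hPM hMP
    (by rwa [hP, Ne, Subgroup.map_eq_bot_iff_of_injective _ M.subtype_injective])
  have hC : N ⊓ Subgroup.centralizer (P : Set G) = ⊥ := by
    rw [eq_bot_iff, ← hMN, inf_comm, ← h1]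
    exact inf_le_inf_right _ (Subgroup.centralizer_le_normalizer _)
  have ha : ¬ p ∣ Nat.card N := by
    have := Block.card_modEq_card_centralizer hPp (· ∈ N)
      (fun u _ x hx => Subgroup.Normal.conj_mem inferInstance x hx u)
    have e : Nat.card {x // x ∈ N ∧ x ∈ Subgroup.centralizer (P : Set G)} = 1 :=
      Subgroup.card_eq_one.2 hC
    rw [e] at this
    intro h
    exact hp.one_lt.ne' (Nat.dvd_one.1 ((this.dvd_iff dvd_rfl).1 h))
  have hcop : (Nat.card P).Coprime (Nat.card N) :=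
    (Solv.coprime_card_of_isPGroup hPp ((Nat.coprime_comm.1 (hp.coprime_iff_not_dvd.2 ha)))).symm
  have hb : ∀ q : ℕ, [Fact q.Prime] → ∃! Q : Sylow q ↥N,
      M ≤ Subgroup.normalizer ((Q : Subgroup ↥N).map N.subtype : Set G) := by
    intro q _
    have hs := Or.inl (b := Group.IsSolvable N) (Solv.isSolvable_of_isPGroup hPp)
    have huniq : ∀ Q Q' : Sylow q N,
        P ≤ Subgroup.normalizer ((Q : Subgroup ↥N).map N.subtype : Set G) →
        P ≤ Subgroup.normalizer ((Q' : Subgroup ↥N).map N.subtype : Set G) → Q = Q' := by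
      intro Q Q' h h'
      obtain ⟨c, hc, e⟩ := Solv.invariant_sylow_conj P N Subgroup.le_normalizer_of_normal hcop hs
        q Q Q' h h'
      have : c = 1 := Subtype.ext (Subgroup.mem_bot.1 (hC ▸ Subgroup.mem_inf.2 ⟨c.2, hc⟩))
      rw [← e, this, one_smul]
    obtain ⟨Q, hQ⟩ := Solv.exists_invariant_sylow P N Subgroup.le_normalizer_of_normal hcop hs q
    refine ⟨Q, fun m hm => ?_, fun Q' hQ' => huniq _ _ (hPM.trans hQ') hQ⟩
    rw [← FGS.mapConj_eq_self_iff, ← map_conjNormal,
      huniq ((MulAut.conjNormal m : MulAut N) • Q) Q ?_ hQ]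
    rw [map_conjNormal, FGS.normalizer_mapConj, ← FGS.mapConj_of_mem_normalizer (hMP hm)]
    exact Subgroup.map_mono hQ
  refine ⟨ha, hb, ?_⟩
  rintro ⟨q, r, hq, hr, hqr, hqN, hrN⟩ hmax
  have := Fact.mk hq
  obtain ⟨Q, hQ, -⟩ := hb q
  set R := (Q : Subgroup N).map N.subtype with hR
  have hRN : R ≤ N := Subgroup.map_subtype_le _
  have hR1 : R ≠ ⊥ := by
    rw [hR, Ne, Subgroup.map_eq_bot_iff_of_injective _ N.subtype_injective]
    exact Q.ne_bot_of_dvd_card hqN
  have ht : M ⊔ R = ⊤ := hmax.2 _ (left_lt_sup.2 fun h => hR1 (le_bot_iff.1 (hMN ▸ le_inf h hRN)))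
  have hNR : N ≤ R := by
    intro x hx
    obtain ⟨m, hm, y, hy, rfl⟩ := (Grp.mem_sup_of_le_normalizer hQ).1 (ht ▸ Subgroup.mem_top x)
    have : m ∈ M ⊓ N := ⟨hm, by simpa using N.mul_mem hx (N.inv_mem (hRN hy))⟩
    rw [hMN, Subgroup.mem_bot] at this
    rw [this, one_mul]; exact hy
  obtain ⟨k, hk⟩ := IsPGroup.iff_card.1 ((Q.isPGroup'.map N.subtype).to_le hNR)
  rw [hk] at hrN
  exact hqr ((Nat.prime_dvd_prime_iff_eq hr hq).1 (hr.dvd_of_dvd_pow hrN)).symm

end Cfsg.Agent.S3749
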