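import Cfsg.Statements.S3750
import Mathlib
import Cfsg.Agent.PLocal.FStar
import Cfsg.Agent.FGS.Conj
import Cfsg.Agent.S3748

set_option autoImplicit false
open Cfsg

namespace Cfsg.Agent.S3750


/-- Call a proper subgroup M of G primitive when M = N_G(N) for every non-trivial normal subgroup N of M. Let M be a primitive subgroup of the finite group G and N a normal subgroup of G with M ∩ F*(N) ≠ 1. Then F(G) = 1 and F*(N) = F*(G) = E(G); in particular every minimal normal subgroup of G is contained in N. -/
theorem result {G : Type*} [Group G] [Finite G] (M : Subgroup G) (hM : M ≠ ⊤) (hprim : ∀ N : Subgroup G, N ≤ M → M ≤ Subgroup.normalizer (N : Set G) → N ≠ ⊥ → Subgroup.normalizer (N : Set G) = M) (N : Subgroup G) [N.Normal] (hMF : M ⊓ (Cfsg.generalizedFittingSubgroup ↥N).map N.subtype ≠ ⊥) : Cfsg.fittingSubgroup G = ⊥ ∧ (Cfsg.generalizedFittingSubgroup ↥N).map N.subtype = Cfsg.generalizedFittingSubgroup G ∧ Cfsg.generalizedFittingSubgroup G = Cfsg.layer G ∧ ∀ K : Subgroup G, K.Normal → K ≠ ⊥ → (∀ K' : Subgroup G, K'.Normal → K' ≤ K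 → K' = ⊥ ∨ K' = K) → K ≤ N := by
  have hFn : ((generalizedFittingSubgroup N).map N.subtype).Normal := inferInstance
  set F := (generalizedFittingSubgroup N).map N.subtype with hF
  have hFN : F ≤ N := Subgroup.map_subtype_le _
  have h1 := hprim (M ⊓ F) inf_le_left
    ((le_inf Subgroup.le_normalizer Subgroup.le_normalizer_of_normal).trans
      Subgroup.inf_normalizer_le_normalizer_inf) hMF
  have hC : Subgroup.centralizer (F : Set G) = ⊥ := by
    refine (S3748.result M hM hprim).1 _ (Subgroup.Normal.isSubnormal inferInstance) ?_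
    rw [← h1]
    exact (Subgroup.centralizer_le (SetLike.coe_subset_coe.2 inf_le_right)).trans
      (Subgroup.centralizer_le_normalizer _)
  have hCN : ∀ K : Subgroup G, ⁅K, N⁆ = ⊥ → K = ⊥ := fun K hK => by
    rw [eq_bot_iff, ← hC]
    exact (Subgroup.commutator_eq_bot_iff_le_centralizer.1 hK).trans
      (Subgroup.centralizer_le (SetLike.coe_subset_coe.2 hFN))
  have hFeq : F = generalizedFittingSubgroup G ⊓ N :=
    PLocal.map_fstar_eq_inf_of_subnormal (Subgroup.Normal.isSubnormal inferInstance)
  have hdisj : ∀ K : Subgroup G, K.Normal → K ⊓ N = ⊥ → K = ⊥ := fun K hK h =>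
    hCN K (le_bot_iff.1 (h ▸ Subgroup.commutator_le_inf K N))
  have hfit : fittingSubgroup G = ⊥ := by
    apply hdisj _ inferInstance
    by_contra hne
    set D := fittingSubgroup G ⊓ N with hD
    have : Nontrivial D := (Subgroup.nontrivial_iff_ne_bot D).2 hne
    have : Group.IsNilpotent D := Grp.isNilpotent_of_le_fitting inf_le_left
    apply Group.IsNilpotent.center_ne_bot (G := D)
    rw [← Subgroup.map_eq_bot_iff_of_injective _ D.subtype_injective, PLocal.map_center_subtype,
      eq_bot_iff, ← hC, Subgroup.le_centralizer_iff, hF, PLocal.map_fstar, sup_le_iff]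
    constructor
    · refine (PLocal.map_layer_le_of_subnormal (Subgroup.Normal.isSubnormal inferInstance)).trans
        (PLocal.layer_le_centralizer_fitting.trans (Subgroup.centralizer_le ?_))
      exact SetLike.coe_subset_coe.2 (inf_le_left.trans inf_le_left)
    · rw [Grp.map_fitting_eq_inf_of_normal, Subgroup.le_centralizer_iff]
      exact inf_le_right
  have hE : generalizedFittingSubgroup G = layer G := by
    rw [PLocal.fstar_def, hfit, sup_bot_eq]
  have hEN : layer G ≤ N := by
    rw [PLocal.layer_le_iff]
    intro L hL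
    exact (PLocal.comp_le_or_commute hL (Subgroup.Normal.isSubnormal inferInstance)).resolve_right
      fun h => PLocal.comp_ne_bot hL (hCN L h)
  refine ⟨hfit, ?_, hE, fun K hK hK1 hmin => ?_⟩
  · rw [hFeq, inf_eq_left, hE]; exact hEN
  · rcases hmin (K ⊓ N) inferInstance inf_le_left with h | h
    · exact absurd (hdisj K hK h) hK1
    · exact inf_eq_left.1 h

end Cfsg.Agent.S3750
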