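import Cfsg.Statements.S3751
import Mathlib
import Cfsg.Agent.FGS.PrimPair

set_option autoImplicit false
open Cfsg

namespace Cfsg.Agent.S3751

open Cfsg.Agent.FGS.Prim Cfsg.Agent.PLocal

/-- Two distinct subgroups M₁, M₂ of G form a primitive pair when, for {i, j} = {1, 2}, every non-trivial normal subgroup A of M_i contained in M₁ ∩ M₂ satisfies N_{M_j}(A) = M₁ ∩ M₂; the pair has characteristic p when moreover C_{M_i}(O_p(M_i)) ≤ O_p(M_i) for both i and O_p(M₁)O_p(M₂) ≤ M₁ ∩ M₂. Let G be a finite group, p a prime dividing its order, with O_p(G) = 1 and every p-local subgroup of characteristic p. Then either G has a primitive pair of characteristic p, or every maximal p-local subgroup M of G is strongly p-embedded in G: M is a proper subgroup, p divides its order, and for every g ∉ M the order of M ∩ gMg⁻¹ is prime to p. -/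
theorem result {G : Type*} [Group G] [Finite G] {p : ℕ} [Fact p.Prime] (hloc : Cfsg.IsOfLocalCharacteristic p G) (hOp : Cfsg.pCore p G = ⊥) : (∃ M₁ M₂ : Subgroup G, M₁ ≠ M₂ ∧ (∀ A : Subgroup G, A ≠ ⊥ → A ≤ M₁ ⊓ M₂ → (M₁ ≤ Subgroup.normalizer (A : Set G) → M₂ ⊓ Subgroup.normalizer (A : Set G) = M₁ ⊓ M₂) ∧ (M₂ ≤ Subgroup.normalizer (A : Set G) → M₁ ⊓ Subgroup.normalizer (A : Set G) = M₁ ⊓ M₂)) ∧ Subgroup.centralizer (Cfsg.pCore p ↥M₁ : Set ↥M₁) ≤ Cfsg.pCore p ↥M₁ ∧ Subgroup.centralizer (Cfsg.pCore p ↥M₂ : Set ↥M₂) ≤ Cfsg.pCore p ↥M₂ ∧ (Cfsg.pCore p ↥M₁).map M₁.subtype ⊔ (Cfsg.pCore p ↥M₂).map M₂.subtype ≤ M₁ ⊓ M₂) ∨ (∀ M : Subgroup G, (∃ T : Subgroup G, IsPGroup p T ∧ T ≠ ⊥ ∧ M = Subgroup.normalizer (T : Set G)) → (∀ L : Subgroup G, (∃ T : Subgroup G, IsPGroup p T ∧ T ≠ ⊥ ∧ L = Subgroup.normalizer (T : Set G)) → M ≤ L → L = M) → M ≠ ⊤ ∧ p ∣ Nat.card M ∧ ∀ g : G, g ∉ M → ¬ p ∣ Nat.card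 ↥(M ⊓ M.map (MulAut.conj g).toMonoidHom)) := by
  by_contra hcon
  rw [not_or] at hcon
  obtain ⟨h1, h2⟩ := hcon
  refine h2 fun M hM hmax => ?_
  have hM' : IsMaximalPLocal p M := ⟨hM, hmax⟩
  refine ⟨max_ne_top hOp hM', dvd_card_max hM', fun g hg hd => h1 ?_⟩
  obtain ⟨M₁, M₂, -, -, h⟩ := exists_pp (fun M hM => by
    obtain ⟨T, hT, hT1, rfl⟩ := hM.1
    exact CP.isCharP_iff.2 (hloc.2 T hT hT1)) hM' hg hd
  refine ⟨M₁, M₂, h.ne, fun A hA hle => ⟨fun hn => le_antisymm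
    (le_inf (h.n₁ A hA hle hn) inf_le_left) (le_inf inf_le_right (inf_le_left.trans hn)),
    fun hn => le_antisymm (le_inf inf_le_left (h.n₂ A hA hle hn))
    (le_inf inf_le_left (inf_le_right.trans hn))⟩, CP.isCharP_iff.1 h.c₁, CP.isCharP_iff.1 h.c₂,
    h.bb_le⟩

end Cfsg.Agent.S3751
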