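import Cfsg.Statements.S3753
import Mathlib
import Cfsg.Agent.FGS.PrimPair

set_option autoImplicit false
open Cfsg

namespace Cfsg.Agent.S3753

open Cfsg.Agent.FGS.Prim Cfsg.Agent.PLocal Cfsg.Agent.PLocal.Amb

theorem core_le {G : Type*} [Group G] [Finite G] {M₁ M₂ : Subgroup G} (h : PP 2 M₁ M₂)
    (hc : ∀ S : Sylow 2 ↥M₁, IsMulCommutative (S : Subgroup ↥M₁)) :
    pCoreOf 2 M₂ ≤ pCoreOf 2 M₁ := by
  obtain ⟨T, hT, hle⟩ := exists_isSyl_ge (isPGroup_pCoreOf 2 M₂) h.o₂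
  obtain ⟨S, rfl⟩ := hT.exists_sylow_map
  have := hc S
  have h1 : IsMulCommutative ↥((S : Subgroup ↥M₁).map M₁.subtype) := inferInstance
  refine le_trans (le_inf h.o₂ (hle.trans ?_)) h.c₁
  exact (Subgroup.le_centralizer_iff_isMulCommutative.2 h1).trans (centralizer_anti hT.pCoreOf_le)

/-- Two distinct subgroups M₁, M₂ of G form a primitive pair when, for {i, j} = {1, 2}, every non-trivial normal subgroup A of M_i contained in M₁ ∩ M₂ satisfies N_{M_j}(A) = M₁ ∩ M₂; the pair has characteristic p when moreover C_{M_i}(O_p(M_i)) ≤ O_p(M_i) for both i and O_p(M₁)O_p(M₂) ≤ M₁ ∩ M₂. If the finite group G has a primitive pair (M₁, M₂) of characteristic p for some prime p, then M₁ or M₂ has non-abelian Sylow 2-subgroups. In particular no group of odd order has a primitive pair of characteristic p. -/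
theorem result {G : Type*} [Group G] [Finite G] {p : ℕ} [Fact p.Prime] (M₁ M₂ : Subgroup G) (hne : M₁ ≠ M₂) (hP : ∀ A : Subgroup G, A ≠ ⊥ → A ≤ M₁ ⊓ M₂ → (M₁ ≤ Subgroup.normalizer (A : Set G) → M₂ ⊓ Subgroup.normalizer (A : Set G) = M₁ ⊓ M₂) ∧ (M₂ ≤ Subgroup.normalizer (A : Set G) → M₁ ⊓ Subgroup.normalizer (A : Set G) = M₁ ⊓ M₂)) (hc₁ : Subgroup.centralizer (Cfsg.pCore p ↥M₁ : Set ↥M₁) ≤ Cfsg.pCore p ↥M₁) (hc₂ : Subgroup.centralizer (Cfsg.pCore p ↥M₂ : Set ↥M₂) ≤ Cfsg.pCore p ↥M₂) (hO : (Cfsg.pCore p ↥M₁).map M₁.subtype ⊔ (Cfsg.pCore p ↥M₂).map M₂.subtype ≤ M₁ ⊓ M₂) : (∃ S : Sylow 2 ↥M₁, ¬ IsMulCommutative (S : Subgroup ↥M₁)) ∨ (∃ S : Sylow 2 ↥M₂, ¬ IsMulCommutative (S : Subgroup ↥M₂)) := by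
  by_contra hcon
  push Not at hcon
  obtain ⟨h1, h2⟩ := hcon
  have h : PP p M₁ M₂ := ⟨hne, fun A hA hle hn => ((hP A hA hle).1 hn).le.trans inf_le_left,
    fun A hA hle hn => ((hP A hA hle).2 hn).le.trans inf_le_right, CP.isCharP_iff.2 hc₁,
    CP.isCharP_iff.2 hc₂, le_sup_left.trans (hO.trans inf_le_right),
    le_sup_right.trans (hO.trans inf_le_left)⟩
  by_cases hp : p = 2
  · subst hp
    have e := le_antisymm (core_le h h1) (core_le h.symm h2)
    exact h.not_both h.core_ne_bot (le_sup_left.trans h.bb_le) (le_normalizer_pCoreOf 2 M₁)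
      (e ▸ le_normalizer_pCoreOf 2 M₂)
  · exact h.false_of_stab
      (stab_of_transvFree (transvFree_of_sylow_two_comm hp default (h1 _)))
      (stab_of_transvFree (transvFree_of_sylow_two_comm hp default (h2 _)))

end Cfsg.Agent.S3753
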