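import Cfsg.Statements.S3754
import Mathlib
import Cfsg.Agent.PLocal.AmbSyl
import Cfsg.Agent.PLocal.Hyperplane
import Cfsg.Agent.PLocal.PSolv
import Cfsg.Agent.Grp.Cores
import Cfsg.Agent.Grp.PFrattini

set_option autoImplicit false
open Cfsg

namespace Cfsg.Agent.S3754

open Subgroup Cfsg.Agent.PLocal Cfsg.Agent.PLocal.Amb
open scoped commutatorElement

section
variable {M Q : Type*} [Group M] [Group Q] [Finite M] [Finite Q] {p : ℕ} [hp : Fact p.Prime]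

omit [Finite M] in
theorem eq_one_of_K {K : Subgroup Q} (hK : (Nat.card K).Coprime p) {k : Q} (hk : k ∈ K)
    (h : ∃ n : ℕ, k ^ p ^ n = 1) : k = 1 := by
  obtain ⟨n, hn⟩ := h
  have h1 : orderOf k ∣ Nat.card K := orderOf_dvd_natCard K hk
  have h2 : orderOf k ∣ p ^ n := orderOf_dvd_of_pow_eq_one hn
  exact orderOf_eq_one_iff.1 (Nat.eq_one_of_dvd_coprimes (hK.pow_right n) h1 h2)

theorem core (f : M →* Q) (hker : IsPGroup p f.ker) (K : Subgroup Q) [hKn : K.Normal]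
    (hK : (Nat.card K).Coprime p) (A : Subgroup M) (hA : IsPGroup p A)
    (hEA : IsElementaryAbelian p (A.map f)) (hf : Function.Surjective f)
    (hnc : ¬ K ≤ 𝐂[A.map f]) :
    ∃ x ∈ K.comap f, x ∈ 𝐎[p, A ⊔ cj(x, A)] ∧ 𝐎[p, A ⊔ cj(x, A)] ≤ K.comap f ∧
      ⁅𝐎[p, A ⊔ cj(x, A)], A⁆ = 𝐎[p, A ⊔ cj(x, A)] ∧
      (A ⊓ pCoreOf p (A ⊔ cj(x, A))).relIndex A = p ∧
      ⁅A ⊓ pCoreOf p (A ⊔ cj(x, A)), A ⊔ cj(x, A)⁆ ≤ f.ker := by
  have hA1 : A.map f ≠ ⊥ := fun h => hnc (by rw [h]; intro x _ y hy; simp_all)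
  obtain ⟨B, hBA, hBi, hB⟩ : ∃ B ≤ A.map f, B.relIndex (A.map f) = p ∧
      ¬ K ⊓ 𝐂[B] ≤ 𝐂[A.map f] := by
    by_contra h
    push Not at h
    exact hnc (le_of_hyperplane_centralizers_le hEA hA1
      (le_top.trans (normalizer_eq_top K).ge) hK _ h)
  have hex : ∃ n, ∃ x : M, f x ∈ K ∧ f x ∈ 𝐂[B] ∧ f x ∉ 𝐂[A.map f] ∧
      Nat.card ↥(A ⊔ cj(x, A)) = n := by
    obtain ⟨y, hy, hy'⟩ := SetLike.not_le_iff_exists.1 hB
    obtain ⟨x, rfl⟩ := hf y
    exact ⟨_, x, hy.1, hy.2, hy', rfl⟩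
  classical
  obtain ⟨x₀, h0K, h0B, h0A, h0n⟩ := Nat.find_spec hex
  -- the image of `L(x)` centralizes `B`
  have hcent : ∀ x : M, f x ∈ 𝐂[B] → (A ⊔ cj(x, A)).map f ≤ 𝐂[B] := by
    intro x hx
    have h1 : A.map f ≤ 𝐂[B] := (isEA_le_centralizer hEA).trans (centralizer_anti hBA)
    rw [Subgroup.map_sup, map_cj]
    exact sup_le h1 (cj_le_of_mem h1 hx)
  -- some element of `O^p(L(x₀))` moves `A` modulo the kernel
  obtain ⟨x, hxO, hxK, hxA⟩ : ∃ x ∈ 𝐎[p, A ⊔ cj(x₀, A)], f x ∈ K ∧ f x ∉ 𝐂[A.map f] := by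
    by_contra h
    push Not at h
    apply h0A
    rintro _ ⟨a, ha, rfl⟩
    set k : Q := f x₀ * f a * (f x₀)⁻¹ * (f a)⁻¹ with hk
    have hkK : k ∈ K := by
      have := K.mul_mem h0K (hKn.conj_mem _ (K.inv_mem h0K) (f a))
      simpa [hk, mul_assoc] using this
    have hkL : k ∈ (A ⊔ cj(x₀, A)).map f := by
      refine ⟨x₀ * a * x₀⁻¹ * a⁻¹, ?_, by simp [hk]⟩
      exact mul_mem (mem_sup_right (conj_mem_cj x₀ ha)) (mem_sup_left (inv_mem ha))
    have hkO : k ∈ (𝐎[p, A ⊔ cj(x₀, A)]).map f := by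
      rw [map_pRes]
      exact mem_pRes hkL (hK.coprime_dvd_left (orderOf_dvd_natCard K hkK))
    obtain ⟨y, hy, hyk⟩ := hkO
    have hc : f a * k = k * f a := by
      have := h y hy (hyk ▸ hkK) (f a) ⟨a, ha, rfl⟩
      rwa [hyk] at this
    have hap : f a ^ p = 1 := hEA.2 _ ⟨a, ha, rfl⟩
    have h1 : (k * f a) ^ p = 1 := by
      have : k * f a = f x₀ * f a * (f x₀)⁻¹ := by simp [hk]
      rw [this, conj_pow, hap]; simp
    have h2 : k ^ p = 1 := by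
      rwa [(show Commute k (f a) from hc.symm).mul_pow, hap, mul_one] at h1
    have h3 : k = 1 := eq_one_of_K hK hkK ⟨1, by simpa using h2⟩
    have h4 : f x₀ * f a * (f x₀)⁻¹ = f a := mul_inv_eq_one.1 h3
    calc f a * f x₀ = f x₀ * f a * (f x₀)⁻¹ * f x₀ := by rw [h4]
      _ = f x₀ * f a := by group
  have hxL : x ∈ A ⊔ cj(x₀, A) := pRes_le _ _ hxO
  have hxB : f x ∈ 𝐂[B] := hcent x₀ h0B ⟨x, hxL, rfl⟩
  have hLL : A ⊔ cj(x, A) = A ⊔ cj(x₀, A) := by
    have hle : A ⊔ cj(x, A) ≤ A ⊔ cj(x₀, A) := sup_le le_sup_left (cj_le_of_mem le_sup_left hxL)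
    refine Subgroup.eq_of_le_of_card_ge hle ?_
    rw [h0n]
    exact Nat.find_min' hex ⟨x, hxK, hxB, hxA, rfl⟩
  rw [← hLL] at hxO hxL
  set L := A ⊔ cj(x, A) with hL
  have hAL : A ≤ L := le_sup_left
  have hLB : L.map f ≤ 𝐂[B] := hcent x hxB
  have hBL : A ⊓ pCoreOf p L = A ⊓ B.comap f := by
    have h1 : A ⊓ B.comap f ≤ pCoreOf p L := by
      refine le_trans (inf_le_inf_right _ hAL) (le_pCoreOf ?_ inf_le_left ?_)
      · have : IsPGroup p (B.comap f) :=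
          IsPGroup.comap_of_ker_isPGroup (isEA_isPGroup (isEA_mono hEA hBA)) f hker
        exact this.to_le inf_le_right
      · refine le_normalizer_inf le_normalizer (le_normalizer_iff_cj.2 fun g hg => ?_)
        rw [cj_le_iff_forall]
        intro y hy
        have := hLB ⟨g, hg, rfl⟩ (f y) hy
        rw [mem_comap, map_mul, map_mul, ← this, map_inv, mul_inv_cancel_right]
        exact hy
    have h2 : ¬ A ≤ pCoreOf p L := by
      intro h
      apply hxA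
      rintro _ ⟨a, ha, rfl⟩
      have h3 : x * a * x⁻¹ * a⁻¹ ∈ pCoreOf p L :=
        mul_mem (conj_mem_of_mem_normalizer (le_normalizer_pCoreOf p L hxL) (h ha))
          (inv_mem (h ha))
      have h4 : f (x * a * x⁻¹ * a⁻¹) ∈ K := by
        have := K.mul_mem hxK (hKn.conj_mem _ (K.inv_mem hxK) (f a))
        simpa [mul_assoc] using this
      obtain ⟨n, hn⟩ := isPGroup_iff.1 (isPGroup_pCoreOf p L) _ h3
      have h5 := eq_one_of_K hK h4 ⟨n, by rw [← map_pow, hn, map_one]⟩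
      have h6 : f x * f a * (f x)⁻¹ = f a := mul_inv_eq_one.1 (by simpa using h5)
      calc f a * f x = f x * f a * (f x)⁻¹ * f x := by rw [h6]
        _ = f x * f a := by group
    have h3 : (A ⊓ B.comap f).relIndex A = p := by
      rw [inf_relIndex_left, relIndex_comap, hBi]
    have h4 : A ⊓ B.comap f ≤ A ⊓ pCoreOf p L := le_inf inf_le_left h1
    have h5 := relIndex_mul_relIndex _ _ _ h4 (inf_le_left : A ⊓ pCoreOf p L ≤ A)
    rw [h3] at h5
    rcases (Nat.dvd_prime hp.out).1 ⟨_, h5.symm⟩ with h6 | h6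
    · exact le_antisymm (relIndex_eq_one.1 h6) h4
    · rw [h6] at h5
      have h7 : (A ⊓ pCoreOf p L).relIndex A = 1 :=
        Nat.eq_of_mul_eq_mul_left hp.out.pos (by rw [h5, mul_one])
      exact absurd ((relIndex_eq_one.1 h7).trans inf_le_right) h2
  refine ⟨x, hxK, hxO, ?_, ?_, ?_, ?_⟩
  · have h1 : L ≤ K.comap f ⊔ A := sup_le le_sup_right
      (cj_le_of_mem le_sup_right (mem_sup_left hxK))
    exact (pRes_mono h1).trans (pRes_sup_le hA (le_top.trans (normalizer_eq_top _).ge))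
  · have hn : A ≤ 𝐍[𝐎[p, L]] := hAL.trans (le_normalizer_pRes p L)
    refine le_antisymm (le_normalizer_iff_commutator_le_left.1 hn) ?_
    have h1 : L ≤ ⁅𝐎[p, L], A⁆ ⊔ A := by
      refine sup_le le_sup_right (cj_le_iff_forall.2 fun a ha => ?_)
      have : x * a * x⁻¹ = ⁅x, a⁆ * a := by simp [commutatorElement_def]
      rw [this]
      exact mul_mem (mem_sup_left (commutator_mem_commutator hxO ha)) (mem_sup_right ha)
    exact (pRes_mono h1).trans (pRes_sup_le hA (le_normalizer_commutator hn le_normalizer))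
  · rw [hBL, inf_relIndex_left, relIndex_comap, hBi]
  · rw [hBL, commutator_le]
    intro a ha g hg
    have := hLB ⟨g, hg, rfl⟩ (f a) ha.2
    rw [MonoidHom.mem_ker, map_commutatorElement, commutatorElement_eq_one_iff_mul_comm]
    exact this
end

/-- Let M be a finite p-soluble group and A a p-subgroup of M with Φ(A) ≤ O_p(M) but A ≰ O_p(M). Then there is x ∈ O_{p,p'}(M) such that L = ⟨A, xAx⁻¹⟩ satisfies: x ∈ O^p(L) and O^p(L) ≤ O_{p,p'}(M); [O^p(L), A] = O^p(L); A ∩ O_p(L) has index p in A; and [A ∩ O_p(L), L] ≤ O_p(M). Here O^p(L) is the subgroup generated by the p'-elements of L and O_{p,p'}(M) the preimage of O_{p'}(M/O_p(M)). -/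
theorem result {M : Type*} [Group M] [Finite M] {p : ℕ} [Fact p.Prime] (hM : Cfsg.IsPSolvable p M) (A : Subgroup M) (hA : IsPGroup p A) (hΦ : (frattini ↥A).map A.subtype ≤ Cfsg.pCore p M) (hnot : ¬ A ≤ Cfsg.pCore p M) : ∃ x ∈ (Cfsg.pPrimeCore p (M ⧸ Cfsg.pCore p M)).comap (QuotientGroup.mk' (Cfsg.pCore p M)), x ∈ (Cfsg.pResidual p ↥(A ⊔ A.map (MulAut.conj x).toMonoidHom)).map (A ⊔ A.map (MulAut.conj x).toMonoidHom).subtype ∧ (Cfsg.pResidual p ↥(A ⊔ A.map (MulAut.conj x).toMonoidHom)).map (A ⊔ A.map (MulAut.conj x).toMonoidHom).subtype ≤ (Cfsg.pPrimeCore p (M ⧸ Cfsg.pCore p M)).comap (QuotientGroup.mk' (Cfsg.pCore p M)) ∧ ⁅(Cfsg.pResidual p ↥(A ⊔ A.map (MulAut.conj x).toMonoidHom)).map (A ⊔ A.map (MulAut.conj x).toMonoidHom).subtype, A⁆ = (Cfsg.pResidual p ↥(A ⊔ A.map (MulAut.conj x).toMonoidHom)).map (A ⊔ A.map (MulAut.conj x).toMonoidHom).subtype ∧ (A ⊓ (Cfsg.pCore p ↥(A ⊔ A.map (MulAut.conj x).toMonoidHom)).map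 (A ⊔ A.map (MulAut.conj x).toMonoidHom).subtype).relIndex A = p ∧ ⁅A ⊓ (Cfsg.pCore p ↥(A ⊔ A.map (MulAut.conj x).toMonoidHom)).map (A ⊔ A.map (MulAut.conj x).toMonoidHom).subtype, A ⊔ A.map (MulAut.conj x).toMonoidHom⁆ ≤ Cfsg.pCore p M := by
  have hk : (QuotientGroup.mk' (pCore p M)).ker = pCore p M := QuotientGroup.ker_mk' _
  have hEA : IsElementaryAbelian p (A.map (QuotientGroup.mk' (pCore p M))) := by
    rw [isEA_iff]
    constructor
    · rintro _ ⟨a, ha, rfl⟩ _ ⟨b, hb, rfl⟩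
      rw [← commutatorElement_eq_one_iff_mul_comm, ← map_commutatorElement, ← MonoidHom.mem_ker, hk]
      exact hΦ ⟨⁅(⟨a, ha⟩ : A), (⟨b, hb⟩ : A)⁆, Grp.PFrattini.commutator_le_frattini hA
        (commutator_mem_commutator (mem_top _) (mem_top _)), rfl⟩
    · rintro _ ⟨a, ha, rfl⟩
      rw [← map_pow, ← MonoidHom.mem_ker, hk]
      exact hΦ ⟨(⟨a, ha⟩ : A) ^ p, Grp.PFrattini.pow_mem_frattini hA _, rfl⟩
  have h := core (QuotientGroup.mk' (pCore p M)) (by rw [hk]; exact isPGroup_pCore' p M)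
    (pPrimeCore p (M ⧸ pCore p M)) (Grp.pPrimeCore_coprime p _) A hA hEA
    (QuotientGroup.mk'_surjective _) (fun h => hnot fun a ha => by
      have h1 := centralizer_pPrimeCore_le_of_isPSolvable (IsPSolvable.quotient hM (pCore p M))
        (Grp.pCore_quotient_pCore p M) (le_centralizer_iff.1 h ⟨a, ha, rfl⟩)
      rw [← hk, MonoidHom.mem_ker]
      exact eq_one_of_K (Grp.pPrimeCore_coprime p _) h1 ⟨1, by
        simpa using hEA.2 _ ⟨a, ha, rfl⟩⟩)
  rw [hk] at h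
  exact h

end Cfsg.Agent.S3754
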