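import Cfsg.Statements.S3763
import Cfsg.Agent.TT.ESType

set_option autoImplicit false
open Cfsg

namespace Cfsg.Agent.S3763

open Subgroup

/-- Let E be an extraspecial 2-group of order 2^(2n+1). Then the largest elementary abelian subgroups of E have order 2^n or 2^(n+1); and two extraspecial 2-groups of the same order whose largest elementary abelian subgroups have the same order are isomorphic. -/
theorem result {E : Type*} [Group E] [Finite E] (hE : Cfsg.IsExtraspecial 2 E) (n : ℕ) (hn : Nat.card E = 2 ^ (2 * n + 1)) : ((Cfsg.PRankLE 2 n E ∧ ¬ Cfsg.PRankLE 2 (n - 1) E) ∨ (Cfsg.PRankLE 2 (n + 1) E ∧ ¬ Cfsg.PRankLE 2 n E)) ∧ ∀ (E' : Type*) [Group E'] [Finite E'], Cfsg.IsExtraspecial 2 E' → Nat.card E' = Nat.card E → (∀ k : ℕ, Cfsg.PRankLE 2 k E ↔ Cfsg.PRankLE 2 k E') → Nonempty (E ≃* E') := by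
  obtain ⟨h1, h⟩ := TT.exists_equiv_plus_or_minus hE hn
  obtain ⟨m, rfl⟩ : ∃ m, n = m + 1 := ⟨n - 1, by omega⟩
  refine ⟨?_, fun E' _ _ hE' hc hr => ?_⟩
  · obtain ⟨⟨φ⟩⟩ | ⟨⟨φ⟩⟩ := h
    · exact Or.inr ⟨TT.pRankLE_congr φ ((TT.xs_plus h1).pRankLE (TT.card_plus _)),
        TT.not_pRankLE_of (TT.exists_elab_congr φ.symm (TT.exists_elab_plus _))⟩
    · exact Or.inl ⟨TT.pRankLE_congr φ (TT.pRankLE_minus m),
        TT.not_pRankLE_of (TT.exists_elab_congr φ.symm (TT.exists_elab_minus m))⟩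
  · obtain ⟨-, h'⟩ := TT.exists_equiv_plus_or_minus hE' (hc.trans hn)
    obtain ⟨⟨φ⟩⟩ | ⟨⟨φ⟩⟩ := h <;> obtain ⟨⟨ψ⟩⟩ | ⟨⟨ψ⟩⟩ := h'
    · exact ⟨φ.trans ψ.symm⟩
    · exact absurd ((hr _).2 (TT.pRankLE_congr ψ (TT.pRankLE_minus m)))
        (TT.not_pRankLE_of (TT.exists_elab_congr φ.symm (TT.exists_elab_plus _)))
    · exact absurd ((hr _).1 (TT.pRankLE_congr φ (TT.pRankLE_minus m)))
        (TT.not_pRankLE_of (TT.exists_elab_congr ψ.symm (TT.exists_elab_plus _)))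
    · exact ⟨φ.trans ψ.symm⟩


end Cfsg.Agent.S3763
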