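import Cfsg.Statements.S3765
import Cfsg.Agent.FT.BG3_4
-- import your own Cfsg.Agent.* helpers here

set_option autoImplicit false
open Cfsg

namespace Cfsg.Agent.S3765

/-- Let p, q, r be distinct primes and let X, Q, V be subgroups of a finite group with X of order r normalizing the q-group Q and acting faithfully on it (X ∩ C(Q) = 1), and V a nontrivial elementary abelian p-group normalized by X and Q on which XQ acts faithfully. If q = 2 and r has the form 2^n + 1, assume in addition that Q is abelian. Then C_V(X) ≠ 1. -/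
theorem result {G : Type*} [Group G] [Finite G] {p q r : ℕ} (hp : p.Prime) (hq : q.Prime) (hr : r.Prime) (hpq : p ≠ q) (hpr : p ≠ r) (hqr : q ≠ r) (X Q V : Subgroup G) (hX : Nat.card X = r) (hQ : IsPGroup q Q) (hXQ : X ≤ Subgroup.normalizer (Q : Set G)) (hXfaith : X ⊓ Subgroup.centralizer (Q : Set G) = ⊥) (hV : Cfsg.IsElementaryAbelian p V) (hV1 : V ≠ ⊥) (hXV : X ≤ Subgroup.normalizer (V : Set G)) (hQV : Q ≤ Subgroup.normalizer (V : Set G)) (hfaith : (X ⊔ Q) ⊓ Subgroup.centralizer (V : Set G) = ⊥) (hexc : q = 2 → (∃ n : ℕ, r = 2 ^ n + 1) → IsMulCommutative Q) : V ⊓ Subgroup.centralizer (X : Set G) ≠ ⊥ := by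
  intro hC
  have := Fact.mk hq
  obtain ⟨n, hn⟩ := hQ.exists_card_eq
  subst hX
  have hcop : (Nat.card Q).Coprime (Nat.card X) := by
    rw [hn]; exact ((Nat.coprime_primes hq hr).mpr hqr).pow_left n
  have h1 := FT.hall_higman hp hr hXQ hcop (fun P hP h2 h3 => by
      by_cases h : q = 2
      · exact FT.abelian_of_le hP (hexc h h3)
      · have := Fact.mk Nat.prime_two
        have := (IsPGroup.disjoint_of_ne q 2 h P P (hQ.to_le hP) h2).eq_bot
        rw [inf_idem] at this
        rw [this]; infer_instance) hV hQV hXV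
    (fun h => hpq ((Nat.prime_dvd_prime_iff_eq hp hq).mp (hp.dvd_of_dvd_pow (hn ▸ h))))
    (fun h => hpr ((Nat.prime_dvd_prime_iff_eq hp hr).mp h)) hC
  have h2 : ⁅Q, X⁆ = ⊥ := le_bot_iff.mp (le_trans
    (le_inf ((FT.comm_le_left hXQ).trans le_sup_right) h1) hfaith.le)
  rw [inf_of_le_left (FT.le_cent_comm.mp (FT.comm_eq_bot_iff.mp h2))] at hXfaith
  exact hr.one_lt.ne' (Subgroup.card_eq_one.mpr hXfaith)

end Cfsg.Agent.S3765
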