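import Cfsg.Statements.S3766
import Mathlib
import Cfsg.Agent.PLocal.ChiefAct
import Cfsg.Agent.Grp.Fitting

set_option autoImplicit false
open Cfsg

namespace Cfsg.Agent.S3766

open scoped commutatorElement
open PLocal.ChiefAct PLocal.CommMod in
theorem commutator_le_of_nilpotent {G : Type*} [Group G] {U V F : Subgroup G} (h : IsChiefFactor U V)
    [F.Normal] [Group.IsNilpotent F] : ⁅U, F⁆ ≤ V := by
  have hU := h.2.1
  have hV := h.2.2.1
  rcases inf_le_or_eq h F with h1 | h1
  · exact (Subgroup.commutator_le_inf U F).trans h1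
  · rcases le_or_sup_eq h ⁅U ⊓ F, F⁆ ((Subgroup.commutator_le_left _ _).trans inf_le_left) with h2 | h2
    · rw [← h1]
      exact commutator_sup_le_of_normal h2 (Subgroup.commutator_le_left _ _)
    · have h3 : U ⊓ F ≤ V :=
        le_of_le_commutator_sup (P := F) inf_le_right le_rfl (inf_le_left.trans h2.ge)
      exact absurd (h1.ge.trans (sup_le h3 le_rfl)) (not_le h)

open PLocal.ChiefAct PLocal.CommMod in
theorem le_fitting_of_le_stab {G : Type*} [Group G] [Finite G] (K F : Subgroup G) [F.Normal] :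
    K.Normal → Group.IsSolvable K → fittingSubgroup G ⊓ K ≤ F → K ≤ stab F →
    K ≤ fittingSubgroup G := by
  induction K using WellFoundedLT.induction with
  | ind K ih =>
    intro hK hs hF h
    by_cases hK1 : K = ⊥
    · rw [hK1]; exact bot_le
    have hlt := Grp.commutator_lt_of_isSolvable hK1
    have h1 : ⁅K, K⁆ ≤ fittingSubgroup G := ih _ hlt inferInstance (Grp.isSolvable_of_le hlt.le)
      ((inf_le_inf_left _ hlt.le).trans hF) (hlt.le.trans h)
    have h2 : ⁅K, K⁆ ≤ F := (le_inf h1 hlt.le).trans hF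
    have key : ∀ U : Subgroup G, U.Normal → U ≤ F → ∃ n, iterCommutator U K n = ⊥ := by
      intro U
      induction U using WellFoundedLT.induction with
      | ind U ih' =>
        intro hU hUF
        by_cases hU1 : U = ⊥
        · exact ⟨0, hU1⟩
        obtain ⟨V, -, hV⟩ := exists_chief_below (bot_lt_iff_ne_bot.2 hU1)
        have h3 : ⁅U, K⁆ < U := lt_of_le_of_lt (le_stab.1 h U V hV hUF) hV.1
        obtain ⟨n, hn⟩ := ih' _ h3 inferInstance (h3.le.trans hUF)
        exact ⟨n + 1, by rw [iter_succ', hn]⟩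
    obtain ⟨n, hn⟩ := key _ inferInstance h2
    rw [← iter_succ', iter_eq_lowerCentralSeries] at hn
    exact Grp.le_fitting hK (Subgroup.isNilpotent_of_lowerCentralSeries_eq_bot hn)

/-- Let G be a finite solvable group and N a normal subgroup of G. Call a pair V < U of normal subgroups of G a chief factor of G when no normal subgroup of G lies strictly between them; an element g centralizes the chief factor U/V when u g u⁻¹ g⁻¹ ∈ V for all u ∈ U. Then an element of G lies in the Fitting subgroup F(N) if and only if it lies in N and centralizes every chief factor of G; and also if and only if it lies in N and centralizes every chief factor U/V of G with U ≤ F(N). -/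
theorem result {G : Type*} [Group G] [Finite G] (hG : Group.IsSolvable G) (N : Subgroup G) [N.Normal] (g : G) : (g ∈ (Cfsg.fittingSubgroup ↥N).map N.subtype ↔ g ∈ N ∧ ∀ U V : Subgroup G, (U.Normal ∧ V.Normal ∧ V < U ∧ ∀ W : Subgroup G, W.Normal → V ≤ W → W ≤ U → W = V ∨ W = U) → ∀ u ∈ U, u * g * u⁻¹ * g⁻¹ ∈ V) ∧ (g ∈ (Cfsg.fittingSubgroup ↥N).map N.subtype ↔ g ∈ N ∧ ∀ U V : Subgroup G, (U.Normal ∧ V.Normal ∧ V < U ∧ ∀ W : Subgroup G, W.Normal → V ≤ W → W ≤ U → W = V ∨ W = U) → U ≤ (Cfsg.fittingSubgroup ↥N).map N.subtype → ∀ u ∈ U, u * g * u⁻¹ * g⁻¹ ∈ V) := by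
  set F := (Cfsg.fittingSubgroup ↥N).map N.subtype with hF
  have hFe : F = fittingSubgroup G ⊓ N := Grp.map_fitting_eq_inf_of_normal N
  have hFn : F.Normal := by rw [hFe]; infer_instance
  have hFnil : Group.IsNilpotent F := Grp.isNilpotent_map_fitting _
  have h1 : g ∈ F → g ∈ N ∧ ∀ U V : Subgroup G, (U.Normal ∧ V.Normal ∧ V < U ∧ ∀ W : Subgroup G, W.Normal → V ≤ W → W ≤ U → W = V ∨ W = U) → ∀ u ∈ U, u * g * u⁻¹ * g⁻¹ ∈ V := by
    intro hg
    refine ⟨(hFe ▸ hg).2, fun U V h u hu => ?_⟩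
    exact commutator_le_of_nilpotent (F := F) ⟨h.2.2.1, h.1, h.2.1, h.2.2.2⟩
      (Subgroup.commutator_mem_commutator hu hg)
  have h2 : (g ∈ N ∧ ∀ U V : Subgroup G, (U.Normal ∧ V.Normal ∧ V < U ∧ ∀ W : Subgroup G, W.Normal → V ≤ W → W ≤ U → W = V ∨ W = U) → U ≤ F → ∀ u ∈ U, u * g * u⁻¹ * g⁻¹ ∈ V) → g ∈ F := by
    rintro ⟨hgN, hg⟩
    have hs := PLocal.ChiefAct.stab_normal F
    have h3 := le_fitting_of_le_stab (N ⊓ PLocal.ChiefAct.stab F) F inferInstance inferInstance
      (by rw [hFe]; exact inf_le_inf_left _ inf_le_left) inf_le_right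
    rw [hFe]
    refine ⟨h3 ⟨hgN, ?_⟩, hgN⟩
    refine PLocal.ChiefAct.mem_stab.2 ?_
    intro U V h hUF
    have hV := h.2.2.1
    rw [PLocal.CommMod.mem_centMod_of_normal]
    intro u hu
    rw [← commutatorElement_inv]
    exact V.inv_mem (hg U V ⟨h.2.1, h.2.2.1, h.1, h.2.2.2⟩ hUF u hu)
  exact ⟨⟨h1, fun h => h2 ⟨h.1, fun U V hUV _ => h.2 U V hUV⟩⟩,
    ⟨fun h => ⟨(h1 h).1, fun U V hUV _ => (h1 h).2 U V hUV⟩, h2⟩⟩

end Cfsg.Agent.S3766
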