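import Cfsg.Statements.S3768
import Mathlib
import Cfsg.Agent.Solv.Frobenius
import Cfsg.Agent.S0035
import Cfsg.Agent.Solv.Coprime2

set_option autoImplicit false
open Cfsg

namespace Cfsg.Agent.S3768


/-- Let G be a finite Frobenius group with Frobenius complement R and Frobenius kernel K (the identity together with the elements in no conjugate of R), and let N be a normal subgroup of G not containing K. Then G/N is a Frobenius group with Frobenius complement RN/N whose Frobenius kernel is the image of K. -/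
theorem result {G : Type*} [Group G] [Finite G] (R : Subgroup G) (hR : Cfsg.IsFrobeniusComplement R) (N : Subgroup G) [N.Normal] (hKN : ¬ Cfsg.frobeniusKernel R ⊆ N) : Cfsg.IsFrobeniusComplement (R.map (QuotientGroup.mk' N)) ∧ Cfsg.frobeniusKernel (R.map (QuotientGroup.mk' N)) = QuotientGroup.mk' N '' Cfsg.frobeniusKernel R := by
  obtain ⟨K, hK, hKn, hc⟩ := S0035.result R hR
  have hNK : N ≤ K := (Solv.Frob.normal_le_or_ge hR hc N).resolve_right fun h => hKN (hK ▸ h)
  set f := QuotientGroup.mk' N with hf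
  have hsurj : Function.Surjective f := QuotientGroup.mk'_surjective N
  have hfeq : ∀ x y : G, f x = f y ↔ x⁻¹ * y ∈ N := fun x y => QuotientGroup.eq
  have hK'n : (K.map f).Normal := hKn.map f hsurj
  have hdisj : Disjoint (K.map f) (R.map f) := by
    rw [Subgroup.disjoint_def]
    rintro _ ⟨k, hk, rfl⟩ ⟨r, hr, h⟩
    have h1 : r ∈ K := by
      have h2 := hNK ((hfeq _ _).1 h)
      have : r = k * (r⁻¹ * k)⁻¹ := by group
      rw [this]
      exact K.mul_mem hk (K.inv_mem h2)
    rw [← h, Subgroup.disjoint_def.1 hc.disjoint h1 hr, map_one]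
  have hc' : Subgroup.IsComplement' (K.map f) (R.map f) := by
    refine Subgroup.isComplement'_of_disjoint_and_mul_eq_univ hdisj ?_
    rw [Set.eq_univ_iff_forall]
    intro x
    obtain ⟨g, rfl⟩ := hsurj x
    obtain ⟨k, hk, r, hr, rfl⟩ := Solv.exists_mul_of_isComplement' hc g
    exact ⟨f k, ⟨k, hk, rfl⟩, f r, ⟨r, hr, rfl⟩, (map_mul f k r).symm⟩
  have hK1 : K.map f ≠ ⊥ := by
    intro h
    rw [Subgroup.map_eq_bot_iff, QuotientGroup.ker_mk'] at h
    exact hKN (hK ▸ h)
  have hR1 : R.map f ≠ ⊥ := by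
    intro h
    rw [Subgroup.map_eq_bot_iff, QuotientGroup.ker_mk'] at h
    exact hR.1 (disjoint_self.1 (hc.disjoint.mono_left (h.trans hNK)))
  have hfpf := Solv.Frob.fpf_of_isFrobeniusComplement hR hc.disjoint
  have hcop : (Nat.card R).Coprime (Nat.card K) :=
    Solv.Frob.coprime_card_of_fpf (Subgroup.normalizer_eq_top K ▸ le_top) hfpf
  have hF : Cfsg.IsFrobeniusComplement (R.map f) := by
    refine Solv.Frob.isFrobeniusComplement_of_fpf hc' hK1 hR1 ?_
    rintro _ ⟨r, hr, rfl⟩ hr1
    rw [eq_bot_iff]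
    rintro _ ⟨⟨k, hk, rfl⟩, hkc⟩
    have hr1' : r ≠ 1 := fun h => hr1 (by rw [h, map_one])
    have hA : Subgroup.zpowers r ≤ R := Subgroup.zpowers_le.2 hr
    obtain ⟨n, hn, hkn⟩ := Solv.coprime_fixed_coset' (Subgroup.zpowers r) N
      (Subgroup.normalizer_eq_top N ▸ le_top)
      ((hcop.coprime_dvd_left (Subgroup.card_dvd_of_le hA)).coprime_dvd_right
        (Subgroup.card_dvd_of_le hNK))
      (Or.inl (Solv.isSolvable_of_isMulCommutative _)) k (by
        rintro _ ⟨i, rfl⟩
        rw [← hfeq]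
        have h3 : Commute (f r) (f k) := hkc (f r) rfl
        simp only [map_mul, map_inv, map_zpow]
        rw [(h3.zpow_left i).eq, mul_inv_cancel_right])
    have h4 : k * n ∈ K ⊓ Subgroup.centralizer {r} := ⟨K.mul_mem hk (hNK hn), fun y hy => by
      rw [Set.mem_singleton_iff.1 hy]; exact hkn r (Subgroup.mem_zpowers r)⟩
    rw [hfpf r hr hr1', Subgroup.mem_bot, mul_eq_one_iff_eq_inv] at h4
    rw [Subgroup.mem_bot, h4]
    exact (QuotientGroup.eq_one_iff _).2 (N.inv_mem hn)
  exact ⟨hF, by rw [← Solv.Frob.coe_eq_frobeniusKernel hF hc', ← hK, Subgroup.coe_map]⟩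

end Cfsg.Agent.S3768
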