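import Cfsg.Statements.S3770
import Cfsg.Agent.FT.BG3_10
import Cfsg.Agent.S0035
-- import your own Cfsg.Agent.* helpers here

set_option autoImplicit false
open Cfsg

namespace Cfsg.Agent.S3770

/-- Let G and V be subgroups of a finite group with G a Frobenius group with complement R of prime order and kernel K, G normalizing V, and V an elementary abelian ℓ-group for a prime ℓ not dividing the order of G. If C_V(R) has order ℓ, then the derived subgroup of K centralizes V. -/
theorem result {X : Type*} [Group X] [Finite X] (G : Subgroup X) (V : Subgroup X) {ℓ : ℕ} (hℓ : ℓ.Prime) (hV : Cfsg.IsElementaryAbelian ℓ V) (hℓG : ¬ ℓ ∣ Nat.card G) (hGV : G ≤ Subgroup.normalizer (V : Set X)) (R : Subgroup ↥G) (hR : Cfsg.IsFrobeniusComplement R) (hRp : (Nat.card R).Prime) (hCV : Nat.card ↥(V ⊓ Subgroup.centralizer ((R.map G.subtype : Subgroup X) : Set X)) = ℓ) : ⁅Subgroup.closure (Subtype.val '' Cfsg.frobeniusKernel R), Subgroup.closure (Subtype.val '' Cfsg.frobeniusKernel R)⁆ ≤ Subgroup.centralizer (V : Set X) :=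 by
  obtain ⟨N, hN, hn, hc⟩ := S0035.result R hR
  have e : Subgroup.closure (Subtype.val '' Cfsg.frobeniusKernel R) = N.map G.subtype := by
    rw [← hN]; exact Subgroup.closure_eq (N.map G.subtype)
  rw [e]
  have := Fact.mk hℓ
  have hreg : FT.SemiReg (N.map G.subtype) (R.map G.subtype) := by
    refine Solv.Frob.fpf_iff.mpr ?_
    rintro _ ⟨a, ha, rfl⟩ _ ⟨k, hk, rfl⟩ h
    exact (Solv.Frob.fpf_iff.mp (Solv.Frob.fpf_of_isFrobeniusComplement hR hc.disjoint) a ha k hk
      (Subtype.ext h)).imp (congrArg Subtype.val) (congrArg Subtype.val)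
  have hRN : R.map G.subtype ≤ Subgroup.normalizer (N.map G.subtype : Set X) :=
    (Subgroup.map_subtype_le R).trans (FT.normIn_map_subtype N).2
  have hne : R.map G.subtype ≠ ⊥ := fun h =>
    hR.1 ((Subgroup.map_eq_bot_iff_of_injective _ G.subtype_injective).mp h)
  have := hreg.isNilpotent hRN hne
  have hp : IsPGroup ℓ V := fun v => ⟨1, Subtype.ext (by simpa using hV.2 v v.2)⟩
  have hcop : (Nat.card G).Coprime (Nat.card V) := by
    obtain ⟨n, hn⟩ := hp.exists_card_eq
    rw [hn]
    exact ((Nat.Prime.coprime_iff_not_dvd hℓ).mpr hℓG).symm.pow_right n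
  have := hp.isNilpotent
  refine FT.der_le_cent_of_cyclic_fix inferInstance hRN hreg V
    ((Subgroup.map_subtype_le N).trans hGV) ((Subgroup.map_subtype_le R).trans hGV)
    (hcop.coprime_dvd_left (Subgroup.card_dvd_of_le (Subgroup.map_subtype_le N)))
    (hcop.coprime_dvd_left (Subgroup.card_dvd_of_le (Subgroup.map_subtype_le R))) inferInstance
    (isCyclic_of_prime_card hCV)

end Cfsg.Agent.S3770
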