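import Cfsg.Statements.S3772
import Mathlib
import Cfsg.Agent.Grp.PFrattini

set_option autoImplicit false
open Cfsg

namespace Cfsg.Agent.S3772

open Subgroup

section
variable {G : Type*} [Group G]

open Classical in
/-- sign of an element: `1` at the identity, `-1` elsewhere -/
noncomputable def sg (g : G) : ℤ := if g = 1 then 1 else -1

theorem sg_one : sg (1 : G) = 1 := by simp [sg]

theorem sg_ne {g : G} (h : g ≠ 1) : sg g = -1 := by simp [sg, h]

theorem sg_mul {Φ : Subgroup G} (h : ∀ a ∈ Φ, ∀ b ∈ Φ, a ≠ 1 → b ≠ 1 → a = b) {a b : G}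
    (ha : a ∈ Φ) (hb : b ∈ Φ) : sg (a * b) = sg a * sg b := by
  by_cases h1 : a = 1
  · simp [h1, sg_one]
  by_cases h2 : b = 1
  · simp [h2, sg_one]
  have h3 : a * b = 1 := by
    by_contra h3
    exact h2 (mul_eq_left.1 (h _ (Φ.mul_mem ha hb) _ ha h3 h1))
  rw [h3, sg_one, sg_ne h1, sg_ne h2]; norm_num

theorem sum_eq_zero_of_neg {α : Type*} [Fintype α] (f : α → ℤ) (e : α ≃ α)
    (h : ∀ x, f (e x) = - f x) : ∑ x, f x = 0 := by
  have h1 : ∑ x, f (e x) = ∑ x, f x := Equiv.sum_comp e f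
  simp only [h, Finset.sum_neg_distrib] at h1
  omega

theorem key [Finite G] (hG : IsPGroup 2 G) (hΦ : Nat.card (frattini G) = 2) :
    frattini G ≤ center G ∧
    ((2 * (Nat.card {x : G // x ^ 2 = 1} : ℤ) - Nat.card G = 0) ∨
      ((∀ u ∈ center G, u ^ 2 = 1) ∧
        (2 * (Nat.card {x : G // x ^ 2 = 1} : ℤ) - Nat.card G) ^ 2 =
          Nat.card G * Nat.card (center G))) := by
  classical
  have : Fact (Nat.Prime 2) := ⟨Nat.prime_two⟩
  have := Fintype.ofFinite G
  have h2 : ∀ a ∈ frattini G, ∀ b ∈ frattini G, a ≠ 1 → b ≠ 1 → a = b := by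
    intro a ha b hb h1 h2
    obtain ⟨y, -, hy⟩ := (Nat.card_eq_two_iff' (1 : frattini G)).1 hΦ
    have e1 := hy ⟨a, ha⟩ (fun h => h1 (congrArg Subtype.val h))
    have e2 := hy ⟨b, hb⟩ (fun h => h2 (congrArg Subtype.val h))
    exact congrArg Subtype.val (e1.trans e2.symm)
  have hZ : frattini G ≤ center G := by
    intro a ha
    rw [mem_center_iff]
    intro g
    by_cases h1 : a = 1
    · simp [h1]
    have := h2 _ ((inferInstance : (frattini G).Normal).conj_mem a ha g) _ ha (by simpa using h1) h1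
    rw [mul_inv_eq_iff_eq_mul] at this
    exact this
  have hsq : ∀ x : G, x ^ 2 ∈ frattini G := Grp.PFrattini.pow_mem_frattini hG
  have hc : ∀ x u : G, x⁻¹ * u * x * u⁻¹ ∈ frattini G := fun x u => by
    have := Grp.PFrattini.commutator_le_frattini hG
      (commutator_mem_commutator (mem_top x⁻¹) (mem_top u))
    simpa [commutatorElement_def] using this
  have hT : ∑ x : G, sg (x ^ 2) = 2 * (Nat.card {x : G // x ^ 2 = 1} : ℤ) - Nat.card G := by
    have : ∀ x : G, sg (x ^ 2) = 2 * (if x ^ 2 = 1 then 1 else 0) - 1 := fun x => by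
      unfold sg; split_ifs <;> norm_num
    simp only [this, Finset.sum_sub_distrib, ← Finset.mul_sum, Finset.sum_boole]
    simp [Fintype.card_subtype]
  have hin : ∀ u : G, ∑ x : G, sg (x⁻¹ * u * x * u⁻¹) =
      if u ∈ center G then (Nat.card G : ℤ) else 0 := by
    intro u
    split_ifs with hu
    · have : ∀ x : G, x⁻¹ * u * x * u⁻¹ = 1 := fun x => by
        rw [mul_assoc x⁻¹, ← mem_center_iff.1 hu x]; group
      simp [this, sg_one]
    · obtain ⟨y, hy⟩ : ∃ y : G, y⁻¹ * u * y * u⁻¹ ≠ 1 := by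
        by_contra h
        push Not at h
        refine hu (mem_center_iff.2 fun y => ?_)
        calc y * u = y * (y⁻¹ * u * y * u⁻¹) * u := by rw [h y, mul_one]
          _ = u * y := by group
      refine sum_eq_zero_of_neg _ (Equiv.mulRight y) fun x => ?_
      have e : (x * y)⁻¹ * u * (x * y) * u⁻¹ = (x⁻¹ * u * x * u⁻¹) * (y⁻¹ * u * y * u⁻¹) := by
        calc (x * y)⁻¹ * u * (x * y) * u⁻¹ = y⁻¹ * (x⁻¹ * u * x * u⁻¹) * (u * y * u⁻¹) := by group
          _ = _ := by rw [mem_center_iff.1 (hZ (hc x u)) y⁻¹]; group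
      simp only [Equiv.coe_mulRight]
      rw [e, sg_mul h2 (hc x u) (hc y u), sg_ne hy]; ring
  have hsq2 : (∑ x : G, sg (x ^ 2)) ^ 2 = Nat.card G * ∑ u : center G, sg ((u : G) ^ 2) := by
    have e1 : ∀ x : G, sg (x ^ 2) * ∑ v : G, sg (v ^ 2) =
        ∑ u : G, sg (u ^ 2) * sg (x⁻¹ * u * x * u⁻¹) := by
      intro x
      rw [← Equiv.sum_comp (Equiv.mulLeft x), Finset.mul_sum]
      refine Finset.sum_congr rfl fun u _ => ?_
      have e : (x * u) ^ 2 = x ^ 2 * ((x⁻¹ * u * x * u⁻¹) * u ^ 2) := by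
        simp only [pow_two]; group
      simp only [Equiv.coe_mulLeft]
      rw [e, sg_mul h2 (hsq x) (mul_mem (hc x u) (hsq u)), sg_mul h2 (hc x u) (hsq u)]
      have : sg (x ^ 2) * sg (x ^ 2) = 1 := by unfold sg; split_ifs <;> norm_num
      linear_combination (sg (x⁻¹ * u * x * u⁻¹) * sg (u ^ 2)) * this
    rw [pow_two, Finset.sum_mul]
    simp only [e1]
    rw [Finset.sum_comm]
    simp only [← Finset.mul_sum, hin]
    rw [Finset.mul_sum, ← Finset.sum_subtype (Finset.univ.filter (· ∈ center G)) (by simp)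
      (fun u : G => (Nat.card G : ℤ) * sg (u ^ 2)), Finset.sum_filter]
    refine Finset.sum_congr rfl fun u _ => ?_
    split_ifs <;> ring
  refine ⟨hZ, ?_⟩
  rw [hT] at hsq2
  by_cases h : ∀ u ∈ center G, u ^ 2 = 1
  · refine Or.inr ⟨h, ?_⟩
    rw [hsq2]
    simp [fun u : center G => h u u.2, sg_one]
  · left
    push Not at h
    obtain ⟨y, hy, hy2⟩ := h
    have : ∑ u : center G, sg ((u : G) ^ 2) = 0 := by
      refine sum_eq_zero_of_neg _ (Equiv.mulRight ⟨y, hy⟩) fun x => ?_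
      simp only [Equiv.coe_mulRight, coe_mul]
      rw [(show Commute (x : G) y from mem_center_iff.1 hy x).mul_pow, sg_mul h2 (hsq _) (hsq _),
        sg_ne hy2]
      ring
    rw [this, mul_zero] at hsq2
    exact pow_eq_zero_iff (two_ne_zero) |>.1 hsq2

theorem key2 [Finite G] (hG : IsPGroup 2 G) (hΦ : Nat.card (frattini G) = 2) (d : ℕ)
    (hd : (frattini G).index = 2 ^ d) :
    Nat.card {x : G // x ^ 2 = 1} = 2 ^ d ∨ ∃ c m : ℕ, 1 ≤ c ∧ c ≤ d ∧ 2 * m + 1 = d + c ∧
      Nat.card (center G) = 2 ^ c ∧ center G ≠ ⊤ ∧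
      (Nat.card {x : G // x ^ 2 = 1} = 2 ^ d + 2 ^ m ∨
        Nat.card {x : G // x ^ 2 = 1} + 2 ^ m = 2 ^ d) := by
  have : Fact (Nat.Prime 2) := ⟨Nat.prime_two⟩
  have hcard : Nat.card G = 2 * 2 ^ d := by rw [← (frattini G).card_mul_index, hΦ, hd]
  obtain ⟨hZ, h | ⟨h1, h⟩⟩ := key hG hΦ
  · left
    rw [hcard] at h
    push_cast at h
    have : (Nat.card {x : G // x ^ 2 = 1} : ℤ) = 2 ^ d := by linarith
    exact_mod_cast this
  right
  set j := Nat.card {x : G // x ^ 2 = 1}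
  obtain ⟨c, hc⟩ := (hG.to_subgroup (center G)).exists_card_eq
  have hne : center G ≠ ⊤ := by
    intro hT
    have : frattini G ≤ ⊥ := by
      refine Grp.PFrattini.frattini_le ?_ fun g => h1 g (hT ▸ mem_top g)
      rw [_root_.commutator_def, commutator_le]
      intro a _ b _
      rw [mem_bot, commutatorElement_eq_one_iff_mul_comm]
      exact mem_center_iff.1 (hT ▸ mem_top b) a
    rw [le_bot_iff.1 this] at hΦ
    simp at hΦ
  have hc1 : 1 ≤ c := by
    have := card_le_of_le hZ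
    rw [hΦ, hc] at this
    rcases c with _ | c
    · simp at this
    · omega
  have hcd : c ≤ d := by
    have h3 : Nat.card (center G) < Nat.card G := by
      refine lt_of_le_of_ne (card_le_card_group _) fun h3 => hne ?_
      exact (card_eq_iff_eq_top _).1 h3
    rw [hc, hcard, ← pow_succ'] at h3
    have := (Nat.pow_lt_pow_iff_right (by norm_num : 1 < 2)).1 h3
    omega
  obtain ⟨c, rfl⟩ : ∃ c', c = c' + 1 := ⟨c - 1, by omega⟩
  have h2 : ((j : ℤ) - 2 ^ d) ^ 2 = 2 ^ (d + c) := by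
    rw [hcard, hc] at h
    push_cast at h
    have : (4 : ℤ) * ((j : ℤ) - 2 ^ d) ^ 2 = 4 * 2 ^ (d + c) := by
      rw [pow_add]; linear_combination h
    linarith
  have h3 : ((j : ℤ) - 2 ^ d).natAbs ^ 2 = 2 ^ (d + c) := by
    have := congrArg Int.natAbs h2
    simpa [Int.natAbs_pow] using this
  obtain ⟨m, -, hm⟩ := (Nat.dvd_prime_pow Nat.prime_two).1
    (show ((j : ℤ) - 2 ^ d).natAbs ∣ 2 ^ (d + c) from h3 ▸ dvd_pow_self _ two_ne_zero)
  have h4 : m * 2 = d + c := by
    rw [hm, ← pow_mul] at h3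
    exact Nat.pow_right_injective (le_refl 2) h3
  refine ⟨c + 1, m, hc1, hcd, by omega, hc, hne, ?_⟩
  rcases Int.natAbs_eq_iff.1 hm with h5 | h5
  · left
    push_cast at h5
    have : (j : ℤ) = 2 ^ d + 2 ^ m := by linarith
    exact_mod_cast this
  · right
    push_cast at h5
    have : (j : ℤ) + 2 ^ m = 2 ^ d := by linarith
    exact_mod_cast this
end

/-- Let G be a finite 2-group whose Frattini subgroup Φ(G) has order 2, with |G : Φ(G)| = 2^d, and let j be the number of elements x of G with x² = 1. Then j = 2^d, or j = 2^d + 2^(d−r) or j = 2^d − 2^(d−r) for some positive integer r with 2r ≤ d. Moreover if d = 2r and j is 2^d + 2^r or 2^d − 2^r, then G is extraspecial. -/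
theorem result {G : Type*} [Group G] [Finite G] (hG : IsPGroup 2 G) (hΦ : Nat.card (frattini G) = 2) (d : ℕ) (hd : (frattini G).index = 2 ^ d) : (Nat.card {x : G // x ^ 2 = 1} = 2 ^ d ∨ ∃ r : ℕ, 1 ≤ r ∧ 2 * r ≤ d ∧ (Nat.card {x : G // x ^ 2 = 1} = 2 ^ d + 2 ^ (d - r) ∨ Nat.card {x : G // x ^ 2 = 1} + 2 ^ (d - r) = 2 ^ d)) ∧ (∀ r : ℕ, d = 2 * r → (Nat.card {x : G // x ^ 2 = 1} = 2 ^ d + 2 ^ r ∨ Nat.card {x : G // x ^ 2 = 1} + 2 ^ r = 2 ^ d) → Cfsg.IsExtraspecial 2 G) := by
  have : Fact (Nat.Prime 2) := ⟨Nat.prime_two⟩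
  have h := key2 hG hΦ d hd
  constructor
  · rcases h with h | ⟨c, m, h1, h2, h3, -, -, h4⟩
    · exact Or.inl h
    · refine Or.inr ⟨d - m, by omega, by omega, ?_⟩
      rwa [show d - (d - m) = m by omega]
  · intro r hr hj
    have hpos : 0 < 2 ^ r := by positivity
    rcases h with h | ⟨c, m, h1, h2, h3, hc, hne, h4⟩
    · omega
    have hpos' : 0 < 2 ^ m := by positivity
    have hm : 2 ^ m = 2 ^ r := by omega
    have hm' : m = r := Nat.pow_right_injective (le_refl 2) hm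
    have hc1 : c = 1 := by omega
    rw [hc1, pow_one] at hc
    have hZ : frattini G = center G :=
      Subgroup.eq_of_le_of_card_ge (key hG hΦ).1 (by rw [hΦ, hc])
    refine ⟨⟨hG, hZ, ?_⟩, hc⟩
    have h5 : _root_.commutator G ≤ center G := hZ ▸ Grp.PFrattini.commutator_le_frattini hG
    have h6 : Nat.card (_root_.commutator G) ∣ 2 := hc ▸ card_dvd_of_le h5
    rcases (Nat.dvd_prime Nat.prime_two).1 h6 with h7 | h7
    · exfalso
      apply hne
      rw [eq_top_iff]
      intro b _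
      rw [mem_center_iff]
      intro a
      rw [← commutatorElement_eq_one_iff_mul_comm, ← mem_bot, ← card_eq_one.1 h7]
      exact commutator_mem_commutator (mem_top _) (mem_top _)
    · exact Subgroup.eq_of_le_of_card_ge h5 (by rw [h7, hc])

end Cfsg.Agent.S3772
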