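import Cfsg.Statements.S3775
import Mathlib
import Cfsg.Agent.FGS.ActTools

set_option autoImplicit false
open Cfsg

namespace Cfsg.Agent.S3775


/-- Let A be a finite abelian p-group and X a group of automorphisms of A of order prime to p. Call a subgroup of A invariant when every element of X maps it onto itself. Then the following are equivalent: (i) A is not the direct product of two nontrivial invariant subgroups; (ii) every invariant subgroup of A is one of the subgroups Ω_i(A) = {a : a^(p^i) = 1}; (iii) the subgroup Ω₁(A) of elements of order dividing p has no invariant subgroups other than 1 and itself. -/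
theorem result {A : Type*} [CommGroup A] [Finite A] {p : ℕ} [Fact p.Prime] (hA : IsPGroup p A) (X : Subgroup (MulAut A)) (hX : (Nat.card X).Coprime p) : ((¬ ∃ B C : Subgroup A, B ≠ ⊥ ∧ C ≠ ⊥ ∧ (∀ x ∈ X, B.map x.toMonoidHom = B) ∧ (∀ x ∈ X, C.map x.toMonoidHom = C) ∧ B ⊓ C = ⊥ ∧ B ⊔ C = ⊤) ↔ (∀ B : Subgroup A, (∀ x ∈ X, B.map x.toMonoidHom = B) → ∃ i : ℕ, ∀ a : A, a ∈ B ↔ a ^ p ^ i = 1)) ∧ ((∀ B : Subgroup A, (∀ x ∈ X, B.map x.toMonoidHom = B) → ∃ i : ℕ, ∀ a : A, a ∈ B ↔ a ^ p ^ i = 1) ↔ (∀ B : Subgroup A, (∀ x ∈ X, B.map x.toMonoidHom = B) → (∀ b ∈ B, b ^ p = 1) → B = ⊥ ∨ ∀ a : A, a ∈ B ↔ a ^ p = 1)) := by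
  have hp : p.Prime := Fact.out
  have hfin : Finite (MulAut A) := Finite.of_injective _ DFunLike.coe_injective
  let c : X →* MulAut A := X.subtype
  have hinv : ∀ B : Subgroup A, (∀ x ∈ X, B.map x.toMonoidHom = B) ↔ ∀ x, ∀ h ∈ B, c x h ∈ B := by
    intro B
    refine ⟨fun h x b hb => ?_, fun h x hx => FGS.map_eq_of_invariant c h ⟨x, hx⟩⟩
    rw [← h x x.2]
    exact ⟨b, hb, rfl⟩
  have hcop : (Nat.card X).Coprime (Nat.card A) := by
    obtain ⟨k, hk⟩ := hA.exists_card_eq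
    rw [hk]
    exact hX.pow_right k
  simp only [hinv]
  have hmono : ∀ (a : A) (i j : ℕ), i ≤ j → a ^ p ^ i = 1 → a ^ p ^ j = 1 := by
    intro a i j hij h
    obtain ⟨k, rfl⟩ := Nat.exists_eq_add_of_le hij
    rw [pow_add, pow_mul, h, one_pow]
  have hexp : ∃ e : ℕ, ∀ a : A, a ^ p ^ e = 1 := by
    obtain ⟨k, hk⟩ := hA.exists_card_eq
    exact ⟨k, fun a => by rw [← hk, pow_card_eq_one']⟩
  have h21 : (∀ B : Subgroup A, (∀ x, ∀ h ∈ B, c x h ∈ B) → ∃ i : ℕ, ∀ a : A, a ∈ B ↔ a ^ p ^ i = 1) →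
      ¬ ∃ B C : Subgroup A, B ≠ ⊥ ∧ C ≠ ⊥ ∧ (∀ x, ∀ h ∈ B, c x h ∈ B) ∧ (∀ x, ∀ h ∈ C, c x h ∈ C) ∧
        B ⊓ C = ⊥ ∧ B ⊔ C = ⊤ := by
    rintro h ⟨B, C, hB, hC, hB', hC', h1, -⟩
    obtain ⟨i, hi⟩ := h B hB'
    obtain ⟨j, hj⟩ := h C hC'
    rcases le_total i j with hij | hij
    · exact hB (h1 ▸ (inf_eq_left.2 fun a ha => (hj a).2 (hmono a i j hij ((hi a).1 ha))).symm)
    · exact hC (h1 ▸ (inf_eq_right.2 fun a ha => (hi a).2 (hmono a j i hij ((hj a).1 ha))).symm)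
  have h23 : (∀ B : Subgroup A, (∀ x, ∀ h ∈ B, c x h ∈ B) → ∃ i : ℕ, ∀ a : A, a ∈ B ↔ a ^ p ^ i = 1) →
      ∀ B : Subgroup A, (∀ x, ∀ h ∈ B, c x h ∈ B) → (∀ b ∈ B, b ^ p = 1) →
        B = ⊥ ∨ ∀ a : A, a ∈ B ↔ a ^ p = 1 := by
    intro h B hB hB'
    obtain ⟨i, hi⟩ := h B hB
    rcases i with _ | i
    · left
      rw [eq_bot_iff]
      intro a ha
      simpa using (hi a).1 ha
    · exact Or.inr fun a => ⟨hB' a, fun ha => (hi a).2 (hmono a 1 _ (by omega) (by rwa [pow_one]))⟩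
  have h32 : (∀ B : Subgroup A, (∀ x, ∀ h ∈ B, c x h ∈ B) → (∀ b ∈ B, b ^ p = 1) →
        B = ⊥ ∨ ∀ a : A, a ∈ B ↔ a ^ p = 1) →
      ∀ B : Subgroup A, (∀ x, ∀ h ∈ B, c x h ∈ B) → ∃ i : ℕ, ∀ a : A, a ∈ B ↔ a ^ p ^ i = 1 := by
    intro h B hB
    have key : ∀ i : ℕ, (∃ b ∈ B, b ^ p ^ (i + 1) = 1 ∧ b ^ p ^ i ≠ 1) →
        ∀ a : A, a ^ p ^ (i + 1) = 1 → a ∈ B := by
      have step : ∀ i : ℕ, (∃ b ∈ B, b ^ p ^ (i + 1) = 1 ∧ b ^ p ^ i ≠ 1) →
          (∀ a : A, a ^ p ^ i = 1 → a ∈ B) → ∀ a : A, a ^ p ^ (i + 1) = 1 → a ∈ B := by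
        rintro i ⟨b, hb, hb1, hb2⟩ ih a ha
        rcases h ((B ⊓ (powMonoidHom (p ^ (i + 1))).ker).map (powMonoidHom (p ^ i))) (by
          rintro x _ ⟨y, hy, rfl⟩
          refine ⟨c x y, ⟨hB x y hy.1, ?_⟩, by simp⟩
          have : y ^ p ^ (i + 1) = 1 := hy.2
          change (c x y) ^ p ^ (i + 1) = 1
          rw [← map_pow, this, map_one]) (by
          rintro _ ⟨y, hy, rfl⟩
          have : y ^ p ^ (i + 1) = 1 := hy.2
          rwa [powMonoidHom_apply, ← pow_mul, ← pow_succ]) with h1 | h1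
        · exact absurd (Subgroup.mem_bot.1 (h1 ▸ ⟨b, ⟨hb, hb1⟩, rfl⟩)) hb2
        · obtain ⟨y, hy, hya⟩ := (h1 (a ^ p ^ i)).2 (by rwa [← pow_mul, ← pow_succ])
          have h2 : y⁻¹ * a ∈ B := ih _ (by
            rw [mul_pow, ← hya, inv_pow, powMonoidHom_apply, inv_mul_cancel])
          simpa using B.mul_mem hy.1 h2
      intro i
      induction i with
      | zero => exact fun hb => step 0 hb fun a ha => by rw [pow_zero, pow_one] at ha; simp [ha]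
      | succ i ih =>
        rintro ⟨b, hb, hb1, hb2⟩
        exact step _ ⟨b, hb, hb1, hb2⟩ (ih ⟨b ^ p, B.pow_mem hb p,
          by rwa [← pow_mul, ← pow_succ'], by rwa [← pow_mul, ← pow_succ']⟩)
    classical
    have hex : ∃ e : ℕ, ∀ a ∈ B, a ^ p ^ e = 1 := hexp.imp fun e he a _ => he a
    refine ⟨Nat.find hex, fun a => ⟨Nat.find_spec hex a, ?_⟩⟩
    rcases hn : Nat.find hex with _ | i
    · intro ha; rw [pow_zero, pow_one] at ha; simp [ha]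
    · have h1 := Nat.find_min hex (m := i) (by omega)
      push Not at h1
      obtain ⟨b, hb, hb2⟩ := h1
      exact key i ⟨b, hb, hn ▸ Nat.find_spec hex b hb, hb2⟩ a
  have h13 : (¬ ∃ B C : Subgroup A, B ≠ ⊥ ∧ C ≠ ⊥ ∧ (∀ x, ∀ h ∈ B, c x h ∈ B) ∧
        (∀ x, ∀ h ∈ C, c x h ∈ C) ∧ B ⊓ C = ⊥ ∧ B ⊔ C = ⊤) →
      ∀ B : Subgroup A, (∀ x, ∀ h ∈ B, c x h ∈ B) → (∀ b ∈ B, b ^ p = 1) →
        B = ⊥ ∨ ∀ a : A, a ∈ B ↔ a ^ p = 1 := by
    intro h B hB hB'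
    classical
    rcases hn : Nat.find hexp with _ | e
    · left
      rw [eq_bot_iff]
      intro a _
      simpa [hn] using Nat.find_spec hexp a
    have he : ∀ a : A, a ^ p ^ (e + 1) = 1 := hn ▸ Nat.find_spec hexp
    have h1 := Nat.find_min hexp (m := e) (by omega)
    push Not at h1
    obtain ⟨a₀, ha₀⟩ := h1
    let φ : A →* A := powMonoidHom (p ^ e)
    have hφ : ∀ x a, c x (φ a) = φ (c x a) := fun x a => by simp [φ]
    obtain ⟨M, -, hM⟩ := exists_minimal_le_of_wellFoundedLT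
      (fun M : Subgroup A => M ≠ ⊥ ∧ (∀ x, ∀ h ∈ M, c x h ∈ M) ∧ M ≤ φ.range) φ.range
      ⟨fun h => ha₀ (Subgroup.mem_bot.1 (h ▸ ⟨a₀, rfl⟩)), by
        rintro x _ ⟨a, rfl⟩
        exact ⟨_, (hφ x a).symm⟩, le_rfl⟩
    obtain ⟨hM1, hM2, hM3⟩ := hM.prop
    obtain ⟨H, -, hH⟩ := exists_minimal_le_of_wellFoundedLT
      (fun H : Subgroup A => (∀ x, ∀ h ∈ H, c x h ∈ H) ∧ H.map φ = M) (M.comap φ)
      ⟨fun x a ha => by
        change φ (c x a) ∈ M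
        rw [← hφ]
        exact hM2 x _ ha, Subgroup.map_comap_eq_self hM3⟩
    obtain ⟨hH1, hH2⟩ := hH.prop
    have hhom : ∀ a ∈ H, a ^ p ^ e = 1 → ∃ k ∈ H, a = k ^ p := by
      obtain ⟨L, hL1, hL2, hL3⟩ := FGS.exists_inv_compl_of_pow_mem c hcop hp
        (D := H.map (powMonoidHom p)) (K := H ⊓ φ.ker) (H := H) (by
          rintro x _ ⟨a, ha, rfl⟩
          exact ⟨c x a, hH1 x a ha, by simp⟩) (fun x a ha => ⟨hH1 x a ha.1, by
            change φ (c x a) = 1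
            rw [← hφ, show φ a = 1 from ha.2, map_one]⟩) hH1 (by
          rintro _ ⟨a, ha, rfl⟩
          refine ⟨H.pow_mem ha p, ?_⟩
          change (a ^ p) ^ p ^ e = 1
          rw [← pow_mul, ← pow_succ', he]) inf_le_left (fun a ha => ⟨a, ha, rfl⟩)
      have h2 : H ≤ L := hH.2 ⟨hL1, by
        rw [← hH2, ← hL3, Subgroup.map_sup, (Subgroup.map_eq_bot_iff _).2 inf_le_right,
          bot_sup_eq]⟩ (hL3 ▸ le_sup_right)
      intro a ha hae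
      have : a ∈ H.map (powMonoidHom p) := hL2 ▸ ⟨⟨ha, hae⟩, h2 ha⟩
      obtain ⟨k, hk, rfl⟩ := this
      exact ⟨k, hk, rfl⟩
    obtain ⟨C, hC1, hC2⟩ := FGS.exists_compl_of_homocyclic hp he hhom
    obtain ⟨C', hC'1, hC'2, hC'3⟩ := Solv.maschke_abstract c H C hH1 hC1 hC2
      (hcop.coprime_dvd_right (Subgroup.card_subgroup_dvd_card H))
    have hH0 : H ≠ ⊥ := fun h0 => hM1 (by rw [← hH2, h0, Subgroup.map_bot])
    have hHtop : H = ⊤ := by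
      by_cases hC0 : C' = ⊥
      · rwa [hC0, sup_bot_eq] at hC'2
      · exact absurd ⟨H, C', hH0, hC0, hH1, hC'3, hC'1, hC'2⟩ h
    have hΩ : ∀ j ≤ e, ∀ a : A, a ^ p ^ (e + 1 - j) = 1 → ∃ b : A, a = b ^ p ^ j := by
      intro j
      induction j with
      | zero => exact fun _ a _ => ⟨a, by simp⟩
      | succ j ih =>
        intro hj a ha
        obtain ⟨b, rfl⟩ := ih (by omega) a (hmono a _ _ (by omega) ha)
        rw [← pow_mul, ← pow_add, show j + (e + 1 - (j + 1)) = e by omega] at ha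
        obtain ⟨k, -, rfl⟩ := hhom b (hHtop ▸ Subgroup.mem_top b) ha
        exact ⟨k, by rw [← pow_mul, ← pow_succ']⟩
    have hΩM : ∀ a : A, a ^ p = 1 → a ∈ M := by
      intro a ha
      obtain ⟨b, rfl⟩ := hΩ e le_rfl a (by simpa using ha)
      rw [← hH2]
      exact ⟨b, hHtop ▸ Subgroup.mem_top b, rfl⟩
    by_cases hB0 : B = ⊥
    · exact Or.inl hB0
    · have hBM : B ≤ M := fun b hb => hΩM b (hB' b hb)
      exact Or.inr fun a => ⟨hB' a, fun ha => hM.2 ⟨hB0, hB, hBM.trans hM3⟩ hBM (hΩM a ha)⟩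
  exact ⟨⟨fun h => h32 (h13 h), h21⟩, h23, h32⟩

end Cfsg.Agent.S3775
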