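import Cfsg.Statements.S3778
import Mathlib


set_option autoImplicit false
open Cfsg

namespace Cfsg.Agent.S3778

open Subgroup
open scoped commutatorElement

theorem index_mul_le {G : Type*} [Group G] [Finite G] {p : ℕ} [hp : Fact p.Prime] (hG : IsPGroup p G)
    {A B : Subgroup G} (h : A ≤ B) (h' : ¬ B ≤ A) : B.index * p ≤ A.index := by
  obtain ⟨n, hn⟩ := (hG.to_subgroup B).index (A.subgroupOf B)
  rw [← relIndex_mul_index h, mul_comm]
  refine Nat.mul_le_mul_right _ ?_
  rw [relIndex, hn]
  refine Nat.le_self_pow (fun h0 => h' ?_) p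
  rw [h0, pow_zero, index_eq_one] at hn
  exact subgroupOf_eq_top.mp hn

def cA {G : Type*} [Group G] (N : Subgroup G) [N.Normal] (x : G) : Subgroup G :=
  (centralizer {QuotientGroup.mk' N x}).comap (QuotientGroup.mk' N)

theorem mem_cA {G : Type*} [Group G] {N : Subgroup G} [N.Normal] {x g : G} : g ∈ cA N x ↔ ⁅g, x⁆ ∈ N := by
  rw [cA, mem_comap, mem_centralizer_singleton_iff, ← commutatorElement_eq_one_iff_mul_comm,
    ← map_commutatorElement]
  exact QuotientGroup.eq_one_iff _

def cC {G : Type*} [Group G] (N M : Subgroup G) [N.Normal] : Subgroup G :=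
  (centralizer (M.map (QuotientGroup.mk' N) : Set (G ⧸ N))).comap (QuotientGroup.mk' N)

theorem mem_cC {G : Type*} [Group G] {N M : Subgroup G} [N.Normal] {x : G} :
    x ∈ cC N M ↔ ∀ g ∈ M, ⁅g, x⁆ ∈ N := by
  rw [cC, mem_comap, mem_centralizer_iff]
  constructor
  · intro h g hg
    have := h _ (mem_map_of_mem _ hg)
    rw [← commutatorElement_eq_one_iff_mul_comm, ← map_commutatorElement] at this
    exact (QuotientGroup.eq_one_iff _).mp this
  · rintro h _ ⟨g, hg, rfl⟩
    rw [← commutatorElement_eq_one_iff_mul_comm, ← map_commutatorElement]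
    exact (QuotientGroup.eq_one_iff _).mpr (h g hg)

/-- If G is a finite p-group in which every conjugacy class has at most p^b elements (every element has centralizer of index at most p^b), then G is abelian when b = 0, and when b ≥ 1 its nilpotency class c satisfies (c − 1)(p − 1) < bp, that is c < bp/(p − 1) + 1, and hence c ≤ 2b. -/
theorem result {G : Type*} [Group G] [Finite G] {p : ℕ} [Fact p.Prime] (hG : IsPGroup p G) (b : ℕ) (hb : ∀ x : G, (Subgroup.centralizer ({x} : Set G)).index ≤ p ^ b) : ∃ c : ℕ, (⊤ : Subgroup G).lowerCentralSeries c = ⊥ ∧ (b ≠ 0 → (c - 1) * (p - 1) < b * p ∧ c ≤ 2 * b) ∧ (b = 0 → c ≤ 1) := by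
  classical
  have hp : p.Prime := Fact.out
  by_cases hb0 : b = 0
  · refine ⟨1, ?_, fun h => absurd hb0 h, fun _ => le_rfl⟩
    rw [top_lowerCentralSeries_one, _root_.commutator, commutator_eq_bot_iff_le_centralizer]
    intro x _ y _
    have h1 := hb x
    have h2 : (centralizer ({x} : Set G)).index ≠ 0 := index_ne_zero_of_finite
    rw [hb0, pow_zero] at h1
    exact mem_centralizer_singleton_iff.mp ((index_eq_one.mp (by omega)).ge (mem_top y))
  have := hG.isNilpotent
  have := Fintype.ofFinite G
  set c := Group.nilpotencyClass G with hc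
  let L : ℕ → Subgroup G := (⊤ : Subgroup G).lowerCentralSeries
  have hLn : ∀ j, (L j).Normal := fun j => inferInstance
  let C : ℕ → Subgroup G := fun i => cC (L (i + 2)) (L i)
  have h1 : ∀ (x : G) (j : ℕ), p ^ ((Finset.range j).filter fun i => x ∉ C i).card ≤
      (cA (L (j + 1)) x).index := fun x j => by
    induction j with
    | zero => exact Nat.pos_of_ne_zero index_ne_zero_of_finite
    | succ j ih =>
      have hle : cA (L (j + 1 + 1)) x ≤ cA (L (j + 1)) x := fun g hg =>
        mem_cA.mpr (Subgroup.lowerCentralSeries_antitone _ (Nat.le_succ _) (mem_cA.mp hg))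
      rw [Finset.range_add_one, Finset.filter_insert]
      split_ifs with hx
      · exact ih.trans (index_antitone hle)
      · rw [Finset.card_insert_of_notMem (by simp), pow_succ]
        refine (Nat.mul_le_mul_right _ ih).trans (index_mul_le hG hle fun h => hx (mem_cC.mpr ?_))
        exact fun g hg => mem_cA.mp (h (mem_cA.mpr (commutator_mem_commutator hg (mem_top x))))
  have h2 : ∀ x : G, ((Finset.range (c - 1)).filter fun i => x ∉ C i).card ≤ b := fun x => by
    refine (Nat.pow_le_pow_iff_right hp.one_lt).mp ((h1 x _).trans ((index_antitone ?_).trans (hb x)))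
    intro g hg
    rw [mem_cA, commutatorElement_eq_one_iff_mul_comm.mpr (mem_centralizer_singleton_iff.mp hg)]
    exact one_mem _
  have h3 : ∀ i ∈ Finset.range (c - 1), (p - 1) * Nat.card G ≤
      p * (Finset.univ.filter fun x => x ∉ C i).card := fun i hi => by
    have hne : ¬ ⊤ ≤ C i := fun h => by
      have h4 : L (i + 1) ≤ L (i + 2) := commutator_le.mpr fun g hg x _ => mem_cC.mp (h (mem_top x)) g hg
      have h5 : ∀ k, L (i + 1) ≤ L (i + 1 + k) := fun k => by
        induction k with
        | zero => exact le_rfl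
        | succ k ih => exact h4.trans (commutator_mono ih le_rfl)
      have h6 : L (i + 1 + c) = ⊥ :=
        Subgroup.lowerCentralSeries_eq_bot_iff_nilpotencyClass_le.mpr (by omega)
      have h7 := Subgroup.lowerCentralSeries_eq_bot_iff_nilpotencyClass_le.mp
        (le_bot_iff.mp (h6 ▸ h5 c))
      have := Finset.mem_range.mp hi
      omega
    have h4 := index_mul_le hG le_top hne
    rw [index_top, one_mul] at h4
    have h5 := (C i).card_mul_index
    have h6 : (Finset.univ.filter fun x => x ∈ C i).card = Nat.card (C i) := by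
      rw [Nat.card_eq_fintype_card, Fintype.card_subtype]
    have h7 := Finset.card_filter_add_card_filter_not (s := Finset.univ) (fun x => x ∈ C i)
    rw [h6, Finset.card_univ, ← Nat.card_eq_fintype_card] at h7
    have h8 := Nat.mul_le_mul_left (Nat.card (C i)) h4
    obtain ⟨q, rfl⟩ : ∃ q, p = q + 1 := ⟨p - 1, by have := hp.pos; omega⟩
    rw [Nat.add_sub_cancel]
    nlinarith
  have h4 : ∑ x : G, ((Finset.range (c - 1)).filter fun i => x ∉ C i).card =
      ∑ i ∈ Finset.range (c - 1), (Finset.univ.filter fun x => x ∉ C i).card := by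
    simp only [Finset.card_filter]
    exact Finset.sum_comm
  have h5 : ∑ x : G, ((Finset.range (c - 1)).filter fun i => x ∉ C i).card < b * Nat.card G := by
    rw [Nat.card_eq_fintype_card, mul_comm, ← smul_eq_mul, ← Finset.card_univ, ← Finset.sum_const]
    refine Finset.sum_lt_sum (fun x _ => h2 x) ⟨1, Finset.mem_univ _, ?_⟩
    rw [Finset.filter_false_of_mem fun i _ => not_not.mpr (one_mem _), Finset.card_empty]
    omega
  have h6 := Finset.sum_le_sum h3
  rw [Finset.sum_const, Finset.card_range, smul_eq_mul, ← Finset.mul_sum, ← h4] at h6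
  have h7 : (c - 1) * (p - 1) < b * p := by
    refine Nat.lt_of_mul_lt_mul_right (a := Nat.card G) ?_
    have := Nat.mul_lt_mul_of_pos_left h5 hp.pos
    nlinarith
  refine ⟨c, Subgroup.lowerCentralSeries_nilpotencyClass, fun _ => ⟨h7, ?_⟩, fun h => absurd h hb0⟩
  by_contra h8
  obtain ⟨q, rfl⟩ : ∃ q, p = q + 2 := ⟨p - 2, by have := hp.two_le; omega⟩
  have h9 : 2 * b ≤ c - 1 := by omega
  have := Nat.mul_le_mul_right (q + 2 - 1) h9
  rw [show q + 2 - 1 = q + 1 by omega] at this h7
  nlinarith

end Cfsg.Agent.S3778
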