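import Cfsg.Statements.S3780
import Mathlib
import Cfsg.Agent.S0014
import Cfsg.Agent.Grp.PFrattini
import Cfsg.Agent.Grp.Card

set_option autoImplicit false
open Cfsg

namespace Cfsg.Agent.S3780

theorem card_ker_comp_le {V : Type*} [Group V] [Finite V] (f g : V →* V) :
    Nat.card (f.comp g).ker ≤ Nat.card f.ker * Nat.card g.ker := by
  rw [← Grp.card_map_mul_card_ker_inf g (f.comp g).ker]
  refine Nat.mul_le_mul (Subgroup.card_le_of_le ?_) (Subgroup.card_le_of_le inf_le_left)
  rintro _ ⟨x, hx, rfl⟩
  exact hx

/-- Let V be a finite abelian p-group and α an automorphism of V of order p whose fixed-point subgroup has order p^n. Then V can be generated by pn elements: some subset of V with at most pn elements generates V. -/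
theorem result {V : Type*} [CommGroup V] [Finite V] {p : ℕ} [Fact p.Prime] (hV : IsPGroup p V) (α : MulAut V) (hα : orderOf α = p) (n : ℕ) (hfix : Nat.card {v : V // α v = v} = p ^ n) : ∃ S : Finset V, S.card ≤ p * n ∧ Subgroup.closure (S : Set V) = ⊤ := by
  classical
  have hp : p.Prime := Fact.out
  let a : AddMonoid.End (Additive V) := MonoidHom.toAdditive α.toMonoidHom
  have hak : ∀ (k : ℕ) (v : V), (a ^ k) (Additive.ofMul v) = Additive.ofMul ((α ^ k) v) := by
    intro k
    induction k with
    | zero => intro v; rfl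
    | succ k ih => intro v; rw [pow_succ, pow_succ]; exact ih (α v)
  have hap : a ^ p = 1 := by
    ext v
    have := hak p v.toMul
    rw [← hα, pow_orderOf_eq_one] at this
    rw [← hα]
    exact congrArg Additive.toMul this
  obtain ⟨r, hr⟩ := (Commute.one_right (a - 1)).exists_add_pow_prime_eq hp
  rw [sub_add_cancel, hap, one_pow, mul_one] at hr
  have hr' : (a - 1) ^ p = -(p * ((a - 1) * r)) := by
    rw [eq_neg_iff_add_eq_zero, ← mul_assoc, ← add_left_inj 1, zero_add, add_right_comm]
    exact hr.symm
  let τ : ℕ → V →* V := fun k => MonoidHom.toAdditive.symm ((a - 1) ^ k : AddMonoid.End (Additive V))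
  have h1 : Nat.card (τ 1).ker = p ^ n := by
    rw [← hfix]
    refine Nat.card_congr (Equiv.subtypeEquivRight fun v => ?_)
    rw [MonoidHom.mem_ker]
    simp only [τ, pow_one]
    change α v / v = 1 ↔ _
    exact div_eq_one
  have h2 : ∀ k, Nat.card (τ k).ker ≤ (p ^ n) ^ k := by
    intro k
    induction k with
    | zero =>
      have : (τ 0).ker = ⊥ := (MonoidHom.ker_eq_bot_iff _).2 fun _ _ h => h
      simp [this]
    | succ k ih =>
      have : τ (k + 1) = (τ k).comp (τ 1) := by
        simp only [τ, pow_succ, pow_zero, one_mul]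
        rfl
      rw [this, pow_succ]
      exact (card_ker_comp_le _ _).trans (Nat.mul_le_mul ih h1.le)
  have h3 : (τ p).range ≤ frattini V := by
    rintro _ ⟨v, rfl⟩
    have : τ p v = ((Additive.toMul (((a - 1) * r) (Additive.ofMul v))) ^ p)⁻¹ := by
      simp only [τ, hr']
      rfl
    rw [this]
    exact inv_mem (Grp.PFrattini.pow_mem_frattini hV _)
  have h4 : (τ p).range.index = Nat.card (τ p).ker := by
    have e1 := (τ p).range.card_mul_index
    have e2 := (τ p).ker.index_mul_card
    rw [Subgroup.index_ker, ← e1] at e2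
    exact (Nat.eq_of_mul_eq_mul_left Nat.card_pos e2).symm
  obtain ⟨d, hd⟩ := hV.index (frattini V)
  have h5 : p ^ d ≤ p ^ (p * n) := by
    rw [← hd, mul_comm, pow_mul]
    exact (Subgroup.index_antitone h3).trans (h4.le.trans (h2 p))
  have := Fintype.ofFinite V
  obtain ⟨T, -, hT, hT'⟩ := (S0014.result p d hV hd).1 Finset.univ (by simp)
  exact ⟨T, hT ▸ (Nat.pow_le_pow_iff_right hp.one_lt).1 h5, hT'⟩

end Cfsg.Agent.S3780
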