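import Cfsg.Statements.S3781
import Mathlib
import Cfsg.Agent.FGS.LCS

set_option autoImplicit false
open Cfsg

namespace Cfsg.Agent.S3781


/-- Let G be a finite p-group and n ≥ 1, and write γ_1(G) = G, γ_{k+1}(G) = [γ_k(G), G], and likewise γ_k(N) for a subgroup N. Let N be a normal subgroup of G contained in γ_n(G). If i > 1 and γ_{i+1}(N) ≠ 1, then |γ_i(N) : γ_{i+1}(N)| ≥ p^n. -/
theorem result {G : Type*} [Group G] [Finite G] {p : ℕ} [Fact p.Prime] (hG : IsPGroup p G) (n : ℕ) (hn : 1 ≤ n) (N : Subgroup G) [N.Normal] (hN : N ≤ (⊤ : Subgroup G).lowerCentralSeries (n - 1)) (i : ℕ) (hi : 1 < i) (hne : N.lowerCentralSeries i ≠ ⊥) : p ^ n ≤ (N.lowerCentralSeries i).relIndex (N.lowerCentralSeries (i - 1)) := by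
  obtain ⟨n, rfl⟩ : ∃ m, n = m + 1 := ⟨n - 1, by omega⟩
  obtain ⟨i, rfl⟩ : ∃ m, i = m + 1 := ⟨i - 1, by omega⟩
  simp only [Nat.add_sub_cancel] at hN ⊢
  set X := N.lowerCentralSeries i with hX
  set Y := N.lowerCentralSeries (i + 1) with hY
  have hYX : Y ≤ X := N.lowerCentralSeries_antitone (Nat.le_succ i)
  obtain ⟨k, hk⟩ := (hG.to_subgroup Y).exists_card_eq
  obtain ⟨k, rfl⟩ : ∃ m, k = m + 1 := by
    rcases k with _ | k
    · exact absurd (Subgroup.card_eq_one.1 (by simpa using hk)) hne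
    · exact ⟨k, rfl⟩
  obtain ⟨M, u, hMn, hMc, hu, -, -, hMY⟩ := Grp.PChain.exists_normal_step_down hG Y hk
  have hMY' : M ≤ Y := hMY ▸ le_sup_left
  have hp := (Fact.out : p.Prime).pos
  have h1 : M.relIndex Y = p := by
    have := Subgroup.relIndex_mul_relIndex ⊥ M Y bot_le hMY'
    rw [Subgroup.relIndex_bot_left, Subgroup.relIndex_bot_left, hMc, hk, pow_succ] at this
    exact Nat.eq_of_mul_eq_mul_left (pow_pos hp k) this
  by_contra hlt
  obtain ⟨j, hj⟩ := (hG.to_subgroup X).index (Y.subgroupOf X)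
  have h2 : Y.relIndex X ≤ p ^ n := by
    rw [Subgroup.relIndex, hj] at hlt ⊢
    rw [not_le, Nat.pow_lt_pow_iff_right (Fact.out : p.Prime).one_lt] at hlt
    exact Nat.pow_le_pow_right hp (by omega)
  have h3 : M.relIndex X ≤ p ^ (n + 1) := by
    rw [← Subgroup.relIndex_mul_relIndex M Y X hMY' hYX, h1, pow_succ']
    exact Nat.mul_le_mul_left _ h2
  have h4 : Y ≤ M := (Subgroup.commutator_mono le_rfl hN).trans
    ((FGS.commutator_lcs_le_iter ⊤ n X inferInstance).trans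
      (FGS.iter_top_le_of_relIndex_le hG M _ X inferInstance h3))
  exact hu (h4 (hMY ▸ Subgroup.mem_sup_right (Subgroup.mem_zpowers u)))

end Cfsg.Agent.S3781
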