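import Cfsg.Statements.S3785
import Mathlib
import Cfsg.Agent.FT.BG1_11
import Cfsg.Agent.Grp.Fitting

set_option autoImplicit false
open Cfsg

namespace Cfsg.Agent.S3785


/-- Let G be a finite solvable group whose Fitting subgroup F(G) has odd order. If an element g of G commutes with every element of prime order of F(G), then g ∈ F(G). -/
theorem result {G : Type*} [Group G] [Finite G] (hG : Group.IsSolvable G) (hodd : Odd (Nat.card (Cfsg.fittingSubgroup G))) (g : G) (hg : ∀ x ∈ Cfsg.fittingSubgroup G, (orderOf x).Prime → g * x = x * g) : g ∈ Cfsg.fittingSubgroup G := by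
  set C := Subgroup.centralizer {x : G | x ∈ Cfsg.fittingSubgroup G ∧ (orderOf x).Prime} with hC
  have hCn : C.Normal := ⟨fun c hc h x hx => by
    have h1 := hc (h⁻¹ * x * h) ⟨by simpa using (Grp.fitting_normal G).conj_mem x hx.1 h⁻¹, by
      have : orderOf (h⁻¹ * x * h) = orderOf x := by
        simpa using (MulAut.conj h⁻¹).orderOf_eq x
      rw [this]; exact hx.2⟩
    calc x * (h * c * h⁻¹) = h * ((h⁻¹ * x * h) * c) * h⁻¹ := by group
      _ = h * c * h⁻¹ * x := by rw [h1]; group⟩
  -- subgroups of `C` of order prime to `p` centralize `O_p(G)`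
  have key : ∀ (p : ℕ) [Fact p.Prime] (A : Subgroup G), A ≤ C → (Nat.card A).Coprime p →
      A ≤ Subgroup.centralizer (pCore p G : Set G) := by
    intro p _ A hA hcop
    by_cases hp : p = 2
    · have : pCore p G = ⊥ := by
        obtain ⟨k, hk⟩ := (Grp.pCore_isPGroup p G).exists_card_eq
        have h2 := Subgroup.card_dvd_of_le (Grp.pCore_le_fitting (G := G) p)
        rw [hk, hp] at h2
        have h3 := hodd.of_dvd_nat h2
        rcases k with _ | k
        · exact Subgroup.card_eq_one.1 (by simpa using hk)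
        · exact absurd h3 (by simp [Nat.odd_pow_iff])
      rw [this]
      intro a _ x hx
      rw [SetLike.mem_coe, Subgroup.mem_bot] at hx
      simp [hx]
    · refine FT.bg1_11 hp (Grp.pCore_isPGroup p G) (Subgroup.normalizer_eq_top (pCore p G) ▸ le_top)
        hcop fun x hx hxp a ha => ?_
      by_cases hx1 : x = 1
      · simp [hx1]
      · exact hA ha x ⟨Grp.pCore_le_fitting p hx, by
          rw [orderOf_eq_prime hxp hx1]; exact Fact.out⟩
  have hcop : ∀ (p q : ℕ) [Fact p.Prime] [Fact q.Prime] (A : Subgroup G), IsPGroup q A → p ≠ q →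
      (Nat.card A).Coprime p := by
    intro p q _ _ A hA hne
    obtain ⟨k, hk⟩ := hA.exists_card_eq
    rw [hk]
    exact Nat.Coprime.pow_left _ ((Nat.coprime_primes Fact.out Fact.out).2 hne.symm)
  suffices h : C ≤ fittingSubgroup G from h fun x hx => (hg x hx.1 hx.2).symm
  rw [← Subgroup.subgroupOf_eq_top]
  refine Grp.eq_top_of_forall_sylow_le fun q hq => ?_
  haveI : Fact q.Prime := ⟨hq⟩
  obtain ⟨Q⟩ : Nonempty (Sylow q C) := inferInstance
  refine ⟨Q, ?_⟩
  let W : Subgroup G := ⨆ p : {p : Nat.Primes // (p : ℕ) ≠ q}, pCore (p.1 : ℕ) G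
  have hWn : W.Normal := Subgroup.iSup_normal _
  have hcentW : ∀ A : Subgroup G, (∀ p : Nat.Primes, (p : ℕ) ≠ q →
      A ≤ Subgroup.centralizer (pCore (p : ℕ) G : Set G)) → A ≤ Subgroup.centralizer (W : Set G) := by
    intro A hA
    rw [Subgroup.le_centralizer_iff]
    exact iSup_le fun p => Subgroup.le_centralizer_iff.1 (hA p.1 p.2)
  let L : Subgroup G := C ⊓ Subgroup.centralizer (W : Set G)
  have hcentral : ∀ (r : ℕ) [Fact r.Prime] (R : Subgroup L), r ≠ q → IsPGroup r R →
      R ≤ Subgroup.center L := by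
    intro r _ R hr hR
    have hR' : IsPGroup r (R.map L.subtype) := hR.map _
    have h1 : R.map L.subtype ≤ Subgroup.centralizer (fittingSubgroup G : Set G) := by
      rw [Subgroup.le_centralizer_iff, Grp.fitting_eq_iSup_pCore]
      refine iSup_le fun p => ?_
      haveI : Fact (p : ℕ).Prime := ⟨p.2⟩
      rw [Subgroup.le_centralizer_iff]
      by_cases hp : (p : ℕ) = q
      · exact key p _ ((Subgroup.map_subtype_le R).trans inf_le_left)
          (hcop p r _ hR' (hp ▸ hr.symm))
      · refine ((Subgroup.map_subtype_le R).trans inf_le_right).trans (Subgroup.centralizer_le ?_)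
        exact SetLike.coe_subset_coe.2
          (le_iSup (fun p : {p : Nat.Primes // (p : ℕ) ≠ q} => pCore (p.1 : ℕ) G) ⟨p, hp⟩)
    have h2 : R.map L.subtype ≤ W :=
      (Grp.le_pCore_of_le_fitting hR' (h1.trans (Grp.centralizer_fitting_le G))).trans
        (le_iSup (fun p : {p : Nat.Primes // (p : ℕ) ≠ q} => pCore (p.1 : ℕ) G)
          ⟨⟨r, Fact.out⟩, hr⟩)
    intro x hx
    rw [Subgroup.mem_center_iff]
    intro y
    exact Subtype.ext (y.2.2 x (h2 ⟨x, hx, rfl⟩)).symm
  have hLnil : Group.IsNilpotent L := by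
    rw [Grp.isNilpotent_iff_forall_sylow_normal]
    intro r _ R
    rw [← Subgroup.normalizer_eq_top_iff]
    refine Grp.eq_top_of_forall_sylow_le fun s hs => ?_
    haveI : Fact s.Prime := ⟨hs⟩
    by_cases hsr : s = r
    · subst hsr
      exact ⟨R, Subgroup.le_normalizer⟩
    · obtain ⟨S⟩ : Nonempty (Sylow s L) := inferInstance
      refine ⟨S, ?_⟩
      by_cases hsq : s = q
      · refine le_trans ?_ (Subgroup.centralizer_le_normalizer _)
        rw [Subgroup.le_centralizer_iff]
        exact (hcentral r R (fun h => hsr (hsq.trans h.symm)) R.isPGroup').trans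
          (Subgroup.center_le_centralizer _)
      · exact (hcentral s S hsq S.isPGroup').trans (Subgroup.center_le_normalizer _)
  have hL : L ≤ fittingSubgroup G := Grp.le_fitting inferInstance hLnil
  have hQ : (Q : Subgroup C).map C.subtype ≤ L := by
    refine le_inf (Subgroup.map_subtype_le _) (hcentW _ fun p hp => ?_)
    haveI : Fact (p : ℕ).Prime := ⟨p.2⟩
    exact key p _ (Subgroup.map_subtype_le _) (hcop p q _ (Q.isPGroup'.map _) hp)
  intro x hx
  exact hL (hQ ⟨x, hx, rfl⟩)

end Cfsg.Agent.S3785
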