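import Mathlib
import Cfsg.Statements.S3794
import Cfsg.Agent.FH.SG
import Cfsg.Agent.FH.Ext

set_option autoImplicit false
open Cfsg

namespace Cfsg.Agent.S3794

/-- Let G be a finite solvable group with an automorphism σ satisfying σ⁴ = 1 and fixing only the identity. Then the derived subgroup G' is nilpotent. -/
theorem result {G : Type*} [Group G] [Finite G] (hG : Group.IsSolvable G) (σ : MulAut G) (hσ : σ ^ 4 = 1) (hfpf : ∀ g : G, σ g = g → g = 1) : Group.IsNilpotent (commutator G) := by
  have := Solv.Ext.finite_SD (A := MulAut G) (G := G)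
  exact FH.nilpotent_commutator_of (A := MulAut G) (FH.res_der_of_four (α := Solv.Ext.iA _ G σ)
    (FH.solv_range hG) (by rw [← map_pow, hσ, map_one]) (FH.norm_range ⊤ trivial)
    (FH.not_dvd_of_fpf1 (n := 2) Nat.prime_two hσ hfpf) (FH.range_inf_cent1 hfpf))

end Cfsg.Agent.S3794
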