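import Mathlib
import Cfsg.Statements.S3796
import Cfsg.Agent.FH.Ward
import Cfsg.Agent.FH.Ext

set_option autoImplicit false
open Cfsg

namespace Cfsg.Agent.S3796

/-- Ward's Theorem: let G be a finite solvable group and A an elementary abelian group of automorphisms of G of order p² (p a prime) with no non-identity common fixed point. Then G has Fitting height at most 2: G has Fitting height at most m when there is a chain of normal subgroups 1 = F₀ ≤ F₁ ≤ ⋯ ≤ F_m = G with each F_{i+1}/F_i nilpotent. -/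
theorem result {G : Type*} [Group G] [Finite G] (hG : Group.IsSolvable G) {p : ℕ} (hp : p.Prime) (A : Subgroup (MulAut G)) (hA : Cfsg.IsElementaryAbelian p A) (hcard : Nat.card A = p ^ 2) (hfpf : ∀ g : G, (∀ a ∈ A, a g = g) → g = 1) : ∃ F : Fin (2 + 1) → Subgroup G, F 0 = ⊥ ∧ F (Fin.last 2) = ⊤ ∧ Monotone F ∧ (∀ i, (F i).Normal) ∧ ∀ i : Fin 2, ∃ k : ℕ, (F i.succ).lowerCentralSeries k ≤ F i.castSucc := by
  have := Solv.Ext.finite_SD (A := MulAut G) (G := G)
  have hi := Solv.Ext.iA_injective (A := MulAut G) (G := G)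
  rw [FH.chain_iff, ← FH.resN_range (A := MulAut G)]
  have := hA.1
  refine FH.ward hp (A := A.map (Solv.Ext.iA _ G)) (FH.solv_range hG) ⟨inferInstance, ?_⟩
    (by rw [Subgroup.card_map_of_injective hi, hcard]) (FH.norm_range _)
    (Solv.Ext.card_range_iG (A := MulAut G) (G := G) ▸ FH.not_dvd_of_fpf hp (.of_card hcard) hfpf)
    (FH.range_inf_cent A hfpf)
  rintro _ ⟨a, ha, rfl⟩
  rw [← map_pow, hA.2 a ha, map_one]

end Cfsg.Agent.S3796
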