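import Cfsg.Statements.S3799
import Mathlib
import Cfsg.Agent.Grp.Extraspecial

set_option autoImplicit false
open Cfsg

namespace Cfsg.Agent.S3799

open scoped commutatorElement

/-- The Heisenberg group. -/
@[ext] structure Hs (n : ℕ) (K : Type) where
  a : Fin n → K
  b : Fin n → K
  c : K

variable {n : ℕ} {K : Type} [Field K]

instance : Mul (Hs n K) := ⟨fun x y => ⟨x.a + y.a, x.b + y.b, x.c + y.c + x.a ⬝ᵥ y.b⟩⟩
instance : One (Hs n K) := ⟨⟨0, 0, 0⟩⟩
instance : Inv (Hs n K) := ⟨fun x => ⟨-x.a, -x.b, -x.c + x.a ⬝ᵥ x.b⟩⟩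

@[simp] theorem mul_a (x y : Hs n K) : (x * y).a = x.a + y.a := rfl
@[simp] theorem mul_b (x y : Hs n K) : (x * y).b = x.b + y.b := rfl
@[simp] theorem mul_c (x y : Hs n K) : (x * y).c = x.c + y.c + x.a ⬝ᵥ y.b := rfl
@[simp] theorem one_a : (1 : Hs n K).a = 0 := rfl
@[simp] theorem one_b : (1 : Hs n K).b = 0 := rfl
@[simp] theorem one_c : (1 : Hs n K).c = 0 := rfl
@[simp] theorem inv_a (x : Hs n K) : x⁻¹.a = -x.a := rfl
@[simp] theorem inv_b (x : Hs n K) : x⁻¹.b = -x.b := rfl
@[simp] theorem inv_c (x : Hs n K) : x⁻¹.c = -x.c + x.a ⬝ᵥ x.b := rfl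

instance : Group (Hs n K) := Group.ofLeftAxioms
  (fun x y z => by ext <;> simp [add_dotProduct, dotProduct_add] <;> ring)
  (fun x => by ext <;> simp)
  (fun x => by ext <;> simp)

theorem pow_eq (x : Hs n K) (k : ℕ) :
    x ^ k = ⟨(k : K) • x.a, (k : K) • x.b, k * x.c + (k.choose 2 : ℕ) * (x.a ⬝ᵥ x.b)⟩ := by
  induction k with
  | zero => ext <;> simp
  | succ k ih =>
    rw [pow_succ, ih]
    ext
    · simp; ring
    · simp; ring
    · simp [Nat.choose_succ_succ]; ring

def eqv : Hs n K ≃ (Fin n → K) × (Fin n → K) × K where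
  toFun x := (x.a, x.b, x.c)
  invFun x := ⟨x.1, x.2.1, x.2.2⟩
  left_inv _ := rfl
  right_inv _ := rfl

/-- The natural module. -/
def act (x : Hs n K) : Module.End K (K × (Fin n → K) × K) where
  toFun v := (v.1 + x.a ⬝ᵥ v.2.1 + x.c * v.2.2, v.2.1 + v.2.2 • x.b, v.2.2)
  map_add' v w := by
    ext <;> simp [dotProduct_add] <;> ring
  map_smul' t v := by
    ext <;> simp [dotProduct_smul] <;> ring

def actHom : Hs n K →* Module.End K (K × (Fin n → K) × K) where
  toFun := act
  map_one' := by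
    refine LinearMap.ext fun v => ?_
    ext <;> simp [act]
  map_mul' x y := by
    refine LinearMap.ext fun v => ?_
    ext <;> simp [act, add_dotProduct, dotProduct_add, dotProduct_smul] <;> ring

theorem actHom_inj : Function.Injective (actHom : Hs n K →* _) := by
  rw [injective_iff_map_eq_one]
  intro x hx
  have h1 := LinearMap.congr_fun hx (0, 0, 1)
  simp only [actHom, act, MonoidHom.coe_mk, OneHom.coe_mk, LinearMap.coe_mk, AddHom.coe_mk,
    Module.End.one_apply, Prod.mk.injEq, dotProduct_zero, add_zero, mul_one, zero_add, one_smul,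
    and_true] at h1
  refine Hs.ext ?_ h1.2 h1.1
  funext i
  have h2 := LinearMap.congr_fun hx (0, Pi.single i 1, 0)
  simpa [actHom, act] using h2

theorem isES (p : ℕ) [Fact p.Prime] :
    Grp.ES.IsES p (⟨0, 0, 1⟩ : Hs n (ZMod p)) ⊤ := by
  have key : ∀ c : ZMod p, (⟨0, 0, c⟩ : Hs n (ZMod p)) ∈
      Subgroup.zpowers (⟨0, 0, 1⟩ : Hs n (ZMod p)) := fun c => by
    refine Subgroup.mem_zpowers_iff.2 ⟨c.val, ?_⟩
    rw [zpow_natCast, pow_eq]
    ext <;> simp
  refine ⟨?_, trivial, fun s _ => ?_, fun a _ b _ => ?_, fun a _ h => ?_⟩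
  · refine orderOf_eq_prime ?_ ?_
    · rw [pow_eq]; ext <;> simp
    · intro h
      simpa using congrArg Hs.c h
  · change s * _ = _ * s
    ext <;> simp [add_comm]
  · have : ⁅a, b⁆ = ⟨0, 0, ⁅a, b⁆.c⟩ := by
      ext <;> simp [commutatorElement_def]
    rw [this]; exact key _
  · have : a = ⟨0, 0, a.c⟩ := by
      refine Hs.ext ?_ ?_ rfl
      · funext i
        simpa using congrArg Hs.c (h ⟨0, Pi.single i 1, 0⟩ trivial).eq
      · funext i
        simpa using congrArg Hs.c (h ⟨Pi.single i 1, 0, 0⟩ trivial).eq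
    rw [this]; exact key _


/-- For every odd prime p and every n ≥ 1 there is an extraspecial p-group of order p^(1+2n) and exponent p; concretely, the general linear group of degree n + 2 over the field with p elements contains such a subgroup. -/
theorem result (p : ℕ) [Fact p.Prime] (hp : p ≠ 2) (n : ℕ) (hn : 1 ≤ n) : ∃ E : Subgroup (Matrix.GeneralLinearGroup (Fin (n + 2)) (ZMod p)), Cfsg.IsExtraspecial p ↥E ∧ Nat.card E = p ^ (1 + 2 * n) ∧ ∀ x ∈ E, x ^ p = 1 := by
  have hfin : Module.finrank (ZMod p) (ZMod p × (Fin n → ZMod p) × ZMod p) = n + 2 := by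
    simp; ring
  let b := Module.finBasisOfFinrankEq (ZMod p) _ hfin
  let φ : Hs n (ZMod p) →* Matrix.GeneralLinearGroup (Fin (n + 2)) (ZMod p) :=
    (Matrix.GeneralLinearGroup.toLin' b).symm.toMonoidHom.comp (actHom.toHomUnits)
  have hφ : Function.Injective φ := by
    refine (Matrix.GeneralLinearGroup.toLin' b).symm.injective.comp ?_
    intro x y h
    exact actHom_inj (congrArg Units.val h)
  have h1 := (isES (n := n) p).map_of_injective φ hφ
  refine ⟨(⊤ : Subgroup (Hs n (ZMod p))).map φ, h1.isExtraspecial ?_, ?_, ?_⟩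
  · rw [← MonoidHom.map_zpowers]
    intro h
    have h2 := Subgroup.map_injective hφ h
    have h3 : (⟨Pi.single ⟨0, hn⟩ 1, 0, 0⟩ : Hs n (ZMod p)) ∈
        Subgroup.zpowers (⟨0, 0, 1⟩ : Hs n (ZMod p)) := h2 ▸ Subgroup.mem_top _
    have h4 := ((isES (n := n) p).commute_of_mem
      (s := (⟨0, Pi.single ⟨0, hn⟩ 1, 0⟩ : Hs n (ZMod p))) trivial h3).eq
    simpa using congrArg Hs.c h4
  · rw [Subgroup.card_map_of_injective hφ, Subgroup.card_top, Nat.card_congr eqv]
    simp; ring
  · rintro _ ⟨x, -, rfl⟩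
    rw [← map_pow, pow_eq]
    have h2 : ((p.choose 2 : ℕ) : ZMod p) = 0 := by
      rw [ZMod.natCast_eq_zero_iff]
      exact (Fact.out : p.Prime).dvd_choose_self two_ne_zero
        (lt_of_le_of_ne (Fact.out : p.Prime).two_le hp.symm)
    rw [← map_one φ]
    congr 1
    ext <;> simp [h2]

end Cfsg.Agent.S3799
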