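import Cfsg.Statements.S3979
import Mathlib
import Cfsg.Agent.FGS.SchurBasic

set_option autoImplicit false
open Cfsg

namespace Cfsg.Agent.S3979

/-- A finite cyclic group has trivial Schur multiplier: every finite stem extension of it is an isomorphism, said through `HasCyclicSchurMultiplier G 1`. -/
theorem result {G : Type*} [Group G] [Finite G] [IsCyclic G] : Cfsg.HasCyclicSchurMultiplier G 1 := by
  refine FGS.trivial_multiplier_of_forall_ker_eq_bot fun Γ _ _ σ hσ => ?_
  have h1 : IsMulCommutative Γ :=
    ⟨⟨fun a b => commutative_of_cyclic_center_quotient σ hσ.2.1 a b⟩⟩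
  have h2 := hσ.2.2
  rwa [commutator_eq_bot, le_bot_iff] at h2

end Cfsg.Agent.S3979
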