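import Cfsg.Statements.S3950
import Mathlib
import Cfsg.Agent.FGS.SchurBilin
import Cfsg.Agent.S3979

set_option autoImplicit false
open Cfsg

namespace Cfsg.Agent.S3950

/-- A finite abelian group has trivial Schur multiplier if and only if it is cyclic. -/
theorem result {G : Type*} [CommGroup G] [Finite G] : Cfsg.HasCyclicSchurMultiplier G 1 ↔ IsCyclic G := by
  refine ⟨fun h => ?_, fun h => S3979.result⟩
  classical
  obtain ⟨ι, _, n, hn, ⟨e⟩⟩ := CommGroup.equiv_prod_multiplicative_zmod_of_finite G
  have h' := FGS.HasSchurMultiplier.congr_left h e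
  by_cases hc : Pairwise (Function.onFun Nat.Coprime n)
  · have e1 : Multiplicative (ZMod (∏ i, n i)) ≃* ((i : ι) → Multiplicative (ZMod (n i))) :=
      (AddEquiv.toMultiplicative (ZMod.prodEquivPi n hc).toAddEquiv).trans
        (MulEquiv.piMultiplicative _)
    exact isCyclic_of_surjective (e1.trans e.symm) (e1.trans e.symm).surjective
  · exfalso
    simp only [Pairwise, not_forall] at hc
    obtain ⟨i, j, hij, hc⟩ := hc
    have : ∀ i, NeZero (n i) := fun i => ⟨by have := hn i; omega⟩
    let d := Nat.gcd (n i) (n j)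
    let f : ((i : ι) → Multiplicative (ZMod (n i))) →* Multiplicative (ZMod d) :=
      (AddMonoidHom.toMultiplicative
        (ZMod.castHom (Nat.gcd_dvd_left (n i) (n j)) (ZMod d)).toAddMonoidHom).comp
        (Pi.evalMonoidHom _ i)
    let g : ((i : ι) → Multiplicative (ZMod (n i))) →* Multiplicative (ZMod d) :=
      (AddMonoidHom.toMultiplicative
        (ZMod.castHom (Nat.gcd_dvd_right (n i) (n j)) (ZMod d)).toAddMonoidHom).comp
        (Pi.evalMonoidHom _ j)
    have hσ := FGS.isStemExtension_mulBilin_zmod f g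
      (x := Pi.mulSingle i (Multiplicative.ofAdd 1))
      (y := Pi.mulSingle j (Multiplicative.ofAdd 1)) (mul_comm _ _)
      (by simp [f, ZMod.cast_one (Nat.gcd_dvd_left (n i) (n j)), d])
      (by simp [g, ZMod.cast_one (Nat.gcd_dvd_right (n i) (n j)), d])
      (by simp [f, Pi.mulSingle_eq_of_ne hij])
    have : NeZero d := ⟨Nat.gcd_ne_zero_left (NeZero.ne _)⟩
    have hk := FGS.ker_eq_bot_of_trivial_multiplier h' hσ
    have hcard := Nat.card_congr (FGS.BilinExt.kerEquiv (FGS.mulBilin f g)).toEquiv
    rw [hk] at hcard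
    simp only [Subgroup.card_bot, Nat.card_eq_fintype_card, Fintype.card_multiplicative,
      ZMod.card] at hcard
    exact hc hcard.symm

end Cfsg.Agent.S3950
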