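import Cfsg.Statements.S3951
import Mathlib
import Cfsg.Agent.FGS.SchurMetacyclic
import Cfsg.Agent.FGS.SchurBilin

set_option autoImplicit false
open Cfsg

namespace Cfsg.Agent.S3951

/-- For positive integers `m` and `n` with `n` dividing `m`, the Schur multiplier of the abelian group `ZMod m × ZMod n` (written multiplicatively) is cyclic of order `n`. In particular the elementary abelian group of order `p ^ 2` has multiplier of order `p`. -/
theorem result (m n : ℕ) [NeZero m] [NeZero n] (hnm : n ∣ m) : Cfsg.HasCyclicSchurMultiplier (Multiplicative (ZMod m × ZMod n)) n := by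
  let f : Multiplicative (ZMod m × ZMod n) →* Multiplicative (ZMod n) :=
    AddMonoidHom.toMultiplicative
      ((ZMod.castHom hnm (ZMod n)).toAddMonoidHom.comp (AddMonoidHom.fst _ _))
  let g : Multiplicative (ZMod m × ZMod n) →* Multiplicative (ZMod n) :=
    AddMonoidHom.toMultiplicative (AddMonoidHom.snd _ _)
  let x : Multiplicative (ZMod m × ZMod n) := Multiplicative.ofAdd (1, 0)
  let y : Multiplicative (ZMod m × ZMod n) := Multiplicative.ofAdd (0, 1)
  have hσ := FGS.isStemExtension_mulBilin_zmod f g (x := x) (y := y) (mul_comm _ _)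
    (by simp [f, x, ZMod.cast_one hnm]) (by simp [g, y]) (by simp [f, y])
  refine FGS.hasSchurMultiplier_of hσ (FGS.BilinExt.kerEquiv _) fun Δ _ _ τ hτ => ?_
  have hgen : Subgroup.closure ({y, x} : Set (Multiplicative (ZMod m × ZMod n))) = ⊤ := by
    rw [eq_top_iff]
    intro w _
    obtain ⟨k, hk⟩ := ZMod.intCast_surjective w.toAdd.1
    obtain ⟨l, hl⟩ := ZMod.intCast_surjective w.toAdd.2
    have : w = x ^ k * y ^ l := by
      simp only [x, y, ← ofAdd_zsmul, ← ofAdd_add, Prod.smul_mk, smul_zero, zsmul_one, hk, hl,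
        Prod.mk_add_mk, add_zero, zero_add, Prod.mk.eta, ofAdd_toAdd]
    rw [this]
    exact mul_mem (zpow_mem (Subgroup.subset_closure (by simp)) _)
      (zpow_mem (Subgroup.subset_closure (by simp)) _)
  obtain ⟨c, h1, h2, h3, -⟩ := FGS.exists_commutator_generator_of_metacyclic hτ.1 hτ.2.1
    hgen (r := 1) (by rw [zpow_one, mul_comm x y, mul_inv_cancel_right])
  refine FGS.exists_surjective_zmod_ker hτ h2 ?_
  have h4 : c ^ (n : ℤ) = 1 := h3 n ⟨0, by
    simp only [zpow_zero, y, ← ofAdd_zsmul, Prod.smul_mk, smul_zero, zsmul_one, Int.cast_natCast,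
      ZMod.natCast_self]; rfl⟩
  rw [zpow_natCast] at h4
  rw [mul_comm, pow_mul, h4, one_pow]

end Cfsg.Agent.S3951
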