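import Cfsg.Statements.S3952
import Mathlib
import Cfsg.Agent.FGS.SchurBasic
import Cfsg.Agent.Char.Irr

set_option autoImplicit false
open Cfsg

namespace Cfsg.Agent.S3952

open scoped IsMulCommutative

theorem central_char {Γ : Type*} [Group Γ] {Z : Subgroup Γ} (hZ : Z ≤ Subgroup.center Γ)
    (hZ' : Z ≤ commutator Γ) (χ : IrrCharacter Γ) :
    ∃ (d : ℕ) (ω : Z →* ℂˣ), χ.1 1 = d ∧ (∀ z : Z, χ.1 z = ω z * d) ∧ ω ^ d = 1 := by
  obtain ⟨χ, n, ρ, hρ, rfl⟩ := χ
  have hn := Char.nontrivial_of_isIrreducible ρ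
  have h1 : ∀ z : Z, ∃ c : ℂ, ρ z = c • LinearMap.id := fun z =>
    Char.exists_scalar_of_commute ρ (ρ z) fun g => by
      change ρ z * ρ g = ρ g * ρ z
      rw [← map_mul, ← map_mul, Subgroup.mem_center_iff.1 (hZ z.2)]
  choose c hc using h1
  have hinj : ∀ a b : ℂ, a • (LinearMap.id : (Fin n → ℂ) →ₗ[ℂ] (Fin n → ℂ)) = b • LinearMap.id →
      a = b := by
    intro a b h
    obtain ⟨v, hv⟩ := exists_ne (0 : Fin n → ℂ)
    have := LinearMap.congr_fun h v
    exact smul_left_injective ℂ hv this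
  let ω : Z →* ℂ :=
    { toFun := c
      map_one' := hinj _ _ (by rw [← hc, one_smul]; exact map_one ρ)
      map_mul' := fun a b => hinj _ _ (by
        rw [← hc, Subgroup.coe_mul, map_mul, hc, hc, smul_mul_smul_comm]; rfl) }
  refine ⟨n, ω.toHomUnits, by simp, fun z => ?_, ?_⟩
  · change ρ.character z = c z * n
    rw [Representation.character, hc, map_smul, LinearMap.trace_id]
    simp
  · ext z
    have h2 : (LinearMap.det.comp ρ).toHomUnits z = 1 :=
      Abelianization.commutator_subset_ker _ (hZ' z.2)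
    have h3 : LinearMap.det (ρ z) = 1 := congrArg Units.val h2
    rw [hc, LinearMap.det_smul, LinearMap.det_id] at h3
    simpa [ω] using h3

/-- If `A` is the Schur multiplier of the finite group `Q`, then the square of the exponent of `A` divides the order of `Q`. -/
theorem result {Q : Type*} [Group Q] [Finite Q] {A : Type*} [CommGroup A] (hA : Cfsg.HasSchurMultiplier Q A) : Monoid.exponent A ^ 2 ∣ Nat.card Q := by
  classical
  obtain ⟨⟨Γ, _, _, σ, hσ, ⟨e⟩⟩, -⟩ := hA
  have := Fintype.ofFinite Γ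
  have := FGS.isMulCommutative_of_le_center hσ.2.1
  have : NeZero (Monoid.exponent σ.ker : ℂ) :=
    ⟨Nat.cast_ne_zero.2 Monoid.exponent_ne_zero_of_finite⟩
  obtain ⟨e₁⟩ := CommGroup.monoidHom_mulEquiv_of_hasEnoughRootsOfUnity σ.ker ℂ
  have : Finite (σ.ker →* ℂˣ) := Finite.of_equiv _ e₁.symm.toEquiv
  obtain ⟨l, hl⟩ := Monoid.exists_orderOf_eq_exponent (G := σ.ker →* ℂˣ)
    ⟨Nat.card (σ.ker →* ℂˣ), Nat.card_pos, fun g => pow_card_eq_one' (G := σ.ker →* ℂˣ)⟩
  rw [Monoid.exponent_eq_of_mulEquiv (e₁.trans e)] at hl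
  choose d ω hd hω hωd using central_char hσ.2.1 hσ.2.2
  have h1 : ∑ z : σ.ker, ((l z)⁻¹ : ℂˣ) * Char.regChar Γ z = Nat.card Γ := by
    rw [Finset.sum_eq_single 1]
    · simp [Char.regChar_one]
    · intro z _ hz
      rw [Char.regChar_of_ne_one (fun h => hz (Subtype.ext h)), mul_zero]
    · simp
  have h2 : ∑ z : σ.ker, ((l z)⁻¹ : ℂˣ) * Char.regChar Γ z =
      ∑ χ : IrrCharacter Γ, (if ω χ = l then (d χ ^ 2 * Nat.card σ.ker : ℕ) else 0 : ℕ) := by
    simp only [Char.regChar_eq_sum, Finset.sum_apply, Pi.smul_apply, smul_eq_mul, Finset.mul_sum]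
    rw [Finset.sum_comm, Nat.cast_sum]
    refine Finset.sum_congr rfl fun χ _ => ?_
    have h3 := sum_hom_units ((Units.coeHom ℂ).comp (ω χ / l))
    have h4 : ∀ z : σ.ker, (((l z)⁻¹ : ℂˣ) : ℂ) * (χ.1 1 * χ.1 z) =
        (d χ : ℂ) ^ 2 * ((Units.coeHom ℂ).comp (ω χ / l)) z := by
      intro z
      rw [hd, hω]
      simp [div_eq_mul_inv]
      ring
    simp only [h4]
    rw [← Finset.mul_sum, h3]
    have h5 : (Units.coeHom ℂ).comp (ω χ / l) = 1 ↔ ω χ = l := by
      rw [← div_eq_one (a := ω χ)]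
      constructor
      · intro h
        ext z
        exact DFunLike.congr_fun h z
      · intro h
        rw [h]; rfl
    by_cases h : ω χ = l
    · rw [if_pos (h5.2 h), if_pos h]; simp
    · rw [if_neg (fun h' => h (h5.1 h')), if_neg h]; simp
  rw [h1, Nat.cast_inj] at h2
  have h6 : Monoid.exponent A ^ 2 * Nat.card σ.ker ∣ Nat.card Γ := by
    rw [h2]
    refine Finset.dvd_sum fun χ _ => ?_
    split_ifs with h
    · refine Nat.mul_dvd_mul_right (pow_dvd_pow_of_dvd ?_ 2) _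
      rw [← hl, ← h]
      exact orderOf_dvd_of_pow_eq_one (hωd χ)
    · exact dvd_zero _
  rw [Subgroup.card_eq_card_quotient_mul_card_subgroup σ.ker,
    Nat.card_congr (QuotientGroup.quotientKerEquivOfSurjective σ hσ.1).toEquiv] at h6
  exact Nat.dvd_of_mul_dvd_mul_right Nat.card_pos h6

end Cfsg.Agent.S3952
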