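import Cfsg.Statements.S3953
import Mathlib
import Cfsg.Agent.FGS.SchurTransfer

set_option autoImplicit false
open Cfsg

namespace Cfsg.Agent.S3953

open scoped IsMulCommutative commutatorElement

theorem split {A B : Type*} [CommGroup A] [CommGroup B] (p : ℕ) [Fact p.Prime] (hB : IsPGroup p B)
    (tr : A →* B) (cor : B →* A) {m : ℕ} (hm : Nat.Coprime m p) (h : ∀ a, cor (tr a) = a ^ m) :
    ∃ C D : Subgroup B, C ⊓ D = ⊥ ∧ C ⊔ D = ⊤ ∧
      Nonempty (CommGroup.primaryComponent A p ≃* C) := by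
  have key : ∀ a ∈ CommGroup.primaryComponent A p, a ^ m = 1 → a = 1 := by
    rintro a ⟨k, hk⟩ ha
    have h1 := pow_gcd_eq_one.2 ⟨ha, hk⟩
    rwa [(Nat.Coprime.pow_right k hm : Nat.gcd m (p ^ k) = 1), pow_one] at h1
  let t := tr.comp (CommGroup.primaryComponent A p).subtype
  have ht : Function.Injective t := by
    rw [injective_iff_map_eq_one]
    intro a ha
    refine Subtype.ext (key a a.2 ?_)
    rw [← h]
    change cor (t a) = 1
    rw [ha, map_one]
  refine ⟨t.range, cor.ker, ?_, ?_, ⟨MonoidHom.ofInjective ht⟩⟩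
  · rw [eq_bot_iff]
    rintro _ ⟨⟨a, rfl⟩, ha⟩
    have : a = 1 := Subtype.ext (key a a.2 (by rw [← h]; exact ha))
    rw [this, map_one]; exact one_mem _
  · rw [eq_top_iff]
    intro b _
    obtain ⟨k, hk⟩ := hB b
    have h1 : cor b ^ p ^ k = 1 := by rw [← map_pow, hk, map_one]
    have h2 : (orderOf (cor b)).Coprime m :=
      Nat.Coprime.coprime_dvd_left (orderOf_dvd_of_pow_eq_one h1) (Nat.Coprime.pow_left k hm.symm)
    obtain ⟨j, hj⟩ := exists_pow_eq_self_of_coprime h2.symm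
    have h3 : cor b ^ j ∈ CommGroup.primaryComponent A p :=
      pow_mem (CommGroup.mem_primaryComponent.2 ⟨k, h1⟩) j
    have : b = t ⟨_, h3⟩ * ((t ⟨_, h3⟩)⁻¹ * b) := by group
    rw [this]
    refine Subgroup.mul_mem_sup ⟨_, rfl⟩ ?_
    rw [MonoidHom.mem_ker, map_mul, map_inv]
    change (cor (tr (cor b ^ j)))⁻¹ * cor b = 1
    rw [h, ← pow_mul, mul_comm j, pow_mul, hj, inv_mul_cancel]

theorem exists_transfer {F G : Type*} [Group F] [IsFreeGroup F] [Group G] [Finite G]
    (φ : F →* G) (hφ : Function.Surjective φ) (U : Subgroup G) :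
    ∃ (tr : FGS.hopfMult φ →* FGS.hopfMult (φ.subgroupComap U))
      (cor : FGS.hopfMult (φ.subgroupComap U) →* FGS.hopfMult φ),
      ∀ a, cor (tr a) = a ^ U.index := by
  classical
  set X := U.comap φ with hX
  set ψ := φ.subgroupComap U with hψ
  have hidx : X.index = U.index := Subgroup.index_comap_of_surjective _ hφ
  have : X.FiniteIndex := ⟨by rw [hidx]; exact Subgroup.FiniteIndex.index_ne_zero⟩
  have := Fintype.ofFinite (F ⧸ X)
  have hcG := FGS.hopfProj_ker_le_center φ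
  have hcU := FGS.hopfProj_ker_le_center ψ
  have := FGS.isMulCommutative_of_le_center hcG
  have := FGS.isMulCommutative_of_le_center hcU
  have hconj : ∀ (f : F) (r : φ.ker), φ (f⁻¹ * r * f) = 1 := fun f r => by
    rw [map_mul, map_mul, r.2, mul_one, map_inv, inv_mul_cancel]
  have hmem : ∀ (f : F) (r : φ.ker), f⁻¹ * r * f ∈ X := fun f r => by
    change φ _ ∈ U
    rw [hconj]; exact one_mem U
  let c : F → φ.ker →* (FGS.hopfProj ψ).ker := fun f => MonoidHom.mk'
    (fun r => ⟨((⟨f⁻¹ * r * f, hmem f r⟩ : X) : FGS.HopfExt ψ), Subtype.ext (hconj f r)⟩)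
    (fun r s => Subtype.ext (by
      change ((_ : X) : FGS.HopfExt ψ) = ((_ * _ : X) : FGS.HopfExt ψ)
      congr 1
      apply Subtype.ext
      simp only [Subgroup.coe_mul]
      group))
  have hc : ∀ f r, (c f r : FGS.HopfExt ψ) = ((⟨f⁻¹ * r * f, hmem f r⟩ : X) : FGS.HopfExt ψ) :=
    fun _ _ => rfl
  have hcu : ∀ (f : F) (u : X) (r : φ.ker), c (f * u) r = c f r := by
    intro f u r
    apply Subtype.ext
    have h1 := Subgroup.mem_center_iff.1 (hcU (c f r).2) (u : FGS.HopfExt ψ)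
    have h2 : (c (f * u) r : FGS.HopfExt ψ) = (u : FGS.HopfExt ψ)⁻¹ * c f r * u := by
      rw [hc, hc, ← QuotientGroup.mk_inv, ← QuotientGroup.mk_mul, ← QuotientGroup.mk_mul]
      congr 1
      apply Subtype.ext
      simp only [Subgroup.coe_mul, Subgroup.coe_inv]
      group
    rw [h2, mul_assoc, ← h1, inv_mul_cancel_left]
  let N : φ.ker →* (FGS.hopfProj ψ).ker := ∏ q : F ⧸ X, c q.out
  have hN : ∀ r, N r = ∏ q : F ⧸ X, c q.out r := fun r => MonoidHom.finsetProd_apply _ _ _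
  have hNconj : ∀ (g : F) (r : φ.ker), N ⟨g⁻¹ * r * g, hconj g r⟩ = N r := by
    intro g r
    rw [hN, hN]
    refine Fintype.prod_equiv (MulAction.toPerm g) _ _ fun q => ?_
    obtain ⟨u, hu⟩ := QuotientGroup.mk_out_eq_mul X (g * q.out)
    have h1 : (g • q).out = g * q.out * u := by
      rw [← hu]; congr 1
      conv_lhs => rw [← QuotientGroup.out_eq' q]
      rfl
    rw [MulAction.toPerm_apply, h1, hcu]
    apply Subtype.ext
    rw [hc, hc]
    congr 2
    group
  let m : φ.ker →* (FGS.hopfProj φ).ker :=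
    ((QuotientGroup.mk' _).comp φ.ker.subtype).codRestrict _ fun r => r.2
  have hm : Function.Surjective m := by
    rintro ⟨x, hx⟩
    obtain ⟨x, rfl⟩ := QuotientGroup.mk_surjective x
    exact ⟨⟨x, hx⟩, rfl⟩
  have hmN : m.ker ≤ N.ker := by
    intro r hr
    have h1 : (r : F) ∈ ⁅φ.ker, (⊤ : Subgroup F)⁆ :=
      (QuotientGroup.eq_one_iff _).1 (congrArg Subtype.val hr)
    have h2 : ⁅φ.ker, (⊤ : Subgroup F)⁆ ≤ N.ker.map φ.ker.subtype := by
      rw [Subgroup.commutator_le]
      intro a ha g _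
      refine ⟨⟨a, ha⟩ * (⟨g⁻¹⁻¹ * (⟨a, ha⟩ : φ.ker) * g⁻¹, hconj g⁻¹ ⟨a, ha⟩⟩ : φ.ker)⁻¹, ?_, ?_⟩
      · rw [SetLike.mem_coe, MonoidHom.mem_ker, map_mul, map_inv, hNconj, mul_inv_cancel]
      · simp only [Subgroup.coe_subtype, Subgroup.coe_mul, Subgroup.coe_inv, commutatorElement_def]
        group
    obtain ⟨s, hs, hs'⟩ := h2 h1
    have : s = r := Subtype.ext hs'
    exact this ▸ hs
  let tr₀ : (FGS.hopfProj φ).ker →* (FGS.hopfProj ψ).ker := m.liftOfSurjective hm ⟨N, hmN⟩
  have htr₀ : ∀ r, tr₀ (m r) = N r := fun r => by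
    simp only [tr₀, MonoidHom.liftOfSurjective, MonoidHom.liftOfRightInverse_comp_apply]
  let cor₀ : FGS.HopfExt ψ →* FGS.HopfExt φ := QuotientGroup.map _ _ X.subtype (by
    rw [← Subgroup.map_le_iff_le_comap, Subgroup.map_commutator]
    refine Subgroup.commutator_mono ?_ le_top
    rintro _ ⟨x, hx, rfl⟩
    exact congrArg Subtype.val hx)
  have hcor : ∀ k : (FGS.hopfProj φ).ker, cor₀ (tr₀ k) = (k : FGS.HopfExt φ) ^ U.index := by
    intro k
    obtain ⟨r, rfl⟩ := hm k
    let cor₁ : (FGS.hopfProj ψ).ker →* (FGS.hopfProj φ).ker :=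
      (cor₀.comp (Subgroup.subtype _)).codRestrict _ (by
        rintro ⟨x, hx⟩
        obtain ⟨x, rfl⟩ := QuotientGroup.mk_surjective x
        exact congrArg Subtype.val hx)
    have h1 : ∀ f, cor₁ (c f r) = m r := by
      intro f
      apply Subtype.ext
      change ((f⁻¹ * r * f : F) : FGS.HopfExt φ) = m r
      have := Subgroup.mem_center_iff.1 (hcG (m r).2) (f : FGS.HopfExt φ)
      rw [QuotientGroup.mk_mul, QuotientGroup.mk_mul, QuotientGroup.mk_inv, mul_assoc]
      change _ * ((m r : FGS.HopfExt φ) * _) = _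
      rw [← this, inv_mul_cancel_left]
    change (cor₁ (tr₀ (m r)) : FGS.HopfExt φ) = _
    rw [htr₀, hN, map_prod]
    simp only [h1, Finset.prod_const, Finset.card_univ, SubmonoidClass.coe_pow]
    rw [← hidx, Subgroup.index, Nat.card_eq_fintype_card]
  let tr₁ : FGS.hopfMult φ →* FGS.HopfExt ψ :=
    (Subgroup.subtype _).comp (tr₀.comp (Subgroup.inclusion inf_le_left))
  have htr₁ : ∀ a, tr₁ a ∈ FGS.hopfMult ψ := by
    intro a
    refine ⟨(tr₀ _).2, ?_⟩
    change tr₁ a ∈ commutator _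
    rw [← Abelianization.ker_of, MonoidHom.mem_ker]
    exact ((Abelianization.of.comp tr₁).isOfFinOrder (isOfFinOrder_of_finite a)).eq_one'
  have hcor₁ : ∀ b : FGS.hopfMult ψ, cor₀ b ∈ FGS.hopfMult φ := by
    rintro ⟨x, hx1, hx2⟩
    refine ⟨?_, ?_⟩
    · obtain ⟨x, rfl⟩ := QuotientGroup.mk_surjective x
      exact congrArg Subtype.val hx1
    · have : (commutator _).map cor₀ ≤ commutator _ := by
        rw [map_commutator_eq]; exact Subgroup.commutator_mono le_top le_top
      exact this ⟨x, hx2, rfl⟩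
  exact ⟨tr₁.codRestrict _ htr₁, (cor₀.comp (Subgroup.subtype _)).codRestrict _ hcor₁,
    fun a => Subtype.ext (hcor ⟨a, a.2.1⟩)⟩

/-- Let `P` be a Sylow `p`-subgroup of the finite group `G`, let `A` be the Schur multiplier of `G` and `B` that of `P`. Then the `p`-primary component of `A` is isomorphic to a direct factor of `B`: there are subgroups `C` and `D` of `B` meeting trivially and generating `B`, with `C` isomorphic to the `p`-primary component of `A`. -/
theorem result {G : Type*} [Group G] [Finite G] (p : ℕ) [Fact p.Prime] (P : Sylow p G) {A B : Type*} [CommGroup A] [CommGroup B] (hA : Cfsg.HasSchurMultiplier G A) (hB : Cfsg.HasSchurMultiplier P B) : ∃ C D : Subgroup B, C ⊓ D = ⊥ ∧ C ⊔ D = ⊤ ∧ Nonempty (CommGroup.primaryComponent A p ≃* C) := by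
  have hφ := FGS.freePres_surjective G
  obtain ⟨tr, cor, h⟩ := exists_transfer (FGS.freePres G) hφ (P : Subgroup G)
  have : ((P : Subgroup G).comap (FGS.freePres G)).FiniteIndex := ⟨by
    rw [Subgroup.index_comap_of_surjective _ hφ]; exact Subgroup.FiniteIndex.index_ne_zero⟩
  obtain ⟨e₁⟩ := FGS.HasSchurMultiplier.unique hA (FGS.hasSchurMultiplier_freePres G)
  obtain ⟨e₂⟩ := FGS.HasSchurMultiplier.unique hB (FGS.hasSchurMultiplier_hopfMult
    ((FGS.freePres G).subgroupComap_surjective_of_surjective (P : Subgroup G) hφ))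
  have hBp : IsPGroup p B := fun b => by
    obtain ⟨k, hk⟩ := IsPGroup.iff_card.1 P.2
    exact ⟨k, by rw [← hk]; exact FGS.HasSchurMultiplier.pow_card_eq_one hB b⟩
  refine split p hBp (e₂.symm.toMonoidHom.comp (tr.comp e₁.toMonoidHom))
    (e₁.symm.toMonoidHom.comp (cor.comp e₂.toMonoidHom)) (m := (P : Subgroup G).index)
    (((Fact.out : p.Prime).coprime_iff_not_dvd.2 P.not_dvd_index).symm) fun a => ?_
  simp [h]

end Cfsg.Agent.S3953
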