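import Cfsg.Statements.S3954
import Mathlib
import Cfsg.Agent.FGS.SchurTransfer

set_option autoImplicit false
open Cfsg

namespace Cfsg.Agent.S3954

/-- Let `U` be a subgroup of index `m` in the finite group `G`, let `A` be the Schur multiplier of `G` and `B` that of `U`. Then the subgroup of `m`-th powers of `A` is isomorphic to a subgroup of `B`. -/
theorem result {G : Type*} [Group G] [Finite G] (U : Subgroup G) {A B : Type*} [CommGroup A] [CommGroup B] (hA : Cfsg.HasSchurMultiplier G A) (hB : Cfsg.HasSchurMultiplier U B) : ∃ C : Subgroup B, Nonempty ((powMonoidHom U.index : A →* A).range ≃* C) := by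
  have := FGS.HasSchurMultiplier.finite hB
  obtain ⟨⟨Γ, _, _, σ, hσ, ⟨e⟩⟩, -⟩ := hA
  obtain ⟨f, hf⟩ := FGS.HasSchurMultiplier.exists_range_eq_ker_inf hσ.1 hσ.2.1 hB
  obtain ⟨g, hg⟩ := FGS.exists_injective_of_surjective_commGroup (QuotientGroup.mk' f.ker)
    (QuotientGroup.mk'_surjective _)
  have hmem : ∀ a : (powMonoidHom U.index : A →* A).range, (e.symm a : Γ) ∈ f.range := by
    rintro ⟨_, a, rfl⟩
    rw [hf]
    refine ⟨(e.symm _).2, ?_⟩
    have h1 := FGS.pow_index_mem_commutator_of_mem_center (U.comap σ) (hσ.2.1 (e.symm a).2)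
      (hσ.2.2 (e.symm a).2)
    rw [Subgroup.index_comap_of_surjective _ hσ.1] at h1
    simpa using h1
  let k : (powMonoidHom U.index : A →* A).range →* f.range :=
    ((σ.ker.subtype.comp e.symm.toMonoidHom).comp (Subgroup.subtype _)).codRestrict _ hmem
  have hk : Function.Injective k := by
    intro a b h
    have h1 : (e.symm a : Γ) = e.symm b := congrArg (fun x : f.range => (x : Γ)) h
    exact Subtype.ext (e.symm.injective (Subtype.ext h1))
  let t := g.comp ((QuotientGroup.quotientKerEquivRange f).symm.toMonoidHom.comp k)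
  have ht : Function.Injective t :=
    hg.comp ((QuotientGroup.quotientKerEquivRange f).symm.injective.comp hk)
  exact ⟨t.range, ⟨MonoidHom.ofInjective ht⟩⟩

end Cfsg.Agent.S3954
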