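import Cfsg.Statements.S3956
import Mathlib
import Cfsg.Agent.FGS.SchurProj

set_option autoImplicit false
universe u v
open Cfsg

namespace Cfsg.Agent.S3956

/-- Let `σ : Γ →* Q` be a finite stem extension of the finite group `Q` such that every homomorphism from `Q` to the quotient of `GL n ℂ` by its centre, for every `n`, lifts along `σ` to a homomorphism `Γ →* GL n ℂ`. Then `σ` is a Schur covering group of `Q`: for every finite stem extension `τ : Δ →* Q` with `Δ` in the same universe as `Q`, the kernel of `τ` is a homomorphic image of the kernel of `σ`. -/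
theorem result {Q : Type u} [Group Q] [Finite Q] {Γ : Type v} [Group Γ] [Finite Γ] (σ : Γ →* Q) (hσ : Cfsg.IsStemExtension σ) (hlift : ∀ (n : ℕ) (γ : Q →* (GL (Fin n) ℂ ⧸ Subgroup.center (GL (Fin n) ℂ))), ∃ ρ : Γ →* GL (Fin n) ℂ, (QuotientGroup.mk' (Subgroup.center (GL (Fin n) ℂ))).comp ρ = γ.comp σ) (Δ : Type u) [Group Δ] [Finite Δ] (τ : Δ →* Q) (hτ : Cfsg.IsStemExtension τ) : ∃ π : σ.ker →* τ.ker, Function.Surjective π := by
  have hA := FGS.hasSchurMultiplier_freePres Q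
  have hs := FGS.hopfProj_surjective (FGS.freePres_surjective Q)
  obtain ⟨η, hη⟩ := FGS.exists_hopf_lift (FGS.freePres Q) hσ.1 hσ.2.1
  obtain ⟨Γ₀, _, _, σ₀, hσ₀, ⟨e₀⟩⟩ := hA.1
  obtain ⟨η₀, hη₀⟩ := FGS.exists_hopf_lift (FGS.freePres Q) hσ₀.1 hσ₀.2.1
  have hb₀ := FGS.ker_inf_commutator_eq_bot_of_card_eq hs hσ₀ hη₀ (Nat.card_congr e₀.toEquiv)
  have hb : η.ker ⊓ commutator _ = ⊥ := by
    rw [eq_bot_iff]
    rintro t ⟨ht1, ht2⟩
    rw [← hb₀]
    refine ⟨?_, ht2⟩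
    by_contra hne
    have hk : η₀ t ∈ σ₀.ker := by
      rw [MonoidHom.mem_ker, ← MonoidHom.comp_apply, hη₀, ← hη, MonoidHom.comp_apply, ht1, map_one]
    have := FGS.isMulCommutative_of_le_center hσ₀.2.1
    let : CommGroup σ₀.ker := { (inferInstance : Group σ₀.ker) with mul_comm := mul_comm' }
    have : NeZero (Monoid.exponent σ₀.ker : ℂ) :=
      ⟨Nat.cast_ne_zero.2 Monoid.exponent_ne_zero_of_finite⟩
    obtain ⟨l, hl⟩ := CommGroup.exists_apply_ne_one_of_hasEnoughRootsOfUnity σ₀.ker ℂ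
      (a := ⟨η₀ t, hk⟩) (fun h => hne (congrArg Subtype.val h))
    obtain ⟨n, ρ₀, hn, hρ₀⟩ := FGS.exists_rep_of_central_character hσ₀.2.1 l
    let q := QuotientGroup.mk' (Subgroup.center (GL (Fin n) ℂ))
    have hq : σ₀.ker ≤ (q.comp ρ₀).ker := by
      intro z hz
      rw [MonoidHom.mem_ker, MonoidHom.comp_apply, ← MonoidHom.mem_ker, QuotientGroup.ker_mk',
        Matrix.GeneralLinearGroup.center_eq_range_scalar]
      exact ⟨_, (hρ₀ ⟨z, hz⟩).symm⟩
    let γ := σ₀.liftOfSurjective hσ₀.1 ⟨q.comp ρ₀, hq⟩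
    have hγ : γ.comp σ₀ = q.comp ρ₀ := by
      ext x
      simp only [γ, MonoidHom.comp_apply, MonoidHom.liftOfSurjective,
        MonoidHom.liftOfRightInverse_comp_apply]
    obtain ⟨ρ, hρ⟩ := hlift n γ
    have h1 : (ρ.comp η) t = (ρ₀.comp η₀) t := by
      refine FGS.eq_on_commutator_of_comp_eq (σ := q) (QuotientGroup.ker_mk' _).le ?_ ht2
      rw [← MonoidHom.comp_assoc, ← MonoidHom.comp_assoc, hρ, ← hγ, MonoidHom.comp_assoc,
        MonoidHom.comp_assoc, hη, hη₀]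
    rw [MonoidHom.comp_apply, MonoidHom.comp_apply, ht1, map_one, hρ₀ ⟨_, hk⟩] at h1
    apply hl
    have h2 := congrArg (fun g : GL (Fin n) ℂ => g.val ⟨0, Nat.pos_of_ne_zero hn⟩
      ⟨0, Nat.pos_of_ne_zero hn⟩) h1
    apply Units.ext
    simpa [Matrix.scalar_apply] using h2.symm
  obtain ⟨e⟩ := FGS.nonempty_ker_mulEquiv_of_inf_eq_bot hs hσ hη hb
  obtain ⟨π, hπ⟩ := hA.2 Δ τ hτ
  exact ⟨π.comp e.toMonoidHom, hπ.comp e.surjective⟩

end Cfsg.Agent.S3956
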