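import Cfsg.Statements.S3957
import Mathlib
import Cfsg.Agent.FGS.SchurHopf

set_option autoImplicit false
universe u v
open Cfsg

namespace Cfsg.Agent.S3957

/-- Let `Q` be a finite group with Schur multiplier `A` and let `τ : Δ →* Q` be a finite stem extension, `Δ` in the universe of `Q`. Then there is a finite stem extension `σ : Γ →* Q` with kernel isomorphic to `A` (a Schur covering group) and a surjective homomorphism `β : Γ →* Δ` with `τ ∘ β = σ`. -/
theorem result {Q : Type u} [Group Q] [Finite Q] {A : Type v} [CommGroup A] (hA : Cfsg.HasSchurMultiplier Q A) {Δ : Type u} [Group Δ] [Finite Δ] (τ : Δ →* Q) (hτ : Cfsg.IsStemExtension τ) : ∃ (Γ : Type u) (_ : Group Γ) (_ : Finite Γ) (σ : Γ →* Q), Cfsg.IsStemExtension σ ∧ Nonempty (σ.ker ≃* A) ∧ ∃ β : Γ →* Δ, Function.Surjective β ∧ τ.comp β = σ := by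
  obtain ⟨e⟩ := FGS.HasSchurMultiplier.unique hA (FGS.hasSchurMultiplier_freePres Q)
  have hs := FGS.hopfProj_surjective (FGS.freePres_surjective Q)
  have hc := FGS.hopfProj_ker_le_center (FGS.freePres Q)
  obtain ⟨η, hη⟩ := FGS.exists_hopf_lift (FGS.freePres Q) hτ.1 hτ.2.1
  have hηs : Function.Surjective η := FGS.surjective_of_stem hτ (hη ▸ hs)
  have hle : η.ker ≤ (FGS.hopfProj (FGS.freePres Q)).ker := by
    intro x hx
    rw [MonoidHom.mem_ker, ← hη, MonoidHom.comp_apply, hx, map_one]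
  obtain ⟨S₀, h0, h1, h2⟩ := FGS.exists_compl_inf_commutator (hle.trans hc)
  have := FGS.normal_of_le_center (h0.trans (hle.trans hc))
  have h3 : (FGS.hopfProj (FGS.freePres Q)).ker ≤
      S₀ ⊔ ((FGS.hopfProj (FGS.freePres Q)).ker ⊓ commutator _) := by
    intro x hx
    have hm := FGS.map_ker_inf_commutator hτ.2.1 hη hs
    rw [FGS.IsStemExtension.ker_inf_commutator hτ] at hm
    have hx' : η x ∈ τ.ker := by
      rw [MonoidHom.mem_ker, ← MonoidHom.comp_apply, hη]; exact hx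
    rw [← hm] at hx'
    obtain ⟨t, ht, ht'⟩ := hx'
    have hk : x * t⁻¹ ∈ η.ker := by
      rw [MonoidHom.mem_ker, map_mul, map_inv, ht']; group
    rw [← h2] at hk
    have hk' : x * t⁻¹ ∈ S₀ ⊔ ((FGS.hopfProj (FGS.freePres Q)).ker ⊓ commutator _) :=
      sup_le_sup_left (inf_le_inf_right _ hle) S₀ hk
    have : x = x * t⁻¹ * t := by group
    rw [this]
    exact mul_mem hk' (Subgroup.mem_sup_right ht)
  obtain ⟨hf, hst, ⟨e'⟩⟩ := FGS.stem_quotient_of_compl hs hc S₀ (h0.trans hle) h1 h3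
  refine ⟨_, _, hf, _, hst, ⟨e'.trans e.symm⟩, QuotientGroup.lift S₀ η h0, ?_, ?_⟩
  · intro y
    obtain ⟨x, rfl⟩ := hηs y
    exact ⟨x, rfl⟩
  · apply MonoidHom.ext
    intro x
    obtain ⟨x, rfl⟩ := QuotientGroup.mk_surjective x
    exact DFunLike.congr_fun hη x

end Cfsg.Agent.S3957
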