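import Cfsg.Statements.S3958
import Mathlib
import Cfsg.Agent.FGS.SchurHopf
import Cfsg.Agent.S3957

set_option autoImplicit false
universe u v
open Cfsg

namespace Cfsg.Agent.S3958

/-- Let `σ : Γ →* Q` be a finite stem extension of the finite group `Q` with `Γ` of trivial Schur multiplier. Then `σ` is a Schur covering group of `Q`: for every finite stem extension `τ : Δ →* Q` with `Δ` in the same universe as `Q`, the kernel of `τ` is a homomorphic image of the kernel of `σ`. -/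
theorem result {Q : Type u} [Group Q] [Finite Q] {Γ : Type v} [Group Γ] [Finite Γ] (σ : Γ →* Q) (hσ : Cfsg.IsStemExtension σ) (hΓ : Cfsg.HasCyclicSchurMultiplier Γ 1) (Δ : Type u) [Group Δ] [Finite Δ] (τ : Δ →* Q) (hτ : Cfsg.IsStemExtension τ) : ∃ π : σ.ker →* τ.ker, Function.Surjective π := by
  obtain ⟨Γ', _, _, ⟨e⟩⟩ := FGS.exists_finite_copy.{u} Γ
  have hA := FGS.hasSchurMultiplier_freePres Q
  obtain ⟨Γ₀, _, _, σ₀, hσ₀, ⟨e₀⟩, β, hβ, hβ'⟩ :=
    S3957.result hA (σ.comp e.toMonoidHom) (FGS.IsStemExtension.comp_mulEquiv hσ e)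
  have hle : (e.toMonoidHom.comp β).ker ≤ σ₀.ker := by
    intro x hx
    rw [MonoidHom.mem_ker, ← hβ']
    change σ ((e.toMonoidHom.comp β) x) = 1
    rw [hx, map_one]
  have hst : IsStemExtension (e.toMonoidHom.comp β) :=
    ⟨e.surjective.comp hβ, hle.trans hσ₀.2.1, hle.trans hσ₀.2.2⟩
  have hk := FGS.ker_eq_bot_of_trivial_multiplier hΓ hst
  let e₁ : Γ₀ ≃* Γ := MulEquiv.ofBijective (e.toMonoidHom.comp β)
    ⟨(MonoidHom.ker_eq_bot_iff _).1 hk, hst.1⟩
  have h1 : σ.comp e₁.toMonoidHom = σ₀ := by rw [← hβ']; rfl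
  obtain ⟨e₂⟩ := FGS.nonempty_ker_comp_mulEquiv σ e₁
  rw [h1] at e₂
  obtain ⟨π, hπ⟩ := hA.2 Δ τ hτ
  exact ⟨π.comp (e₂.symm.trans e₀).toMonoidHom, hπ.comp (e₂.symm.trans e₀).surjective⟩

end Cfsg.Agent.S3958
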