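import Cfsg.Statements.S3959
import Mathlib
import Cfsg.Agent.FGS.SchurTransfer
import Cfsg.Agent.FGS.SchurBilin

set_option autoImplicit false
universe u v w
open Cfsg

namespace Cfsg.Agent.S3959

open scoped commutatorElement IsMulCommutative TensorProduct

theorem comm_mul_center {Γ : Type*} [Group Γ] {x y z w : Γ} (hz : z ∈ Subgroup.center Γ)
    (hw : w ∈ Subgroup.center Γ) : ⁅x * z, y * w⁆ = ⁅x, y⁆ := by
  rw [Subgroup.mem_center_iff] at hz hw
  simp only [commutatorElement_def, mul_inv_rev]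
  have h1 : z * (y * w) * z⁻¹ = y * w := by
    rw [← hz (y * w)]; group
  have h2 : w * x⁻¹ * w⁻¹ = x⁻¹ := by
    rw [← hw x⁻¹]; group
  calc x * z * (y * w) * (z⁻¹ * x⁻¹) * (w⁻¹ * y⁻¹)
      = x * (z * (y * w) * z⁻¹) * x⁻¹ * w⁻¹ * y⁻¹ := by group
    _ = x * y * (w * x⁻¹ * w⁻¹) * y⁻¹ := by rw [h1]; group
    _ = x * y * x⁻¹ * y⁻¹ := by rw [h2]

/-- The tensor product of the abelianizations. -/
abbrev T (Q₁ Q₂ : Type*) [Group Q₁] [Group Q₂] : Type _ :=
  Multiplicative (TensorProduct ℤ (Additive (Abelianization Q₁)) (Additive (Abelianization Q₂)))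

/-- The pure tensor of the classes of two elements. -/
def tm {Q₁ Q₂ : Type*} [Group Q₁] [Group Q₂] : Q₁ →* Q₂ →* T Q₁ Q₂ where
  toFun a :=
    { toFun := fun b => Multiplicative.ofAdd
        (Additive.ofMul (Abelianization.of a) ⊗ₜ[ℤ] Additive.ofMul (Abelianization.of b))
      map_one' := by simp
      map_mul' := fun b c => by simp [TensorProduct.tmul_add] }
  map_one' := by ext; simp
  map_mul' a b := by ext; simp [TensorProduct.add_tmul]

theorem closure_tm {Q₁ Q₂ : Type*} [Group Q₁] [Group Q₂] (S : Subgroup (T Q₁ Q₂))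
    (h : ∀ a b, tm a b ∈ S) : S = ⊤ := by
  rw [eq_top_iff]
  intro w _
  change Multiplicative.ofAdd (Multiplicative.toAdd w) ∈ S
  induction Multiplicative.toAdd w using TensorProduct.induction_on with
  | zero => exact one_mem S
  | tmul x y =>
    obtain ⟨a, ha⟩ := Quot.mk_surjective x.toMul
    obtain ⟨b, hb⟩ := Quot.mk_surjective y.toMul
    have h1 : x = Additive.ofMul (Abelianization.of a) := congrArg Additive.ofMul ha.symm
    have h2 : y = Additive.ofMul (Abelianization.of b) := congrArg Additive.ofMul hb.symm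
    rw [h1, h2]; exact h a b
  | add x y hx hy => rw [ofAdd_add]; exact mul_mem hx hy

theorem exists_lift_tm {Q₁ Q₂ Z : Type*} [Group Q₁] [Group Q₂] [CommGroup Z]
    (c : Q₁ →* Q₂ →* Z) : ∃ f : T Q₁ Q₂ →* Z, ∀ a b, f (tm a b) = c a b := by
  let c₁ : Abelianization Q₁ →* Q₂ →* Z := Abelianization.lift c
  let c₂ : Abelianization Q₂ →* Abelianization Q₁ →* Z := Abelianization.lift c₁.flip
  let c₃ : Additive (Abelianization Q₁) →+ Additive (Abelianization Q₂) →+ Additive Z :=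
    { toFun := fun a => MonoidHom.toAdditive (c₂.flip a.toMul)
      map_zero' := by ext; simp
      map_add' := fun a b => by ext; simp }
  let f := TensorProduct.liftAddHom (R := ℤ) c₃ (fun r m n => by
    rw [map_zsmul, map_zsmul, AddMonoidHom.smul_apply])
  exact ⟨AddMonoidHom.toMultiplicativeLeft f, fun a b => rfl⟩

theorem upper {Q₁ Q₂ A B Δ : Type*} [Group Q₁] [Group Q₂] [CommGroup A] [CommGroup B] [Group Δ]
    (hA : HasSchurMultiplier Q₁ A) (hB : HasSchurMultiplier Q₂ B) {τ : Δ →* Q₁ × Q₂}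
    (hτ : IsStemExtension τ) : ∃ π : A × B × T Q₁ Q₂ →* τ.ker, Function.Surjective π := by
  have hA' := FGS.HasSchurMultiplier.congr_left hA
    (MonoidHom.ofInjective (f := MonoidHom.inl Q₁ Q₂) fun a b h => congrArg Prod.fst h)
  have hB' := FGS.HasSchurMultiplier.congr_left hB
    (MonoidHom.ofInjective (f := MonoidHom.inr Q₁ Q₂) fun a b h => congrArg Prod.snd h)
  obtain ⟨f₁, hf₁⟩ := FGS.HasSchurMultiplier.exists_range_eq_ker_inf hτ.1 hτ.2.1 hA'
  obtain ⟨f₂, hf₂⟩ := FGS.HasSchurMultiplier.exists_range_eq_ker_inf hτ.1 hτ.2.1 hB'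
  set X₁ := (MonoidHom.inl Q₁ Q₂).range.comap τ with hX₁
  set X₂ := (MonoidHom.inr Q₁ Q₂).range.comap τ with hX₂
  have m₁ : ∀ x, x ∈ X₁ ↔ (τ x).2 = 1 := fun x =>
    ⟨fun ⟨a, ha⟩ => by rw [← ha]; rfl, fun h => ⟨(τ x).1, Prod.ext rfl h.symm⟩⟩
  have m₂ : ∀ x, x ∈ X₂ ↔ (τ x).1 = 1 := fun x =>
    ⟨fun ⟨a, ha⟩ => by rw [← ha]; rfl, fun h => ⟨(τ x).2, Prod.ext h.symm rfl⟩⟩
  have n₁ : X₁.Normal := ⟨fun x hx g => by
    rw [m₁] at hx ⊢; simp [hx]⟩
  have n₂ : X₂.Normal := ⟨fun x hx g => by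
    rw [m₂] at hx ⊢; simp [hx]⟩
  have := FGS.isMulCommutative_of_le_center hτ.2.1
  choose s hs using hτ.1
  have hk : ∀ x y, (τ x).2 = 1 → (τ y).1 = 1 → ⁅x, y⁆ ∈ τ.ker := by
    intro x y hx hy
    rw [MonoidHom.mem_ker, map_commutatorElement, commutatorElement_eq_one_iff_mul_comm]
    ext <;> simp [hx, hy]
  have hcongr : ∀ x y x' y', τ x = τ x' → τ y = τ y' → ⁅x, y⁆ = ⁅x', y'⁆ := by
    intro x y x' y' hx hy
    have h1 : x'⁻¹ * x ∈ Subgroup.center Δ := hτ.2.1 (by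
      rw [MonoidHom.mem_ker, map_mul, map_inv, hx]; group)
    have h2 : y'⁻¹ * y ∈ Subgroup.center Δ := hτ.2.1 (by
      rw [MonoidHom.mem_ker, map_mul, map_inv, hy]; group)
    rw [← comm_mul_center (x := x') (y := y') h1 h2]; congr 1 <;> group
  let c : Q₁ →* Q₂ →* τ.ker := MonoidHom.mk' (fun a => MonoidHom.mk'
    (fun b => ⟨⁅s (a, 1), s (1, b)⁆, hk _ _ (by rw [hs]) (by rw [hs])⟩) (fun b b' => by
      apply Subtype.ext
      change ⁅s (a, 1), s (1, b * b')⁆ = ⁅s (a, 1), s (1, b)⁆ * ⁅s (a, 1), s (1, b')⁆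
      rw [hcongr _ (s (1, b * b')) (s (a, 1)) (s (1, b) * s (1, b')) rfl (by simp [hs]),
        commutatorElement_mul_right_eq_mul_conj]
      have := Subgroup.mem_center_iff.1
        (hτ.2.1 (hk (s (a, 1)) (s (1, b')) (by rw [hs]) (by rw [hs]))) (s (1, b))
      rw [mul_assoc, mul_assoc, ← mul_assoc (s (1, b)), this, mul_inv_cancel_right]))
    (fun a a' => by
      ext b
      change ⁅s (a * a', 1), s (1, b)⁆ = ⁅s (a, 1), s (1, b)⁆ * ⁅s (a', 1), s (1, b)⁆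
      rw [hcongr (s (a * a', 1)) _ (s (a, 1) * s (a', 1)) (s (1, b)) (by simp [hs]) rfl,
        commutatorElement_mul_left_eq_conj_mul]
      have h1 := Subgroup.mem_center_iff.1
        (hτ.2.1 (hk (s (a', 1)) (s (1, b)) (by rw [hs]) (by rw [hs])))
      rw [h1, mul_inv_cancel_right, h1])
  have hc : ∀ x y, (τ x).2 = 1 → (τ y).1 = 1 → ⁅x, y⁆ = c (τ x).1 (τ y).2 := by
    intro x y hx hy
    exact hcongr _ _ _ _ (by rw [hs, ← hx]) (by rw [hs, ← hy])
  obtain ⟨f₃, hf₃⟩ := exists_lift_tm c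
  let g₁ : A →* τ.ker := f₁.codRestrict _ fun a => (hf₁.le ⟨a, rfl⟩).1
  let g₂ : B →* τ.ker := f₂.codRestrict _ fun a => (hf₂.le ⟨a, rfl⟩).1
  let C : Subgroup Δ := (τ.ker.subtype.comp f₃).range
  have hC : C ≤ τ.ker := by rintro _ ⟨w, rfl⟩; exact (f₃ w).2
  have nC : C.Normal := FGS.normal_of_le_center (hC.trans hτ.2.1)
  have hcomm : commutator Δ ≤ ⁅X₁, X₁⁆ ⊔ (⁅X₂, X₂⁆ ⊔ C) := by
    rw [← Subgroup.Normal.quotient_commutative_iff_commutator_le]
    let q := QuotientGroup.mk' (⁅X₁, X₁⁆ ⊔ (⁅X₂, X₂⁆ ⊔ C))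
    have hq : ∀ x y, ⁅x, y⁆ ∈ ⁅X₁, X₁⁆ ⊔ (⁅X₂, X₂⁆ ⊔ C) → Commute (q x) (q y) := by
      intro x y h
      rw [← commutatorElement_eq_one_iff_commute, ← map_commutatorElement]
      exact (QuotientGroup.eq_one_iff _).2 h
    have hq12 : ∀ x ∈ X₁, ∀ y ∈ X₂, Commute (q x) (q y) := by
      intro x hx y hy
      apply hq
      refine Subgroup.mem_sup_right (Subgroup.mem_sup_right ⟨tm (τ x).1 (τ y).2, ?_⟩)
      rw [hc x y ((m₁ x).1 hx) ((m₂ y).1 hy), ← hf₃]; rfl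
    have hdec : ∀ x : Δ, ∃ a ∈ X₁, ∃ b ∈ X₂, x = a * b := by
      intro x
      refine ⟨s ((τ x).1, 1), (m₁ _).2 (by rw [hs]), (s ((τ x).1, 1))⁻¹ * x, (m₂ _).2 ?_, by group⟩
      simp [hs]
    refine ⟨⟨fun x y => ?_⟩⟩
    obtain ⟨x, rfl⟩ := QuotientGroup.mk'_surjective _ x
    obtain ⟨y, rfl⟩ := QuotientGroup.mk'_surjective _ y
    obtain ⟨a, ha, b, hb, rfl⟩ := hdec x
    obtain ⟨a', ha', b', hb', rfl⟩ := hdec y
    change Commute (q _) (q _)
    rw [map_mul, map_mul]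
    refine Commute.mul_left (Commute.mul_right ?_ (hq12 a ha b' hb'))
      (Commute.mul_right (hq12 a' ha' b hb).symm ?_)
    · exact hq _ _ (Subgroup.mem_sup_left (Subgroup.commutator_mem_commutator ha ha'))
    · exact hq _ _ (Subgroup.mem_sup_right (Subgroup.mem_sup_left
        (Subgroup.commutator_mem_commutator hb hb')))
  refine ⟨g₁.coprod (g₂.coprod f₃), fun z => ?_⟩
  have hz := hcomm (hτ.2.2 z.2)
  obtain ⟨x₁, hx₁, y, hy, hz'⟩ := Subgroup.mem_sup_of_normal_left.1 hz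
  obtain ⟨x₂, hx₂, _, ⟨w, rfl⟩, rfl⟩ := Subgroup.mem_sup_of_normal_left.1 hy
  have h1 : τ x₁ * τ x₂ = 1 := by
    have := congrArg τ hz'
    rw [map_mul, map_mul, z.2] at this
    have h2 : τ ((τ.ker.subtype.comp f₃) w) = 1 := (f₃ w).2
    rwa [h2, mul_one] at this
  have h2 := (m₁ _).1 (Subgroup.commutator_le_self X₁ hx₁)
  have h3 := (m₂ _).1 (Subgroup.commutator_le_self X₂ hx₂)
  have h4 : τ x₁ = 1 := Prod.ext (by simpa [h3] using congrArg Prod.fst h1) h2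
  have h5 : τ x₂ = 1 := Prod.ext h3 (by simpa [h2] using congrArg Prod.snd h1)
  obtain ⟨a, rfl⟩ := hf₁.ge ⟨h4, hx₁⟩
  obtain ⟨b, rfl⟩ := hf₂.ge ⟨h5, hx₂⟩
  exact ⟨(a, b, w), Subtype.ext hz'⟩

/-- Let `Q₁` and `Q₂` be finite groups with Schur multipliers `A` and `B`. Then the Schur multiplier of `Q₁ × Q₂` is isomorphic to `A × B × (Q₁ᵃᵇ ⊗ Q₂ᵃᵇ)`, the last factor being the tensor product over the integers of the commutator quotients, written multiplicatively. -/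
theorem result {Q₁ : Type u} {Q₂ : Type v} [Group Q₁] [Group Q₂] [Finite Q₁] [Finite Q₂] {A B : Type w} [CommGroup A] [CommGroup B] (hA : Cfsg.HasSchurMultiplier Q₁ A) (hB : Cfsg.HasSchurMultiplier Q₂ B) : Cfsg.HasSchurMultiplier (Q₁ × Q₂) (A × B × Multiplicative (TensorProduct ℤ (Additive (Abelianization Q₁)) (Additive (Abelianization Q₂)))) := by
  obtain ⟨Γ₁, _, _, σ₁, hσ₁, ⟨e₁⟩⟩ := hA.1
  obtain ⟨Γ₂, _, _, σ₂, hσ₂, ⟨e₂⟩⟩ := hB.1
  let β : Γ₁ × Γ₂ →* Γ₁ × Γ₂ →* T Q₁ Q₂ :=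
    (tm.comp (σ₁.comp (MonoidHom.fst Γ₁ Γ₂))).compl₂ (σ₂.comp (MonoidHom.snd Γ₁ Γ₂))
  have hβ : ∀ x y, β x y = tm (σ₁ x.1) (σ₂ y.2) := fun _ _ => rfl
  let σ : FGS.BilinExt β →* Q₁ × Q₂ := (σ₁.prodMap σ₂).comp (FGS.BilinExt.proj β)
  have hker : ∀ x, x ∈ σ.ker ↔ σ₁ x.fst.1 = 1 ∧ σ₂ x.fst.2 = 1 := fun x => Prod.ext_iff
  have : Finite (T Q₁ Q₂) := by
    have : Group.FG (T Q₁ Q₂) := Group.fg_iff.2 ⟨Set.range fun x : Q₁ × Q₂ => tm x.1 x.2,
      closure_tm _ fun a b => Subgroup.subset_closure ⟨(a, b), rfl⟩, Set.finite_range _⟩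
    apply CommGroup.finite_of_fg_isMulTorsion
    intro w
    have : w ∈ CommGroup.torsion (T Q₁ Q₂) := by
      rw [closure_tm (CommGroup.torsion (T Q₁ Q₂)) fun a b =>
        (tm a).isOfFinOrder (isOfFinOrder_of_finite b)]
      trivial
    exact this
  have hσ : IsStemExtension σ := by
    refine ⟨(hσ₁.1.prodMap hσ₂.1).comp FGS.BilinExt.proj_surjective, fun x hx => ?_,
      fun x hx => ?_⟩
    · obtain ⟨h1, h2⟩ := (hker x).1 hx
      rw [Subgroup.mem_center_iff]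
      intro g
      ext
      · exact Subgroup.mem_center_iff.1 (hσ₁.2.1 h1) _
      · exact Subgroup.mem_center_iff.1 (hσ₂.2.1 h2) _
      · simp [hβ, h1, h2, mul_comm]
    · obtain ⟨h1, h2⟩ := (hker x).1 hx
      let i₁ : Γ₁ →* FGS.BilinExt β := MonoidHom.mk' (fun g => ⟨(g, 1), 1⟩) (fun a b => by
        ext <;> simp [hβ])
      let i₂ : Γ₂ →* FGS.BilinExt β := MonoidHom.mk' (fun g => ⟨(1, g), 1⟩) (fun a b => by
        ext <;> simp [hβ])
      have e : x = i₁ x.fst.1 * i₂ x.fst.2 * FGS.BilinExt.incl β x.snd := by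
        ext <;> simp [i₁, i₂, hβ, h1]
      rw [e]
      refine mul_mem (mul_mem ?_ ?_) ?_
      · have : (commutator Γ₁).map i₁ ≤ commutator _ := by
          rw [map_commutator_eq]; exact Subgroup.commutator_mono le_top le_top
        exact this ⟨_, hσ₁.2.2 h1, rfl⟩
      · have : (commutator Γ₂).map i₂ ≤ commutator _ := by
          rw [map_commutator_eq]; exact Subgroup.commutator_mono le_top le_top
        exact this ⟨_, hσ₂.2.2 h2, rfl⟩
      · have : (commutator _).comap (FGS.BilinExt.incl β) = ⊤ := by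
          apply closure_tm
          intro a b
          obtain ⟨a, rfl⟩ := hσ₁.1 a
          obtain ⟨b, rfl⟩ := hσ₂.1 b
          have := FGS.BilinExt.incl_div_mem_commutator (β := β) (g := (a, 1)) (h := (1, b))
            (by simp)
          simpa [hβ] using this
        exact this.ge (Subgroup.mem_top _)
  let k : σ.ker →* σ₁.ker × σ₂.ker × T Q₁ Q₂ := MonoidHom.mk'
    (fun x => (⟨x.1.fst.1, ((hker x.1).1 x.2).1⟩, ⟨x.1.fst.2, ((hker x.1).1 x.2).2⟩, x.1.snd))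
    (fun x y => by
      refine Prod.ext rfl (Prod.ext rfl ?_)
      simp [hβ, ((hker x.1).1 x.2).1])
  have hk : Function.Bijective k := by
    constructor
    · intro x y h
      apply Subtype.ext
      ext
      · exact congrArg (fun t => (t.1 : Γ₁)) h
      · exact congrArg (fun t => (t.2.1 : Γ₂)) h
      · exact congrArg (fun t => t.2.2) h
    · rintro ⟨a, b, w⟩
      exact ⟨⟨⟨(a, b), w⟩, (hker _).2 ⟨a.2, b.2⟩⟩, rfl⟩
  exact FGS.hasSchurMultiplier_of hσ ((MulEquiv.ofBijective k hk).trans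
    (e₁.prodCongr (e₂.prodCongr (MulEquiv.refl _)))) fun Δ _ _ τ hτ => upper hA hB hτ

end Cfsg.Agent.S3959
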