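import Cfsg.Statements.S3960
import Mathlib
import Cfsg.Agent.FGS.SchurHopf

set_option autoImplicit false
universe u
open Cfsg

namespace Cfsg.Agent.S3960

/-- A finite perfect group `Q` has a universal central extension: a finite perfect group `G` in the universe of `Q` and a surjective homomorphism `π : G →* Q` with central kernel such that for every group `X` in that universe and every surjective homomorphism `ξ : X →* Q` with central kernel there is exactly one homomorphism `η : G →* X` with `ξ ∘ η = π`. -/
theorem result {Q : Type u} [Group Q] [Finite Q] (hQ : Group.IsPerfect Q) : ∃ (G : Type u) (_ : Group G) (_ : Finite G) (π : G →* Q), Group.IsPerfect G ∧ Function.Surjective π ∧ π.ker ≤ Subgroup.center G ∧ ∀ (X : Type u) [Group X] (ξ : X →* Q), Function.Surjective ξ → ξ.ker ≤ Subgroup.center X → ∃! η : G →* X, ξ.comp η = π := by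
  let φ := FGS.freePres Q
  have hs := FGS.hopfProj_surjective (FGS.freePres_surjective Q)
  have hc := FGS.hopfProj_ker_le_center φ
  have hs' : Function.Surjective ((FGS.hopfProj φ).comp (commutator (FGS.HopfExt φ)).subtype) := by
    intro q
    have : q ∈ (commutator (FGS.HopfExt φ)).map (FGS.hopfProj φ) := by
      rw [map_commutator_eq, MonoidHom.range_eq_top_of_surjective _ hs, ← commutator_def]
      exact Group.IsPerfect.mem_commutator
    obtain ⟨x, hx, rfl⟩ := this
    exact ⟨⟨x, hx⟩, rfl⟩
  have hp : Group.IsPerfect (commutator (FGS.HopfExt φ)) := by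
    rw [Subgroup.isPerfect_iff]
    have := FGS.commutator_eq_map_of_comp_surjective hc hs'
    rw [Subgroup.map_subtype_commutator] at this
    exact this.symm
  refine ⟨commutator (FGS.HopfExt φ), _, FGS.finite_commutator_of_ker_le_center hc,
    (FGS.hopfProj φ).comp (commutator (FGS.HopfExt φ)).subtype, hp, hs', ?_, ?_⟩
  · intro x hx
    rw [Subgroup.mem_center_iff]
    intro g
    exact Subtype.ext (Subgroup.mem_center_iff.1 (hc hx) g)
  · intro X _ ξ hξ hξc
    obtain ⟨η, hη⟩ := FGS.exists_hopf_lift φ hξ hξc
    refine ⟨η.comp (commutator (FGS.HopfExt φ)).subtype, by rw [← hη]; rfl, fun η' hη' => ?_⟩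
    ext x
    exact FGS.eq_on_commutator_of_comp_eq hξc (by rw [hη', ← hη]; rfl)
      Group.IsPerfect.mem_commutator

end Cfsg.Agent.S3960
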