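import Cfsg.Statements.S3962
import Mathlib
import Cfsg.Agent.FGS.SchurBasic

set_option autoImplicit false
open Cfsg

namespace Cfsg.Agent.S3962

open scoped commutatorElement in
theorem aux {G Q : Type*} [Group G] [Group Q] (hG : Group.IsPerfect G) (π : G →* Q)
    (hker : π.ker ≤ Subgroup.center G) (x : G) (hx : π x ∈ Subgroup.center Q) :
    x ∈ Subgroup.center G := by
  have h : (MonoidHom.id G) = (MulAut.conj x).toMonoidHom := by
    ext g
    refine FGS.eq_on_commutator_of_comp_eq hker ?_ (Group.IsPerfect.mem_commutator (g := g))
    ext y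
    simp only [MonoidHom.comp_apply, MonoidHom.id_apply, MulEquiv.coe_toMonoidHom,
      MulAut.conj_apply, map_mul, map_inv]
    rw [← Subgroup.mem_center_iff.1 hx (π y)]; group
  rw [Subgroup.mem_center_iff]
  intro g
  have := DFunLike.congr_fun h g
  simp only [MonoidHom.id_apply, MulEquiv.coe_toMonoidHom, MulAut.conj_apply] at this
  calc g * x = (x * g * x⁻¹) * x := by rw [← this]
    _ = x * g := by group

/-- Let `G` be a perfect group and `π : G →* Q` a surjective homomorphism whose kernel is central. Then `π` maps the centre of `G` onto the centre of `Q`. Taking `π` to be the map to `G ⧸ Z(G)` shows that the central quotient of a perfect group has trivial centre. -/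
theorem result {G Q : Type*} [Group G] [Group Q] (hG : Group.IsPerfect G) (π : G →* Q) (hπ : Function.Surjective π) (hker : π.ker ≤ Subgroup.center G) : (Subgroup.center G).map π = Subgroup.center Q := by
  apply le_antisymm
  · rintro _ ⟨x, hx, rfl⟩
    rw [Subgroup.mem_center_iff]
    intro g
    obtain ⟨g, rfl⟩ := hπ g
    rw [← map_mul, ← map_mul, Subgroup.mem_center_iff.1 hx]
  · intro y hy
    obtain ⟨x, rfl⟩ := hπ y
    exact ⟨x, aux hG π hker x hy, rfl⟩

end Cfsg.Agent.S3962
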