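import Cfsg.Statements.S3961
import Mathlib
import Cfsg.Agent.FGS.SchurHopf
import Cfsg.Agent.S3962

set_option autoImplicit false
universe u v
open Cfsg

namespace Cfsg.Agent.S3961

/-- Let `π : G →* Q` be a surjective homomorphism with central kernel from a finite perfect group `G` (a perfect cover of `Q`). Then `π` is universal, in the sense that every surjective homomorphism `ξ : X →* Q` with central kernel from a group `X` in the universe of `G` admits a homomorphism `η : G →* X` with `ξ ∘ η = π`, if and only if `G` has trivial Schur multiplier. -/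
theorem result {G : Type u} {Q : Type v} [Group G] [Group Q] [Finite G] (hG : Group.IsPerfect G) (π : G →* Q) (hπ : Function.Surjective π) (hker : π.ker ≤ Subgroup.center G) : (∀ (X : Type u) [Group X] (ξ : X →* Q), Function.Surjective ξ → ξ.ker ≤ Subgroup.center X → ∃ η : G →* X, ξ.comp η = π) ↔ Cfsg.HasCyclicSchurMultiplier G 1 := by
  constructor
  · intro h
    refine FGS.trivial_multiplier_of_forall_ker_eq_bot fun Γ _ _ σ hσ => ?_
    have hΓ : Group.IsPerfect Γ := by
      rw [Group.isPerfect_def, eq_top_iff]
      intro x _
      have : σ x ∈ (commutator Γ).map σ := by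
        rw [map_commutator_eq, MonoidHom.range_eq_top_of_surjective _ hσ.1, ← commutator_def]
        exact Group.IsPerfect.mem_commutator
      obtain ⟨y, hy, hy'⟩ := this
      have hk : y⁻¹ * x ∈ σ.ker := by
        rw [MonoidHom.mem_ker, map_mul, map_inv, hy']; group
      have : x = y * (y⁻¹ * x) := by group
      rw [this]
      exact mul_mem hy (hσ.2.2 hk)
    obtain ⟨η, hη⟩ := h Γ (π.comp σ) (hπ.comp hσ.1)
      (fun x hx => S3962.aux hΓ σ hσ.2.1 x (hker hx))
    have h1 : σ.comp η = MonoidHom.id G := by
      ext x
      exact FGS.eq_on_commutator_of_comp_eq hker (by rw [← MonoidHom.comp_assoc, hη]; rfl)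
        Group.IsPerfect.mem_commutator
    have h2 : Function.Surjective η := FGS.surjective_of_stem hσ (by
      rw [h1]; exact Function.surjective_id)
    rw [eq_bot_iff]
    intro x hx
    obtain ⟨y, rfl⟩ := h2 x
    have : y = 1 := by
      have := DFunLike.congr_fun h1 y
      rw [MonoidHom.comp_apply, hx] at this
      exact this.symm
    rw [this, map_one]; exact one_mem _
  · intro h X _ ξ hξ hξc
    let Y : Subgroup (G × X) := (π.comp (MonoidHom.fst G X)).eqLocus (ξ.comp (MonoidHom.snd G X))
    let ρ : Y →* G := (MonoidHom.fst G X).comp Y.subtype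
    have hρ : Function.Surjective ρ := fun g => by
      obtain ⟨x, hx⟩ := hξ (π g)
      exact ⟨⟨(g, x), hx.symm⟩, rfl⟩
    have hρc : ρ.ker ≤ Subgroup.center Y := by
      rintro ⟨⟨g, x⟩, hgx⟩ hy
      have hg : g = 1 := hy
      subst hg
      have hx : x ∈ ξ.ker := by
        have : π 1 = ξ x := hgx
        rw [MonoidHom.mem_ker, ← this, map_one]
      rw [Subgroup.mem_center_iff]
      rintro ⟨⟨g', x'⟩, h'⟩
      apply Subtype.ext
      apply Prod.ext
      · simp
      · exact Subgroup.mem_center_iff.1 (hξc hx) x'
    have hb := FGS.ker_inf_commutator_eq_bot_of_trivial_multiplier h hρ hρc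
    let ρ' : commutator Y →* G := ρ.comp (commutator Y).subtype
    have hbij : Function.Bijective ρ' := by
      constructor
      · rw [injective_iff_map_eq_one]
        intro y hy
        have : (y : Y) ∈ ρ.ker ⊓ commutator Y := ⟨hy, y.2⟩
        rw [hb, Subgroup.mem_bot] at this
        exact Subtype.ext this
      · intro g
        have : g ∈ (commutator Y).map ρ := by
          rw [map_commutator_eq, MonoidHom.range_eq_top_of_surjective _ hρ, ← commutator_def]
          exact Group.IsPerfect.mem_commutator
        obtain ⟨y, hy, rfl⟩ := this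
        exact ⟨⟨y, hy⟩, rfl⟩
    let e := MulEquiv.ofBijective ρ' hbij
    refine ⟨((MonoidHom.snd G X).comp (Y.subtype.comp (commutator Y).subtype)).comp
      e.symm.toMonoidHom, ?_⟩
    ext g
    obtain ⟨y, rfl⟩ := e.surjective g
    simp only [MonoidHom.comp_apply, MulEquiv.coe_toMonoidHom, MulEquiv.symm_apply_apply]
    exact y.1.2.symm

end Cfsg.Agent.S3961
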