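import Cfsg.Statements.S3964
import Mathlib
import Cfsg.Agent.FGS.SchurMetacyclic

set_option autoImplicit false
open Cfsg

namespace Cfsg.Agent.S3964

open DihedralGroup in
theorem closure_eq_top (n : ℕ) [NeZero n] :
    Subgroup.closure ({r 1, sr 0} : Set (DihedralGroup n)) = ⊤ := by
  rw [eq_top_iff]
  have h1 : ∀ i : ZMod n,
      r i ∈ Subgroup.closure ({r 1, sr 0} : Set (DihedralGroup n)) := by
    intro i
    have : r i = (r 1 : DihedralGroup n) ^ i.val := by rw [r_one_pow, ZMod.natCast_zmod_val]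
    rw [this]
    exact pow_mem (Subgroup.subset_closure (by simp)) _
  rintro (i | i) -
  · exact h1 i
  · have : sr i = sr 0 * r i := by simp
    rw [this]
    exact mul_mem (Subgroup.subset_closure (by simp)) (h1 i)

theorem aux (n N : ℕ) [NeZero n] (hN : ∀ k : ℕ, n ∣ 2 * k → n ∣ k * N)
    (Γ : Type*) [Group Γ] [Finite Γ] (σ : Γ →* DihedralGroup n) (hσ : IsStemExtension σ) :
      ∃ π : Multiplicative (ZMod N) →* σ.ker, Function.Surjective π := by
  obtain ⟨c, h1, h2, h3, -⟩ := FGS.exists_commutator_generator_of_metacyclic hσ.1 hσ.2.1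
    (closure_eq_top n) (r := -1) (by simp)
  refine FGS.exists_surjective_zmod_ker hσ h2 ?_
  have h4 : c ^ (n : ℤ) = 1 := h3 n ⟨0, by
    simp only [zpow_natCast, zpow_zero, DihedralGroup.r_one_pow_n]⟩
  have h5 : (σ c) ^ (orderOf (σ c) : ℤ) = 1 := by rw [zpow_natCast, pow_orderOf_eq_one]
  generalize orderOf (σ c) = k at h5 ⊢
  rw [h1, ← zpow_mul, ← orderOf_dvd_iff_zpow_eq_one, DihedralGroup.orderOf_r_one] at h5
  have h6 : n ∣ 2 * k := by
    have h7 : (-1 - 1 : ℤ) * k = -((2 * k : ℕ) : ℤ) := by push_cast; ring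
    rw [h7, dvd_neg] at h5
    exact Int.natCast_dvd_natCast.1 h5
  obtain ⟨j, hj⟩ := hN k h6
  rw [zpow_natCast] at h4
  rw [hj, pow_mul, h4, one_pow]

/-- For odd `n` the dihedral group of order `2 n` has trivial Schur multiplier. -/
theorem result (n : ℕ) (hn : Odd n) : Cfsg.HasCyclicSchurMultiplier (DihedralGroup n) 1 := by
  have : NeZero n := ⟨hn.pos.ne'⟩
  refine FGS.trivial_multiplier_of_forall_ker_eq_bot fun Γ _ _ σ hσ => ?_
  obtain ⟨π, hπ⟩ := aux n 1 (fun k hk => by
    rw [mul_one]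
    exact (Nat.coprime_two_right.2 hn).dvd_of_dvd_mul_left hk) Γ σ hσ
  have : Subsingleton (Multiplicative (ZMod 1)) := inferInstanceAs (Subsingleton (ZMod 1))
  have := hπ.subsingleton
  exact Subgroup.eq_bot_of_subsingleton _

end Cfsg.Agent.S3964
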