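import Cfsg.Statements.S3966
import Mathlib


set_option autoImplicit false
open Cfsg

namespace Cfsg.Agent.S3966

open QuaternionGroup DihedralGroup in
/-- The natural map from the dicyclic group onto the dihedral group. -/
def proj (n : ℕ) : QuaternionGroup n →* DihedralGroup n :=
  MonoidHom.mk' (fun x => match x with
    | a i => r (ZMod.castHom (dvd_mul_left n 2) (ZMod n) i)
    | xa i => sr (ZMod.castHom (dvd_mul_left n 2) (ZMod n) i)) (by
      rintro (i | i) (j | j) <;> simp only [a_mul_a, a_mul_xa, xa_mul_a, xa_mul_xa, r_mul_r,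
        r_mul_sr, sr_mul_r, sr_mul_sr, map_add, map_sub, map_natCast, ZMod.natCast_self, zero_add])

theorem proj_a (n : ℕ) (i : ZMod (2 * n)) : proj n (QuaternionGroup.a i) =
  DihedralGroup.r (ZMod.castHom (dvd_mul_left n 2) (ZMod n) i) := rfl

theorem proj_xa (n : ℕ) (i : ZMod (2 * n)) : proj n (QuaternionGroup.xa i) =
  DihedralGroup.sr (ZMod.castHom (dvd_mul_left n 2) (ZMod n) i) := rfl

theorem proj_surjective (n : ℕ) : Function.Surjective (proj n) := by
  rintro (i | i)
  · obtain ⟨j, rfl⟩ := ZMod.castHom_surjective (dvd_mul_left n 2) i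
    exact ⟨.a j, rfl⟩
  · obtain ⟨j, rfl⟩ := ZMod.castHom_surjective (dvd_mul_left n 2) i
    exact ⟨.xa j, rfl⟩

/-- For even `n ≥ 2` the dicyclic group of order `4 n` is a stem extension of the dihedral group of order `2 n` with kernel of order `2`: there is a surjective homomorphism `QuaternionGroup n →* DihedralGroup n` whose kernel is central, lies in the commutator subgroup and has two elements. Together with the order of the multiplier this exhibits the dicyclic group as a Schur covering group of the dihedral group. -/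
theorem result (n : ℕ) [NeZero n] (hn : Even n) : ∃ σ : QuaternionGroup n →* DihedralGroup n, Cfsg.IsStemExtension σ ∧ Nat.card σ.ker = 2 := by
  have hcard : Nat.card (proj n).ker = 2 := by
    have h1 := Subgroup.card_eq_card_quotient_mul_card_subgroup (proj n).ker
    rw [Nat.card_congr (QuotientGroup.quotientKerEquivOfSurjective _ (proj_surjective n)).toEquiv,
      DihedralGroup.nat_card, Nat.card_eq_fintype_card, QuaternionGroup.card] at h1
    have h2 : 2 * n * 2 = 2 * n * Nat.card (proj n).ker := by rw [← h1]; ring
    exact (Nat.eq_of_mul_eq_mul_left (by have := NeZero.pos n; omega) h2).symm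
  have hord : orderOf (QuaternionGroup.a (n : ZMod (2 * n)) : QuaternionGroup n) = 2 := by
    rw [← QuaternionGroup.a_one_pow, orderOf_pow' _ (NeZero.ne n), QuaternionGroup.orderOf_a_one,
      Nat.gcd_mul_left_left, Nat.mul_div_cancel _ (NeZero.pos n)]
  have hker : (proj n).ker = Subgroup.zpowers (QuaternionGroup.a (n : ZMod (2 * n))) := by
    symm
    apply Subgroup.eq_of_le_of_card_ge
    · rw [Subgroup.zpowers_le, MonoidHom.mem_ker, proj_a]; simp
    · rw [hcard, Nat.card_zpowers, hord]
  have hnn : (n : ZMod (2 * n)) + n = 0 := by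
    rw [← Nat.cast_add, ← two_mul, ZMod.natCast_self]
  refine ⟨proj n, ⟨proj_surjective n, ?_, ?_⟩, hcard⟩
  · rw [hker, Subgroup.zpowers_le, Subgroup.mem_center_iff]
    rintro (i | i)
    · simp [add_comm]
    · simp only [QuaternionGroup.xa_mul_a, QuaternionGroup.a_mul_xa]
      congr 1
      linear_combination hnn
  · rw [hker, Subgroup.zpowers_le]
    obtain ⟨k, hk⟩ := hn
    have h1 := Subgroup.commutator_mem_commutator (H₁ := ⊤) (H₂ := ⊤)
      (g₁ := (QuaternionGroup.a k : QuaternionGroup n)) (g₂ := QuaternionGroup.xa 0) trivial trivial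
    rw [commutator_def]
    convert h1 using 1
    rw [commutatorElement_def, eq_mul_inv_iff_mul_eq, eq_mul_inv_iff_mul_eq]
    simp only [QuaternionGroup.a_mul_xa, QuaternionGroup.xa_mul_a]
    congr 1
    have : (n : ZMod (2 * n)) = k + k := by rw [← Nat.cast_add, ← hk]
    linear_combination -this

end Cfsg.Agent.S3966
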