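import Cfsg.Statements.S3965
import Mathlib
import Cfsg.Agent.FGS.SchurMetacyclic
import Cfsg.Agent.S3964
import Cfsg.Agent.S3966

set_option autoImplicit false
open Cfsg

namespace Cfsg.Agent.S3965

/-- For even `n ≥ 2` the dihedral group of order `2 n` has Schur multiplier cyclic of order `2`. -/
theorem result (n : ℕ) [NeZero n] (hn : Even n) : Cfsg.HasCyclicSchurMultiplier (DihedralGroup n) 2 := by
  obtain ⟨σ, hσ, hk⟩ := S3966.result n hn
  have : Fact (Nat.Prime 2) := ⟨Nat.prime_two⟩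
  refine FGS.hasSchurMultiplier_of hσ (mulEquivOfPrimeCardEq hk (by simp)) fun Δ _ _ τ hτ => ?_
  exact S3964.aux n 2 (fun k hk => by rwa [mul_comm]) Δ τ hτ

end Cfsg.Agent.S3965
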