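import Cfsg.Statements.S3968
import Mathlib
import Cfsg.Agent.Char.Ito
import Cfsg.Agent.Char.Quot
import Cfsg.Agent.Char.Inner
import Cfsg.Agent.PLocal.Amb

set_option autoImplicit false
open Cfsg

namespace Cfsg.Agent.S3968

open Cfsg.Agent.Char in
theorem card_dvd {P : Type*} [Group P] [Finite P] {θ : P → ℂ} (h : IsCharacter P θ) {n : ℕ}
    (hn : θ 1 = n) (h0 : ∀ x, x ≠ 1 → θ x = 0) : Nat.card P ∣ n := by
  haveI := Fintype.ofFinite P
  obtain ⟨m, hm⟩ := h.exists_nat_inner isCharacter_one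
  rw [classInner, Finset.sum_eq_single 1 (fun x _ hx => by rw [h0 x hx, zero_mul]) (by simp), hn,
    map_one, mul_one, inv_mul_eq_iff_eq_mul₀ (Nat.cast_ne_zero.2 Nat.card_pos.ne')] at hm
  exact ⟨m, by exact_mod_cast hm⟩

open Cfsg.Agent.Char in
theorem irr_or {P : Type*} [Group P] [Finite P] {p : ℕ} [hp : Fact p.Prime] (hP : IsPGroup p P)
    {θ : P → ℂ} (h : IsCharacter P θ) (hn : θ 1 = p) :
    IsIrrCharacter P θ ∨ ∀ c ∈ commutator P, θ c = θ 1 := by
  classical
  obtain ⟨l, hl, rfl⟩ := h.exists_multiset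
  by_cases h1 : ∀ ψ ∈ l, ψ 1 = 1
  · right
    intro c hc
    rw [Pi.multiset_sum_apply, Pi.multiset_sum_apply]
    refine congrArg _ (Multiset.map_congr rfl fun ψ hψ => ?_)
    exact (mem_charKer_iff (hl ψ hψ).isCharacter).1
      (commutator_le_charKer_of_one (hl ψ hψ).isCharacter (h1 ψ hψ) hc)
  · left
    push Not at h1
    obtain ⟨ψ, hψ, h1⟩ := h1
    obtain ⟨n, hn0, hn'⟩ := (hl ψ hψ).exists_nat_one
    obtain ⟨k, hk⟩ := hP.exists_card_eq
    obtain ⟨j, -, hj⟩ := (Nat.dvd_prime_pow hp.out).1 (hk ▸ (hl ψ hψ).deg_dvd_card hn')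
    have h2 : p ≤ n := by
      refine Nat.le_of_dvd hn0 (hj ▸ dvd_pow_self p ?_)
      rintro rfl
      exact h1 (by rw [hn', hj]; simp)
    have h3 := isCharacter_multiset_sum (l.erase ψ)
      fun φ hφ => (hl φ (Multiset.mem_of_mem_erase hφ)).isCharacter
    obtain ⟨m, hm⟩ := h3.exists_nat_one
    rw [← Multiset.cons_erase hψ, Multiset.sum_cons] at hn ⊢
    rw [Pi.add_apply, hn', hm] at hn
    have h4 : n + m = p := by exact_mod_cast hn
    rw [h3.eq_zero_of_one (by rw [hm, show m = 0 by omega, Nat.cast_zero]), add_zero]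
    exact hl ψ hψ

/-- Let `p` be a prime and `G` a finite group with a faithful irreducible complex character of degree `p` (so `G` is an irreducible linear group in `p` variables). If `p ^ 2` divides the order of `G`, then the centre of `G` is nontrivial. -/
theorem result {G : Type*} [Group G] [Finite G] (p : ℕ) (hp : p.Prime) (χ : Cfsg.IrrCharacter G) (hdeg : χ.1 1 = p) (hfaith : ∀ g : G, χ.1 g = χ.1 1 → g = 1) (hdiv : p ^ 2 ∣ Nat.card G) : Subgroup.center G ≠ ⊥ := by
  intro hZ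
  haveI := Fact.mk hp
  obtain ⟨P⟩ : Nonempty (Sylow p G) := inferInstance
  have hχ := Char.Cfsg.IsIrrCharacter.isCharacter χ.2
  have h1 : ∀ z ∈ Subgroup.center P, z ≠ 1 → χ.1 (z : P) = 0 := by
    intro z hz hz1
    refine (Char.Cfsg.IsIrrCharacter.eq_zero_or_norm_eq χ.2 hdeg z ?_).resolve_right fun h => ?_
    · refine (Nat.Prime.coprime_iff_not_dvd hp).2 fun h => P.not_dvd_index (h.trans
        (Subgroup.index_dvd_of_le fun x hx => Subgroup.mem_centralizer_singleton_iff.2 ?_))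
      exact congrArg Subtype.val (Subgroup.mem_center_iff.1 hz ⟨x, hx⟩)
    · have := Char.mem_center_of_norm_eq hχ hfaith h
      rw [hZ, Subgroup.mem_bot] at this
      exact hz1 (Subtype.ext this)
  have h2 : p ^ 2 ∣ Nat.card P := by
    rw [P.card_eq_multiplicity]
    exact pow_dvd_pow p ((hp.pow_dvd_iff_le_factorization Nat.card_pos.ne').1 hdiv)
  have h3 : ¬ Nat.card P ∣ p := fun h => by
    have := Nat.le_of_dvd hp.pos (h2.trans h)
    nlinarith [hp.two_le]
  have hres := Char.Cfsg.IsCharacter.restrict hχ P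
  rcases irr_or P.isPGroup' hres hdeg with h | h
  · haveI : Nontrivial P := Finite.one_lt_card_iff_nontrivial.1
      (lt_of_lt_of_le (Nat.one_lt_pow two_ne_zero hp.one_lt) (Nat.le_of_dvd Nat.card_pos h2))
    haveI := P.isPGroup'.center_nontrivial
    obtain ⟨z, hz⟩ := exists_ne (1 : Subgroup.center P)
    have h4 := Char.norm_eq_of_mem_center h z.2
    rw [h1 z z.2 fun h5 => hz (Subtype.ext h5), norm_zero, eq_comm, norm_eq_zero] at h4
    exact Char.Cfsg.IsIrrCharacter.one_ne_zero h h4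
  · refine h3 (card_dvd hres hdeg fun x hx => h1 x ?_ hx)
    have h4 : commutator P = ⊥ := eq_bot_iff.2 fun c hc => Subtype.ext (hfaith c (h c hc))
    rw [(commutator_eq_bot_iff_center_eq_top _).1 h4]
    exact Subgroup.mem_top x

end Cfsg.Agent.S3968
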