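import Cfsg.Statements.S3970
import Cfsg.Agent.FGS.AutPrime
import Cfsg.Agent.S0205
import Cfsg.Agent.Transfer.PCompl

set_option autoImplicit false
open Cfsg

namespace Cfsg.Agent.S3970

/-- Let `G` be a finite group such that for every prime `p` dividing its order, other than the largest such prime, the Sylow `p`-subgroups are abelian and generated by at most two elements, and suppose `12` does not divide the order of `G`. Then `G` is solvable. In particular a group of cube-free order not divisible by `12` is solvable. -/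
theorem result {G : Type*} [Group G] [Finite G] (h : ∀ p : ℕ, p.Prime → p ∣ Nat.card G → (∃ q : ℕ, q.Prime ∧ q ∣ Nat.card G ∧ p < q) → ∀ P : Sylow p G, IsMulCommutative (P : Subgroup G) ∧ Group.rank (P : Subgroup G) ≤ 2) (h12 : ¬ 12 ∣ Nat.card G) : Group.IsSolvable G := by
  rcases Nat.even_or_odd (Nat.card G) with h2 | h2
  swap
  · exact S0205.result h2
  obtain ⟨P⟩ : Nonempty (Sylow 2 G) := inferInstance
  have h3 : HasNormalPComplement 2 G := by
    by_cases hq : ∃ q : ℕ, q.Prime ∧ q ∣ Nat.card G ∧ 2 < q
    · obtain ⟨h3, h4⟩ := h 2 Nat.prime_two h2.two_dvd hq P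
      refine FGS.hasNormalPComplement_of_rank P h3 fun q hq _ hqG i h5 h6 h7 h8 => ?_
      have : i = 1 ∨ i = 2 := by omega
      rcases this with rfl | rfl
      · exact hq.one_lt.ne' (Nat.dvd_one.1 h8)
      · rw [(Nat.prime_dvd_prime_iff_eq hq Nat.prime_three).1 h8] at hqG
        exact h12 (Nat.Coprime.mul_dvd_of_dvd_of_dvd (by norm_num : Nat.Coprime 4 3) h7 hqG)
    · push Not at hq
      exact Transfer.hasNormalPComplement_of_isPGroup (IsPGroup.of_card
        (Nat.eq_prime_pow_of_unique_prime_dvd Nat.card_pos.ne' fun h5 h6 =>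
          le_antisymm (hq _ h5 h6) h5.two_le))
  obtain ⟨N, hN, h4, k, hk⟩ := Transfer.hasNormalPComplement_iff_exists_normal.1 h3
  have : Group.IsSolvable N := S0205.result (Nat.coprime_two_right.1 h4)
  have : Group.IsNilpotent (G ⧸ N) := (IsPGroup.of_card hk : IsPGroup 2 (G ⧸ N)).isNilpotent
  exact Group.isSolvable_of_ker_le_range N.subtype (QuotientGroup.mk' N) (by simp)

end Cfsg.Agent.S3970
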