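import Cfsg.Statements.S3971
import Cfsg.Agent.FGS.AutPrime
import Cfsg.Agent.Transfer.Frobenius

set_option autoImplicit false
open Cfsg

namespace Cfsg.Agent.S3971

theorem rank_le_two {H : Type*} [Group H] [Finite H] (C : Subgroup H) [IsCyclic C]
    (h : C.index ≤ 2) : Group.rank H ≤ 2 := by
  classical
  obtain ⟨y, hy⟩ := IsCyclic.exists_generator (α := C)
  have h1 : ∀ z : H, C ≤ Subgroup.closure ({(y : H), z} : Finset H) := fun z c hc => by
    obtain ⟨i, hi⟩ := hy ⟨c, hc⟩
    rw [show c = (y : H) ^ i from (congrArg Subtype.val hi).symm]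
    exact zpow_mem (Subgroup.subset_closure (by simp)) i
  obtain ⟨z, hz⟩ : ∃ z : H, Subgroup.closure (({(y : H), z} : Finset H) : Set H) = ⊤ := by
    have := C.index_ne_zero_of_finite
    rcases (show C.index = 1 ∨ C.index = 2 by omega) with h2 | h2
    · exact ⟨1, top_le_iff.1 (Subgroup.index_eq_one.1 h2 ▸ h1 1)⟩
    · obtain ⟨z, hz⟩ := Subgroup.index_eq_two_iff.1 h2
      refine ⟨z, top_le_iff.1 fun b _ => ?_⟩
      rcases hz b with h3 | h3
      · simpa using mul_mem (h1 z h3.1) (inv_mem (Subgroup.subset_closure (by simp) :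
          z ∈ Subgroup.closure (({(y : H), z} : Finset H) : Set H)))
      · exact h1 z h3.1
  exact (Group.rank_le hz).trans Finset.card_le_two


/-- Let `G` be a finite group of order `2 ^ a * n` with `n` odd and not divisible by `3`, and suppose `G` has an element of order `2 ^ (a - 1)` (so a Sylow `2`-subgroup has a cyclic subgroup of index at most `2`). Then `G` has a normal subgroup of order `n`. -/
theorem result {G : Type*} [Group G] [Finite G] (a n : ℕ) (hG : Nat.card G = 2 ^ a * n) (hn : Odd n) (h3 : ¬ 3 ∣ n) (hx : ∃ x : G, orderOf x = 2 ^ (a - 1)) : ∃ N : Subgroup G, N.Normal ∧ Nat.card N = n := by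
  have h1 : HasNormalPComplement 2 G := by
    by_contra h
    obtain ⟨B, q, g, hB, hq, hne, ⟨k, hk⟩, hN, hc⟩ :=
      Transfer.exists_qElement_of_not_hasNormalPComplement h
    obtain ⟨x, hx⟩ := hx
    obtain ⟨P, hP⟩ := hB.exists_le_sylow
    obtain ⟨P', hP'⟩ := (IsPGroup.of_card ((Nat.card_zpowers x).trans hx) :
      IsPGroup 2 (Subgroup.zpowers x)).exists_le_sylow
    obtain ⟨c, rfl⟩ := MulAction.exists_smul_eq G P' P
    have h2 : Subgroup.zpowers (c * x * c⁻¹) ≤ (c • P' : Sylow 2 G) := Subgroup.zpowers_le.2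
      (Subgroup.smul_mem_pointwise_smul x (MulAut.conj c) _ (hP' (Subgroup.mem_zpowers x)))
    have h3' : (Subgroup.zpowers (c * x * c⁻¹)).relIndex (c • P' : Sylow 2 G) ∣ 2 := by
      have h4 := ((Subgroup.zpowers (c * x * c⁻¹)).subgroupOf (c • P' : Sylow 2 G)).card_mul_index
      rw [Nat.card_congr (Subgroup.subgroupOfEquivOfLe h2).toEquiv, Nat.card_zpowers,
        ← MulAut.conj_apply, MulEquiv.orderOf_eq, hx] at h4
      have h5 : Nat.card (c • P' : Sylow 2 G) ∣ 2 ^ a := by
        obtain ⟨j, hj⟩ := IsPGroup.iff_card.1 (c • P').isPGroup'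
        refine Nat.Coprime.dvd_of_dvd_mul_right ?_ (hG ▸ Subgroup.card_subgroup_dvd_card _)
        rw [hj]; exact Nat.Coprime.pow_left _ (Nat.coprime_two_left.2 hn)
      rw [← h4] at h5
      exact Nat.dvd_of_mul_dvd_mul_left (pow_pos two_pos (a - 1))
        (h5.trans (by rw [← pow_succ]; exact pow_dvd_pow 2 (by omega)))
    have hcyc : IsCyclic ((Subgroup.zpowers (c * x * c⁻¹)).subgroupOf B) :=
      isCyclic_of_injective ((B.subtype.comp (Subgroup.subtype _)).codRestrict
        (Subgroup.zpowers (c * x * c⁻¹)) fun y => y.2) fun y z e =>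
          Subtype.ext (Subtype.ext (congrArg (fun w : Subgroup.zpowers _ => (w : G)) e))
    have h4 : Group.rank B ≤ 2 := rank_le_two ((Subgroup.zpowers (c * x * c⁻¹)).subgroupOf B) 
      ((Subgroup.relIndex_le_of_le_right hP Subgroup.index_ne_zero_of_finite).trans
        (Nat.le_of_dvd two_pos h3'))
    have h5 : q ∣ orderOf (B.normalizerMonoidHom ⟨g, hN⟩) := by
      obtain ⟨j, -, hj⟩ := (Nat.dvd_prime_pow hq).1
        (hk ▸ Subgroup.orderOf_mk g hN ▸ orderOf_map_dvd B.normalizerMonoidHom ⟨g, hN⟩)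
      refine hj ▸ dvd_pow_self q fun e => hc ?_
      rw [e, pow_zero, orderOf_eq_one_iff, ← MonoidHom.mem_ker,
        Subgroup.normalizerMonoidHom_ker] at hj
      exact hj
    obtain ⟨i, h6, h7, -, h8⟩ := FGS.exists_dvd_pow_sub_one_of_dvd_card_mulAut hB hq hne
      (h5.trans (orderOf_dvd_natCard _))
    have : i = 1 ∨ i = 2 := by omega
    rcases this with rfl | rfl
    · exact hq.one_lt.ne' (Nat.dvd_one.1 h8)
    · rw [(Nat.prime_dvd_prime_iff_eq hq Nat.prime_three).1 h8] at h5
      have h9 := (h5.trans (orderOf_map_dvd _ _)).trans (orderOf_dvd_natCard _) |>.trans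
        (Subgroup.card_subgroup_dvd_card _)
      rw [hG] at h9
      exact h3 (Nat.Coprime.dvd_of_dvd_mul_left (Nat.Coprime.pow_right _ (by norm_num)) h9)
  obtain ⟨N, hN, h4, k, hk⟩ := Transfer.hasNormalPComplement_iff_exists_normal.1 h1
  refine ⟨N, hN, Nat.dvd_antisymm ?_ ?_⟩
  · exact Nat.Coprime.dvd_of_dvd_mul_left (Nat.Coprime.pow_right _ h4)
      (hG ▸ Subgroup.card_subgroup_dvd_card _)
  · refine Nat.Coprime.dvd_of_dvd_mul_right (k := n) (n := 2 ^ k)
      (Nat.Coprime.pow_right _ (Nat.coprime_two_right.2 hn)) ?_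
    rw [← hk, N.card_mul_index, hG]
    exact dvd_mul_left _ _

end Cfsg.Agent.S3971
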