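import Cfsg.Statements.S3972
import Mathlib
import Cfsg.Agent.Perm.BGroup
import Cfsg.Agent.Solv.FrobeniusAction

set_option autoImplicit false
open Cfsg

namespace Cfsg.Agent.S3972

open Subgroup

theorem mem_of_ne_bot {H : Type*} [Group H] [Finite H] [IsCyclic H] {p : ℕ} [Fact p.Prime]
    (hH : IsPGroup p H) {K : Subgroup H} (hK : K ≠ ⊥) {e : H} (he : e ^ p = 1) : e ∈ K := by
  obtain ⟨u, hu⟩ := exists_prime_orderOf_dvd_card' (G := K) p
    ((hH.to_subgroup K).card_eq_or_dvd.resolve_left fun h => hK (card_eq_one.1 h))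
  exact (zpowers_le).2 u.2 (Solv.Frob.mem_zpowers_of_orderOf_dvd
    (by rw [orderOf_coe, hu]; exact orderOf_dvd_of_pow_eq_one he))

/-- Let `p` be a prime, `m ≥ 2`, and `G` a transitive but not doubly transitive permutation group on `p ^ m` points containing a permutation of order `p ^ m` (necessarily a full cycle). Then `G` is imprimitive, and the normal closure in `G` of the `p ^ (m - 1)`-th power of that permutation is an intransitive normal subgroup. -/
theorem result {Ω : Type*} [Fintype Ω] [DecidableEq Ω] (p m : ℕ) (hp : p.Prime) (hm : 2 ≤ m) (hΩ : Fintype.card Ω = p ^ m) (G : Subgroup (Equiv.Perm Ω)) (htr : MulAction.IsPretransitive G Ω) (h2 : ¬ MulAction.IsMultiplyPretransitive G Ω 2) (g : G) (hg : orderOf g = p ^ m) : ¬ MulAction.IsPreprimitive G Ω ∧ ¬ MulAction.IsPretransitive (Subgroup.normalClosure ({g ^ (p ^ (m - 1))} : Set G)) Ω := by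
  haveI := Fact.mk hp
  have hcyc : IsCyclic (zpowers g) := inferInstance
  letI := hcyc.commGroup
  have hc : Nat.card (zpowers g) = p ^ m := by rw [Nat.card_zpowers, hg]
  have hP : IsPGroup p (zpowers g) := IsPGroup.of_card hc
  obtain ⟨k, rfl⟩ : ∃ k, m = k + 1 := ⟨m - 1, by omega⟩
  rw [Nat.add_sub_cancel]
  have h1 : g ^ p ^ k ≠ 1 := fun h => by
    have := Nat.le_of_dvd (pow_pos hp.pos k) (orderOf_dvd_of_pow_eq_one h)
    rw [hg, Nat.pow_le_pow_iff_right hp.one_lt] at this
    omega
  have h3 : (⟨g ^ p ^ k, pow_mem (mem_zpowers g) _⟩ : zpowers g) ^ p = 1 := Subtype.ext (by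
    change (g ^ p ^ k) ^ p = 1
    rw [← pow_mul, ← pow_succ, ← hg, pow_orderOf_eq_one])
  obtain ⟨α, hα⟩ : ∃ α : Ω, (g ^ p ^ k) • α ≠ α := by
    by_contra h
    push Not at h
    exact h1 (Subtype.ext (Equiv.ext h))
  have hreg : Function.Bijective fun h : zpowers g => (zpowers g).subtype h • α := by
    refine (Nat.bijective_iff_injective_and_card _).2 ⟨fun x y h => ?_, by
      rw [hc, Nat.card_eq_fintype_card, hΩ]⟩
    have h4 : MulAction.stabilizer (zpowers g) α = ⊥ := by
      by_contra h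
      exact hα (mem_of_ne_bot hP h h3)
    have : y⁻¹ * x ∈ MulAction.stabilizer (zpowers g) α := by
      rw [MulAction.mem_stabilizer_iff, mul_smul, inv_smul_eq_iff]; exact h
    rw [h4] at this
    exact (inv_mul_eq_one.1 this).symm
  obtain ⟨h5, N, K, hN, hK, hKN, hN2⟩ := Perm.BGroup.imprimitive_of_not_two_trans
    (zpowers g).subtype α hreg hp (by
      have := IsCyclic.card_powMonoidHom_ker (zpowers g) p
      rw [hc, Nat.gcd_eq_right (dvd_pow_self p (Nat.succ_ne_zero k))] at this
      exact this) (by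
      rw [hc]
      exact lt_self_pow₀ hp.one_lt (by omega)) h2
  refine ⟨h5, fun htr => hN2 ⟨fun a b => ?_⟩⟩
  obtain ⟨n, hn⟩ := htr.exists_smul_eq a b
  exact ⟨⟨n, normalClosure_le_normal (Set.singleton_subset_iff.2
    (hKN (mem_map_of_mem _ (mem_of_ne_bot hP hK h3)))) n.2⟩, hn⟩

end Cfsg.Agent.S3972
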