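import Cfsg.Statements.S3973
import Mathlib
import Cfsg.Agent.FGS.SchurHopf

set_option autoImplicit false
open Cfsg

namespace Cfsg.Agent.S3973

open scoped IsMulCommutative

theorem rank_ker_le {K V : Type*} [CommGroup K] [AddCommGroup V] {ι : Type*} [Fintype ι]
    (g : ι → K) (hg : Subgroup.closure (Set.range g) = ⊤) (f : K →* Multiplicative V)
    [Module.Free ℤ V] [Module.Finite ℤ V] {m : ℕ} (hm : m ≠ 0)
    (hf : ∀ v : V, ∃ k, f k = Multiplicative.ofAdd (m • v)) [Group.FG f.ker] :
    Group.rank f.ker ≤ Fintype.card ι - Module.finrank ℤ V := by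
  classical
  let ψ : (ι → ℤ) →ₗ[ℤ] Additive K := Fintype.linearCombination ℤ fun i => Additive.ofMul (g i)
  have hψ : Function.Surjective ψ := by
    rw [← LinearMap.range_eq_top, Fintype.range_linearCombination, eq_top_iff]
    intro x _
    have : x.toMul ∈ Subgroup.closure (Set.range g) := hg ▸ Subgroup.mem_top _
    change Additive.ofMul x.toMul ∈ _
    generalize x.toMul = x' at this
    induction this using Subgroup.closure_induction with
    | mem y hy => obtain ⟨i, rfl⟩ := hy; exact Submodule.subset_span ⟨i, rfl⟩
    | one => exact Submodule.zero_mem _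
    | mul a b _ _ ha hb => exact Submodule.add_mem _ ha hb
    | inv a _ ha => exact Submodule.neg_mem _ ha
  let f' : Additive K →ₗ[ℤ] V := (MonoidHom.toAdditiveLeft f).toIntLinearMap
  let θ := f'.comp ψ
  have h1 : Module.finrank ℤ V ≤ Module.finrank ℤ (LinearMap.range θ) := by
    let j : V →ₗ[ℤ] LinearMap.range θ := LinearMap.codRestrict _ ((m : ℤ) • LinearMap.id) fun v => by
      obtain ⟨k, hk⟩ := hf v
      obtain ⟨x, hx⟩ := hψ (Additive.ofMul k)
      refine ⟨x, ?_⟩
      simp only [θ, LinearMap.comp_apply, hx, LinearMap.smul_apply, LinearMap.id_apply,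
        natCast_zsmul]
      exact congrArg Multiplicative.toAdd hk
    refine LinearMap.finrank_le_finrank_of_injective (f := j) fun a b h => ?_
    have h2 : (m : ℤ) • a = (m : ℤ) • b := congrArg Subtype.val h
    exact smul_right_injective V (Int.natCast_ne_zero.2 hm) h2
  have h2 : Module.finrank ℤ (LinearMap.range θ) + Module.finrank ℤ (LinearMap.ker θ) =
      Fintype.card ι := by
    rw [← θ.quotKerEquivRange.finrank_eq, Submodule.finrank_quotient_add_finrank]; simp
  let b := Module.finBasis ℤ (LinearMap.ker θ)
  let s : Fin (Module.finrank ℤ (LinearMap.ker θ)) → f.ker := fun i =>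
    ⟨(ψ (b i)).toMul, (b i).2⟩
  have hs : Subgroup.closure ((Finset.univ.image s : Finset f.ker) : Set f.ker) = ⊤ := by
    rw [eq_top_iff]
    rintro ⟨x, hx⟩ -
    obtain ⟨y, hy⟩ := hψ (Additive.ofMul x)
    have hy' : y ∈ LinearMap.ker θ := by
      rw [LinearMap.mem_ker, LinearMap.comp_apply, hy]; exact hx
    have key : ∀ z : LinearMap.ker θ, (⟨(ψ z).toMul, z.2⟩ : f.ker) ∈
        Subgroup.closure ((Finset.univ.image s : Finset f.ker) : Set f.ker) := by
      intro z
      have hz : z ∈ Submodule.span ℤ (Set.range b) := b.span_eq ▸ Submodule.mem_top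
      induction hz using Submodule.span_induction with
      | mem w hw =>
        obtain ⟨i, rfl⟩ := hw
        exact Subgroup.subset_closure (by simp only [Finset.coe_image]; exact ⟨i, by simp, rfl⟩)
      | zero =>
        convert Subgroup.one_mem _ using 1
        exact Subtype.ext (congrArg Additive.toMul (map_zero ψ))
      | add u v _ _ hu hv =>
        convert mul_mem hu hv using 1
        exact Subtype.ext (congrArg Additive.toMul (map_add ψ u.1 v.1))
      | smul c u _ hu =>
        convert zpow_mem hu c using 1
        exact Subtype.ext (congrArg Additive.toMul (map_zsmul ψ c u.1))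
    have := key ⟨y, hy'⟩
    simp only [hy] at this
    exact this
  have h3 := Group.rank_le hs
  have h4 := Finset.card_image_le (s := Finset.univ) (f := s)
  rw [Finset.card_univ, Fintype.card_fin] at h4
  omega

/-- If a finite group is presented by `n` generators and a finite set of `r` relators, then its Schur multiplier can be generated by `r - n` elements. In particular a finite group with a presentation having as many relators as generators has trivial Schur multiplier. -/
theorem result (n : ℕ) (rels : Finset (FreeGroup (Fin n))) [Finite (PresentedGroup (rels : Set (FreeGroup (Fin n))))] {A : Type*} [CommGroup A] [Finite A] (hA : Cfsg.HasSchurMultiplier (PresentedGroup (rels : Set (FreeGroup (Fin n)))) A) : Group.rank A ≤ rels.card - n := by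
  classical
  let φ := PresentedGroup.mk (rels : Set (FreeGroup (Fin n)))
  have hφ : Function.Surjective φ := PresentedGroup.mk_surjective _
  obtain ⟨e⟩ := FGS.HasSchurMultiplier.unique hA (FGS.hasSchurMultiplier_hopfMult hφ)
  have hc := FGS.hopfProj_ker_le_center φ
  have := FGS.isMulCommutative_of_le_center hc
  let g : rels → (FGS.hopfProj φ).ker := fun r =>
    ⟨(r.1 : FreeGroup (Fin n)), PresentedGroup.one_of_mem r.2⟩
  have hg : Subgroup.closure (Set.range g) = ⊤ := by
    rw [eq_top_iff]
    rintro ⟨x, hx⟩ -
    obtain ⟨x, rfl⟩ := QuotientGroup.mk_surjective x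
    have hx' : x ∈ Subgroup.normalClosure (rels : Set (FreeGroup (Fin n))) :=
      (QuotientGroup.eq_one_iff x).1 hx
    have hN := FGS.normal_of_le_center
      ((Subgroup.map_subtype_le (Subgroup.closure (Set.range g))).trans hc)
    have : Subgroup.normalClosure (rels : Set (FreeGroup (Fin n))) ≤
        ((Subgroup.closure (Set.range g)).map (FGS.hopfProj φ).ker.subtype).comap
          (QuotientGroup.mk' _) := by
      apply Subgroup.normalClosure_le_normal
      intro r hr
      exact ⟨g ⟨r, hr⟩, Subgroup.subset_closure ⟨_, rfl⟩, rfl⟩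
    obtain ⟨y, hy, hy'⟩ := this hx'
    have : y = ⟨x, hx⟩ := Subtype.ext hy'
    exact this ▸ hy
  let ab : FGS.HopfExt φ →* Multiplicative (FreeAbelianGroup (Fin n)) :=
    QuotientGroup.lift _ (Abelianization.of : FreeGroup (Fin n) →* _)
      ((Subgroup.commutator_mono le_top le_top).trans (Abelianization.commutator_subset_ker _))
  let f := ab.comp (FGS.hopfProj φ).ker.subtype
  have hfk : f.ker = (FGS.hopfMult φ).subgroupOf (FGS.hopfProj φ).ker := by
    ext ⟨x, hx⟩
    obtain ⟨x, rfl⟩ := QuotientGroup.mk_surjective x
    rw [Subgroup.mem_subgroupOf, Subgroup.mem_inf, FGS.mem_commutator_hopfExt,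
      ← Abelianization.ker_of]
    exact ⟨fun h => ⟨hx, h⟩, fun h => h.2⟩
  let e' : f.ker ≃* FGS.hopfMult φ := (MulEquiv.subgroupCongr hfk).trans
    (Subgroup.subgroupOfEquivOfLe inf_le_left)
  have : Finite f.ker := Finite.of_equiv _ e'.symm.toEquiv
  have h1 := rank_ker_le g hg f (m := Nat.card (PresentedGroup (rels : Set (FreeGroup (Fin n)))))
    Nat.card_pos.ne' (fun v => by
      obtain ⟨x, hx⟩ := Quot.mk_surjective (v : Abelianization (FreeGroup (Fin n)))
      refine ⟨⟨((x ^ Nat.card (PresentedGroup (rels : Set (FreeGroup (Fin n)))) :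
        FreeGroup (Fin n)) : FGS.HopfExt φ), ?_⟩, ?_⟩
      · change φ _ = 1
        rw [map_pow, pow_card_eq_one']
      · rw [ofAdd_nsmul, ← hx]
        exact map_pow (Abelianization.of : FreeGroup (Fin n) →* _) x _)
  rw [Group.rank_congr (e'.trans e.symm), Module.finrank_eq_card_basis (FreeAbelianGroup.basis _),
    Fintype.card_fin, Fintype.card_coe] at h1
  exact h1

end Cfsg.Agent.S3973
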