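import Cfsg.Statements.S3977
import Mathlib
import Cfsg.Agent.FGS.Kulakoff
import Cfsg.Agent.Grp.UniqueOrderP

set_option autoImplicit false
open Cfsg

namespace Cfsg.Agent.S3977

universe u in
open Subgroup FGS.SubCount in
theorem aux {s : ℕ} (m : ℕ) : ∀ (X : Type u) [Group X] [Finite X], Nat.card X = 2 ^ (s + 2 + m + 1) →
    (∀ H K : Subgroup X, Nat.card H = 2 ^ (s + 2) → Nat.card K = 2 ^ (s + 2) → H = K) →
    IsCyclic X := by
  induction m with
  | zero =>
    intro X _ _ hX h
    by_contra hc
    have h1 := card_max_modEq_sq (IsPGroup.of_card hX) hc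
    obtain ⟨H, hH⟩ := Sylow.exists_subgroup_card_pow_prime 2 (hX ▸ pow_dvd_pow 2 (by omega) :
      2 ^ (s + 2) ∣ Nat.card X)
    rw [card_eq_one_of (P := fun M : Subgroup X => M.index = 2) (a₀ := H) (index_of_card (k := 1) two_pos hX hH)
      fun K hK => h K H (card_of_index (k := 1) two_pos hX hK) hH] at h1
    exact absurd h1 (by decide)
  | succ m ih =>
    intro X _ _ hX h
    have hG : IsPGroup 2 X := IsPGroup.of_card hX
    obtain ⟨H, hH⟩ := Sylow.exists_subgroup_card_pow_prime 2 (hX ▸ pow_dvd_pow 2 (by omega) :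
      2 ^ (s + 2) ∣ Nat.card X)
    have hmax : ∀ M : Subgroup X, IsCoatom M → IsCyclic M ∧ H ≤ M := by
      intro M hM
      have hMc : Nat.card M = 2 ^ (s + 2 + m + 1) :=
        card_of_index (k := 1) two_pos hX (Grp.PFrattini.index_of_isCoatom hG hM)
      refine ⟨ih M hMc fun A B hA hB => map_injective (subtype_injective M) (h _ _ ?_ ?_), ?_⟩
      · rwa [card_map_of_injective (subtype_injective M)]
      · rwa [card_map_of_injective (subtype_injective M)]
      · obtain ⟨K, hK⟩ := Sylow.exists_subgroup_card_pow_prime 2 (hMc ▸ pow_dvd_pow 2 (by omega) :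
          2 ^ (s + 2) ∣ Nat.card M)
        rw [h H (K.map M.subtype) hH (by rwa [card_map_of_injective (subtype_injective M)])]
        exact map_subtype_le K
    have huniq : ∀ k ≤ 2, ∀ A B : Subgroup X, Nat.card A = 2 ^ k → Nat.card B = 2 ^ k → A = B := by
      intro k hk
      obtain ⟨K, hK⟩ := Sylow.exists_subgroup_card_pow_prime 2 (hH ▸ pow_dvd_pow 2 (by omega) :
          2 ^ k ∣ Nat.card H)
      rw [← card_map_of_injective (subtype_injective H)] at hK
      suffices h1 : ∀ A : Subgroup X, Nat.card A = 2 ^ k → A = K.map H.subtype from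
        fun A B hA hB => (h1 A hA).trans (h1 B hB).symm
      intro A hA
      obtain ⟨M, hM, hAM⟩ := (eq_top_or_exists_le_coatom A).resolve_left (by
        rintro rfl
        rw [card_top, hX] at hA
        have := Nat.pow_right_injective le_rfl hA
        omega)
      exact FT.eq_of_card_eq_of_le_cyclic (hmax M hM).1 hAM ((map_subtype_le K).trans (hmax M hM).2)
        (hA.trans hK.symm)
    rcases Grp.isCyclic_or_quaternion hG (fun x y hx hy => by
      rw [huniq 1 (by omega) (zpowers x) (zpowers y) (by rw [Nat.card_zpowers, hx]; rfl)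
        (by rw [Nat.card_zpowers, hy]; rfl)]
      exact mem_zpowers y) with h1 | ⟨-, n, hn, ⟨e⟩⟩
    · exact h1
    exfalso
    have h2 : e.symm (.xa 1) ∈ zpowers (e.symm (.xa 0)) := by
      rw [huniq 2 le_rfl (zpowers (e.symm (.xa 0))) (zpowers (e.symm (.xa 1)))
        (by rw [Nat.card_zpowers, MulEquiv.orderOf_eq, QuaternionGroup.orderOf_xa]; rfl)
        (by rw [Nat.card_zpowers, MulEquiv.orderOf_eq, QuaternionGroup.orderOf_xa]; rfl)]
      exact mem_zpowers _
    have h3 := (FGS.Dedekind.commute_of_mem_zpowers h2).map e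
    rw [MulEquiv.apply_symm_apply, MulEquiv.apply_symm_apply, Commute, SemiconjBy,
      QuaternionGroup.xa_mul_xa, QuaternionGroup.xa_mul_xa, QuaternionGroup.a.injEq] at h3
    have h4 : ((2 : ℕ) : ZMod (2 * 2 ^ n)) = 0 := by push_cast; linear_combination -h3
    rw [ZMod.natCast_eq_zero_iff] at h4
    have h5 := Nat.le_of_dvd two_pos h4
    have : 2 ≤ 2 ^ n := Nat.le_self_pow (by omega) 2
    omega

/-- Let `p` be a prime and `G` a group of order `p ^ m` which has exactly one subgroup of order `p ^ s`, where `1 ≤ s < m`, and where `s ≥ 2` if `p = 2`. Then `G` is cyclic. (For `p = 2` and `s = 1` the generalized quaternion groups also occur; that case is the classical criterion for a unique involution.) -/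
theorem result {G : Type*} [Group G] [Finite G] (p m s : ℕ) (hp : p.Prime) (hG : Nat.card G = p ^ m) (hs : 1 ≤ s) (hsm : s < m) (h2 : p ≠ 2 ∨ 2 ≤ s) (huniq : ∀ H K : Subgroup G, Nat.card H = p ^ s → Nat.card K = p ^ s → H = K) : IsCyclic G := by
  haveI := Fact.mk hp
  by_cases hp2 : p = 2
  · subst hp2
    obtain ⟨s, rfl⟩ := Nat.exists_eq_add_of_le' (h2.resolve_left (by simp))
    obtain ⟨m, rfl⟩ := Nat.exists_eq_add_of_lt hsm
    exact aux m G hG huniq
  by_contra hc
  have h1 := FGS.SubCount.kulakoff hp2 hG hc hs hsm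
  obtain ⟨H, hH⟩ := Sylow.exists_subgroup_card_pow_prime p (hG ▸ pow_dvd_pow p hsm.le :
      p ^ s ∣ Nat.card G)
  rw [FGS.SubCount.card_eq_one_of (a₀ := H) hH fun K hK => huniq K H hK hH] at h1
  have h3 := (Nat.modEq_iff_dvd' (by omega)).1 h1
  rw [Nat.add_sub_cancel_left] at h3
  have := Nat.le_of_dvd hp.pos h3
  nlinarith [hp.two_le]

end Cfsg.Agent.S3977
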