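import Cfsg.Statements.S3978
import Mathlib
import Cfsg.Agent.FGS.SchurProj
import Cfsg.Agent.S3955
import Cfsg.Agent.S3956

set_option autoImplicit false
open Cfsg

namespace Cfsg.Agent.S3978

/-- A finite group `Q` has trivial Schur multiplier if and only if, for every `n`, every homomorphism from `Q` to the projective general linear group (the quotient of `GL n ℂ` by its centre) lifts to a homomorphism into `GL n ℂ`. -/
theorem result {Q : Type*} [Group Q] [Finite Q] : Cfsg.HasCyclicSchurMultiplier Q 1 ↔ ∀ (n : ℕ) (γ : Q →* (GL (Fin n) ℂ ⧸ Subgroup.center (GL (Fin n) ℂ))), ∃ ρ : Q →* GL (Fin n) ℂ, (QuotientGroup.mk' (Subgroup.center (GL (Fin n) ℂ))).comp ρ = γ := by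
  have hk : (MonoidHom.id Q).ker = ⊥ := by ext; simp
  have : Subsingleton (MonoidHom.id Q).ker := by rw [hk]; infer_instance
  constructor
  · intro h n γ
    have : Subsingleton (Multiplicative (ZMod 1)) := inferInstanceAs (Subsingleton (ZMod 1))
    have : Unique (Multiplicative (ZMod 1)) := uniqueOfSubsingleton 1
    have : Unique (MonoidHom.id Q).ker := uniqueOfSubsingleton 1
    exact S3955.result h (MonoidHom.id Q) FGS.isStemExtension_id ⟨MulEquiv.ofUnique⟩ n γ
  · intro h
    refine FGS.trivial_multiplier_of_forall_ker_eq_bot fun Γ _ _ σ hσ => ?_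
    obtain ⟨π, hπ⟩ := S3956.result (MonoidHom.id Q) FGS.isStemExtension_id h Γ σ hσ
    have := hπ.subsingleton
    exact Subgroup.eq_bot_of_subsingleton _

end Cfsg.Agent.S3978
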