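import Cfsg.Statements.S3980
import Mathlib
import Cfsg.Agent.S3959

set_option autoImplicit false
universe u v w
open Cfsg

namespace Cfsg.Agent.S3980

/-- Let `Q₁` and `Q₂` be finite groups whose commutator quotients have coprime orders, with Schur multipliers `A` and `B`. Then the Schur multiplier of `Q₁ × Q₂` is isomorphic to `A × B`. -/
theorem result {Q₁ : Type u} {Q₂ : Type v} [Group Q₁] [Group Q₂] [Finite Q₁] [Finite Q₂] {A B : Type w} [CommGroup A] [CommGroup B] (hA : Cfsg.HasSchurMultiplier Q₁ A) (hB : Cfsg.HasSchurMultiplier Q₂ B) (hcop : Nat.Coprime (Nat.card (Abelianization Q₁)) (Nat.card (Abelianization Q₂))) : Cfsg.HasSchurMultiplier (Q₁ × Q₂) (A × B) := by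
  have h := S3959.result hA hB
  have hs : ∀ w : S3959.T Q₁ Q₂, w = 1 := by
    intro w
    have : (⊥ : Subgroup (S3959.T Q₁ Q₂)) = ⊤ := by
      apply S3959.closure_tm
      intro a b
      rw [Subgroup.mem_bot]
      have h1 : S3959.tm a b ^ Nat.card (Abelianization Q₁) = 1 := by
        have : S3959.tm a b = Abelianization.lift (S3959.tm.flip b) (Abelianization.of a) := rfl
        rw [this, ← map_pow, pow_card_eq_one', map_one]
      have h2 : S3959.tm a b ^ Nat.card (Abelianization Q₂) = 1 := by
        have : S3959.tm a b = Abelianization.lift (S3959.tm a) (Abelianization.of b) := rfl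
        rw [this, ← map_pow, pow_card_eq_one', map_one]
      have h3 := pow_gcd_eq_one.2 ⟨h1, h2⟩
      rwa [hcop, pow_one] at h3
    exact Subgroup.mem_bot.1 (this.ge (Subgroup.mem_top w))
  have : Unique (S3959.T Q₁ Q₂) := ⟨⟨1⟩, hs⟩
  exact FGS.HasSchurMultiplier.congr_right h
    ((MulEquiv.refl A).prodCongr (MulEquiv.prodUnique))

end Cfsg.Agent.S3980
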