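import Cfsg.Statements.S3994
import Mathlib
import Cfsg.Agent.FGS.FrobeniusCount

set_option autoImplicit false
open Cfsg

namespace Cfsg.Agent.S3994

/-- Let G be a finite group and n a positive integer. The number of elements of G whose order is divisible by n is either 0 or divisible by the largest divisor of the order of G that is coprime to n. -/
theorem result {G : Type*} [Group G] [Finite G] (n : ℕ) (hn : 0 < n) :
    Nat.card {g : G // n ∣ orderOf g} = 0 ∨
      (Nat.card G / Nat.gcd (Nat.card G) (n ^ Nat.card G)) ∣ Nat.card {g : G // n ∣ orderOf g} := by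
  right
  have hN : Nat.card G / Nat.gcd (Nat.card G) (n ^ Nat.card G) ∣ Nat.card G :=
    Nat.div_dvd_of_dvd (Nat.gcd_dvd_left _ _)
  have hc : (Nat.card G / Nat.gcd (Nat.card G) (n ^ Nat.card G)).Coprime n := by
    refine Nat.coprime_of_dvd fun r hr h1 h2 => ?_
    have h0 : Nat.card G ≠ 0 := Nat.card_pos.ne'
    obtain ⟨e, m, hm, he⟩ := Nat.exists_eq_pow_mul_and_not_dvd h0 r hr.ne_one
    have h3 : r ^ e ∣ Nat.gcd (Nat.card G) (n ^ Nat.card G) := by
      refine Nat.dvd_gcd ⟨m, he⟩ ((pow_dvd_pow r ?_).trans (pow_dvd_pow_of_dvd h2 _))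
      exact (Nat.lt_pow_self hr.one_lt).le.trans (Nat.le_of_dvd Nat.card_pos ⟨m, he⟩)
    have h4 := Nat.mul_dvd_mul h1 h3
    rw [Nat.div_mul_cancel (Nat.gcd_dvd_left _ _), he, mul_comm] at h4
    exact hm (Nat.dvd_of_mul_dvd_mul_left (pow_pos hr.pos e) h4)
  generalize Nat.card G / Nat.gcd (Nat.card G) (n ^ Nat.card G) = N at hN hc
  have h1 := FGS.FrobCount.dvd_card_root_mem (G := G) (fun y => n ∣ orderOf y)
    (fun y z h hy => by
      obtain ⟨c, rfl⟩ := isConj_iff.1 h
      rwa [PLocal.Amb.orderOf_conj']) N (N.gcd (Nat.card G))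
    fun y _ => FGS.FrobCount.gcd_dvd_index_mul (FGS.FrobCount.gcd_dvd_card_root y N)
  rw [Nat.gcd_eq_left hN] at h1
  refine h1.trans (dvd_of_eq (Nat.card_congr (Equiv.subtypeEquivRight fun g =>
    ⟨fun h => h.trans (orderOf_pow_dvd N), fun h => ?_⟩)))
  have h2 := Nat.div_mul_cancel (Nat.gcd_dvd_left (orderOf g) N)
  rw [← orderOf_pow] at h2
  rw [← h2] at h
  exact (hc.symm.coprime_dvd_right (Nat.gcd_dvd_right _ _)).dvd_of_dvd_mul_right h

end Cfsg.Agent.S3994
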