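import Cfsg.Statements.S3995
import Mathlib
import Cfsg.Agent.FGS.SameOrder
import Cfsg.Agent.Grp.UniqueOrderP
import Cfsg.Agent.FGS.PrimePart

set_option autoImplicit false
open Cfsg

namespace Cfsg.Agent.S3995

open Subgroup FGS.SO

/-- Let G be a finite group such that the numbers of elements of each order that occurs in G (the numbers #{g : o(g) = m}, m ranging over the element orders of G) take exactly two values, 1 and some n ≠ 1. Then either G is a p-group of exponent p and order at least 3 for some prime p, or G is the quaternion group of order 8, or G is cyclic of order 4, or G ≅ Z₂ × P for a p-group P of exponent p with p an odd prime. -/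
theorem result {G : Type*} [Group G] [Finite G] (n : ℕ) (hn : n ≠ 1) (h : ((fun m : ℕ => Nat.card {g : G // orderOf g = m}) '' Set.range (orderOf : G → ℕ)) = {1, n}) :
    (∃ p : ℕ, p.Prime ∧ IsPGroup p G ∧ 3 ≤ Nat.card G ∧ Monoid.exponent G = p) ∨
      Nonempty (G ≃* QuaternionGroup 2) ∨ (IsCyclic G ∧ Nat.card G = 4) ∨
      (∃ (p : ℕ) (P : Type) (_ : Group P) (_ : Finite P), p.Prime ∧ p ≠ 2 ∧ IsPGroup p P ∧ Monoid.exponent P = p ∧
        Nonempty (G ≃* Multiplicative (ZMod 2) × P)) := by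
  have h0 : ∀ k, s G k = 0 ∨ s G k = 1 ∨ s G k = n := of_image h
  obtain ⟨_, ⟨g0, rfl⟩, hg0⟩ := h.ge (Set.mem_insert_of_mem _ rfl)
  replace hg0 : s G (orderOf g0) = n := hg0
  have hn0 : n ≠ 0 := hg0 ▸ s_ne_zero g0
  have hg1 : orderOf g0 ≠ 1 := fun h => hn (by rw [← hg0, h, s_one])
  haveI : Nontrivial G := ⟨g0, 1, mt orderOf_eq_one_iff.2 hg1⟩
  by_cases hc : ∀ k, k ≠ 1 → s G k = 0 ∨ s G k = n
  · obtain ⟨p, hp, hG⟩ := pow_eq_one_of_const hc
    haveI := Fact.mk hp
    refine Or.inl ⟨p, hp, fun g => ⟨1, by rw [pow_one, hG]⟩, ?_,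
      (Monoid.exponent_eq_prime_iff hp).2 fun g hg => orderOf_eq_prime (hG g) hg⟩
    have := sum_le_card (G := G) hp.ne_zero
    rw [hp.sum_divisors, s_one, ← orderOf_eq_prime (hG g0) (mt orderOf_eq_one_iff.2 hg1), hg0] at this
    omega
  have h2 : s G 2 = 1 := by
    push Not at hc
    obtain ⟨k, hk, h1, h2⟩ := hc
    have := ((h0 k).resolve_left h1).resolve_right h2
    exact (eq_of_s_eq_one this).resolve_left hk ▸ this
  have h3 : ∀ k, k ≠ 1 → k ≠ 2 → s G k = 0 ∨ s G k = n := fun k h1 h2 =>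
    (h0 k).imp_right fun h => h.resolve_left fun h => (eq_of_s_eq_one h).elim h1 h2
  obtain ⟨⟨z, hz⟩, hzu⟩ := Nat.card_eq_one_iff_exists.1 h2
  replace hzu : ∀ y : G, orderOf y = 2 → y = z := fun y hy => congrArg Subtype.val (hzu ⟨y, hy⟩)
  have hzZ : z ∈ center G := mem_center_iff.2 fun g => by
    rw [← mul_inv_eq_iff_eq_mul]
    exact hzu _ ((SemiconjBy.orderOf_eq g (SemiconjBy.conj_mk g z)).symm.trans hz)
  right
  by_cases h4 : 4 ∣ Nat.card G
  · have a1 := dvd_sum h4
    rw [show (4 : ℕ) = 2 * 2 from rfl, sum_sq _ Nat.prime_two, s_one, h2] at a1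
    have a2 : s G 4 = n := (h3 4 (by omega) (by omega)).resolve_left fun h => by
      rw [show 2 * 2 = 4 from rfl, h] at a1; omega
    rw [show 2 * 2 = 4 from rfl, a2] at a1
    have hG : IsPGroup 2 G := by
      refine IsPGroup.of_card (Nat.eq_prime_pow_of_unique_prime_dvd Nat.card_pos.ne' ?_)
      intro p hp hd
      by_contra hp2
      haveI := Fact.mk hp
      have hp3 : 2 < p := lt_of_le_of_ne hp.two_le (Ne.symm hp2)
      have b0 := (h3 p (by omega) hp2).resolve_left (s_ne_zero_of_prime hp hd)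
      have b1 := e_p hp hd
      have b2 := e_pq hp Nat.prime_two hp2 hd (Dvd.dvd.trans (by norm_num) h4)
      have b3 := e_mul (b := 2) hp (fun f => sum_sq f Nat.prime_two)
        (((Nat.coprime_primes hp Nat.prime_two).2 hp2).mul_right
          ((Nat.coprime_primes hp Nat.prime_two).2 hp2)) hd h4
      rw [show 2 * 2 = 4 from rfl, a2] at b3
      rw [b0] at b1
      rcases h3 (p * 4) (by omega) (by omega) with e | e <;> rw [e] at b3
      · exact one_ne_zero (α := ZMod p)
          (by linear_combination b1 + b2 - b3 + Nat.cast_zero (R := ZMod p))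
      · exact two_ne_zero' hp hp2 (by linear_combination 2 * b1 + b2 - b3)
    have h8 : s G 8 = 0 := (h3 8 (by omega) (by omega)).resolve_right fun h => by
      obtain ⟨g, hg⟩ := exists_of_s_ne_zero (h ▸ hn0 : s G 8 ≠ 0)
      have := dvd_sum (hg ▸ orderOf_dvd_natCard g)
      rw [show Nat.divisors 8 = {1, 2, 4, 8} by decide] at this
      simp only [Finset.mem_insert, Finset.mem_singleton, Finset.sum_insert, Finset.sum_singleton,
        not_false_eq_true, Nat.reduceEqDiff, or_self, OfNat.one_ne_ofNat, s_one, h2, a2, h] at this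
      omega
    have hd : ∀ g : G, orderOf g ∣ 4 := fun g => by
      obtain ⟨k, hk⟩ := IsPGroup.iff_orderOf.1 hG g
      have := not_dvd_orderOf h8 g
      rw [hk, show 8 = 2 ^ 3 from rfl, Nat.pow_dvd_pow_iff_le_right one_lt_two] at this
      exact hk ▸ pow_dvd_pow 2 (by omega : k ≤ 2)
    rcases Grp.isCyclic_or_quaternion hG (fun x y hx hy => by
      rw [hzu x hx, hzu y hy]; exact mem_zpowers z) with hc | ⟨-, k, hk, ⟨e⟩⟩
    · obtain ⟨g, hg⟩ := IsCyclic.exists_generator (α := G)
      exact Or.inr (Or.inl ⟨hc, Nat.dvd_antisymm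
        (orderOf_eq_card_of_forall_mem_zpowers hg ▸ hd g) h4⟩)
    · have := hd (e.symm (QuaternionGroup.a 1))
      rw [MulEquiv.orderOf_eq, QuaternionGroup.orderOf_a_one, ← pow_succ', show 4 = 2 ^ 2 from rfl,
        Nat.pow_dvd_pow_iff_le_right one_lt_two] at this
      obtain rfl : k = 1 := by omega
      exact Or.inl ⟨e⟩
  refine Or.inr (Or.inr ?_)
  haveI : (zpowers z).Normal :=
    ⟨fun a ha g => by rwa [mem_center_iff.1 (zpowers_le.2 hzZ ha) g, mul_inv_cancel_right]⟩
  have hZ : Nat.card (zpowers z) = 2 := by rw [Nat.card_zpowers, hz]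
  have hi : ¬ 2 ∣ (zpowers z).index := fun h => h4 (by
    rw [← (zpowers z).card_mul_index, hZ]; exact Nat.mul_dvd_mul_left 2 h)
  obtain ⟨K, hK⟩ := exists_right_complement'_of_coprime (N := zpowers z)
    (by rw [hZ]; exact (Nat.prime_two.coprime_iff_not_dvd).2 hi)
  have hKi : K.index = 2 := hK.index_eq_card.trans hZ
  have hKc : ¬ 2 ∣ Nat.card K := hK.symm.index_eq_card ▸ hi
  have hs : ∀ k, ¬ 2 ∣ k → s K k = s G k := fun k hk =>
    Nat.card_congr ⟨fun a => ⟨a.1, by rw [orderOf_coe, a.2]⟩, fun a => ⟨⟨a.1,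
      FGS.mem_of_pow_mem_of_coprime (m := 2) (by
        rw [a.2]; exact (Nat.prime_two.coprime_iff_not_dvd.2 hk).symm) (sq_mem_of_index_two hKi _)⟩,
      by rw [← orderOf_coe, a.2]⟩, fun _ => rfl, fun _ => rfl⟩
  haveI : Nontrivial K := by
    rw [← Finite.one_lt_card_iff_nontrivial]
    by_contra hc
    have h5 := orderOf_dvd_natCard g0
    rw [← K.card_mul_index, hKi, show Nat.card K = 1 by have := Nat.card_pos (α := K); omega,
      one_mul, Nat.dvd_prime Nat.prime_two] at h5
    exact hn (by rw [← hg0, h5.resolve_left hg1, h2])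
  obtain ⟨p, hp, hP⟩ := pow_eq_one_of_const (G := K) (n := n) fun k hk => by
    by_cases h : 2 ∣ k
    · exact Or.inl (s_eq_zero_iff.2 fun g hg => hKc (h.trans (hg ▸ orderOf_dvd_natCard g)))
    · exact hs k h ▸ h3 k hk (fun e => h (e ▸ dvd_rfl))
  haveI := Fact.mk hp
  have hexp := (Monoid.exponent_eq_prime_iff hp).2 fun g hg => orderOf_eq_prime (hP g) hg
  let e := Shrink.mulEquiv.{0} (α := K)
  let f : zpowers z × K →* G := (zpowers z).subtype.noncommCoprod K.subtype fun a b =>
    (mem_center_iff.1 (zpowers_le.2 hzZ a.2) b).symm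
  refine ⟨p, Shrink.{0} K, inferInstance, Finite.of_equiv _ e.symm.toEquiv, hp, ?_,
    IsPGroup.of_equiv (fun g => ⟨1, by rw [pow_one, hP]⟩) e.symm,
    (Monoid.exponent_eq_of_mulEquiv e).trans hexp,
    ⟨(MulEquiv.ofBijective f hK).symm.trans (MulEquiv.prodCongr
      (mulEquivOfPrimeCardEq hZ (by simp)) e.symm)⟩⟩
  rintro rfl
  exact hKc (hexp ▸ Group.exponent_dvd_nat_card)

end Cfsg.Agent.S3995
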