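import Cfsg.Statements.S3996
import Mathlib
import Cfsg.Agent.FGS.SameOrder
import Cfsg.Agent.Char.Burnside
import Cfsg.Agent.S0205

set_option autoImplicit false
open Cfsg

namespace Cfsg.Agent.S3996

open Subgroup FGS.SO

theorem aux {G : Type*} [Group G] [Finite G] {m n p q : ℕ} (hp : p.Prime) (hq : q.Prime)
    (hpq : p ≠ q) (hp2 : p ≠ 2) (hq2 : q ≠ 2) (h1 : p ∣ Nat.card G) (h2 : q ∣ Nat.card G)
    (h4 : 4 ∣ Nat.card G) (hm : s G 4 = m) (hn : ∀ k, 4 ∣ s G k → s G k = 0 ∨ s G k = n)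
    (e1 : s G p = m) (e2 : s G q = m ∨ s G q = n) : False := by
  have key : ∀ r : ℕ, r.Prime → r ≠ 2 → r ∣ Nat.card G → s G r = m →
      s G (r * 4) = n ∧ (n : ZMod r) = 1 := by
    intro r hr hr2 hd e
    haveI := Fact.mk hr
    have hc := (Nat.coprime_primes hr Nat.prime_two).2 hr2
    have b1 := e_p hr hd
    have b2 := e_pq hr Nat.prime_two hr2 hd (Dvd.dvd.trans (by norm_num) h4)
    have b3 := e_mul (b := 2) hr (fun f => sum_sq f Nat.prime_two) (hc.mul_right hc) hd h4
    rw [show 2 * 2 = 4 from rfl, hm] at b3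
    rw [e] at b1
    rcases hn (r * 4) (four_dvd_s (lt_of_le_of_ne hr.two_le hr2.symm) (by norm_num)
      (hc.mul_right hc) dvd_rfl) with e | e <;> rw [e] at b3
    · exact absurd (by linear_combination b1 + b2 - b3 + Nat.cast_zero (R := ZMod r))
        (one_ne_zero (α := ZMod r))
    · exact ⟨e, by linear_combination b3 - b1 - b2⟩
  haveI := Fact.mk hp
  have hp3 := lt_of_le_of_ne hp.two_le hp2.symm
  have hq3 := lt_of_le_of_ne hq.two_le hq2.symm
  have hc := (Nat.coprime_primes hp hq).2 hpq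
  have hc1 := (Nat.coprime_primes hp Nat.prime_two).2 hp2
  have hc2 := (Nat.coprime_primes hq Nat.prime_two).2 hq2
  have a1 := (key p hp hp2 h1 e1).2
  have a2 := e_pq hp hq hpq h1 h2
  rcases e2 with e2 | e2
  · have a3 := (key q hq hq2 h2 e2).1
    have h2' : 2 ∣ Nat.card G := Dvd.dvd.trans (by norm_num) h4
    have hc3 := hc.mul_right (hc1.mul_right hc1)
    have a4 := zsum (dvd_mul_right p (q * (2 * 2))) (hc3.mul_dvd_of_dvd_of_dvd h1
      ((hc2.mul_right hc2).mul_dvd_of_dvd_of_dvd h2 h4))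
    rw [sum_mul _ hc3] at a4
    simp only [sum_mul _ (hc2.mul_right hc2), sum_sq _ Nat.prime_two, hp.sum_divisors,
      hq.sum_divisors, one_mul, mul_one, s_one] at a4
    push_cast at a4
    have a5 := e_p hp h1
    have a6 := e_mul (b := 2) hp (fun f => sum_sq f Nat.prime_two) (hc1.mul_right hc1) h1 h4
    have a7 := e_pqr hp hq Nat.prime_two hpq hp2 hq2 h1 h2 h2'
    rw [show 2 * 2 = 4 from rfl] at a6
    rw [a3] at a4
    rcases hn (p * (q * 4)) (four_dvd_s hp3 hq3 hc ⟨4, by ring⟩) with e | e <;> rw [e] at a4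
    · exact one_ne_zero (α := ZMod p)
        (by linear_combination a4 - a5 - a6 - a7 - a2 - a1 - Nat.cast_zero (R := ZMod p))
    · exact two_ne_zero' hp hp2 (by linear_combination a4 - a5 - a6 - a7 - a2 - 2 * a1)
  · rw [e2] at a2
    rcases hn (p * q) (four_dvd_s hp3 hq3 hc dvd_rfl) with e | e <;> rw [e] at a2
    · exact one_ne_zero (α := ZMod p)
        (by linear_combination a2 - a1 - Nat.cast_zero (R := ZMod p))
    · exact two_ne_zero' hp hp2 (by linear_combination a2 - 2 * a1)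

theorem aux2 {G : Type*} [Group G] [Finite G] {m n p q : ℕ} (hp : p.Prime) (hq : q.Prime)
    (hpq : p ≠ q) (hp2 : p ≠ 2) (hq2 : q ≠ 2) (h1 : p ∣ Nat.card G) (h2 : q ∣ Nat.card G)
    (h4 : 4 ∣ Nat.card G) (h : ∀ k, s G k = 0 ∨ s G k = 1 ∨ s G k = m ∨ s G k = n)
    (hm : s G 2 = m ∧ ¬ 2 ∣ m ∨ s G 4 = m ∧ ¬ 4 ∣ m) : False := by
  have hp3 := lt_of_le_of_ne hp.two_le hp2.symm
  have hq3 := lt_of_le_of_ne hq.two_le hq2.symm
  have e1 := even_s (G := G) hp3
  have e2 := even_s (G := G) hq3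
  have e3 := s_ne_zero_of_prime hp h1
  have e4 := s_ne_zero_of_prime hq h2
  have e5 := four_dvd_s (G := G) hp3 hq3 ((Nat.coprime_primes hp hq).2 hpq) dvd_rfl
  have e6 := h p
  have e7 := h q
  have e8 := h (p * q)
  rcases hm with ⟨-, hm⟩ | ⟨hm, hm'⟩
  · exact not_two (n := n) hp hq hpq hp2 h1 h2 (by omega) (by omega) (by omega)
  have hn : ∀ k, 4 ∣ s G k → s G k = 0 ∨ s G k = n := fun k hk => by have := h k; omega
  by_cases a1 : s G p = m
  · exact aux hp hq hpq hp2 hq2 h1 h2 h4 hm hn a1 (by omega)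
  by_cases a2 : s G q = m
  · exact aux hq hp hpq.symm hq2 hp2 h2 h1 h4 hm hn a2 (by omega)
  exact not_two (n := n) hp hq hpq hp2 h1 h2 (by omega) (by omega) (hn _ e5)

/-- A finite group in which the numbers of elements of each order that occurs (the numbers #{g : o(g) = m}, m ranging over the element orders) take exactly three different values is solvable. -/
theorem result {G : Type*} [Group G] [Finite G] (h : (((fun m : ℕ => Nat.card {g : G // orderOf g = m}) '' Set.range (orderOf : G → ℕ))).ncard = 3) : Group.IsSolvable G := by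
  obtain ⟨m, n, h⟩ := of_ncard_three h
  by_cases h2 : 2 ∣ Nat.card G
  swap
  · exact S0205.result (Nat.odd_iff.2 (by omega))
  by_cases h4 : 4 ∣ Nat.card G
  swap
  · obtain ⟨P⟩ : Nonempty (Sylow 2 G) := inferInstance
    have hP : IsCyclic P := by
      obtain ⟨k, hk⟩ := P.isPGroup'.exists_card_eq
      refine isCyclic_of_card_dvd_prime (p := 2) (hk ▸ (pow_dvd_pow 2 ?_).trans (pow_one 2).dvd)
      by_contra hc
      exact h4 ((pow_dvd_pow 2 (by omega : 2 ≤ k)).trans (hk ▸ card_subgroup_dvd_card _))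
    have hmin : (Nat.card G).minFac = 2 := (Nat.minFac_eq_two_iff _).2 h2
    have hc := hP.isComplement' hmin
    haveI := S0205.result (G := (MonoidHom.transferSylow P (hP.normalizer_le_centralizer hmin)).ker)
      (by rw [← hc.index_eq_card]
          exact Nat.odd_iff.2 (by have := P.not_dvd_index; omega))
    haveI := P.isPGroup'.isNilpotent
    exact solvable_of_ker_le_range (Subgroup.subtype _)
      (MonoidHom.transferSylow P (hP.normalizer_le_centralizer hmin)) (range_subtype _).ge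
  have key : ∀ p q : ℕ, p.Prime → q.Prime → p ≠ 2 → q ≠ 2 → p ∣ Nat.card G → q ∣ Nat.card G →
      p = q := by
    intro p q hp hq hp2 hq2 h1 h3
    by_contra hpq
    have a1 := dvd_sum h2
    have a2 := dvd_sum h4
    rw [Nat.prime_two.sum_divisors, s_one] at a1
    rw [show (4 : ℕ) = 2 * 2 from rfl, sum_sq _ Nat.prime_two, s_one, show 2 * 2 = 4 from rfl] at a2
    have h' : ∀ k, s G k = 0 ∨ s G k = 1 ∨ s G k = n ∨ s G k = m := fun k => by
      have := h k; tauto
    have a3 := h 2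
    have a4 := h 4
    by_cases hm : s G 2 = m ∧ ¬ 2 ∣ m ∨ s G 4 = m ∧ ¬ 4 ∣ m
    · exact aux2 hp hq hpq hp2 hq2 h1 h3 h4 h hm
    · exact aux2 hp hq hpq hp2 hq2 h1 h3 h4 h' (by omega)
  obtain ⟨a, t, ht, e⟩ := Nat.exists_eq_pow_mul_and_not_dvd (Nat.card_pos (α := G)).ne' 2 (by omega)
  have ht0 : t ≠ 0 := by rintro rfl; simp at ht
  have htd : t ∣ Nat.card G := ⟨2 ^ a, by rw [e, mul_comm]⟩
  obtain ⟨p, hp, b, hb⟩ : ∃ p : ℕ, p.Prime ∧ ∃ b, t = p ^ b := by
    by_cases h1 : t = 1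
    · exact ⟨2, Nat.prime_two, 0, h1⟩
    · refine ⟨_, Nat.minFac_prime h1, _, Nat.eq_prime_pow_of_unique_prime_dvd ht0 fun hq hd =>
        key _ _ hq (Nat.minFac_prime h1) ?_ ?_ (hd.trans htd) ((Nat.minFac_dvd t).trans htd)⟩
      · rintro rfl; exact ht hd
      · exact fun h => ht (h ▸ Nat.minFac_dvd t)
  exact Char.isSolvable_of_card_dvd_pow_mul_pow Nat.prime_two hp _ (hb ▸ e).dvd

end Cfsg.Agent.S3996
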