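import Cfsg.Statements.S3997
import Mathlib
import Cfsg.Agent.PLocal.AmbSyl

set_option autoImplicit false
open Cfsg

namespace Cfsg.Agent.S3997

/-- Let G and H be finite groups with the same order type: for every m they have the same number of elements of order m. If G is nilpotent then so is H. -/
theorem result {G H : Type*} [Group G] [Finite G] [Group H] [Finite H] (hT : (∀ m : ℕ, Nat.card {g : G // orderOf g = m} = Nat.card {h : H // orderOf h = m})) (hG : Group.IsNilpotent G) :
    Group.IsNilpotent H := by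
  have hfin : ∀ m : ℕ, Nonempty ({g : G // orderOf g = m} ≃ {h : H // orderOf h = m}) :=
    fun m => Finite.card_eq.1 (hT m)
  let e : G ≃ H := Equiv.ofFiberEquiv (f := orderOf) (g := orderOf) fun m => (hfin m).some
  have he : ∀ g, orderOf (e g) = orderOf g := Equiv.ofFiberEquiv_map _
  have hc : Nat.card G = Nat.card H := Nat.card_congr e
  refine ((Group.isNilpotent_of_finite_tfae (G := H)).out 3 0 rfl rfl).1 fun p hp Q => ?_
  obtain ⟨P⟩ : Nonempty (Sylow p G) := inferInstance
  have hP : (P : Subgroup G).Normal := inferInstance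
  have h1 : Nat.card {h : H // ∃ k, h ^ p ^ k = 1} = Nat.card Q := by
    rw [Q.card_eq_multiplicity, ← hc, ← P.card_eq_multiplicity]
    refine (Nat.card_congr (e.subtypeEquiv fun g => ?_)).symm
    simp_rw [← orderOf_dvd_iff_pow_eq_one, he, orderOf_dvd_iff_pow_eq_one]
    exact ⟨PLocal.Amb.isPGroup_iff.1 P.isPGroup' g, fun h => Subgroup.zpowers_le.1
      ((PLocal.Amb.isSyl_top P).le_of_normalizes (PLocal.Amb.isPGroup_zpowers h) le_top
        Subgroup.le_normalizer_of_normal)⟩
  have h2 : ((Q : Subgroup H) : Set H) = {h : H | ∃ k, h ^ p ^ k = 1} :=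
    Set.eq_of_subset_of_ncard_le (PLocal.Amb.isPGroup_iff.1 Q.isPGroup') (le_of_eq h1)
  refine ⟨fun x hx g => ?_⟩
  obtain ⟨k, hk⟩ := PLocal.Amb.isPGroup_iff.1 Q.isPGroup' x hx
  exact h2.ge ⟨k, by rw [conj_pow, hk]; simp⟩

end Cfsg.Agent.S3997
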