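import Cfsg.Statements.S3999
import Cfsg.Agent.OrdT.Frob

set_option autoImplicit false
open Cfsg

namespace Cfsg.Agent.S3999

open Subgroup OrdT Solv

/-- Let F be a finite Frobenius group (it has a Frobenius complement) and G a finite group with the same order type as F (for every m the same number of elements of order m). Then G is a Frobenius group; moreover G is solvable if and only if F is. -/
theorem result {F G : Type*} [Group F] [Finite F] [Group G] [Finite G] (hF : (∃ C : Subgroup F, Cfsg.IsFrobeniusComplement C)) (hT : (∀ m : ℕ, Nat.card {g : F // orderOf g = m} = Nat.card {h : G // orderOf h = m})) :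
    (∃ C : Subgroup G, Cfsg.IsFrobeniusComplement C) ∧ (Group.IsSolvable G ↔ Group.IsSolvable F) := by
  obtain ⟨C, hC⟩ := hF
  have hT' : OT F G := hT
  have hc := Frob.isComplement'_fitting hC
  have hn := Frob.isNilpotent_kernel hC hc
  have hco : (Nat.card (fittingSubgroup F)).Coprime (fittingSubgroup F).index := by
    rw [hc.symm.index_eq_card, ← hc.index_eq_card]
    exact (Frob.coprime_card_index hC).symm
  obtain ⟨M, hM, e, hs⟩ := hT'.exists_normal _ hco (isSupersolvable_of_isNilpotent _ hn)
  have hi := hT'.index_eq e
  obtain ⟨D, hD⟩ := exists_right_complement'_of_coprime (N := M) (by rwa [e, hi])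
  have cD : Nat.card D = Nat.card C := by
    rw [← hD.symm.index_eq_card, hi, hc.symm.index_eq_card]
  have hD' : IsFrobeniusComplement D := by
    refine Frob.isFrobeniusComplement_of_fpf hD (fun h => hC.2.1 ?_) (fun h => hC.1 ?_)
      (fpf_of (by rwa [e, cD, ← hc.symm.index_eq_card]) fun x => ?_)
    · rw [← index_eq_one, hc.index_eq_card, ← e, h, card_bot]
    · rw [← card_eq_one, ← cD, h, card_bot]
    · obtain ⟨y, hy⟩ := hT'.symm.exists_orderOf x
      rw [e, cD, ← hy]
      exact orderOf_dvd_or hC hc y
  have h1 : OT C D := ((ot_of_equiv hc.symm.QuotientMulEquiv.symm).trans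
    (hT'.quotient hco e)).trans (ot_of_equiv hD.symm.QuotientMulEquiv)
  refine ⟨⟨D, hD'⟩, ?_⟩
  rw [solvable_iff hD hs, solvable_iff hc inferInstance]
  exact ⟨solvable_of_occurs h1.symm (occurs hC), solvable_of_occurs h1 (occurs hD')⟩

end Cfsg.Agent.S3999
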