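import Cfsg.Statements.S4003
import Mathlib
import Cfsg.Agent.FGS.Kulakoff
import Cfsg.Agent.FGS.NilpPi
import Cfsg.Agent.FGS.ClassSize

set_option autoImplicit false
open Cfsg

namespace Cfsg.Agent.S4003

open Subgroup FGS.SubCount PLocal.Amb in
theorem fiber {G : Type*} [Group G] [Finite G] {a m : ℕ} (hm : a.Coprime m) {y : G}
    (hy : orderOf y = m) {t : ℕ} (ha : a ∣ t) (ht : t ≡ 1 [MOD m]) :
    Nat.card {x : G // orderOf x = a * m ∧ x ^ t = y} =
      Nat.card {x : centralizer ({y} : Set G) // orderOf x = a} := by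
  have hyt : y ^ t = y := FGS.pow_part_eq_self (hy ▸ pow_orderOf_eq_one y) ht
  have h1 : ∀ x : G, x ^ t = y → Commute x y := fun x hx => hx ▸ Commute.self_pow x t
  refine Nat.card_congr ⟨fun x => ⟨⟨y⁻¹ * x.1, mem_centralizer_singleton_iff.2
      ((Commute.refl y).inv_left.mul_left (h1 _ x.2.2))⟩, ?_⟩,
    fun x => ⟨y * x.1.1, ?_, ?_⟩, fun x => by ext; simp, fun x => by ext; simp⟩
  · rw [← Subgroup.orderOf_coe]
    have h2 : (y⁻¹ * x.1) ^ a = 1 := by
      have := FGS.part_pow_right (a := m) (b := a) (t := t) (x := x.1)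
        (orderOf_dvd_iff_pow_eq_one.1 (dvd_of_eq (x.2.1.trans (mul_comm _ _)))) ht
      rwa [x.2.2] at this
    have h3 := orderOf_dvd_of_pow_eq_one h2
    have h4 : Commute y (y⁻¹ * x.1) := (Commute.refl y).inv_right.mul_right (h1 _ x.2.2).symm
    have h5 := h4.orderOf_mul_eq_mul_orderOf_of_coprime
      (by rw [hy]; exact hm.symm.coprime_dvd_right h3)
    rw [mul_inv_cancel_left, x.2.1, hy] at h5
    exact (Nat.eq_of_mul_eq_mul_left (hy ▸ orderOf_pos y) ((mul_comm _ _).trans h5)).symm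
  · have h4 : Commute y x.1.1 := (mem_centralizer_singleton_iff.1 x.1.2).symm
    have h5 : orderOf x.1.1 = a := by rw [Subgroup.orderOf_coe, x.2]
    rw [h4.orderOf_mul_eq_mul_orderOf_of_coprime (by rw [hy, h5]; exact hm.symm), hy, h5, mul_comm]
  · have h4 : Commute y x.1.1 := (mem_centralizer_singleton_iff.1 x.1.2).symm
    have h5 : orderOf x.1.1 = a := by rw [Subgroup.orderOf_coe, x.2]
    rw [h4.mul_pow, hyt, FGS.pow_part_eq_one (orderOf_dvd_iff_pow_eq_one.1 h5.dvd) ha, mul_one]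

/-- Let G be a finite group, p an odd prime dividing the order of G whose Sylow p-subgroups are not cyclic, and n = p^s·m with s > 1 and m coprime to p. Then the number of elements of G of order n is a multiple of p^s. -/
theorem result {G : Type*} [Group G] [Finite G] (p : ℕ) [Fact p.Prime] (hodd : p ≠ 2) (hpG : p ∣ Nat.card G)
    (P : Sylow p G) (hP : ¬ IsCyclic ↥(P : Subgroup G)) (s m : ℕ) (hs : 1 < s) (hm : Nat.Coprime p m) :
    p ^ s ∣ Nat.card {g : G // orderOf g = p ^ s * m} := by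
  have hp : p.Prime := Fact.out
  obtain ⟨s, rfl⟩ : ∃ s', s = s' + 2 := ⟨s - 2, by omega⟩
  have hm' : (p ^ (s + 2)).Coprime m := hm.pow_left _
  obtain ⟨t, ht, ha⟩ := FGS.exists_part_exponent hm'.symm
  refine FGS.SubCount.dvd_card_of_equivariant (Γ := ConjAct G)
    (fun g : G => orderOf g = p ^ (s + 2) * m) (fun g : G => g ^ t)
    (fun g a h => by rw [ConjAct.smul_def, PLocal.Amb.orderOf_conj', h])
    (fun g a => smul_pow' g a t ▸ rfl) fun x hx => ?_
  have hy : orderOf (x ^ t) = m := by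
    have h0 : m ≠ 0 := by rintro rfl; exact (orderOf_pos x).ne' (by simpa using hx)
    obtain ⟨u, rfl⟩ := ha
    have h1 : m.Coprime u := by
      have h2 : m.Coprime (p ^ (s + 2) * u) := by
        rw [Nat.Coprime, Nat.gcd_comm, ht.gcd_eq, Nat.gcd_one_left]
      exact h2.coprime_mul_left_right
    rw [orderOf_pow, hx, Nat.gcd_mul_left, h1.gcd_eq_one, mul_one,
      Nat.mul_div_cancel_left _ (pow_pos hp.pos _)]
  have hi : (MulAction.stabilizer (ConjAct G) (x ^ t)).index =
      (Subgroup.centralizer ({x ^ t} : Set G)).index := by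
    rw [← FGS.stabilizer_conjAct_eq, Subgroup.index_comap_of_surjective _
      ConjAct.toConjAct.surjective]
  rw [hi, fiber hm' hy ha ht, FGS.SubCount.card_orderOf_eq, Nat.totient_prime_pow_succ hp]
  generalize Subgroup.centralizer ({x ^ t} : Set G) = C
  rw [← mul_assoc]
  refine (pow_succ' p (s + 1)).dvd.trans (mul_dvd_mul ?_ (dvd_mul_right _ _))
  by_cases h : p ∣ C.index
  · exact h.mul_right _
  refine Dvd.dvd.mul_left ?_ _
  obtain ⟨Q, -, hQ⟩ := FGS.exists_sylow_le_of_not_dvd_index h (IsPGroup.of_bot) bot_le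
  obtain ⟨R, hR⟩ := (PLocal.Amb.isSyl_of_le Q hQ).exists_sylow
  refine FGS.SubCount.miller hodd (PLocal.Amb.isSyl_top R) (fun h1 => hP ?_) s
  rw [hR] at h1
  exact (Sylow.equiv P Q).isCyclic.2 ((Subgroup.subgroupOfEquivOfLe hQ).isCyclic.1 h1)

end Cfsg.Agent.S4003
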