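import Cfsg.Statements.S4004
import Mathlib
import Cfsg.Agent.FGS.SameOrder
import Cfsg.Agent.Char.Burnside
import Cfsg.Agent.Solv.Hughes
import Cfsg.Agent.Solv.FrobeniusAction
import Cfsg.Agent.PLocal.AmbSyl
import Cfsg.Agent.Grp.MinNormal

set_option autoImplicit false
open Cfsg

namespace Cfsg.Agent.S4004

open Subgroup FGS.SO PLocal.Amb

section
variable {G : Type*} [Group G] [Finite G]

theorem pair {m n p q : ℕ} (h : ∀ k, k ≠ 1 → s G k = 0 ∨ s G k = m ∨ s G k = n) (hp : p.Prime)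
    (hq : q.Prime) (hpq : p ≠ q) (hp2 : p ≠ 2) (h1 : p ∣ Nat.card G) (h2 : q ∣ Nat.card G)
    (e1 : s G p = m) (e2 : s G q = m) : (n : ZMod p) = 1 ∧ s G (p * q) = n := by
  haveI := Fact.mk hp
  have a1 := e_p hp h1
  have a2 := e_pq hp hq hpq h1 h2
  rw [e1] at a1
  rcases h (p * q) (fun h => hp.ne_one (Nat.eq_one_of_mul_eq_one_right h)) with e | e | e
  · exact (not_two hp hq hpq hp2 h1 h2 e1 e2 (Or.inl e)).elim
  · exact (not_two hp hq hpq hp2 h1 h2 e1 e2 (Or.inr e)).elim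
  · rw [e2, e] at a2
    exact ⟨by linear_combination a2 - a1, e⟩

theorem same {m n p q : ℕ} (hodd : ¬ 2 ∣ Nat.card G)
    (h : ∀ k, k ≠ 1 → s G k = 0 ∨ s G k = m ∨ s G k = n) (hp : p.Prime)
    (hq : q.Prime) (hpq : p ≠ q) (h1 : p ∣ Nat.card G) (h2 : q ∣ Nat.card G)
    (e1 : s G p = m) (e2 : s G q = m) : False := by
  have h2' : ∀ r : ℕ, r ∣ Nat.card G → r ≠ 2 := fun r hr e => hodd (e ▸ hr)
  have hne : ∀ a b : ℕ, a.Prime → a * b ≠ 1 := fun a b ha h =>
    ha.ne_one (Nat.eq_one_of_mul_eq_one_right h)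
  obtain ⟨a1, a2⟩ := pair h hp hq hpq (h2' p h1) h1 h2 e1 e2
  have hall : ∀ r : ℕ, r.Prime → r ∣ Nat.card G → s G r = m := by
    intro r hr hd
    by_contra hc
    have e3 := ((h r hr.ne_one).resolve_left (s_ne_zero_of_prime hr hd)).resolve_left hc
    have hpr : p ≠ r := fun e => hc (e ▸ e1)
    have hqr : q ≠ r := fun e => hc (e ▸ e2)
    haveI := Fact.mk hp
    haveI := Fact.mk hr
    have b1 := e_pq hp hr hpr h1 hd
    have b2 := e_pq hr hp hpr.symm hd h1
    have b3 := e_pqr hr hp hq hpr.symm hqr.symm hpq hd h1 h2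
    have b4 := e_p hr hd
    rw [e3] at b1 b4
    rw [e1, mul_comm r] at b2
    rw [a2] at b3
    rcases h (p * r) (hne _ _ hp) with e | e | e <;> rw [e] at b1 b2
    · exact one_ne_zero (α := ZMod p)
        (by linear_combination b1 - a1 - Nat.cast_zero (R := ZMod p))
    · have b5 : (m : ZMod r) = 0 :=
        (mul_eq_zero.1 (show 2 * (m : ZMod r) = 0 by linear_combination b2)).resolve_left
          (two_ne_zero' hr (h2' r hd))
      rcases h (r * (p * q)) (hne _ _ hr) with e | e | e <;> rw [e] at b3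
      · exact one_ne_zero (α := ZMod r)
          (by linear_combination b4 - b3 + Nat.cast_zero (R := ZMod r))
      · exact one_ne_zero (α := ZMod r) (by linear_combination b4 - b3 + b5)
      · exact two_ne_zero' hr (h2' r hd) (by linear_combination 2 * b4 - b3)
    · exact two_ne_zero' hp (h2' p h1) (by linear_combination b1 - 2 * a1)
  have hd : Nat.card G ∣ 1 + m := by
    refine (Nat.dvd_iff_prime_pow_dvd_dvd _ _).2 fun r k hr hk => ?_
    rcases k with _ | k
    · simp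
    have hd := (dvd_pow_self r k.succ_ne_zero).trans hk
    rw [← hall r hr hd]
    refine pow_dvd hr ?_ hk
    haveI := Fact.mk hr
    have b1 : (n : ZMod r) = 1 := by
      by_cases hrp : r = p
      · exact hrp ▸ a1
      · exact (pair h hr hp hrp (h2' r hd) hd h1 (hall r hr hd) e1).1
    have b2 := e_p hr hd
    have b3 := e_sq (G := G) hr 1
    rw [hall r hr hd] at b2
    rw [mul_one] at b3
    rcases h (r * r) (hne _ _ hr) with e | e | e
    · exact e
    · exact absurd (by linear_combination b2 - b3 + congrArg (Nat.cast (R := ZMod r)) e)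
        (one_ne_zero (α := ZMod r))
    · exact absurd (by linear_combination b3 - b1 - congrArg (Nat.cast (R := ZMod r)) e)
        (one_ne_zero (α := ZMod r))
  have b1 := sum_le_card (G := G) (mul_ne_zero hp.ne_zero hq.ne_zero)
  rw [sum_pq _ hp hq hpq, s_one, e1, e2] at b1
  have b2 := Nat.le_of_dvd (by omega) hd
  have := s_ne_zero_of_prime hp h1
  omega

theorem mixed {p q : ℕ} (hp : p.Prime) (hq : q.Prime) (hpq : p ≠ q) (hp2 : p ≠ 2)
    (h1 : p ∣ Nat.card G) (h2 : q ∣ Nat.card G) (e : s G (p * q) = s G q) : False := by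
  haveI := Fact.mk hq
  have hc := (Nat.coprime_primes hp hq).2 hpq
  obtain ⟨x, hx, hxq⟩ : ∃ x : G, orderOf x = p ∧ ¬ q ∣ (centralizer {x}).index := by
    by_contra hc
    push Not at hc
    have a1 := (ZMod.natCast_eq_zero_iff _ _).2 (dvd_s_of_index hc)
    have a2 := e_pq hq hp hpq.symm h2 h1
    rw [mul_comm, e] at a2
    exact one_ne_zero (α := ZMod q) (by linear_combination e_p hq h2 - a2 + a1)
  obtain ⟨Q, -, hQ⟩ := FGS.exists_sylow_le_of_not_dvd_index hxq IsPGroup.of_bot bot_le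
  let F : {g : G // orderOf g = p * q} → {g : G // orderOf g = q} := fun g => ⟨g.1 ^ p, by
    rw [orderOf_pow_of_dvd hp.ne_zero (g.2.symm ▸ dvd_mul_right p q), g.2, Nat.mul_div_cancel_left _ hp.pos]⟩
  have key : ∀ y : {g : G // orderOf g = q}, ∃ a b, a ≠ b ∧ F a = y ∧ F b = y := by
    rintro ⟨y, hy⟩
    obtain ⟨g, -, hg⟩ := (isSyl_top Q).exists_le_cj
      (IsPGroup.of_card (n := 1) (by rw [Nat.card_zpowers, hy, pow_one]) : IsPGroup q (zpowers y)) le_top
    have h3 := cj_mono g hQ (hg (mem_zpowers y))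
    rw [← centralizer_singleton_conj, mem_centralizer_singleton_iff] at h3
    have h4 : orderOf (g * x * g⁻¹) = p := by rw [orderOf_conj', hx]
    generalize g * x * g⁻¹ = w at h3 h4
    obtain ⟨i, hi⟩ := exists_pow_eq_self_of_coprime (x := y) (n := p) (hy ▸ hc)
    rw [← pow_mul, mul_comm, pow_mul] at hi
    have h5 : orderOf (y ^ i) = q := orderOf_eq_prime (by rw [← pow_mul, mul_comm, pow_mul, ← hy,
      pow_orderOf_eq_one, one_pow]) fun h => hq.ne_one (by rw [← hy, ← hi, h, one_pow, orderOf_one])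
    have h6 : ∀ w : G, Commute w y → orderOf w = p → ∃ h : orderOf (w * y ^ i) = p * q,
        F ⟨_, h⟩ = ⟨y, hy⟩ := fun w hw hw' =>
      ⟨by rw [(hw.pow_right i).orderOf_mul_eq_mul_orderOf_of_coprime (by rwa [hw', h5]), hw', h5],
        Subtype.ext (by
          show (w * y ^ i) ^ p = y
          rw [(hw.pow_right i).mul_pow, hi, ← hw', pow_orderOf_eq_one, one_mul])⟩
    obtain ⟨a, ha⟩ := h6 w h3.symm h4
    obtain ⟨b, hb⟩ := h6 w⁻¹ (Commute.inv_left h3.symm) (by rw [orderOf_inv, h4])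
    refine ⟨_, _, fun h => hp2 ?_, ha, hb⟩
    have h7 : w = w⁻¹ := mul_right_cancel (congrArg Subtype.val h)
    refine (Nat.prime_dvd_prime_iff_eq hp Nat.prime_two).1 (h4 ▸ orderOf_dvd_of_pow_eq_one ?_)
    rw [sq, mul_eq_one_iff_eq_inv]; exact h7
  have hs : Function.Surjective F := fun y => (key y).imp fun _ ⟨_, _, h, _⟩ => h
  obtain ⟨y, hy⟩ := exists_of_s_ne_zero (s_ne_zero_of_prime hq h2)
  obtain ⟨a, b, hab, ha, hb⟩ := key ⟨y, hy⟩
  exact hab ((hs.bijective_of_nat_card_le e.le).1 (ha.trans hb.symm))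

theorem frob {p q : ℕ} (hp : p.Prime) (hq : q.Prime) (hpq : p ≠ q) (hq2 : q ≠ 2)
    (h2 : q ∣ Nat.card G) (ho : ∀ g : G, g ≠ 1 → orderOf g = p ∨ orderOf g = q)
    {V : Subgroup G} [V.Normal] [IsMulCommutative V] (hV : V ≠ ⊥) (hVp : ∀ v ∈ V, v ^ p = 1) :
    ∃ C : Subgroup G, IsFrobeniusComplement C ∧ (Nat.card C).Prime := by
  haveI := Fact.mk hp
  haveI := Fact.mk hq
  have hc := (Nat.coprime_primes hp hq).2 hpq
  obtain ⟨Q⟩ : Nonempty (Sylow q G) := inferInstance
  have hQo : ∀ a ∈ (Q : Subgroup G), a ≠ 1 → orderOf a = q := fun a ha h1 =>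
    (ho a h1).resolve_left fun h => h1 (eq_one_of_isPGroup_of_coprime Q.isPGroup' ha (h ▸ hc))
  have hcomm : ∀ a : G, orderOf a = q → ∀ v ∈ V, v * a = a * v → v = 1 := by
    intro a ha v hv h
    by_contra h1
    have h3 := Commute.orderOf_mul_eq_mul_orderOf_of_coprime h
      (by rwa [orderOf_eq_prime (hVp v hv) h1, ha])
    rw [orderOf_eq_prime (hVp v hv) h1, ha] at h3
    have := hp.two_le
    have := hq.two_le
    rcases ho (v * a) (fun h => by rw [h, orderOf_one] at h3; nlinarith) with h | h <;> nlinarith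
  have hN : ∀ A : Subgroup G, A ≤ 𝐍[V] := fun A => by rw [normalizer_eq_top]; exact le_top
  have hcyc := Solv.Frob.isCyclic_of_fpf_of_isPGroup Q.isPGroup' hq2 hV (hN _) fun a ha h1 =>
    eq_bot_iff.2 fun v hv => hcomm a (hQo a ha h1) v hv.1 (mem_centralizer_singleton_iff.1 hv.2)
  have hQ1 : (Q : Subgroup G) ≠ ⊥ := Q.ne_bot_of_dvd_card h2
  have hQc : Nat.card Q = q := by
    obtain ⟨g, hg⟩ := IsCyclic.exists_generator (α := Q)
    rw [← orderOf_eq_card_of_forall_mem_zpowers hg, ← orderOf_coe]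
    refine hQo _ g.2 fun h => hQ1 (eq_bot_iff.2 fun a ha => ?_)
    obtain ⟨i, hi⟩ := hg ⟨a, ha⟩
    rw [mem_bot, ← show (g : G) ^ i = a from congrArg Subtype.val hi, h, one_zpow]
  obtain ⟨⟨v, hv⟩, hv1⟩ := ne_bot_iff_exists_ne_one.1 hV
  replace hv1 : v ≠ 1 := fun h => hv1 (Subtype.ext h)
  obtain ⟨⟨a, ha⟩, ha1⟩ := ne_bot_iff_exists_ne_one.1 hQ1
  replace ha1 : a ≠ 1 := fun h => ha1 (Subtype.ext h)
  refine ⟨Q, Solv.Frob.isFrobeniusComplement_iff.2 ⟨hQ1, fun h => hpq ?_, fun g x hx hx1 hg => ?_⟩,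
    hQc.symm ▸ hq⟩
  · rw [← orderOf_eq_prime (hVp v hv) hv1, hQo v (h ▸ mem_top v) hv1]
  have hz : zpowers x = Q := eq_of_le_of_card_ge (zpowers_le.2 hx)
    (by rw [Nat.card_zpowers, hQc, hQo x hx hx1])
  have hgN : g ∈ 𝐍[(Q : Subgroup G)] := mem_normalizer_of_cj_le (by
    conv_lhs => rw [← hz]
    exact (MonoidHom.map_zpowers (MulAut.conj g).toMonoidHom x).le.trans (zpowers_le.2 hg))
  by_contra hgQ
  have hgo : orderOf g = p := (ho g fun h => hgQ (h ▸ one_mem _)).resolve_right fun h =>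
    hgQ ((isSyl_top Q).le_of_normalizes (IsPGroup.of_card (n := 1)
      (by rw [Nat.card_zpowers, h, pow_one])) le_top (zpowers_le.2 hgN) (mem_zpowers g))
  have hgp : IsPGroup p (zpowers g) :=
    IsPGroup.of_card (n := 1) (by rw [Nat.card_zpowers, hgo, pow_one])
  have hVP : IsPGroup p V := Grp.isPGroup_of_pow_eq_one hVp
  have hgM : g ∉ V ⊔ (Q : Subgroup G) := by
    intro h
    have h3 : IsSyl p V (V ⊔ Q) := isSyl_of_not_dvd_relIndex hVP le_sup_left fun hd => hpq
      ((Nat.prime_dvd_prime_iff_eq hp hq).1 (by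
        rw [relIndex_sup_left] at hd
        exact hQc ▸ hd.trans (relIndex_dvd_card _ _)))
    have h4 := h3.le_of_normalizes hgp (zpowers_le.2 h) (hN _) (mem_zpowers g)
    have h5 : g * a * g⁻¹ * a⁻¹ ∈ V ⊓ Q := ⟨by
      rw [mul_assoc, mul_assoc, ← mul_assoc a]
      exact mul_mem h4 ((inferInstance : V.Normal).conj_mem _ (inv_mem h4) a),
      (Q : Subgroup G).mul_mem (conj_mem_of_mem_normalizer hgN ha) ((Q : Subgroup G).inv_mem ha)⟩
    rw [disjoint_iff.1 (IsPGroup.disjoint_of_ne p q hpq _ _ hVP Q.isPGroup'), mem_bot,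
      mul_inv_eq_one, mul_inv_eq_iff_eq_mul] at h5
    exact hgQ (hcomm a (hQo a ha ha1) g h4 h5 ▸ one_mem _)
  have hL := pRes_sup_le hgp (le_normalizer_sup (hN _) (zpowers_le.2 hgN))
  set L := V ⊔ (Q : Subgroup G) ⊔ zpowers g
  have hVL : V ≤ L := le_sup_left.trans le_sup_left
  have hQL : (Q : Subgroup G) ≤ L := le_sup_right.trans le_sup_left
  have h3 := Solv.Hughes.pow_card_mem_centralizer hp (M := (V ⊔ Q).subgroupOf L) (V := V.subgroupOf L)
    (Q := (Q : Subgroup G).subgroupOf L) (fun w hw => Subtype.ext (by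
      have h1 : (w : G) ≠ 1 := fun h => hw (by rw [mem_subgroupOf, h]; exact one_mem _)
      have := (ho w h1).resolve_right fun h => hw (hL (mem_pRes w.2 (h ▸ hc.symm)))
      exact this ▸ pow_orderOf_eq_one (w : G)))
    (subgroupOf_mono _ le_sup_left) (subgroupOf_mono _ le_sup_right)
    (y := ⟨g, mem_sup_right (mem_zpowers g)⟩)
    (by rw [normalizer_eq_subgroupOf, map_subgroupOf_of_le hQL]; exact hgN) hgM
    (v := ⟨v, hVL hv⟩) hv ⟨a, hQL ha⟩ ha
  rw [Grp.card_subgroupOf_of_le hQL, hQc] at h3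
  have h4 := hcomm a (hQo a ha ha1) _ (pow_mem hv q) (congrArg Subtype.val h3).symm
  have h5 := orderOf_dvd_of_pow_eq_one h4
  rw [orderOf_eq_prime (hVp v hv) hv1] at h5
  exact hpq ((Nat.prime_dvd_prime_iff_eq hp hq).1 h5)

end

/-- Let G be a finite group of odd order in which the numbers of elements of each order that occurs (the numbers #{g : o(g) = m}, m ranging over the element orders of G) take exactly three different values. Then the order of G has at most two prime divisors; and if it has exactly two, then every Sylow subgroup of G for a prime dividing its order has prime exponent, G is a Frobenius group, and some Frobenius complement of G has prime order. -/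
theorem result {G : Type*} [Group G] [Finite G] (hodd : Odd (Nat.card G)) (h : (((fun m : ℕ => Nat.card {g : G // orderOf g = m}) '' Set.range (orderOf : G → ℕ))).ncard = 3) :
    (Nat.card G).primeFactors.card ≤ 2 ∧
      ((Nat.card G).primeFactors.card = 2 →
        (∀ (p : ℕ) [Fact p.Prime] (P : Sylow p G), p ∣ Nat.card G → Monoid.exponent ↥(P : Subgroup G) = p) ∧
        ∃ C : Subgroup G, Cfsg.IsFrobeniusComplement C ∧ (Nat.card ↥C).Prime) := by
  have h2 : ¬ 2 ∣ Nat.card G := hodd.not_two_dvd_nat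
  have h2' : ∀ r : ℕ, r ∣ Nat.card G → r ≠ 2 := fun r hr e => h2 (e ▸ hr)
  obtain ⟨m, n, h0⟩ := of_ncard_three h
  replace h0 : ∀ k, k ≠ 1 → s G k = 0 ∨ s G k = m ∨ s G k = n := fun k hk =>
    (h0 k).imp_right fun h => h.resolve_left fun h => by
      obtain ⟨g, hg⟩ := exists_of_s_ne_zero (h ▸ one_ne_zero : s G k ≠ 0)
      exact h2' k (hg ▸ orderOf_dvd_natCard g) ((eq_of_s_eq_one h).resolve_left hk)
  have h0' : ∀ k, k ≠ 1 → s G k = 0 ∨ s G k = n ∨ s G k = m := fun k hk => by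
    have := h0 k hk; tauto
  have h1 : ∀ p : ℕ, p.Prime → p ∣ Nat.card G → s G p = m ∨ s G p = n := fun p hp hd =>
    (h0 p hp.ne_one).resolve_left (s_ne_zero_of_prime hp hd)
  have h3 : ∀ p q : ℕ, p.Prime → q.Prime → p ≠ q → p ∣ Nat.card G → q ∣ Nat.card G →
      s G p ≠ s G q := fun p q hp hq hpq hd hd' e => (h1 p hp hd).elim
    (fun a => same h2 h0 hp hq hpq hd hd' a (e ▸ a)) fun a => same h2 h0' hp hq hpq hd hd' a (e ▸ a)
  refine ⟨?_, fun h4 => ?_⟩
  · by_contra hc
    obtain ⟨p, q, r, hp, hq, hr, a1, a2, a3⟩ := Finset.two_lt_card_iff.1 (not_le.1 hc)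
    rw [Nat.mem_primeFactors] at hp hq hr
    have b1 := h3 p q hp.1 hq.1 a1 hp.2.1 hq.2.1
    have b2 := h3 p r hp.1 hr.1 a2 hp.2.1 hr.2.1
    have b3 := h3 q r hq.1 hr.1 a3 hq.2.1 hr.2.1
    have := h1 p hp.1 hp.2.1
    have := h1 q hq.1 hq.2.1
    have := h1 r hr.1 hr.2.1
    omega
  obtain ⟨p, q, hpq, e⟩ := Finset.card_eq_two.1 h4
  obtain ⟨hp, hpd, -⟩ := Nat.mem_primeFactors.1 (e ▸ Finset.mem_insert_self p {q})
  obtain ⟨hq, hqd, -⟩ := Nat.mem_primeFactors.1
    (e ▸ Finset.mem_insert_of_mem (Finset.mem_singleton_self q) : q ∈ _)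
  have hall : ∀ r : ℕ, r.Prime → r ∣ Nat.card G → r = p ∨ r = q := fun r hr hd => by
    simpa [e] using Nat.mem_primeFactors.2 ⟨hr, hd, Nat.card_pos.ne'⟩
  have h5 : ∀ k, k ≠ 1 → s G k = 0 ∨ s G k = s G p ∨ s G k = s G q := fun k hk => by
    have := h0 k hk
    have := h1 p hp hpd
    have := h1 q hq hqd
    have := h3 p q hp hq hpq hpd hqd
    omega
  have hne : ∀ a b : ℕ, a.Prime → a * b ≠ 1 := fun a b ha h =>
    ha.ne_one (Nat.eq_one_of_mul_eq_one_right h)
  have h6 : s G (p * q) = 0 := by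
    rcases h5 _ (hne p q hp) with h | h | h
    · exact h
    · exact (mixed hq hp hpq.symm (h2' q hqd) hqd hpd (mul_comm p q ▸ h)).elim
    · exact (mixed hp hq hpq (h2' p hpd) hpd hqd h).elim
  have h7 : ∀ p q : ℕ, p.Prime → q.Prime → p ≠ q → p ∣ Nat.card G → q ∣ Nat.card G →
      s G (p * q) = 0 → (s G (p * p) = 0 ∨ s G (p * p) = s G p ∨ s G (p * p) = s G q) →
      s G (p * p) = 0 := by
    intro p q hp hq hpq hpd hqd h6 h
    haveI := Fact.mk hp
    haveI := Fact.mk hq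
    rcases h with h | h | h
    · exact h
    · have := e_sq (G := G) hp 1
      rw [mul_one, h, e_p hp hpd] at this
      exact absurd (neg_eq_zero.1 this) one_ne_zero
    have h8 := (ZMod.natCast_eq_zero_iff _ _).2 (dvd_s_of_index (G := G) (d := q) (m := p * p)
      fun g hg => by
        rw [← (centralizer {g}).card_mul_index] at hqd
        refine ((Nat.Prime.dvd_mul hq).1 hqd).resolve_left fun hd => ?_
        obtain ⟨y, hy⟩ := exists_prime_orderOf_dvd_card' q hd
        rw [← orderOf_coe] at hy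
        have hc := (Nat.coprime_primes hp hq).2 hpq
        refine not_dvd_orderOf h6 (g * y) ?_
        rw [Commute.orderOf_mul_eq_mul_orderOf_of_coprime (mem_centralizer_singleton_iff.1 y.2).symm
          (by rw [hg, hy]; exact hc.mul_left hc), hg, hy]
        exact ⟨p, by ring⟩)
    rw [h, e_p hq hqd] at h8
    exact absurd (neg_eq_zero.1 h8) one_ne_zero
  have h8 := h7 p q hp hq hpq hpd hqd h6 (h5 _ (hne _ _ hp))
  have h9 := h7 q p hq hp hpq.symm hqd hpd (mul_comm p q ▸ h6) (by have := h5 _ (hne q q hq); tauto)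
  have ho : ∀ g : G, g ≠ 1 → orderOf g = p ∨ orderOf g = q := by
    intro g hg
    obtain ⟨r, hr, t, ht⟩ := Nat.exists_prime_and_dvd (mt orderOf_eq_one_iff.1 hg)
    have a1 := not_dvd_orderOf h6 g
    have a2 := not_dvd_orderOf h8 g
    have a3 := not_dvd_orderOf h9 g
    have a4 := orderOf_dvd_natCard g
    by_cases h1 : t = 1
    · rw [ht, h1, mul_one] at a4 ⊢
      exact hall r hr a4
    obtain ⟨r', hr', t, rfl⟩ := Nat.exists_prime_and_dvd h1
    rw [ht, ← mul_assoc] at a1 a2 a3 a4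
    exfalso
    rcases hall r hr ((dvd_mul_right _ _).trans ((dvd_mul_right _ _).trans a4)) with rfl | rfl <;>
      rcases hall r' hr' ((dvd_mul_left _ _).trans ((dvd_mul_right _ _).trans a4)) with rfl | rfl
    · exact a2 (dvd_mul_right _ _)
    · exact a1 (dvd_mul_right _ _)
    · exact a1 (mul_comm r' r ▸ dvd_mul_right _ _)
    · exact a3 (dvd_mul_right _ _)
  refine ⟨fun r hr P hd => ?_, ?_⟩
  · haveI := (nontrivial_iff_ne_bot _).2 (P.ne_bot_of_dvd_card hd)
    refine (Monoid.exponent_eq_prime_iff hr.out).2 fun g hg => ?_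
    obtain ⟨k, hk⟩ := IsPGroup.iff_orderOf.1 P.isPGroup' g
    have h1 : (orderOf g).Prime := by
      rw [← orderOf_coe]
      rcases ho g (fun h => hg (Subtype.ext h)) with h | h <;> rwa [h]
    exact (Nat.prime_dvd_prime_iff_eq h1 hr.out).1 (h1.dvd_of_dvd_pow hk.dvd)
  obtain ⟨a, t, ht, e'⟩ := Nat.exists_eq_pow_mul_and_not_dvd (Nat.card_pos (α := G)).ne' p hp.ne_one
  have ht0 : t ≠ 0 := by rintro rfl; simp at ht
  haveI := Char.isSolvable_of_card_dvd_pow_mul_pow hp hq G (e'.trans (congrArg _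
    (Nat.eq_prime_pow_of_unique_prime_dvd ht0 fun hr hd => (hall _ hr (hd.trans
      ⟨p ^ a, by rw [e', mul_comm]⟩)).resolve_left fun h => ht (h ▸ hd)))).dvd
  haveI : Nontrivial G := Finite.one_lt_card_iff_nontrivial.1
    (hp.one_lt.trans_le (Nat.le_of_dvd Nat.card_pos hpd))
  obtain ⟨r, V, hr, hVn, hV, hVc, hVr, -⟩ := Grp.exists_minNormal_elementaryAbelian G
  obtain ⟨⟨v, hv⟩, hv1⟩ := ne_bot_iff_exists_ne_one.1 hV
  haveI := Fact.mk hr
  rcases hall r hr (orderOf_eq_prime (hVr v hv) (fun h => hv1 (Subtype.ext h)) ▸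
    orderOf_dvd_natCard v) with rfl | rfl
  · exact frob hp hq hpq (h2' q hqd) hqd ho hV hVr
  · exact frob hq hp hpq.symm (h2' p hpd) hpd (fun g hg => (ho g hg).symm) hV hVr

end Cfsg.Agent.S4004
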