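import Cfsg.Statements.S4005
import Cfsg.Agent.Char.Burnside
import Cfsg.Agent.Grp.Fitting
import Cfsg.Agent.Solv.Coprime3
import Cfsg.Agent.FGS.NilpPi
import Cfsg.Agent.RankOne.Inverted

set_option autoImplicit false
open Cfsg

namespace Cfsg.Agent.S4005

/-- A finite group whose set of element orders is exactly {1, 2, 3} has either a normal elementary abelian 3-subgroup of index 2 or a normal elementary abelian 2-subgroup of index 3. -/
theorem result {G : Type*} [Group G] [Finite G] (h : Set.range (orderOf : G → ℕ) = {k : ℕ | 1 ≤ k ∧ k ≤ 3}) :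
    (∃ N : Subgroup G, N.Normal ∧ Cfsg.IsElementaryAbelian 3 N ∧ N.index = 2) ∨
      (∃ N : Subgroup G, N.Normal ∧ Cfsg.IsElementaryAbelian 2 N ∧ N.index = 3) := by
  have hle : ∀ x : G, orderOf x ≤ 3 := fun x => (h ▸ ⟨x, rfl⟩ : orderOf x ∈ {k : ℕ | 1 ≤ k ∧ k ≤ 3}).2
  have h23 : ∀ x : G, x * x = 1 ∨ x ^ 3 = 1 := fun x => by
    have h1 := hle x
    have h2 := orderOf_pos x
    rcases (show orderOf x = 1 ∨ orderOf x = 2 ∨ orderOf x = 3 by omega) with e | e | e
    · exact Or.inl (by rw [orderOf_eq_one_iff.1 e, one_mul])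
    · exact Or.inl (by rw [← sq, ← e, pow_orderOf_eq_one])
    · exact Or.inr (by rw [← e, pow_orderOf_eq_one])
  have hno : ∀ x y : G, x * x = 1 → y ^ 3 = 1 → x * y = y * x → x = 1 ∨ y = 1 := by
    intro x y hx hy hc
    have hc : Commute x y := hc
    rcases h23 (x * y) with e | e
    · rw [← sq, hc.mul_pow, sq, hx, one_mul] at e
      exact Or.inr (by rw [← hy, pow_succ, e, one_mul])
    · rw [hc.mul_pow, hy, mul_one, pow_succ, sq, hx, one_mul] at e
      exact Or.inl e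
  obtain ⟨s, hs⟩ : 2 ∈ Set.range (orderOf : G → ℕ) := h ▸ ⟨by norm_num, by norm_num⟩
  obtain ⟨c, hc⟩ : 3 ∈ Set.range (orderOf : G → ℕ) := h ▸ ⟨by norm_num, by norm_num⟩
  have hs1 : s ≠ 1 := fun e => by simp [e] at hs
  have hs2 : s * s = 1 := by rw [← sq, ← hs, pow_orderOf_eq_one]
  have hpr : ∀ p : ℕ, p.Prime → p ∣ Nat.card G → p = 2 ∨ p = 3 := fun p hp hd => by
    have := Fact.mk hp
    obtain ⟨x, hx⟩ := exists_prime_orderOf_dvd_card' p hd
    have := hle x
    have := hp.two_le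
    omega
  have : Group.IsSolvable G := by
    obtain ⟨a, m, hm, e⟩ := Nat.exists_eq_two_pow_mul_odd (Nat.card_pos (α := G)).ne'
    refine Char.isSolvable_of_card_dvd_pow_mul_pow (a := a) Nat.prime_two Nat.prime_three G
      (by rw [e, Nat.eq_prime_pow_of_unique_prime_dvd (p := 3) hm.pos.ne' fun {d} hd hdm =>
        (hpr d hd (e ▸ hdm.mul_left _)).resolve_left fun e2 =>
          (Nat.not_even_iff_odd.2 hm) (even_iff_two_dvd.2 (e2 ▸ hdm))])
  set F := fittingSubgroup G with hF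
  have hCF : ∀ g : G, (∀ x ∈ F, x * g = g * x) → g ∈ F := fun g hg =>
    Grp.centralizer_fitting_le G hg
  by_cases hF3 : ∃ y ∈ F, y ≠ 1 ∧ y ^ 3 = 1
  · obtain ⟨y, hy, hy1, hy3⟩ := hF3
    have h1 : ∀ x ∈ F, x * x = 1 → x = 1 := fun x hx hx2 => (hno x y hx2 hy3 (congrArg Subtype.val
      (FGS.commute_of_coprime_of_isNilpotent (x := (⟨x, hx⟩ : F)) (y := ⟨y, hy⟩) (by
        rw [Subgroup.orderOf_mk, Subgroup.orderOf_mk]
        exact Nat.Coprime.coprime_dvd_left (orderOf_dvd_of_pow_eq_one (by rwa [sq]))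
          (Nat.Coprime.coprime_dvd_right (orderOf_dvd_of_pow_eq_one hy3)
            (by norm_num : Nat.Coprime 2 3)))).eq)).resolve_right hy1
    have h2 : ∀ x ∈ F, x ^ 3 = 1 := fun x hx => (h23 x).elim (fun e => by rw [h1 x hx e, one_pow]) id
    have hodd : Odd (Nat.card F) := by
      by_contra hev
      obtain ⟨x, hx, hx1, hx2⟩ := RankOne.exists_invol_of_even (Nat.not_odd_iff_even.1 hev)
      exact hx1 (h1 x hx hx2)
    have h3 : ∀ u : G, u ≠ 1 → u * u = 1 → ∀ x ∈ F, u * x * u⁻¹ = x⁻¹ := fun u hu hu2 x hx => by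
      obtain ⟨v, hv, hvu, w, hw, rfl⟩ := RankOne.exists_cent_mul_inverted hu2 hodd
        (fun z hz => Subgroup.Normal.conj_mem inferInstance z hz u) hx
      rw [(hno u v hu2 (h2 v hv) hvu.symm).resolve_left hu, one_mul, hw.2]
    have h4 : ∀ u : G, u ≠ 1 → u * u = 1 → u * s ∈ F := fun u hu hu2 => hCF _ fun x hx => by
      rw [eq_comm, ← mul_inv_eq_iff_eq_mul]
      calc _ = u * (s * x * s⁻¹) * u⁻¹ := by group
        _ = x := by rw [h3 s hs1 hs2 x hx, h3 u hu hu2 _ (inv_mem hx), inv_inv]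
    have hsF : s ∉ F := fun e => hs1 (h1 s e hs2)
    refine Or.inl ⟨F, inferInstance, ⟨⟨⟨fun x y => Subtype.ext ?_⟩⟩, h2⟩,
      Subgroup.index_eq_two_iff.2 ⟨s, fun b => ?_⟩⟩
    · have := h3 s hs1 hs2 _ (x * y).2
      rw [Subgroup.coe_mul, show s * (x * y) * s⁻¹ = (s * x * s⁻¹) * (s * y * s⁻¹) by group,
        h3 s hs1 hs2 _ x.2, h3 s hs1 hs2 _ y.2, ← mul_inv_rev, inv_inj] at this
      exact this.symm
    by_cases hb : b ∈ F
    · exact Or.inr ⟨hb, fun e => hsF ((mul_mem_cancel_left hb).1 e)⟩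
    refine Or.inl ⟨?_, hb⟩
    rcases h23 b with e | e
    · exact h4 b (fun e => hb (e ▸ F.one_mem)) e
    exfalso
    have h5 : Commute (b : G ⧸ F) (s : G ⧸ F) := by
      have h6 := (QuotientGroup.eq_one_iff _).2 (h4 (b * s * b⁻¹) (by simpa using hs1) (by
        calc _ = b * (s * s) * b⁻¹ := by group
          _ = 1 := by rw [hs2]; group))
      have h7 : (s : G ⧸ F) * s = 1 := by rw [← QuotientGroup.mk_mul, hs2]; rfl
      simp only [QuotientGroup.mk_mul, QuotientGroup.mk_inv] at h6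
      exact mul_inv_eq_iff_eq_mul.1 (mul_right_cancel (h6.trans h7.symm))
    have h6 : (b : G ⧸ F) ^ 3 = 1 := by rw [← QuotientGroup.mk_pow, e]; rfl
    have h7 : (s : G ⧸ F) ^ 2 = 1 := by rw [← QuotientGroup.mk_pow, sq, hs2]; rfl
    rcases h23 (b * s) with e' | e'
    · have h8 := congrArg (QuotientGroup.mk : G → G ⧸ F) e'
      rw [← sq, QuotientGroup.mk_pow, QuotientGroup.mk_mul, h5.mul_pow, h7, mul_one] at h8
      rw [pow_succ, h8, QuotientGroup.mk_one, one_mul] at h6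
      exact hb ((QuotientGroup.eq_one_iff _).1 h6)
    · have h8 := congrArg (QuotientGroup.mk : G → G ⧸ F) e'
      rw [QuotientGroup.mk_pow, QuotientGroup.mk_mul, h5.mul_pow, h6, one_mul, pow_succ, h7,
        one_mul] at h8
      exact hsF ((QuotientGroup.eq_one_iff _).1 h8)
  push Not at hF3
  have h1 : ∀ x ∈ F, x * x = 1 := fun x hx => (h23 x).elim id fun e => by
    by_contra h1
    exact hF3 x hx (fun e => h1 (by simp [e])) e
  have h2 : ∀ u : G, u * u = 1 → u ∈ F := fun u hu => by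
    by_contra huF
    refine huF (hCF u fun x hx => ?_)
    rcases h23 (u * x) with e | e
    · rw [← inv_eq_of_mul_eq_one_right (h1 x hx), ← inv_eq_of_mul_eq_one_right hu, ← mul_inv_rev,
        ← mul_inv_rev, inv_eq_of_mul_eq_one_right e, mul_inv_rev, inv_eq_of_mul_eq_one_right hu,
        inv_eq_of_mul_eq_one_right (h1 x hx)]
    · have h8 := congrArg (QuotientGroup.mk : G → G ⧸ F) e
      rw [QuotientGroup.mk_pow, QuotientGroup.mk_mul, (QuotientGroup.eq_one_iff x).2 hx, mul_one,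
        ← QuotientGroup.mk_pow, pow_succ, sq, hu, one_mul] at h8
      exact (huF ((QuotientGroup.eq_one_iff _).1 h8)).elim
  have hF2 : IsPGroup 2 F := fun x => ⟨1, Subtype.ext (by simpa [sq] using h1 x x.2)⟩
  refine Or.inr ⟨F, inferInstance, ⟨⟨⟨fun x y => Subtype.ext ?_⟩⟩, fun x hx => by rw [sq, h1 x hx]⟩, ?_⟩
  · have e := h1 _ (x * y).2
    rw [Subgroup.coe_mul] at e ⊢
    rw [← inv_eq_of_mul_eq_one_right e, mul_inv_rev, inv_eq_of_mul_eq_one_right (h1 x x.2),
      inv_eq_of_mul_eq_one_right (h1 y y.2), Subgroup.coe_mul]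
  have h3 : IsPGroup 3 (G ⧸ F) := fun x => by
    induction x using QuotientGroup.induction_on with | H x => ?_
    refine ⟨1, ?_⟩
    rcases h23 x with e | e
    · rw [(QuotientGroup.eq_one_iff x).2 (h2 x e), one_pow]
    · rw [pow_one, ← QuotientGroup.mk_pow, e]; rfl
  obtain ⟨k, hk⟩ := IsPGroup.iff_card.1 h3
  have h4 : ¬ 3 ^ 2 ∣ Nat.card G := fun h9 => by
    obtain ⟨A, hA⟩ := Sylow.exists_subgroup_card_pow_prime 3 h9
    have := IsPGroup.isMulCommutative_of_card_eq_prime_sq hA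
    have hA3 : ∀ a ∈ A, a ^ 3 = 1 := fun a ha => (h23 a).elim (fun e => by
      rw [RankOne.eq_one_of_odd_of_sq (RankOne.odd_orderOf_of_mem (by rw [hA]; decide) ha) e,
        one_pow]) id
    obtain ⟨j, hj⟩ := IsPGroup.iff_card.1 hF2
    refine hs1 (Subgroup.mem_bot.1 (Solv.le_of_centralizers_le A F (fun hcyc => ?_)
      Subgroup.le_normalizer_of_normal (by rw [hA, hj]; exact Nat.Coprime.pow _ _ (by norm_num)) ⊥
      (fun a ha ha1 x hx => (hno x a (h1 x hx.1) (hA3 a ha)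
        (Subgroup.mem_centralizer_singleton_iff.1 hx.2)).resolve_right ha1) (h2 s hs2)))
    obtain ⟨x, hx⟩ := hcyc.exists_ofOrder_eq_natCard
    have := hle x
    rw [Subgroup.orderOf_coe, hx, hA] at this
    omega
  have h5 : k ≤ 1 := by
    by_contra hk2
    exact h4 ((pow_dvd_pow 3 (by omega)).trans (hk ▸ Subgroup.card_quotient_dvd_card F))
  have h6 : k ≠ 0 := by
    rintro rfl
    have h7 := h1 c (Subgroup.index_eq_one.1 hk ▸ Subgroup.mem_top c)
    have h8 : orderOf c ∣ 2 := orderOf_dvd_of_pow_eq_one (by rwa [sq])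
    rw [hc] at h8
    omega
  rw [Subgroup.index, hk, show k = 1 by omega, pow_one]

end Cfsg.Agent.S4005
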