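import Cfsg.Statements.S4197
import Cfsg.Agent.PCl.Bas

set_option autoImplicit false
open Cfsg

namespace Cfsg.Agent.S4197

/-- A permutation group of degree n, that is a subgroup S of the symmetric group on a finite set with n elements, has at most 2^(n−1) conjugacy classes. (For n = 0 both sides equal 1 with truncated subtraction.) -/
theorem result {α : Type*} [Fintype α] [DecidableEq α] (S : Subgroup (Equiv.Perm α)) : Nat.card (ConjClasses S) ≤ 2 ^ (Fintype.card α - 1) := by
  refine (PCl.card_conjClasses_le S).trans (Nat.pow_le_pow_right two_pos ?_)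
  obtain h | ⟨⟨a⟩⟩ := isEmpty_or_nonempty α
  · simp
  · have : Nonempty (MulAction.orbitRel.Quotient S α) := ⟨Quotient.mk'' a⟩
    have : 0 < PCl.ob S := Nat.card_pos
    omega

end Cfsg.Agent.S4197
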