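import Cfsg.Statements.S4203
import Mathlib
import Cfsg.Agent.FGS.SylowCount
import Cfsg.Agent.FGS.ClassSize
import Cfsg.Agent.Solv.NilpAmb
import Cfsg.Agent.Grp.Frattini
import Cfsg.Agent.Transfer.Control
import Cfsg.Agent.S0144

set_option autoImplicit false
open Cfsg

namespace Cfsg.Agent.S4203

universe u

open Subgroup Cfsg.Agent.PLocal.Amb

theorem relIndex_modEq {G : Type*} [Group G] [Finite G] {p : ℕ} [Fact p.Prime] {T H : Subgroup G}
    (h : IsSyl p T H) : (𝐍[T]).relIndex H ≡ 1 [MOD p] := by
  rw [← FGS.card_sylow_subgroup h.le h.pgrp h.not_dvd_relIndex]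
  exact card_sylow_modEq_one p H

theorem aux (G : Type u) [Group G] [Finite G] :
    (∀ M : Subgroup G, IsCoatom M → ∃ p : ℕ, p.Prime ∧ (M.index = p ∨ M.index = p ^ 2)) →
    Group.IsSolvable G := by
  refine Grp.card_induction (P := fun G _ _ => (∀ M : Subgroup G, IsCoatom M →
    ∃ p : ℕ, p.Prime ∧ (M.index = p ∨ M.index = p ^ 2)) → Group.IsSolvable G) ?_ G
  intro G _ _ ih h
  rcases subsingleton_or_nontrivial G with h0 | h0
  · infer_instance
  obtain ⟨N, hN, hN0, hmin⟩ := Grp.exists_minNormal G
  refine (Group.isSolvable_iff_subgroup_quotient N).2 ⟨?_, ih _ (Grp.card_quotient_lt N hN0) ?_⟩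
  swap
  · intro M hM
    rw [← index_comap_of_surjective _ (QuotientGroup.mk'_surjective N)]
    exact h _ (isCoatom_comap_of_surjective (QuotientGroup.mk'_surjective N) hM)
  have hne : (Nat.card N).primeFactors.Nonempty :=
    Nat.nonempty_primeFactors.2 ((one_lt_card_iff_ne_bot N).2 hN0)
  set p := (Nat.card N).primeFactors.max' hne with hpdef
  have hp' := Nat.mem_primeFactors.1 (Finset.max'_mem _ hne)
  have hmax : ∀ q, q.Prime → q ∣ Nat.card N → q ≤ p := fun q hq hd =>
    Finset.le_max' _ _ (Nat.mem_primeFactors.2 ⟨hq, hd, Nat.card_pos.ne'⟩)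
  have hp : p.Prime := hp'.1
  have := Fact.mk hp
  obtain ⟨P, hP⟩ := exists_isSyl p N
  by_cases h1 : 𝐍[P] = ⊤
  · have h2 := (hmin P (normalizer_eq_top_iff.1 h1) hP.le).resolve_left
      fun h3 => hP.eq_bot_iff.1 h3 hp'.2.1
    have := (h2 ▸ hP.pgrp : IsPGroup p N).isNilpotent
    infer_instance
  obtain ⟨M, hM, hPM⟩ := (eq_top_or_exists_le_coatom _).resolve_left h1
  obtain ⟨q, hq, hi⟩ := h M hM
  have h2 : M.relIndex N = M.index := by
    rw [Transfer.relIndex_eq_relIndex_sup_of_normal, eq_top_iff.2 ((Grp.frattini_argument hP.le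
      hP.pgrp hP.not_dvd_relIndex).symm.le.trans (sup_le_sup_right hPM N)), relIndex_top_right]
  have h3 : M.index ≡ 1 [MOD p] := by
    have h4 := relIndex_modEq hP
    have h5 := relIndex_modEq (hP.mono (K := M ⊓ N) (le_inf (le_normalizer.trans hPM) hP.le)
      inf_le_right)
    have h6 := relIndex_inf_mul_relIndex 𝐍[P] M N
    rw [inf_eq_left.2 hPM, h2] at h6
    rw [← h6] at h4
    have h7 := (h5.mul_right M.index).symm.trans h4
    rwa [one_mul] at h7
  have h4 : q ∣ Nat.card N := by
    refine Dvd.dvd.trans ?_ (h2 ▸ relIndex_dvd_card M N)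
    rcases hi with hi | hi <;> rw [hi]
    exact dvd_pow_self q two_ne_zero
  have h5 := hmax q hq h4
  have h6 := hq.two_le
  have h7 : p ≤ 3 := by
    rcases hi with hi | hi <;> rw [hi] at h3
    · have := Nat.le_of_dvd (by omega) ((Nat.modEq_iff_dvd' (by omega)).1 h3.symm)
      omega
    · have h8 := (Nat.modEq_iff_dvd' (Nat.one_le_pow _ _ hq.pos)).1 h3.symm
      rw [show q ^ 2 - 1 = (q + 1) * (q - 1) from Nat.sq_sub_sq q 1] at h8
      rcases (Nat.Prime.dvd_mul hp).1 h8 with h9 | h9
      · have h10 : p ≠ q := by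
          rintro rfl
          exact hp.one_lt.ne' (Nat.dvd_one.1 ((Nat.dvd_add_right dvd_rfl).1 h9))
        obtain ⟨k, hk⟩ := h9
        have h11 : k = 1 := by
          rcases k with _ | _ | k
          · omega
          · rfl
          · nlinarith
        rw [h11, mul_one] at hk
        rcases hq.eq_two_or_odd' with h12 | h12
        · omega
        · have h13 := hp.even_iff.1 (hk ▸ h12.add_one)
          omega
      · have := Nat.le_of_dvd (by omega) h9
        omega
  refine S0144.result 2 3 ((Nat.card N).factorization 2) ((Nat.card N).factorization 3)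
    Nat.prime_two Nat.prime_three ?_
  have h8 : (Nat.card N).primeFactors ⊆ {2, 3} := fun r hr => by
    have h9 := Nat.mem_primeFactors.1 hr
    have h10 := hmax r h9.1 h9.2.1
    have := h9.1.two_le
    simp only [Finset.mem_insert, Finset.mem_singleton]
    omega
  conv_lhs => rw [← Nat.prod_factorization_pow_eq_self (Nat.card_pos (α := N)).ne']
  rw [Finsupp.prod_of_support_subset _ h8 _ (by simp), Finset.prod_pair (by norm_num)]

/-- A finite group in which every maximal subgroup has index a prime or the square of a prime is solvable. -/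
theorem result {G : Type*} [Group G] [Finite G] (h : ∀ M : Subgroup G, IsCoatom M → ∃ p : ℕ, p.Prime ∧ (M.index = p ∨ M.index = p ^ 2)) : Group.IsSolvable G := by
  exact aux G h

end Cfsg.Agent.S4203
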