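import Cfsg.Statements.S4204
import Mathlib
import Cfsg.Agent.PLocal.CommMod

set_option autoImplicit false
open Cfsg

namespace Cfsg.Agent.S4204

open Subgroup

/-- shifted lower central series -/
def lc {G : Type*} [Group G] (H : Subgroup G) : ℕ → Subgroup G
  | 0 => ⊤
  | n + 1 => H.lowerCentralSeries n

theorem lcs_normal {G : Type*} [Group G] (H : Subgroup G) [H.Normal] (n : ℕ) :
    (H.lowerCentralSeries n).Normal := by
  induction n with
  | zero => simpa
  | succ n ih => rw [Subgroup.lowerCentralSeries_succ]; infer_instance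

instance lc_normal {G : Type*} [Group G] (H : Subgroup G) [H.Normal] (n : ℕ) : (lc H n).Normal := by
  cases n with
  | zero => exact normal_top
  | succ n => exact lcs_normal H n

theorem comm_lc {G : Type*} [Group G] (H : Subgroup G) [H.Normal] (n : ℕ) :
    ⁅lc H n, H⁆ ≤ lc H (n + 1) := by
  cases n with
  | zero => exact commutator_le_right _ _
  | succ n => exact le_rfl

/-- If `H` and `K` are normal subgroups of a finite group with `H` nilpotent of class at most `c` and `K` nilpotent of class at most `d` (the terms with index `c`, respectively `d`, of their lower central series are trivial, indices starting at `0`), then `HK` is nilpotent of class at most `c + d`. -/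
theorem result {G : Type*} [Group G] [Finite G] (H K : Subgroup G) [H.Normal] [K.Normal] (c d : ℕ) (hH : H.lowerCentralSeries c = ⊥) (hK : K.lowerCentralSeries d = ⊥) : (H ⊔ K).lowerCentralSeries (c + d) = ⊥ := by
  have key : ∀ n, (H ⊔ K).lowerCentralSeries n ≤
      sSup {X | ∃ i j, i + j = n + 1 ∧ X = lc H i ⊓ lc K j} := by
    intro n
    induction n with
    | zero =>
      exact sup_le (le_sSup ⟨1, 0, rfl, (inf_top_eq _).symm⟩)
        (le_sSup ⟨0, 1, rfl, (top_inf_eq _).symm⟩)
    | succ n ih =>
      have : (sSup {X | ∃ i j, i + j = n + 1 + 1 ∧ X = lc H i ⊓ lc K j}).Normal :=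
        sSup_normal _ (by rintro _ ⟨i, j, -, rfl⟩; infer_instance)
      rw [Subgroup.lowerCentralSeries_succ]
      refine (commutator_mono ih le_rfl).trans (PLocal.CommMod.commutator_sSup_le
        (fun _ _ => le_normalizer_of_normal) ?_)
      rintro _ ⟨i, j, hij, rfl⟩
      refine PLocal.CommMod.commutator_sup_le' le_normalizer_of_normal le_normalizer_of_normal ?_ ?_
      · refine le_trans ?_ (le_sSup ⟨i + 1, j, by omega, rfl⟩)
        exact le_inf ((commutator_mono inf_le_left le_rfl).trans (comm_lc H i))
          ((commutator_mono inf_le_right le_rfl).trans (commutator_le_left _ _))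
      · refine le_trans ?_ (le_sSup ⟨i, j + 1, by omega, rfl⟩)
        exact le_inf ((commutator_mono inf_le_left le_rfl).trans (commutator_le_left _ _))
          ((commutator_mono inf_le_right le_rfl).trans (comm_lc K j))
  refine eq_bot_iff.2 ((key _).trans (sSup_le ?_))
  rintro _ ⟨i, j, hij, rfl⟩
  by_cases hi : c + 1 ≤ i
  · obtain ⟨i, rfl⟩ : ∃ k, i = k + 1 := ⟨i - 1, by omega⟩
    exact inf_le_left.trans (hH ▸ H.lowerCentralSeries_antitone (by omega : c ≤ i))
  · obtain ⟨j, rfl⟩ : ∃ k, j = k + 1 := ⟨j - 1, by omega⟩
    exact inf_le_right.trans (hK ▸ K.lowerCentralSeries_antitone (by omega : d ≤ j))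

end Cfsg.Agent.S4204
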