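import Cfsg.Statements.S4213
import Mathlib
import Cfsg.Agent.FGS.FrobeniusCount
import Cfsg.Agent.Solv.Hall

set_option autoImplicit false
open Cfsg

namespace Cfsg.Agent.S4213

universe u

open Subgroup

theorem fin {G : Type*} [Group G] [Finite G] {n : ℕ} (hcount : Nat.card {x : G // x ^ n = 1} = n)
    (H : Subgroup G) (hH : Nat.card H = n) : H.Normal ∧ (H : Set G) = {x : G | x ^ n = 1} := by
  have h1 : (H : Set G) = {x : G | x ^ n = 1} := by
    refine Set.eq_of_subset_of_ncard_le (fun x hx => ?_) (le_of_eq ?_)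
    · exact orderOf_dvd_iff_pow_eq_one.1 (hH ▸ H.orderOf_dvd_natCard hx)
    · rw [← Nat.card_coe_set_eq, ← Nat.card_coe_set_eq]; exact hcount.trans hH.symm
  refine ⟨⟨fun x hx g => ?_⟩, h1⟩
  rw [← SetLike.mem_coe, h1] at hx ⊢
  show (g * x * g⁻¹) ^ n = 1
  rw [conj_pow, show x ^ n = 1 from hx]; simp

theorem aux (G : Type u) [Group G] [Finite G] : Group.IsSolvable G → ∀ n : ℕ, n ∣ Nat.card G →
    Nat.card {x : G // x ^ n = 1} = n → ∃ H : Subgroup G, Nat.card H = n := by
  refine Grp.card_induction (P := fun G _ _ => Group.IsSolvable G → ∀ n : ℕ, n ∣ Nat.card G →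
    Nat.card {x : G // x ^ n = 1} = n → ∃ H : Subgroup G, Nat.card H = n) ?_ G
  intro G _ _ ih hs n hn hcount
  rcases subsingleton_or_nontrivial G with h | h
  · exact ⟨⊥, by rw [card_bot]; exact (Nat.dvd_one.1 (by simpa using hn)).symm⟩
  obtain ⟨p, K, hp, hK, hK0, -, hKe, hKp, -⟩ := Grp.exists_minNormal_elementaryAbelian G
  have := Fact.mk hp
  have hn0 : 0 < n := Nat.pos_of_dvd_of_pos hn Nat.card_pos
  have hlt := Grp.card_quotient_lt K hK0
  have hpos : ∀ m, 0 < Nat.card {x : G ⧸ K // x ^ m = 1} := fun m =>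
    Nat.card_pos_iff.2 ⟨⟨⟨1, one_pow m⟩⟩, inferInstance⟩
  rw [← Grp.card_quotient_mul_card K] at hn
  by_cases hpn : p ∣ n
  · obtain ⟨u, hu⟩ := Nat.gcd_dvd_left n (Nat.card K)
    obtain ⟨v, hv⟩ := Nat.gcd_dvd_right n (Nat.card K)
    set d := n.gcd (Nat.card K) with hd
    have hd0 : 0 < d := Nat.gcd_pos_of_pos_left _ hn0
    have huv : u.Coprime v := by
      have h1 := hd
      rw [hu, hv, Nat.gcd_mul_left] at h1
      have h2 : d * u.gcd v = d * 1 := by rw [mul_one]; exact h1.symm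
      exact Nat.eq_of_mul_eq_mul_left hd0 h2
    have h1 : u ∣ Nat.card (G ⧸ K) := by
      rw [hu, hv, mul_left_comm] at hn
      exact huv.dvd_of_dvd_mul_right (Nat.dvd_of_mul_dvd_mul_left hd0 hn)
    have h2 : u * p ∣ n := by
      rw [hu, mul_comm d]
      exact Nat.mul_dvd_mul_left _ (Nat.dvd_gcd hpn (Solv.NA.dvd_card_of_ne_bot hKp hK0))
    have h3 : Nat.card {x : G // (x : G ⧸ K) ^ u = 1} =
        Nat.card {x : G ⧸ K // x ^ u = 1} * Nat.card K := by
      refine FGS.FrobCount.card_eq_mul_of_fibers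
        (fun x : {x : G // (x : G ⧸ K) ^ u = 1} =>
          (⟨(x.1 : G ⧸ K), x.2⟩ : {x : G ⧸ K // x ^ u = 1})) fun ⟨b, hb⟩ => ?_
      obtain ⟨b, rfl⟩ := QuotientGroup.mk_surjective b
      exact Nat.card_congr
        { toFun := fun x => ⟨b⁻¹ * x.1.1, QuotientGroup.eq.1 (congrArg Subtype.val x.2).symm⟩
          invFun := fun k => ⟨⟨b * k, by rwa [QuotientGroup.mk_mul_of_mem b k.2]⟩,
            Subtype.ext (QuotientGroup.mk_mul_of_mem b k.2)⟩
          left_inv := fun x => by ext; simp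
          right_inv := fun x => by ext; simp }
    have h4 : Nat.card {x : G // (x : G ⧸ K) ^ u = 1} ≤ Nat.card {x : G // x ^ n = 1} :=
      Nat.card_le_card_of_injective (fun x => ⟨x.1, by
        obtain ⟨w, rfl⟩ := h2
        have h5 : x.1 ^ u ∈ K := (QuotientGroup.eq_one_iff _).1 x.2
        rw [pow_mul, pow_mul, hKe _ h5, one_pow]⟩)
        fun x y hxy => Subtype.ext (Subtype.mk.inj hxy)
    rw [h3, hcount] at h4
    have h5 := Nat.le_of_dvd (hpos u) (FGS.FrobCount.dvd_card_pow_eq_one h1)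
    have h6 : d ≤ Nat.card K := Nat.gcd_le_right _ Nat.card_pos
    have h7 : n ≤ u * Nat.card K := by rw [hu, mul_comm d]; exact Nat.mul_le_mul_left _ h6
    obtain ⟨H, hH⟩ := ih _ hlt inferInstance u h1
      (le_antisymm (Nat.le_of_mul_le_mul_right (h4.trans h7) Nat.card_pos) h5)
    exact ⟨H.comap (QuotientGroup.mk' K), by
      rw [Grp.card_comap_mk', hH]
      exact le_antisymm ((Nat.mul_le_mul_right _ h5).trans h4) h7⟩
  · have hc : n.Coprime p := ((Nat.Prime.coprime_iff_not_dvd hp).2 hpn).symm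
    have hcK : n.Coprime (Nat.card K) := by
      obtain ⟨k, hk⟩ := hKp.exists_card_eq
      rw [hk]; exact hc.pow_right k
    have h1 : n ∣ Nat.card (G ⧸ K) := hcK.dvd_of_dvd_mul_right hn
    obtain ⟨t, ht1, ht2⟩ := FGS.exists_part_exponent hc
    have h2 : Nat.card {x : G ⧸ K // x ^ n = 1} ≤ Nat.card {x : G // x ^ n = 1} := by
      refine Nat.card_le_card_of_surjective (fun x => ⟨(x.1 : G ⧸ K), by
        rw [← QuotientGroup.mk_pow, x.2, QuotientGroup.mk_one]⟩) fun ⟨z, hz⟩ => ?_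
      obtain ⟨y, rfl⟩ := QuotientGroup.mk_surjective z
      have h3 : y ^ (n * p) = 1 := by
        rw [pow_mul]; exact hKe _ ((QuotientGroup.eq_one_iff _).1 hz)
      exact ⟨⟨y ^ t, FGS.part_pow_left h3 ht2⟩, Subtype.ext (FGS.pow_part_eq_self hz ht1)⟩
    obtain ⟨H, hH⟩ := ih _ hlt inferInstance n h1 (le_antisymm (h2.trans hcount.le)
      (Nat.le_of_dvd (hpos n) (FGS.FrobCount.dvd_card_pow_eq_one h1)))
    obtain ⟨L, -, hL⟩ := Solv.exists_hall_in (M := H.comap (QuotientGroup.mk' K))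
      (by rw [Grp.card_comap_mk', hH]) hcK
    exact ⟨L, hL⟩

/-- If `G` is a finite solvable group and `n` divides the order of `G` and exactly `n` elements `x` of `G` satisfy `x^n = 1`, then these elements form a normal subgroup. -/
theorem result {G : Type*} [Group G] [Finite G] [Group.IsSolvable G] (n : ℕ) (hn : n ∣ Nat.card G) (hcount : Nat.card {x : G // x ^ n = 1} = n) : ∃ H : Subgroup G, H.Normal ∧ (H : Set G) = {x : G | x ^ n = 1} := by
  obtain ⟨H, hH⟩ := aux G inferInstance n hn hcount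
  exact ⟨H, fin hcount H hH⟩

end Cfsg.Agent.S4213
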