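import Cfsg.Statements.S4214
import Mathlib
import Cfsg.Agent.Solv.MinNonNilpotent
import Cfsg.Agent.Solv.Hall
import Cfsg.Agent.Solv.NilpAmb
import Cfsg.Agent.Grp.ConjCount
import Cfsg.Agent.FGS.SylowCount

set_option autoImplicit false
open Cfsg

namespace Cfsg.Agent.S4214

universe u

open Subgroup Cfsg.Agent.PLocal.Amb
open scoped Pointwise

theorem card_conj_eq_index {G : Type*} [Group G] (H : Subgroup G) :
    Nat.card {K : Subgroup G // ∃ g : G, MulAut.conj g • H = K} = (𝐍[H]).index := by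
  letI : MulAction G (Subgroup G) := MulAction.compHom (Subgroup G) (MulAut.conj : G →* MulAut G)
  have h1 : MulAction.stabilizer G H = 𝐍[H] := by
    ext g; exact Grp.conj_smul_eq_iff_mem_normalizer
  rw [← h1, MulAction.index_stabilizer, ← Nat.card_coe_set_eq]
  rfl

theorem cent_mem {G : Type*} [Group G] [Finite G] {p : ℕ} [hp : Fact p.Prime] {N : Subgroup G}
    (hN : IsPGroup p N) (H : Subgroup G) : Group.IsSolvable H → H ≤ 𝐍[N] → ¬ p ∣ Nat.card H →
    (𝐂[H]).relIndex N ∈ Submonoid.closure {x : ℕ | (∃ e, x = p ^ e) ∧ x ∣ Nat.card N ∧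
      ∃ q : ℕ, q.Prime ∧ q ∣ Nat.card H ∧ x ≡ 1 [MOD q]} := by
  induction H using Grp.subgroup_card_induction with
  | h H ih =>
    intro hs hn hd
    by_cases h0 : H = ⊥
    · subst h0
      rw [relIndex_eq_one.2 (le_centralizer_iff.1 bot_le)]
      exact one_mem _
    have := (Subgroup.nontrivial_iff_ne_bot H).2 h0
    obtain ⟨M, hM, hq⟩ := Solv.exists_normal_index_prime H
    set q := M.index with hqdef
    have := Fact.mk hq
    have hMH : M.map H.subtype ≤ H := map_subtype_le _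
    have hqd : q ∣ Nat.card H := M.index_dvd_card
    have hlt : Nat.card (M.map H.subtype) < Nat.card H := by
      rw [card_subtype]
      exact Grp.card_lt_of_ne_top fun h => hq.one_lt.ne' (by rw [hqdef, h, index_top])
    have h1 := ih _ hlt (Grp.isSolvable_of_le hMH) (hMH.trans hn)
      fun h => hd (h.trans (card_dvd_of_le hMH))
    obtain ⟨Q, hQ⟩ := exists_isSyl q H
    have h2 : M.map H.subtype ⊔ Q = H := hQ.sup_eq_of_pRes_le (pRes_le_of_pow fun g hg =>
      ⟨1, by rw [pow_one]; exact ⟨_, M.pow_index_mem ⟨g, hg⟩, rfl⟩⟩) hMH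
    have h3 : 𝐂[H] = 𝐂[M.map H.subtype] ⊓ 𝐂[Q] := by rw [← centralizer_sup, h2]
    set X := 𝐂[M.map H.subtype] ⊓ N
    have h4 := Grp.ConjCount.card_modEq hQ.pgrp (X : Set G) fun g hg x hx =>
      conj_mem_of_mem_normalizer (le_normalizer_inf (le_normalizer_centralizer
        (le_normalizer_map_subtype M)) hn (hQ.le hg)) hx
    have h5 : Nat.card (𝐂[Q] ⊓ X : Subgroup G) * (𝐂[Q]).relIndex X = Nat.card X :=
      Grp.card_inf_mul_relIndex' _ _
    have h6 : Nat.card {x : G // x ∈ (X : Set G) ∧ x ∈ 𝐂[Q]} = Nat.card (𝐂[Q] ⊓ X : Subgroup G) :=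
      Nat.card_congr (Equiv.subtypeEquivRight fun x => and_comm)
    rw [h3, inf_comm, ← relIndex_inf_mul_relIndex]
    refine mul_mem (Submonoid.subset_closure ⟨?_, ?_, q, hq, hqd, ?_⟩)
      (Submonoid.closure_mono (by
        rintro x ⟨a, b, r, c, d, e⟩
        exact ⟨a, b, r, c, d.trans (card_dvd_of_le hMH), e⟩) h1)
    · exact (hN.to_le (inf_le_right : X ≤ N)).index _
    · exact (relIndex_dvd_card _ _).trans (card_dvd_of_le inf_le_right)
    · have h7 : (Nat.card (𝐂[Q] ⊓ X : Subgroup G)).Coprime q :=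
        Grp.coprime_card_of_isPGroup_of_ne (fun h : p = q => hd (h ▸ hqd))
          (hN.to_le (inf_le_right.trans inf_le_right))
      rw [h6] at h4
      refine Nat.ModEq.cancel_left_of_coprime h7.symm ?_
      rw [h5, mul_one]
      exact h4

/-- the admissible factors -/
def S (G : Type*) [Group G] (m : ℕ) : Set ℕ := {x | (∃ q e : ℕ, q.Prime ∧ x = q ^ e) ∧
  (∃ K L : Subgroup G, K.Normal ∧ L.Normal ∧ K < L ∧
    (∀ M : Subgroup G, M.Normal → K ≤ M → M ≤ L → M = K ∨ M = L) ∧ x ∣ K.relIndex L) ∧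
  (∃ q : ℕ, q.Prime ∧ q ∣ m ∧ x ≡ 1 [MOD q])}

theorem S_sub {G G' : Type*} [Group G] [Group G'] (f : G →* G') (hf : Function.Surjective f)
    {m m' : ℕ} (h : m' ∣ m) : S G' m' ⊆ S G m := by
  rintro x ⟨h1, ⟨K, L, hK, hL, hKL, hmin, hd⟩, q, hq, h2, h3⟩
  refine ⟨h1, ⟨K.comap f, L.comap f, inferInstance, inferInstance,
    (comap_lt_comap_of_surjective hf).2 hKL, fun M hM h4 h5 => ?_, ?_⟩, q, hq, h2.trans h, h3⟩
  · have h6 : (M.map f).comap f = M := comap_map_eq_self ((ker_le_comap f K).trans h4)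
    rcases hmin (M.map f) (hM.map f hf) ((map_comap_eq_self_of_surjective hf K).symm.le.trans
      (map_mono h4)) (map_le_iff_le_comap.2 h5) with h7 | h7
    · left; rw [← h7, h6]
    · right; rw [← h7, h6]
  · rwa [relIndex_comap, map_comap_eq_self_of_surjective hf]

theorem aux (G : Type u) [Group G] [Finite G] : Group.IsSolvable G → ∀ H : Subgroup G,
    (Nat.card H).Coprime H.index → (𝐍[H]).index ∈ Submonoid.closure (S G (Nat.card H)) := by
  refine Grp.card_induction (P := fun G _ _ => Group.IsSolvable G → ∀ H : Subgroup G,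
    (Nat.card H).Coprime H.index → (𝐍[H]).index ∈ Submonoid.closure (S G (Nat.card H))) ?_ G
  intro G _ _ ih hs H hH
  rcases subsingleton_or_nontrivial G with h0 | h0
  · rw [Subsingleton.elim 𝐍[H] ⊤, index_top]; exact one_mem _
  obtain ⟨p, N, hp, hN, hN0, -, -, hNp, hmin⟩ := Grp.exists_minNormal_elementaryAbelian G
  have := Fact.mk hp
  have hsurj := QuotientGroup.mk'_surjective N
  have h1 := ih _ (Grp.card_quotient_lt N hN0) inferInstance (H.map (QuotientGroup.mk' N))
    ((hH.coprime_dvd_left (card_map_dvd _ _)).coprime_dvd_right (index_map_dvd _ hsurj))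
  rw [← index_comap_of_surjective _ hsurj, comap_normalizer_eq_of_surjective _ hsurj, comap_map_eq,
    QuotientGroup.ker_mk'] at h1
  have h2 : 𝐍[H] ≤ 𝐍[H ⊔ N] := le_normalizer_sup le_rfl le_normalizer_of_normal
  have h3 : (𝐍[H]).relIndex 𝐍[H ⊔ N] = (𝐍[H]).relIndex N := by
    refine FGS.relIndex_eq_of_forall_exists (le_sup_right.trans le_normalizer) fun x hx => ?_
    obtain ⟨g, hg, h4⟩ := Solv.hall_conj_in (M := H ⊔ N) (K := cj(x, H)) le_sup_left
      (cj_le_of_mem_normalizer le_sup_left hx)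
      (hH.coprime_dvd_right (relIndex_dvd_index_of_le le_sup_left)) (card_cj _ _).symm
    rw [sup_comm] at hg
    obtain ⟨n, hn, h, hh, rfl⟩ := (mem_sup_of_le_normalizer_left le_normalizer_of_normal).1 hg
    rw [Grp.conj_smul_eq_map, cj_mul, cj_of_mem hh] at h4
    exact ⟨n, hn, cj_eq_iff.1 (by rw [cj_mul, ← h4, cj_inv_cj])⟩
  rw [← relIndex_mul_index h2, h3]
  refine mul_mem ?_ (Submonoid.closure_mono (S_sub _ hsurj (card_map_dvd _ _)) h1)
  obtain ⟨k, hk⟩ := hNp.exists_card_eq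
  by_cases hd : p ∣ Nat.card H
  · have h4 : N ≤ H := Grp.le_of_coprime_card_index (by
      rw [hk]
      exact ((Nat.Prime.coprime_iff_not_dvd hp).2 fun h =>
        hp.one_lt.ne' (Nat.eq_one_of_dvd_coprimes hH hd h)).pow_left k)
    rw [relIndex_eq_one.2 (h4.trans le_normalizer)]
    exact one_mem _
  · have h4 : 𝐍[H] ⊓ N = 𝐂[H] ⊓ N := by
      refine le_antisymm (fun x hx => ⟨fun h hh => ?_, hx.2⟩)
        (inf_le_inf_right _ (centralizer_le_normalizer' _))
      have h5 : x * h * x⁻¹ * h⁻¹ ∈ N ⊓ H := by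
        refine ⟨?_, H.mul_mem (conj_mem_of_mem_normalizer hx.1 hh) (H.inv_mem hh)⟩
        have := N.mul_mem hx.2 (hN.conj_mem _ (N.inv_mem hx.2) h)
        simpa [mul_assoc] using this
      rw [Grp.inf_eq_bot_of_isPGroup_of_coprime hNp ((Nat.Prime.coprime_iff_not_dvd hp).2 hd).symm,
        mem_bot, mul_inv_eq_one, mul_inv_eq_iff_eq_mul] at h5
      exact h5.symm
    rw [← inf_relIndex_right, h4, inf_relIndex_right]
    refine Submonoid.closure_mono ?_ (cent_mem hNp H inferInstance le_normalizer_of_normal hd)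
    rintro x ⟨⟨e, he⟩, h5, h6⟩
    exact ⟨⟨p, e, hp, he⟩, ⟨⊥, N, inferInstance, hN, bot_lt_iff_ne_bot.2 hN0,
      fun M hM _ h7 => hmin M hM h7, by rwa [relIndex_bot_left]⟩, h6⟩

/-- Let `G` be a finite solvable group of order `mn` with `gcd(m, n) = 1`. Then the number of subgroups of order `m` is a product of natural numbers each of which is a power of a prime, divides the order of some chief factor of `G` (a quotient `L/K` of normal subgroups `K < L` of `G` with no normal subgroup of `G` strictly between them), and is congruent to `1` modulo some prime divisor of `m`. -/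
theorem result {G : Type*} [Group G] [Finite G] [Group.IsSolvable G] (m n : ℕ) (hG : Nat.card G = m * n) (hmn : Nat.Coprime m n) : ∃ (k : ℕ) (f : Fin k → ℕ), Nat.card {H : Subgroup G // Nat.card H = m} = ∏ i, f i ∧ ∀ i, (∃ q e : ℕ, q.Prime ∧ f i = q ^ e) ∧ (∃ K L : Subgroup G, K.Normal ∧ L.Normal ∧ K < L ∧ (∀ M : Subgroup G, M.Normal → K ≤ M → M ≤ L → M = K ∨ M = L) ∧ f i ∣ K.relIndex L) ∧ (∃ q : ℕ, q.Prime ∧ q ∣ m ∧ f i ≡ 1 [MOD q]) := by
  obtain ⟨H, hH⟩ := Solv.exists_hall G inferInstance m n hG hmn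
  have hH' : (Nat.card H).Coprime H.index := by rwa [Solv.index_eq_of_card_eq_mul hG hH, hH]
  have h1 := aux G inferInstance H hH'
  rw [← card_conj_eq_index, hH] at h1
  obtain ⟨l, hl, hl'⟩ := Submonoid.exists_list_of_mem_closure h1
  refine ⟨l.length, l.get, ?_, fun i => hl _ (List.get_mem l i)⟩
  rw [← List.prod_ofFn, List.ofFn_get, hl']
  exact Nat.card_congr (Equiv.subtypeEquivRight fun K => ⟨fun h => Solv.hall_conj hH' (hH.trans h.symm),
    fun ⟨g, hg⟩ => by rw [← hg, Grp.card_conj_smul, hH]⟩)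

end Cfsg.Agent.S4214
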