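import Cfsg.Statements.S4217
import Mathlib
import Cfsg.Agent.Solv.Gaschutz
import Cfsg.Agent.Solv.NilpAmb
import Cfsg.Agent.Solv.FrattiniNormal
import Cfsg.Agent.Grp.CardProduct

set_option autoImplicit false
open Cfsg

namespace Cfsg.Agent.S4217

open Subgroup Cfsg.Agent.PLocal.Amb

theorem step {G : Type*} [Group G] [Finite G] (A : Subgroup G) [A.Normal] (hA : IsMulCommutative A)
    {p : ℕ} (hp : p.Prime) (U K : Subgroup G) (hU : ¬ p ∣ U.index) (h1 : K ⊓ A = ⊥)
    (h2 : K ⊔ A = U) : ∃ H : Subgroup G, H ⊓ A ≤ 𝐎[p, A] ∧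
      H.index ≤ p ^ (Nat.card A).factorization p := by
  have := Fact.mk hp
  have hn : (𝐎[p, A]).Normal := Grp.normal_map_subtype_of_characteristic _ _
  set B := 𝐎[p, A] with hB
  have hBA : B ≤ A := pRes_le p A
  obtain ⟨k, hk⟩ := Solv.NA.relIndex_pRes p A
  have h3 : Nat.card (A.map (QuotientGroup.mk' B)) = p ^ k := by
    have h4 := Grp.card_map_mk'_mul_of_le B hBA
    rw [← Grp.card_mul_relIndex hBA, hk, mul_comm] at h4
    exact Nat.eq_of_mul_eq_mul_left Nat.card_pos h4
  have hAn : (A.map (QuotientGroup.mk' B)).Normal :=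
    Normal.map inferInstance _ (QuotientGroup.mk'_surjective B)
  obtain ⟨H, hH⟩ := Solv.gaschutz_exists (A.map (QuotientGroup.mk' B)) (U.map (QuotientGroup.mk' B))
    (map_mono (h2 ▸ le_sup_right))
    (by
      rw [h3]
      refine Nat.Coprime.pow_left k ((Nat.Prime.coprime_iff_not_dvd hp).2 fun h => hU (h.trans ?_))
      exact index_map_dvd _ (QuotientGroup.mk'_surjective B))
    (K.map (QuotientGroup.mk' B))
    (by
      rw [eq_bot_iff]
      rintro _ ⟨⟨x, hx, rfl⟩, a, ha, hxa⟩
      have h4 : a⁻¹ * x ∈ B := QuotientGroup.eq.1 hxa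
      have h5 : x ∈ K ⊓ A := ⟨hx, (mul_mem_cancel_left (inv_mem ha)).1 (hBA h4)⟩
      rw [h1, mem_bot] at h5
      rw [h5, map_one]; exact one_mem _)
    (by rw [← Subgroup.map_sup, sup_comm, h2])
  refine ⟨H.comap (QuotientGroup.mk' B), fun x hx => ?_, ?_⟩
  · have h4 : QuotientGroup.mk' B x ∈ A.map (QuotientGroup.mk' B) ⊓ H := ⟨mem_map_of_mem _ hx.2, hx.1⟩
    rw [hH.disjoint.eq_bot, mem_bot] at h4
    exact (QuotientGroup.eq_one_iff x).1 h4
  · rw [index_comap_of_surjective _ (QuotientGroup.mk'_surjective B), hH.index_eq_card, h3]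
    refine Nat.pow_le_pow_right hp.pos ((hp.pow_dvd_iff_le_factorization Nat.card_pos.ne').1 ?_)
    rw [← h3]
    exact card_map_dvd _ _

/-- Let `A` be an abelian normal subgroup of the finite group `G`. Then `A` has a complement in `G` if and only if, for every prime `p` dividing the index of `A`, there are a Sylow `p`-subgroup `S` of `G/A` and a subgroup `K` of `G` with `K ∩ A = 1` and `KA` equal to the preimage of `S` (that is, `A` has a complement in the preimage of a Sylow `p`-subgroup of `G/A`). -/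
theorem result {G : Type*} [Group G] [Finite G] (A : Subgroup G) [A.Normal] (hA : IsMulCommutative A) : (∃ K : Subgroup G, K.IsComplement' A) ↔ ∀ p : ℕ, p.Prime → p ∣ A.index → ∃ (S : Sylow p (G ⧸ A)) (K : Subgroup G), K ⊓ A = ⊥ ∧ K ⊔ A = (S : Subgroup (G ⧸ A)).comap (QuotientGroup.mk' A) := by
  constructor
  · rintro ⟨K, hK⟩ p hp -
    have := Fact.mk hp
    obtain ⟨S⟩ := (inferInstance : Nonempty (Sylow p (G ⧸ A)))
    have hAU : A ≤ (S : Subgroup (G ⧸ A)).comap (QuotientGroup.mk' A) := fun a ha => by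
      rw [mem_comap, QuotientGroup.mk'_apply, (QuotientGroup.eq_one_iff a).2 ha]; exact one_mem _
    refine ⟨S, K ⊓ (S : Subgroup (G ⧸ A)).comap (QuotientGroup.mk' A), ?_, ?_⟩
    · exact eq_bot_iff.2 ((inf_le_inf_right _ inf_le_left).trans hK.disjoint.eq_bot.le)
    · rw [sup_comm, ← sup_inf_of_le_normalizer' hAU le_normalizer_of_normal, sup_comm,
        hK.sup_eq_top, top_inf_eq]
  · intro h
    have key : ∀ p : (Nat.card A).primeFactors, ∃ H : Subgroup G, H ⊓ A ≤ 𝐎[(p : ℕ), A] ∧
        H.index ≤ (p : ℕ) ^ (Nat.card A).factorization p := by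
      intro ⟨p, hp⟩
      have hp' := Nat.prime_of_mem_primeFactors hp
      have := Fact.mk hp'
      by_cases hd : p ∣ A.index
      · obtain ⟨S, K, h1, h2⟩ := h p hp' hd
        refine step A hA hp' _ K ?_ h1 h2
        rw [index_comap_of_surjective _ (QuotientGroup.mk'_surjective A)]
        exact S.not_dvd_index
      · exact step A hA hp' A ⊥ hd (bot_inf_eq _) (bot_sup_eq _)
    choose H hH1 hH2 using key
    have h1 : (⨅ p, H p) ⊓ A = ⊥ := by
      rw [eq_bot_iff]
      intro x hx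
      rw [mem_bot, ← orderOf_eq_one_iff]
      by_contra h0
      obtain ⟨p, hp, hd⟩ := Nat.exists_prime_and_dvd h0
      have h2 : p ∈ (Nat.card A).primeFactors :=
        Nat.mem_primeFactors.2 ⟨hp, hd.trans (A.orderOf_dvd_natCard hx.2), Nat.card_pos.ne'⟩
      have h3 := Solv.NA.coprime_orderOf_of_mem_pRes (Grp.isNilpotent_of_isMulCommutative A)
        (hH1 ⟨p, h2⟩ ⟨mem_iInf.1 hx.1 _, hx.2⟩)
      exact (Nat.Prime.coprime_iff_not_dvd hp).1 h3.symm hd
    have h2 : (⨅ p, H p).index ≤ Nat.card A := by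
      refine (index_iInf_le H).trans ((Finset.prod_le_prod' fun p _ => hH2 p).trans (le_of_eq ?_))
      rw [Finset.prod_coe_sort _ (fun p => p ^ (Nat.card A).factorization p)]
      exact Nat.prod_factorization_pow_eq_self Nat.card_pos.ne'
    refine ⟨_, isComplement'_of_card_mul_and_disjoint (le_antisymm ?_ ?_) (disjoint_iff.2 h1)⟩
    · have := Grp.card_mul_card_le_of_le (H := ⨅ p, H p) (K := A) (L := ⊤) le_top le_top
      rwa [h1, card_bot, one_mul, card_top] at this
    · rw [← (⨅ p, H p).card_mul_index]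
      exact Nat.mul_le_mul_left _ h2

end Cfsg.Agent.S4217
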