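import Cfsg.Statements.S4222
import Mathlib
import Cfsg.Agent.Grp.Card

set_option autoImplicit false
open Cfsg

namespace Cfsg.Agent.S4222

/-- If a normal subgroup `N` of a finite group is complete (its centre is trivial and every automorphism of `N` is inner), then the group is the internal direct product of `N` and the centralizer of `N`: the centralizer is a complement to `N`. -/
theorem result {T : Type*} [Group T] [Finite T] (N : Subgroup T) [N.Normal] (hz : Subgroup.center ↥N = ⊥) (ha : Function.Surjective (MulAut.conj : ↥N →* MulAut ↥N)) : (Subgroup.centralizer (N : Set T)).IsComplement' N := by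
  refine Grp.isComplement'_of_sup_eq_top ?_ ?_
  · rw [eq_bot_iff]
    intro x hx
    have h1 : (⟨x, hx.2⟩ : N) ∈ Subgroup.center N :=
      Subgroup.mem_center_iff.2 fun g => Subtype.ext (hx.1 g g.2)
    rw [hz, Subgroup.mem_bot] at h1
    exact congrArg Subtype.val h1
  · rw [eq_top_iff]
    intro t _
    obtain ⟨n, hn⟩ := ha (MulAut.conjNormal t)
    have h1 : (n : T)⁻¹ * t ∈ Subgroup.centralizer (N : Set T) := by
      intro g hg
      have h2 : (n : T) * g * (n : T)⁻¹ = t * g * t⁻¹ := by
        simpa using congrArg Subtype.val (DFunLike.congr_fun hn ⟨g, hg⟩)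
      calc g * ((n : T)⁻¹ * t) = (n : T)⁻¹ * ((n : T) * g * (n : T)⁻¹) * t := by group
        _ = (n : T)⁻¹ * t * g := by rw [h2]; group
    have h3 := mul_mem (Subgroup.mem_sup_right (S := Subgroup.centralizer (N : Set T)) n.2)
      (Subgroup.mem_sup_left h1)
    simpa using h3

end Cfsg.Agent.S4222
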