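import Mathlib
import Cfsg.Statements.S4225
import Cfsg.Agent.Grp.Regular

set_option autoImplicit false
open Cfsg

namespace Cfsg.Agent.S4225

/-- In a regular `p`-group, for every `k` the elements whose `p^k`-th power is `1` form a characteristic subgroup. -/
theorem result {G : Type*} [Group G] [Finite G] {p : ℕ} [Fact p.Prime] (hG : Cfsg.IsRegularPGroup p G) (k : ℕ) : ∃ H : Subgroup G, H.Characteristic ∧ (H : Set G) = {x : G | x ^ p ^ k = 1} := by
  have h := (Grp.Reg.reg1_of_isRegular hG).pow_eq_iff hG.1 k
  let H : Subgroup G :=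
    { carrier := {x : G | x ^ p ^ k = 1}
      one_mem' := one_pow _
      mul_mem' := by
        intro a b ha hb
        simpa using (h a b⁻¹).1 (by rw [show a ^ p ^ k = 1 from ha, inv_pow, show b ^ p ^ k = 1 from hb, inv_one])
      inv_mem' := by
        intro a ha
        show a⁻¹ ^ p ^ k = 1
        rw [inv_pow, show a ^ p ^ k = 1 from ha, inv_one] }
  refine ⟨H, Subgroup.characteristic_iff_le_comap.2 fun φ x hx => ?_, rfl⟩
  show φ x ^ p ^ k = 1
  rw [← map_pow, show x ^ p ^ k = 1 from hx, map_one]

end Cfsg.Agent.S4225
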