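import Cfsg.Statements.S4275
import Mathlib


set_option autoImplicit false
open Cfsg

namespace Cfsg.Agent.S4275

/-- Let G be a transitive group of permutations of a finite set Ω, let o ∈ Ω, and let α be an automorphism of G. Then α is induced by conjugation by a permutation of Ω normalizing G if and only if the image under α of the stabilizer of o fixes some point of Ω. -/
theorem result {Ω : Type*} [Fintype Ω] (G : Subgroup (Equiv.Perm Ω)) (htr : MulAction.IsPretransitive G Ω) (o : Ω) (α : G ≃* G) : (∃ σ : Equiv.Perm Ω, σ ∈ Subgroup.normalizer (G : Set (Equiv.Perm Ω)) ∧ ∀ g : G, ((α g : G) : Equiv.Perm Ω) = σ * (g : Equiv.Perm Ω) * σ⁻¹) ↔ ∃ ω : Ω, ∀ g ∈ (MulAction.stabilizer G o).map α.toMonoidHom, g • ω = ω := by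
  constructor
  · rintro ⟨σ, -, hσ⟩
    refine ⟨σ o, ?_⟩
    rintro _ ⟨g, hg, rfl⟩
    have h1 : (g : Equiv.Perm Ω) o = o := hg
    show ((α g : G) : Equiv.Perm Ω) (σ o) = σ o
    rw [hσ]; simp [h1]
  · rintro ⟨ω, hω⟩
    choose t ht using fun x : Ω => MulAction.exists_smul_eq G o x
    have h1 : ∀ (g : G) (x : Ω), α (t (g • x)) • ω = α g • α (t x) • ω := by
      intro g x
      have h2 : (t (g • x))⁻¹ * (g * t x) ∈ MulAction.stabilizer G o := by
        rw [MulAction.mem_stabilizer_iff, mul_smul, mul_smul, ht, inv_smul_eq_iff, ht]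
      have h3 := hω _ ⟨_, h2, rfl⟩
      rw [MulEquiv.coe_toMonoidHom, map_mul, map_mul, map_inv, mul_smul, mul_smul,
        inv_smul_eq_iff] at h3
      exact h3.symm
    have h2 : Function.Surjective fun x => α (t x) • ω := by
      intro y
      obtain ⟨k, rfl⟩ := MulAction.exists_smul_eq G (α (t o) • ω) y
      exact ⟨α.symm k • o, by simp only [h1, MulEquiv.apply_symm_apply]⟩
    let σ : Equiv.Perm Ω := Equiv.ofBijective _ (Finite.surjective_iff_bijective.1 h2)
    have h3 : ∀ g : G, ((α g : G) : Equiv.Perm Ω) = σ * (g : Equiv.Perm Ω) * σ⁻¹ := by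
      intro g
      rw [eq_mul_inv_iff_mul_eq]
      ext x
      exact (h1 g x).symm
    refine ⟨σ, Subgroup.mem_normalizer_iff.2 fun g => ⟨fun hg => ?_, fun hg => ?_⟩, h3⟩
    · rw [← h3 ⟨g, hg⟩]; exact (α ⟨g, hg⟩).2
    · have h4 := h3 (α.symm ⟨_, hg⟩)
      rw [MulEquiv.apply_symm_apply] at h4
      have h5 : g = (α.symm ⟨_, hg⟩ : G) := mul_left_cancel (mul_right_cancel h4)
      rw [h5]; exact (α.symm ⟨_, hg⟩).2

end Cfsg.Agent.S4275
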