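import Cfsg.Statements.S4276
import Mathlib
import Cfsg.Agent.S4275

set_option autoImplicit false
open Cfsg

namespace Cfsg.Agent.S4276

open Matrix MulAction

section
variable {Ω : Type*} [Fintype Ω] [DecidableEq Ω]

/-- the all-one matrix -/
def J (Ω : Type*) : Matrix Ω Ω ℤ := Matrix.of fun _ _ => 1

theorem inv_form {G : Type*} [Group G] [MulAction G Ω] (h2 : IsMultiplyPretransitive G Ω 2)
    {x₀ y₀ : Ω} (hne : x₀ ≠ y₀) (M : Matrix Ω Ω ℤ) (hM : ∀ (g : G) x y, M (g • x) (g • y) = M x y) :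
    ∃ a b : ℤ, M = a • (1 : Matrix Ω Ω ℤ) + b • J Ω := by
  have h1 : IsPretransitive G Ω := isPretransitive_of_is_two_pretransitive
  refine ⟨M x₀ x₀ - M x₀ y₀, M x₀ y₀, ?_⟩
  ext x y
  by_cases hxy : x = y
  · subst hxy
    obtain ⟨g, rfl⟩ := exists_smul_eq G x₀ x
    rw [Matrix.add_apply, Matrix.smul_apply, Matrix.smul_apply, Matrix.one_apply_eq, hM]
    simp [J]
  · obtain ⟨g, rfl, rfl⟩ := is_two_pretransitive_iff.1 h2 hne hxy
    rw [Matrix.add_apply, Matrix.smul_apply, Matrix.smul_apply, Matrix.one_apply_ne hxy, hM]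
    simp [J]

theorem coeff_eq {x₀ y₀ : Ω} (hne : x₀ ≠ y₀) {a b c d : ℤ}
    (h : a • (1 : Matrix Ω Ω ℤ) + b • J Ω = c • (1 : Matrix Ω Ω ℤ) + d • J Ω) : a = c := by
  have h1 := congrFun (congrFun h x₀) x₀
  have h2 := congrFun (congrFun h x₀) y₀
  simp only [Matrix.add_apply, Matrix.smul_apply, Matrix.one_apply_eq, Matrix.one_apply_ne hne, J,
    Matrix.of_apply, smul_eq_mul] at h1 h2
  omega

theorem J_mul_J : J Ω * J Ω = (Fintype.card Ω : ℤ) • J Ω := by
  ext x y; simp [J, Matrix.mul_apply]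

theorem arith {n k : ℕ} {d l a b : ℤ} {r : ℕ} (hn : 2 ≤ n) (hk : 1 ≤ k) (hkn : k ≤ n)
    (hc : k.Coprime n) (h1 : d + l = k) (h2 : (k : ℤ) * k = d + l * n) (hl : 0 ≤ l)
    (h3 : a * a = d ^ (2 * r + 1)) (h4 : (k : ℤ) ^ (2 * r + 1) = a + b * n) :
    k = 1 ∨ k = n - 1 := by
  have hc' : IsCoprime (k : ℤ) n := Nat.isCoprime_iff_coprime.2 hc
  have hd : IsCoprime d n := by
    have := hc'.mul_left hc'
    rw [h2] at this
    exact IsCoprime.of_add_mul_right_left this
  have hd0 : d ≠ 0 := by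
    rintro rfl
    have := Int.isUnit_iff.1 (isCoprime_zero_left.1 hd)
    omega
  have h5 : d ^ r ∣ a := by
    rw [← Int.pow_dvd_pow_iff two_ne_zero, sq a, h3]
    exact Dvd.intro d (by ring)
  obtain ⟨s, rfl⟩ := h5
  have h6 : s * s = d := by
    have : (d ^ r * d ^ r) * (s * s) = (d ^ r * d ^ r) * d := by linear_combination h3
    exact mul_left_cancel₀ (mul_ne_zero (pow_ne_zero r hd0) (pow_ne_zero r hd0)) this
  have h7 : (n : ℤ) ∣ d ^ r * (k - s) := by
    have h8 : (n : ℤ) ∣ ((k : ℤ) * k) ^ r - d ^ r :=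
      (Dvd.intro_left l (by linear_combination -h2)).trans (sub_dvd_pow_sub_pow _ _ r)
    obtain ⟨c, hc⟩ := h8
    exact ⟨b - k * c, by linear_combination h4 - k * hc⟩
  obtain ⟨c, hc⟩ := (hd.pow_left (m := r)).symm.dvd_of_dvd_mul_left h7
  have hs : s * s ≤ k := by omega
  have hn' : (2 : ℤ) ≤ n := by exact_mod_cast hn
  have hk' : (1 : ℤ) ≤ k := by exact_mod_cast hk
  have hkn' : (k : ℤ) ≤ n := by exact_mod_cast hkn
  have hkn2 : (k : ℤ) ≠ n := by
    intro h
    have : k = n := by exact_mod_cast h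
    subst this
    rw [Nat.coprime_self] at *
    omega
  have h9 : s * s * (n - 1) = k * (n - k) := by linear_combination (n - 1) * h6 + n * h1 + h2
  rcases lt_trichotomy c 0 with h | h | h
  · exfalso
    have h10 : (n : ℤ) * c ≤ -n := by nlinarith
    have h11 : (k : ℤ) + 2 ≤ s := by omega
    nlinarith
  · left
    have : s = k := by rw [h, mul_zero] at hc; omega
    subst this
    have : (k : ℤ) ≤ 1 := by nlinarith
    omega
  · right
    have h10 : (n : ℤ) - k ≤ -s := by nlinarith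
    have h11 : (n - k) * (n - k) ≤ s * s := by nlinarith
    have h12 : (n - k) * (n - 1) ≤ (k : ℤ) := by
      have h13 : (0 : ℤ) < n - k := by omega
      have : (n - k) * ((n - k) * (n - 1)) ≤ (n - k) * (k : ℤ) := by nlinarith
      exact le_of_mul_le_mul_left this h13
    have h13 : (n : ℤ) - k ≤ 1 := by nlinarith
    omega

theorem main {G : Type*} [Group G] [MulAction G Ω] (h2 : IsMultiplyPretransitive G Ω 2)
    {o y₀ : Ω} (hne : o ≠ y₀) (α : MulAut G) (hα : Odd (orderOf α)) (D : Finset Ω)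
    (hD0 : D.Nonempty) (hD : ∀ g ∈ stabilizer G o, ∀ y, α g • y ∈ D ↔ y ∈ D)
    (hk : D.card.Coprime (Fintype.card Ω)) : D.card = 1 ∨ D.card = Fintype.card Ω - 1 := by
  have h1 : IsPretransitive G Ω := isPretransitive_of_is_two_pretransitive
  choose t ht using fun x : Ω => exists_smul_eq G o x
  let T : Matrix Ω Ω ℤ := Matrix.of fun y x => if (α (t x))⁻¹ • y ∈ D then 1 else 0
  have hT : ∀ (g : G) y x, T (α g • y) (g • x) = T y x := by
    intro g y x
    have h3 : (t (g • x))⁻¹ * (g * t x) ∈ stabilizer G o := by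
      rw [mem_stabilizer_iff, mul_smul, mul_smul, ht, inv_smul_eq_iff, ht]
    have h4 := hD _ h3 ((α (t x))⁻¹ • y)
    rw [map_mul, map_mul, map_inv, mul_smul, mul_smul, smul_inv_smul] at h4
    simp only [T, Matrix.of_apply, h4]
  have hcol : ∀ x, ∑ y, T y x = D.card := by
    intro x
    rw [← Equiv.sum_comp (MulAction.toPerm (α (t x)))]
    simp [T]
  have hJT : J Ω * T = (D.card : ℤ) • J Ω := by
    ext x y; simp [J, Matrix.mul_apply, hcol]
  have hTJ : Tᵀ * J Ω = (D.card : ℤ) • J Ω := by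
    ext x y; simp [J, Matrix.mul_apply, hcol]
  have hrow : ∀ y, ∑ x, T y x = D.card := by
    have h3 : ∀ y, ∑ x, T y x = ∑ x, T o x := by
      intro y
      obtain ⟨g, rfl⟩ := exists_smul_eq G o y
      obtain ⟨g, rfl⟩ := α.surjective g
      rw [← Equiv.sum_comp (MulAction.toPerm g)]
      simp [hT]
    have h4 : ∑ y, ∑ x, T y x = ∑ x, ∑ y, T y x := Finset.sum_comm
    simp only [h3, hcol, Finset.sum_const, Finset.card_univ, nsmul_eq_mul] at h4
    intro y
    rw [h3]
    exact mul_left_cancel₀ (by exact_mod_cast (Fintype.card_pos_iff.2 ⟨o⟩).ne') h4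
  have hJT' : J Ω * Tᵀ = (D.card : ℤ) • J Ω := by
    ext x y; simp [J, Matrix.mul_apply, hrow]
  obtain ⟨d, l, hdl⟩ := inv_form h2 hne (Tᵀ * T) fun g x y => by
    rw [Matrix.mul_apply, Matrix.mul_apply, ← Equiv.sum_comp (MulAction.toPerm (α g))]
    simp [hT]
  have hpow : ∀ (j : ℕ) (g : G) y x, (T ^ j) ((α ^ j) g • y) (g • x) = (T ^ j) y x := by
    intro j
    induction j with
    | zero => intro g y x; simp [Matrix.one_apply]
    | succ j ih =>
      intro g y x
      rw [pow_succ' T, pow_succ' α, Matrix.mul_apply, Matrix.mul_apply,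
        ← Equiv.sum_comp (MulAction.toPerm ((α ^ j) g))]
      simp [hT, ih]
  obtain ⟨r, hr⟩ := hα
  obtain ⟨a, b, hab⟩ := inv_form h2 hne (T ^ (2 * r + 1)) fun g x y => by
    have := hpow (2 * r + 1) g x y
    rwa [← hr, pow_orderOf_eq_one, MulAut.one_apply, hr] at this
  have hsq : ∀ j : ℕ, ∃ c : ℤ, (T ^ j)ᵀ * T ^ j = d ^ j • (1 : Matrix Ω Ω ℤ) + c • J Ω := by
    intro j
    induction j with
    | zero => exact ⟨0, by simp⟩
    | succ j ih =>
      obtain ⟨c, hc⟩ := ih
      refine ⟨d ^ j * l + c * D.card * D.card, ?_⟩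
      rw [pow_succ, Matrix.transpose_mul, Matrix.mul_assoc, ← Matrix.mul_assoc _ _ T, hc]
      simp only [Matrix.add_mul, Matrix.mul_add, Matrix.smul_mul, Matrix.mul_smul, Matrix.one_mul,
        hJT, hTJ, hdl]
      module
  have hJpow : ∀ j : ℕ, J Ω * T ^ j = (D.card : ℤ) ^ j • J Ω := by
    intro j
    induction j with
    | zero => simp
    | succ j ih => rw [pow_succ, ← Matrix.mul_assoc, ih, Matrix.smul_mul, hJT, smul_smul, pow_succ]
  have hJt : (J Ω)ᵀ = J Ω := rfl
  obtain ⟨c, hc⟩ := hsq (2 * r + 1)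
  refine arith (d := d) (l := l) (a := a) (b := b) (r := r)
    (Fintype.one_lt_card_iff.2 ⟨o, y₀, hne⟩) hD0.card_pos (Finset.card_le_univ D) hk ?_ ?_ ?_ ?_ ?_
  · have h3 := congrFun (congrFun hdl o) o
    rw [Matrix.mul_apply] at h3
    rw [← hcol o]
    simp only [Matrix.add_apply, Matrix.smul_apply, Matrix.one_apply_eq, J, Matrix.of_apply,
      smul_eq_mul, mul_one] at h3
    rw [← h3]
    refine Finset.sum_congr rfl fun y _ => ?_
    simp only [T, Matrix.transpose_apply, Matrix.of_apply]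
    split_ifs <;> simp
  · have h3 := congrArg (J Ω * ·) hdl
    simp only [← Matrix.mul_assoc, hJT', Matrix.smul_mul, hJT, Matrix.mul_add, Matrix.mul_smul,
      Matrix.mul_one, J_mul_J] at h3
    simpa [J] using congrFun (congrFun h3 o) o
  · have h3 := congrFun (congrFun hdl o) y₀
    rw [Matrix.mul_apply] at h3
    simp only [Matrix.add_apply, Matrix.smul_apply, Matrix.one_apply_ne hne, J, Matrix.of_apply,
      smul_eq_mul, mul_one, mul_zero, zero_add] at h3
    rw [← h3]
    refine Finset.sum_nonneg fun y _ => ?_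
    simp only [T, Matrix.transpose_apply, Matrix.of_apply]
    split_ifs <;> simp
  · refine coeff_eq hne (b := 2 * a * b + b * b * Fintype.card Ω) (d := c) ?_
    rw [← hc, hab]
    simp only [Matrix.transpose_add, Matrix.transpose_smul, Matrix.transpose_one, hJt,
      Matrix.add_mul, Matrix.mul_add, Matrix.smul_mul, Matrix.mul_smul, Matrix.one_mul,
      Matrix.mul_one, J_mul_J]
    module
  · have h3 := hJpow (2 * r + 1)
    rw [hab] at h3
    simp only [Matrix.mul_add, Matrix.mul_smul, Matrix.mul_one, J_mul_J] at h3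
    simpa [J] using (congrFun (congrFun h3 o) o).symm

end

/-- Let G be a doubly transitive group of permutations of a finite set Ω of size n, let o ∈ Ω, and let α be an automorphism of G of odd order. Suppose that the image under α of the stabilizer of o has an orbit on Ω whose length k is coprime to n. Then α is induced by conjugation by a permutation of Ω normalizing G, and k = 1 or k = n − 1. -/
theorem result {Ω : Type*} [Fintype Ω] (G : Subgroup (Equiv.Perm Ω)) (h2 : MulAction.IsMultiplyPretransitive G Ω 2) (o : Ω) (α : MulAut G) (hα : Odd (orderOf α)) (ω : Ω) (hk : (Nat.card (MulAction.orbit ((MulAction.stabilizer G o).map α.toMonoidHom) ω)).Coprime (Fintype.card Ω)) : (∃ σ : Equiv.Perm Ω, σ ∈ Subgroup.normalizer (G : Set (Equiv.Perm Ω)) ∧ ∀ g : G, ((α g : G) : Equiv.Perm Ω) = σ * (g : Equiv.Perm Ω) * σ⁻¹) ∧ (Nat.card (MulAction.orbit ((MulAction.stabilizer G o).map α.toMonoidHom) ω) = 1 ∨ Nat.card (MulAction.orbit ((MulAction.stabilizer G o).map α.toMonoidHom)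 ω) = Fintype.card Ω - 1) := by
  classical
  set H := (stabilizer G o).map α.toMonoidHom with hH
  rcases subsingleton_or_nontrivial Ω with h0 | h0
  · refine ⟨(S4275.result G ⟨fun x y => ⟨1, Subsingleton.elim _ _⟩⟩ o α).2
      ⟨ω, fun g _ => Subsingleton.elim _ _⟩, Or.inl ?_⟩
    have : Nonempty (orbit H ω) := ⟨⟨ω, mem_orbit_self ω⟩⟩
    exact Nat.card_unique
  have h1 : IsPretransitive G Ω := isPretransitive_of_is_two_pretransitive
  obtain ⟨y₀, hy₀⟩ := exists_ne o
  have hc : Nat.card (orbit H ω) = (orbit H ω).toFinset.card := by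
    rw [Nat.card_eq_fintype_card, Set.toFinset_card]
  have hinv : ∀ g ∈ H, ∀ y, g • y ∈ (orbit H ω).toFinset ↔ y ∈ (orbit H ω).toFinset := by
    intro g hg y
    simp only [Set.mem_toFinset]
    exact ⟨fun h => inv_smul_smul g y ▸ mem_orbit_of_mem_orbit (⟨g⁻¹, inv_mem hg⟩ : H) h,
      fun h => mem_orbit_of_mem_orbit (⟨g, hg⟩ : H) h⟩
  have h3 := main h2 hy₀.symm α hα (orbit H ω).toFinset ⟨ω, by simp⟩
    (fun g hg y => hinv _ ⟨g, hg, rfl⟩ y) (hc ▸ hk)
  refine ⟨(S4275.result G h1 o α).2 ?_, hc ▸ h3⟩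
  rcases h3 with h3 | h3
  · obtain ⟨x, hx⟩ := Finset.card_eq_one.1 h3
    refine ⟨x, fun g hg => ?_⟩
    have := (hinv g hg x).2 (by rw [hx]; simp)
    rwa [hx, Finset.mem_singleton] at this
  · have h4 : ((orbit H ω).toFinsetᶜ).card = 1 := by
      rw [Finset.card_compl, h3]
      have := Fintype.card_pos (α := Ω)
      omega
    obtain ⟨x, hx⟩ := Finset.card_eq_one.1 h4
    refine ⟨x, fun g hg => ?_⟩
    have h5 : x ∉ (orbit H ω).toFinset := Finset.mem_compl.1 (by rw [hx]; simp)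
    have := Finset.mem_compl.2 (fun h => h5 ((hinv g hg x).1 h))
    rwa [hx, Finset.mem_singleton] at this

end Cfsg.Agent.S4276
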