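import Cfsg.Statements.S4277
import Mathlib
import Cfsg.Agent.S4290
import Cfsg.Agent.S0675
import Cfsg.Agent.Perm.PrimeDegree
import Cfsg.Agent.FGS.ClassSize
import Cfsg.Agent.Transfer.PCompl
import Cfsg.Agent.PLocal.AmbSyl
import Cfsg.Agent.Grp.Fitting

set_option autoImplicit false
open Cfsg

namespace Cfsg.Agent.S4277

open Subgroup MulAction Cfsg.Agent.PLocal.Amb

theorem out_congr {G G' : Type*} [Group G] [Group G'] (e : G ≃* G')
    (h : Group.IsSolvable (Cfsg.Out G')) : Group.IsSolvable (Cfsg.Out G) := by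
  refine Group.isSolvable_of_isSolvable_injective (f := QuotientGroup.map (Inn G) (Inn G')
    (MulAut.congr e).toMonoidHom ?_) ?_
  · rintro _ ⟨g, rfl⟩
    exact ⟨e g, by ext x; simp [MulAut.congr]⟩
  · rw [injective_iff_map_eq_one]
    intro a ha
    obtain ⟨a, rfl⟩ := QuotientGroup.mk_surjective a
    obtain ⟨g, hg⟩ := (QuotientGroup.eq_one_iff _).1 ha
    refine (QuotientGroup.eq_one_iff _).2 ⟨e.symm g, ?_⟩
    ext x
    apply e.injective
    have := DFunLike.congr_fun hg (e x)
    simpa [MulAut.congr] using this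

theorem aux {Ω : Type*} [Fintype Ω] {p : ℕ} [hp : Fact p.Prime] (hΩ : Nat.card Ω = p)
    (G : Subgroup (Equiv.Perm Ω)) (h2 : IsMultiplyPretransitive G Ω 2) :
    Group.IsSolvable (Cfsg.Out G) := by
  classical
  have h1 : IsPretransitive G Ω := isPretransitive_of_is_two_pretransitive
  have := Fact.mk Nat.prime_two
  obtain ⟨P⟩ := (inferInstance : Nonempty (Sylow p G))
  obtain ⟨c, e, hc, -, hce⟩ := Perm.exists_coord_of_prime_degree hΩ P
  have hT := isSyl_map_subtype P
  rw [hc, MonoidHom.map_zpowers, subtype_apply] at hT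
  have hs : Group.IsSolvable 𝐍[zpowers (c : Equiv.Perm Ω)] :=
    Perm.isSolvable_of_affine (e := e) fun g =>
      Perm.affine_of_mem_normalizer (G := Equiv.Perm Ω) (c := c) hce g.2
  let ψ : 𝐍[G] →* Cfsg.Out G := (QuotientGroup.mk' (Inn G)).comp G.normalizerMonoidHom
  let L : Subgroup 𝐍[G] := (𝐍[zpowers (c : Equiv.Perm Ω)]).comap (𝐍[G]).subtype
  have hL : Group.IsSolvable L := Group.isSolvable_of_isSolvable_injective
    (f := (𝐍[G]).subtype.subgroupComap _) fun x y h => Subtype.ext (Subtype.ext (Subtype.mk.inj h))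
  have hHall : (Nat.card (stabilizer G (e 0))).Coprime (stabilizer G (e 0)).index := by
    rw [index_stabilizer_of_transitive, hΩ]
    refine ((Nat.Prime.coprime_iff_not_dvd hp.out).2 fun h => ?_).symm
    refine Perm.not_sq_dvd_card_of_prime_degree (G := G) hΩ ?_
    rw [← (stabilizer G (e 0)).card_mul_index, index_stabilizer_of_transitive, hΩ, sq]
    exact Nat.mul_dvd_mul_right h p
  have h3 : pResidual 2 (Cfsg.Out G) ≤ L.map ψ := by
    refine Transfer.pResidual_le_iff.2 fun a ha => ?_
    obtain ⟨α, rfl, hα⟩ := FGS.exists_lift_coprime (QuotientGroup.mk' (Inn G))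
      (QuotientGroup.mk'_surjective _) a ha
    obtain ⟨σ, hσ, hσ'⟩ := S4290.result G h2 (e 0) hHall α (Nat.coprime_two_right.1 hα)
    obtain ⟨g, hg, x, hx, rfl⟩ := hT.frattini hσ
    refine ⟨⟨x, (mul_mem_cancel_left (le_normalizer hg)).1 hσ⟩, hx, ?_⟩
    refine (QuotientGroup.eq_iff_div_mem.2
      (MonoidHom.mem_range.2 ⟨(⟨g, hg⟩ : G), ?_⟩ : α / _ ∈ Inn G)).symm
    rw [eq_div_iff_mul_eq']
    ext y : 2
    rw [hσ']
    show g * (x * y * x⁻¹) * g⁻¹ = _
    group
  have h4 : Group.IsSolvable (L.map ψ) := Grp.isSolvable_map L ψ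
  have := (Transfer.isPGroup_quotient_pResidual (p := 2) (G := Cfsg.Out G)).isNilpotent
  exact (Group.isSolvable_iff_subgroup_quotient (pResidual 2 (Cfsg.Out G))).2
    ⟨Grp.isSolvable_of_le h3, inferInstance⟩

/-- A case of the Schreier conjecture: if a finite simple group G has a subgroup of prime index, then the outer automorphism group of G is solvable. -/
theorem result {G : Type*} [Group G] [Finite G] [IsSimpleGroup G] (H : Subgroup G) (hH : H.index.Prime) : Group.IsSolvable (Cfsg.Out G) := by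
  classical
  have := Fact.mk hH
  have := Fintype.ofFinite (G ⧸ H)
  have h1 : Function.Injective (toPermHom G (G ⧸ H)) := by
    rw [← MonoidHom.ker_eq_bot_iff, ← normalCore_eq_ker]
    refine (inferInstance : H.normalCore.Normal).eq_bot_or_eq_top.resolve_right fun h => ?_
    have h2 : H = ⊤ := eq_top_iff.2 (h ▸ normalCore_le H)
    exact hH.one_lt.ne' (by rw [h2, index_top])
  have e := MonoidHom.ofInjective h1
  have h2 : IsPretransitive (toPermHom G (G ⧸ H)).range (G ⧸ H) := ⟨fun x y => by
    obtain ⟨g, rfl⟩ := exists_smul_eq G x y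
    exact ⟨⟨_, g, rfl⟩, rfl⟩⟩
  rcases S0675.result (α := G ⧸ H) (by rwa [← Nat.card_eq_fintype_card])
    (toPermHom G (G ⧸ H)).range with h3 | h3
  · have h4 : Group.IsSolvable G := Group.isSolvable_of_isSolvable_injective (f := e.toMonoidHom)
      e.injective
    have h5 := IsSimpleGroup.comm_iff_isSolvable.2 h4
    letI : CommGroup G := { mul_comm := h5 }
    have h6 : IsCyclic G := inferInstance
    have h7 : Group.IsSolvable (MulAut G) :=
      Group.isSolvable_of_isSolvable_injective (f := (IsCyclic.mulAutMulEquiv G).toMonoidHom)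
        (IsCyclic.mulAutMulEquiv G).injective
    infer_instance
  · exact out_congr e (aux (p := H.index) rfl _ h3)

end Cfsg.Agent.S4277
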