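import Cfsg.Statements.S4280
import Cfsg.Agent.Lang.InvolF4

set_option autoImplicit false
open Cfsg Cfsg.Lie Cfsg.Agent.Chev Cfsg.Agent.Lang

namespace Cfsg.Agent.S4280

theorem formulas {q : ℕ} (hq : 1 < q) :
    q ^ 16 * (q - 1) ^ encF4.l * (invF4a.map fun L => (L.dl.map (q ^ ·)).sum).prod =
      q ^ 16 * (q ^ 2 - 1) * (q ^ 4 - 1) * (q ^ 6 - 1) * (q ^ 8 - 1) ∧
    q ^ 10 * (q - 1) ^ encF4.l * (invF4b.map fun L => (L.dl.map (q ^ ·)).sum).prod =
      q ^ 10 * (q ^ 2 - 1) ^ 2 * (q ^ 4 - 1) * (q ^ 6 - 1) ∧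
    q ^ 16 * (q ^ 2 - 1) * (q ^ 4 - 1) * (q ^ 6 - 1) * (q ^ 8 - 1) ≠
      q ^ 10 * (q ^ 2 - 1) ^ 2 * (q ^ 4 - 1) * (q ^ 6 - 1) := by
  have h : ∀ n, 1 ≤ q ^ n := fun n => Nat.one_le_pow n q (by omega)
  have hc : ∀ n, n ≠ 0 → q.Coprime (q ^ n - 1) := fun n hn =>
    ((Nat.coprime_self_sub_right (h n)).2 (Nat.coprime_one_right _)).coprime_dvd_left
      (dvd_pow_self q hn)
  refine ⟨?_, ?_, fun e => ?_⟩
  · simp only [invF4a, List.map, List.sum_cons, List.prod_cons, List.sum_nil, List.prod_nil,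
      show encF4.l = 4 from rfl]
    zify [h, hq.le]; ring
  · simp only [invF4b, List.map, List.sum_cons, List.prod_cons, List.sum_nil, List.prod_nil,
      show encF4.l = 4 from rfl]
    zify [h, hq.le]; ring
  · have h1 : q ^ 10 * q ∣ q ^ 10 * ((q ^ 2 - 1) ^ 2 * (q ^ 4 - 1) * (q ^ 6 - 1)) :=
      ⟨q ^ 5 * (q ^ 2 - 1) * (q ^ 4 - 1) * (q ^ 6 - 1) * (q ^ 8 - 1), by
        rw [← mul_assoc, ← mul_assoc, ← e]; ring⟩
    exact hq.ne' (Nat.eq_one_of_dvd_coprimes ((((hc 2 (by simp)).pow_right 2).mul_right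
      (hc 4 (by simp))).mul_right (hc 6 (by simp))) dvd_rfl
      (Nat.dvd_of_mul_dvd_mul_left (h 10) h1))

/-- In the Chevalley group of type F₄ over a finite field of odd order q there are exactly two conjugacy classes of involutions; the centralizer of an involution in one class has order q¹⁶(q² − 1)(q⁴ − 1)(q⁶ − 1)(q⁸ − 1), and in the other class q¹⁰(q² − 1)²(q⁴ − 1)(q⁶ − 1). -/
theorem result {F : Type*} [Field F] [Fintype F] (hF : Odd (Fintype.card F)) : ∃ s t : ↥(Cfsg.Lie.chevF4.group F), orderOf s = 2 ∧ orderOf t = 2 ∧ ¬ IsConj s t ∧ (∀ u : ↥(Cfsg.Lie.chevF4.group F), orderOf u = 2 → IsConj u s ∨ IsConj u t) ∧ Nat.card (Subgroup.centralizer ({s} : Set ↥(Cfsg.Lie.chevF4.group F))) = Fintype.card F ^ 16 * (Fintype.card F ^ 2 - 1) * (Fintype.card F ^ 4 - 1) * (Fintype.card F ^ 6 - 1) * (Fintype.card F ^ 8 - 1) ∧ Nat.card (Subgroup.centralizer ({t} : Set ↥(Cfsg.Lie.chevF4.group F))) = Fintype.card F ^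 10 * (Fintype.card F ^ 2 - 1) ^ 2 * (Fintype.card F ^ 4 - 1) * (Fintype.card F ^ 6 - 1) := by
  have hD : chevF4 ∈ [chevG2, chevF4, chevE8] := by simp
  have hD' : chevF4 ∈ [chevG2, chevB2, chevD4, chevF4, chevE6, chevE7, chevE8] := by simp
  obtain ⟨inst⟩ := good_of_mem hD'
  obtain ⟨T⟩ := exists_rootTable hD'
  have h2 := two_ne_zero_of_odd_card hF (RingHom.id F)
  have hN := n_eq T encF4_agree
  have hs := card_centralizer_tor2 T hD hF encF4_agree invF4a_chk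
  have ht := card_centralizer_tor2 T hD hF encF4_agree invF4b_chk
  rw [invF4a_cnt] at hs
  rw [invF4b_cnt] at ht
  rw [(formulas Fintype.one_lt_card).1] at hs
  rw [(formulas Fintype.one_lt_card).2.1] at ht
  refine ⟨_, _, orderOf_tor2 T h2 (r := 3) (hN ▸ by decide) ?_,
    orderOf_tor2 T h2 (r := 1) (hN ▸ by decide) ?_, fun h => ?_,
    fun u hu => isConj_tor2_of_orderOf T hD hF encF4_agree invF4_orb invF4a_chk invF4b_chk hu,
    hs, ht⟩
  · rw [← evE_eq encF4_agree]; decide +kernel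
  · rw [← evE_eq encF4_agree]; decide +kernel
  · exact (formulas Fintype.one_lt_card).2.2 (hs.symm.trans ((card_centralizer_of_isConj h).trans ht))

end Cfsg.Agent.S4280
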