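import Cfsg.Statements.S4281
import Cfsg.Agent.Lang.InvolE8

set_option autoImplicit false
open scoped BigOperators
open Cfsg Cfsg.Lie Cfsg.Agent.Chev Cfsg.Agent.Lang

namespace Cfsg.Agent.S4281

theorem formulas {q : ℕ} (hq : 1 < q) :
    q ^ 56 * (q - 1) ^ encE8.l * (invE8a.map fun L => (L.dl.map (q ^ ·)).sum).prod =
      q ^ 56 * (q ^ 8 - 1) * ∏ i ∈ Finset.Icc 1 7, (q ^ (2 * i) - 1) ∧
    q ^ 64 * (q - 1) ^ encE8.l * (invE8b.map fun L => (L.dl.map (q ^ ·)).sum).prod =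
      q ^ 64 * (q ^ 2 - 1) ^ 2 * (q ^ 6 - 1) * (q ^ 8 - 1) * (q ^ 10 - 1) * (q ^ 12 - 1) *
        (q ^ 14 - 1) * (q ^ 18 - 1) ∧
    q ^ 56 * (q ^ 8 - 1) * ∏ i ∈ Finset.Icc 1 7, (q ^ (2 * i) - 1) ≠
      q ^ 64 * (q ^ 2 - 1) ^ 2 * (q ^ 6 - 1) * (q ^ 8 - 1) * (q ^ 10 - 1) * (q ^ 12 - 1) *
        (q ^ 14 - 1) * (q ^ 18 - 1) := by
  have h : ∀ n, 1 ≤ q ^ n := fun n => Nat.one_le_pow n q (by omega)
  have hc : ∀ n, n ≠ 0 → q.Coprime (q ^ n - 1) := fun n hn =>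
    ((Nat.coprime_self_sub_right (h n)).2 (Nat.coprime_one_right _)).coprime_dvd_left
      (dvd_pow_self q hn)
  refine ⟨?_, ?_, fun e => ?_⟩
  · simp only [invE8a, List.map, List.sum_cons, List.prod_cons, List.sum_nil, List.prod_nil,
      show encE8.l = 8 from rfl, Finset.prod_Icc_succ_top, Nat.reduceLeDiff, Finset.Icc_self,
      Finset.prod_singleton]
    zify [h, hq.le]; ring
  · simp only [invE8b, List.map, List.sum_cons, List.prod_cons, List.sum_nil, List.prod_nil,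
      show encE8.l = 8 from rfl]
    zify [h, hq.le]; ring
  · have h1 : q ^ 56 * q ∣ q ^ 56 * ((q ^ 8 - 1) * ∏ i ∈ Finset.Icc 1 7, (q ^ (2 * i) - 1)) :=
      ⟨q ^ 7 * (q ^ 2 - 1) ^ 2 * (q ^ 6 - 1) * (q ^ 8 - 1) * (q ^ 10 - 1) * (q ^ 12 - 1) *
        (q ^ 14 - 1) * (q ^ 18 - 1), by rw [← mul_assoc, e]; ring⟩
    exact hq.ne' (Nat.eq_one_of_dvd_coprimes ((hc 8 (by simp)).mul_right
      (Nat.Coprime.prod_right fun i hi => hc _ (by have := (Finset.mem_Icc.1 hi).1; omega))) dvd_rfl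
      (Nat.dvd_of_mul_dvd_mul_left (h 56) h1))

/-- In the Chevalley group of type E₈ over a finite field of odd order q there are exactly two conjugacy classes of involutions; the centralizer of an involution in one class has order q⁵⁶(q⁸ − 1)·∏_{i=1}^{7}(q^{2i} − 1), and in the other class q⁶⁴(q² − 1)²(q⁶ − 1)(q⁸ − 1)(q¹⁰ − 1)(q¹² − 1)(q¹⁴ − 1)(q¹⁸ − 1). -/
theorem result {F : Type*} [Field F] [Fintype F] (hF : Odd (Fintype.card F)) : ∃ s t : ↥(Cfsg.Lie.chevE8.group F), orderOf s = 2 ∧ orderOf t = 2 ∧ ¬ IsConj s t ∧ (∀ u : ↥(Cfsg.Lie.chevE8.group F), orderOf u = 2 → IsConj u s ∨ IsConj u t) ∧ Nat.card (Subgroup.centralizer ({s} : Set ↥(Cfsg.Lie.chevE8.group F))) = Fintype.card F ^ 56 * (Fintype.card F ^ 8 - 1) * ∏ i ∈ Finset.Icc 1 7, (Fintype.card F ^ (2 * i) - 1) ∧ Nat.card (Subgroup.centralizer ({t} : Set ↥(Cfsg.Lie.chevE8.group F))) = Fintype.card F ^ 64 * (Fintype.card F ^ 2 - 1) ^ 2 * (Fintype.card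 F ^ 6 - 1) * (Fintype.card F ^ 8 - 1) * (Fintype.card F ^ 10 - 1) * (Fintype.card F ^ 12 - 1) * (Fintype.card F ^ 14 - 1) * (Fintype.card F ^ 18 - 1) := by
  have hD : chevE8 ∈ [chevG2, chevF4, chevE8] := by simp
  have hD' : chevE8 ∈ [chevG2, chevB2, chevD4, chevF4, chevE6, chevE7, chevE8] := by simp
  obtain ⟨inst⟩ := good_of_mem hD'
  obtain ⟨T⟩ := exists_rootTable hD'
  have h2 := two_ne_zero_of_odd_card hF (RingHom.id F)
  have hN := n_eq T encE8_agree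
  have hs := card_centralizer_tor2 T hD hF encE8_agree invE8a_chk
  have ht := card_centralizer_tor2 T hD hF encE8_agree invE8b_chk
  rw [invE8a_cnt] at hs
  rw [invE8b_cnt] at ht
  rw [(formulas Fintype.one_lt_card).1] at hs
  rw [(formulas Fintype.one_lt_card).2.1] at ht
  refine ⟨_, _, orderOf_tor2 T h2 (r := 5) (hN ▸ by decide) ?_,
    orderOf_tor2 T h2 (r := 6) (hN ▸ by decide) ?_, fun h => ?_,
    fun u hu => isConj_tor2_of_orderOf T hD hF encE8_agree invE8_orb invE8a_chk invE8b_chk hu,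
    hs, ht⟩
  · rw [← evE_eq encE8_agree]; decide +kernel
  · rw [← evE_eq encE8_agree]; decide +kernel
  · exact (formulas Fintype.one_lt_card).2.2 (hs.symm.trans ((card_centralizer_of_isConj h).trans ht))

end Cfsg.Agent.S4281
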