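import Cfsg.Statements.S4283
import Cfsg.Agent.Solv.FrobeniusKernel
import Cfsg.Agent.FGS.ClassSize

set_option autoImplicit false
open Cfsg

namespace Cfsg.Agent.S4283

/-- Let G be a finite group with centre Z and let K, H be abelian subgroups of G containing Z such that G/Z is a Frobenius group with complement H/Z and kernel K/Z. Then the conjugacy class sizes of G are exactly 1, [G : K] and [G : H], and these two indices are coprime. (This is the converse half of the characterization of finite groups whose conjugacy class sizes are exactly 1, m and n with m and n coprime.) -/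
theorem result {G : Type*} [Group G] [Finite G] (K H : Subgroup G) (hZK : Subgroup.center G ≤ K) (hZH : Subgroup.center G ≤ H) (hK : IsMulCommutative K) (hH : IsMulCommutative H) (hFrob : Cfsg.IsFrobeniusComplement (H.map (QuotientGroup.mk' (Subgroup.center G)))) (hker : Cfsg.frobeniusKernel (H.map (QuotientGroup.mk' (Subgroup.center G))) = (K.map (QuotientGroup.mk' (Subgroup.center G)) : Set (G ⧸ Subgroup.center G))) : Set.range (fun x : G => (Subgroup.centralizer ({x} : Set G)).index) = ({1, K.index, H.index} : Set ℕ) ∧ K.index.Coprime H.index := by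
  set π := QuotientGroup.mk' (Subgroup.center G) with hπ
  have hKF : K.map π = fittingSubgroup (G ⧸ Subgroup.center G) :=
    SetLike.coe_injective (by rw [← hker, Solv.Frob.coe_fitting_eq_frobeniusKernel hFrob])
  have hc := Solv.Frob.isComplement'_fitting hFrob
  rw [← hKF] at hc
  haveI : (K.map π).Normal := hKF ▸ inferInstance
  have hmem : ∀ (U : Subgroup G), Subgroup.center G ≤ U → ∀ x, π x ∈ U.map π → x ∈ U := by
    intro U hU x hx
    have : x ∈ (U.map π).comap π := hx
    rwa [Subgroup.comap_map_eq, hπ, QuotientGroup.ker_mk', sup_of_le_left hU] at this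
  have hone : ∀ x, π x = 1 ↔ x ∈ Subgroup.center G := fun x => QuotientGroup.eq_one_iff x
  have hcent : ∀ (U : Subgroup G), Subgroup.center G ≤ U → IsMulCommutative U → ∀ x ∈ U,
      Subgroup.centralizer {π x} ≤ U.map π → Subgroup.centralizer {x} = U := by
    intro U hU hUc x hx hle
    apply le_antisymm
    · intro y hy
      apply hmem U hU
      apply hle
      rw [Subgroup.mem_centralizer_singleton_iff] at hy ⊢
      rw [← map_mul, ← map_mul, hy]
    · intro y hy
      rw [Subgroup.mem_centralizer_singleton_iff]
      exact congrArg Subtype.val (mul_comm' (⟨y, hy⟩ : U) ⟨x, hx⟩)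
  have hCK : ∀ x ∈ K, x ∉ Subgroup.center G → Subgroup.centralizer {x} = K := fun x hx hxZ =>
    hcent K hZK hK x hx (Solv.Frob.centralizer_le_kernel hFrob hc ⟨x, hx, rfl⟩
      (fun h => hxZ ((hone x).1 h)))
  have hCH : ∀ x ∈ H, x ∉ Subgroup.center G → Subgroup.centralizer {x} = H := fun x hx hxZ =>
    hcent H hZH hH x hx (Solv.Frob.centralizer_le hFrob ⟨x, hx, rfl⟩
      (fun h => hxZ ((hone x).1 h)))
  have hex : ∀ U : Subgroup G, U.map π ≠ ⊥ → ∃ x ∈ U, x ∉ Subgroup.center G := by
    intro U hU
    by_contra h
    push Not at h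
    apply hU
    rw [eq_bot_iff]
    rintro _ ⟨x, hx, rfl⟩
    exact (hone x).2 (h x hx)
  have hsurj : Function.Surjective π := QuotientGroup.mk'_surjective _
  have hkerπ : π.ker = Subgroup.center G := QuotientGroup.ker_mk' _
  refine ⟨?_, ?_⟩
  · ext n
    simp only [Set.mem_range, Set.mem_insert_iff, Set.mem_singleton_iff]
    constructor
    · rintro ⟨x, rfl⟩
      by_cases hxZ : x ∈ Subgroup.center G
      · left
        rw [Subgroup.index_eq_one, eq_top_iff]
        intro y _
        rw [Subgroup.mem_centralizer_singleton_iff]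
        exact Subgroup.mem_center_iff.1 hxZ y
      by_cases hxK : x ∈ K
      · exact Or.inr (Or.inl (by rw [hCK x hxK hxZ]))
      · right; right
        obtain ⟨k, -, hk⟩ := Solv.Frob.exists_conj_mem_of_not_mem hFrob hc
          (x := π x) (fun h => hxK (hmem K hZK x h))
        obtain ⟨k, rfl⟩ := hsurj k
        rw [← map_inv, ← map_mul, ← map_mul] at hk
        rw [← FGS.index_centralizer_conj x k, hCH _ (hmem H hZH _ hk)]
        intro h
        apply hxZ
        have := (inferInstance : (Subgroup.center G).Normal).conj_mem _ h k⁻¹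
        simpa [mul_assoc] using this
    · rintro (rfl | rfl | rfl)
      · exact ⟨1, by simp⟩
      · obtain ⟨x, hx, hxZ⟩ := hex K (by
          intro h
          rw [h] at hc
          exact hFrob.2.1 (Subgroup.isComplement'_bot_left.1 hc))
        exact ⟨x, by rw [hCK x hx hxZ]⟩
      · obtain ⟨x, hx, hxZ⟩ := hex H hFrob.1
        exact ⟨x, by rw [hCH x hx hxZ]⟩
  · rw [← Subgroup.index_map_eq K hsurj (hkerπ.le.trans hZK), ← Subgroup.index_map_eq H hsurj (hkerπ.le.trans hZH),
      hc.symm.index_eq_card]
    exact Solv.Frob.coprime_card_index hFrob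

end Cfsg.Agent.S4283
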