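import Cfsg.Statements.S4291
import Cfsg.Agent.FGS.RankOneStruct2
import Cfsg.Agent.S3359
import Cfsg.Agent.S3742

set_option autoImplicit false
open Cfsg

namespace Cfsg.Agent.S4291

open FGS.FrobCompl

/-- `N` is the kernel of a map onto a group of order `> 4` without normal Z-subgroups. -/
def Big {G : Type*} [Group G] (N : Subgroup G) : Prop :=
  4 < N.index ∧ ∀ N' : Subgroup G, N'.Normal → IsZGroup N' → N' ≤ N

theorem big_of {G X : Type*} [Group G] [Finite G] [Group X] (hX : NoNormalZ X)
    (h4 : 4 < Nat.card X) (f : G →* X) (hf : Function.Surjective f) : Big f.ker := by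
  refine ⟨?_, fun N' hN' hZ => le_ker_of_noNormalZ hX f hf N' hZ⟩
  rwa [Subgroup.index_ker, MonoidHom.range_eq_top.2 hf, Subgroup.card_top]

theorem cases_of {G : Type*} [Group G] [Finite G] {N : Subgroup G} (h : N = ⊤ ∨
        (∃ f : G →* DihedralGroup 2, Function.Surjective f ∧ f.ker = N) ∨
        (∃ f : G →* alternatingGroup (Fin 4), Function.Surjective f ∧ f.ker = N) ∨
        (∃ f : G →* Equiv.Perm (Fin 4), Function.Surjective f ∧ f.ker = N) ∨
        (∃ f : G →* alternatingGroup (Fin 5), Function.Surjective f ∧ f.ker = N) ∨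
        (∃ f : G →* Equiv.Perm (Fin 5), Function.Surjective f ∧ f.ker = N)) :
    N = ⊤ ∨ (∃ f : G →* DihedralGroup 2, Function.Surjective f ∧ f.ker = N) ∨ Big N := by
  rcases h with h | h | ⟨f, hf, rfl⟩ | ⟨f, hf, rfl⟩ | ⟨f, hf, rfl⟩ | ⟨f, hf, rfl⟩
  · exact Or.inl h
  · exact Or.inr (Or.inl h)
  · refine Or.inr (Or.inr (big_of noNormalZ_alt_four ?_ f hf))
    rw [nat_card_alternatingGroup]; simp [Nat.factorial]
  · refine Or.inr (Or.inr (big_of (noNormalZ_perm le_rfl (by norm_num) noNormalZ_alt_four) ?_ f hf))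
    rw [Nat.card_perm]; simp [Nat.factorial]
  · refine Or.inr (Or.inr (big_of noNormalZ_alt_five ?_ f hf))
    rw [nat_card_alternatingGroup]; simp [Nat.factorial]
  · refine Or.inr (Or.inr
      (big_of (noNormalZ_perm (by norm_num) (by norm_num) noNormalZ_alt_five) ?_ f hf))
    rw [Nat.card_perm]; simp [Nat.factorial]

theorem not_isZGroup_of_klein {G : Type*} [Group G] [Finite G] (f : G →* DihedralGroup 2)
    (hf : Function.Surjective f) : ¬ IsZGroup (⊤ : Subgroup G) := by
  intro h
  haveI : IsZGroup (DihedralGroup 2) :=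
    IsZGroup.of_surjective (f := f.comp (⊤ : Subgroup G).subtype)
      (hf.comp Subgroup.topEquiv.surjective)
  exact absurd ((rankOne_of_isZGroup (G := DihedralGroup 2)).eq_of_involutions (a := .r 1)
    (b := .sr 0) (by decide) (by decide) (by decide) (by decide)
    (show _ * _ = _ * _ by decide)) (by decide)

theorem index_klein {G : Type*} [Group G] (f : G →* DihedralGroup 2)
    (hf : Function.Surjective f) : f.ker.index = 4 := by
  rw [Subgroup.index_ker, MonoidHom.range_eq_top.2 hf, Subgroup.card_top, DihedralGroup.nat_card]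

theorem unique {G : Type*} [Group G] [Finite G] (h : RankOne G) {N N' : Subgroup G}
    (hN : N.Normal) (hN' : N'.Normal) (hZ : IsZGroup N) (hZ' : IsZGroup N')
    (h1 : N = ⊤ ∨ (∃ f : G →* DihedralGroup 2, Function.Surjective f ∧ f.ker = N) ∨ Big N)
    (h2 : N' = ⊤ ∨ (∃ f : G →* DihedralGroup 2, Function.Surjective f ∧ f.ker = N') ∨ Big N') :
    N = N' := by
  rcases h1 with rfl | ⟨f, hf, rfl⟩ | h1 <;> rcases h2 with rfl | ⟨f', hf', rfl⟩ | h2
  · rfl
  · exact absurd hZ (not_isZGroup_of_klein f' hf')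
  · exact (top_le_iff.1 (h2.2 _ hN hZ)).symm
  · exact absurd hZ' (not_isZGroup_of_klein f hf)
  · exact h.ker_eq_of_klein f f' hf hf'
  · have := Subgroup.index_antitone (h2.2 _ hN hZ)
    rw [index_klein f hf] at this
    exact absurd h2.1 (by omega)
  · exact top_le_iff.1 (h1.2 _ hN' hZ')
  · have := Subgroup.index_antitone (h1.2 _ hN' hZ')
    rw [index_klein f' hf'] at this
    exact absurd h1.1 (by omega)
  · exact le_antisymm (h2.2 _ hN hZ) (h1.2 _ hN' hZ')


/-- Let G be a finite group that occurs as a Frobenius complement. Then G has exactly one normal subgroup N such that every Sylow subgroup of N is cyclic and the quotient of G by N is trivial or isomorphic to one of the following five groups: the Klein four-group, the alternating group of degree 4, the symmetric group of degree 4, the alternating group of degree 5, the symmetric group of degree 5. (The quotient is described by a surjective homomorphism with kernel N; the Klein four-group is written as the dihedral group of order 4.) -/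
theorem result {G : Type*} [Group G] [Finite G]
    (hFC : (∃ (L : Type) (_ : Group L) (_ : Finite L) (H : Subgroup L), Cfsg.IsFrobeniusComplement H ∧ Nonempty (G ≃* H))) :
    ∃! N : Subgroup G, N.Normal ∧ (∀ (p : ℕ) [Fact p.Prime] (P : Sylow p N), IsCyclic P) ∧
      (N = ⊤ ∨
        (∃ f : G →* DihedralGroup 2, Function.Surjective f ∧ f.ker = N) ∨
        (∃ f : G →* alternatingGroup (Fin 4), Function.Surjective f ∧ f.ker = N) ∨
        (∃ f : G →* Equiv.Perm (Fin 4), Function.Surjective f ∧ f.ker = N) ∨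
        (∃ f : G →* alternatingGroup (Fin 5), Function.Surjective f ∧ f.ker = N) ∨
        (∃ f : G →* Equiv.Perm (Fin 5), Function.Surjective f ∧ f.ker = N)) := by
  have hocc : Occurs G := hFC
  have h := hocc.rankOne
  have hZ : ∀ N : Subgroup G, (∀ (p : ℕ) [Fact p.Prime] (P : Sylow p N), IsCyclic P) →
      IsZGroup N := fun N hN => ⟨fun p hp P => haveI := Fact.mk hp; hN p P⟩
  apply existsUnique_of_exists_of_unique
  · by_cases hs : Group.IsSolvable G
    · obtain ⟨ε⟩ := S3742.result
      rcases h.exists_solvable ε with h | ⟨f, hf, h⟩ | ⟨f, hf, h⟩ | ⟨f, hf, h⟩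
      · exact ⟨⊤, inferInstance, fun p _ P => inferInstance, Or.inl rfl⟩
      · exact ⟨f.ker, inferInstance, fun p _ P => inferInstance, Or.inr (Or.inl ⟨f, hf, rfl⟩)⟩
      · exact ⟨f.ker, inferInstance, fun p _ P => inferInstance,
          Or.inr (Or.inr (Or.inl ⟨f, hf, rfl⟩))⟩
      · exact ⟨f.ker, inferInstance, fun p _ P => inferInstance,
          Or.inr (Or.inr (Or.inr (Or.inl ⟨f, hf, rfl⟩)))⟩
    · obtain ⟨S, hS, hp, ⟨e⟩⟩ := S3359.exists_SL25 hs hocc
      rcases h.exists_nonsolvable S hp e with ⟨f, hf, h⟩ | ⟨f, hf, h⟩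
      · exact ⟨f.ker, inferInstance, fun p _ P => inferInstance,
          Or.inr (Or.inr (Or.inr (Or.inr (Or.inl ⟨f, hf, rfl⟩))))⟩
      · exact ⟨f.ker, inferInstance, fun p _ P => inferInstance,
          Or.inr (Or.inr (Or.inr (Or.inr (Or.inr ⟨f, hf, rfl⟩))))⟩
  · rintro N N' ⟨hN, hZN, h1⟩ ⟨hN', hZN', h2⟩
    exact unique h hN hN' (hZ N hZN) (hZ N' hZN') (cases_of h1) (cases_of h2)

end Cfsg.Agent.S4291
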