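import Cfsg.Statements.S4292
import Cfsg.Agent.FGS.FpfFun

set_option autoImplicit false
open Cfsg

namespace Cfsg.Agent.S4292

open scoped IsMulCommutative in

/-- Let A and B be nontrivial finite groups. Then the direct product A × B occurs as a Frobenius complement if and only if A and B both occur as Frobenius complements and the orders of A and B are coprime. -/
theorem result {A B : Type*} [Group A] [Finite A] [Nontrivial A] [Group B] [Finite B] [Nontrivial B] :
    (∃ (L : Type) (_ : Group L) (_ : Finite L) (H : Subgroup L), Cfsg.IsFrobeniusComplement H ∧ Nonempty ((A × B) ≃* H)) ↔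
    ((∃ (L : Type) (_ : Group L) (_ : Finite L) (H : Subgroup L), Cfsg.IsFrobeniusComplement H ∧ Nonempty (A ≃* H)) ∧
     (∃ (L : Type) (_ : Group L) (_ : Finite L) (H : Subgroup L), Cfsg.IsFrobeniusComplement H ∧ Nonempty (B ≃* H)) ∧
     (Nat.card A).Coprime (Nat.card B)) := by
  constructor
  · intro h
    have h' : FGS.FrobCompl.Occurs (A × B) := h
    refine ⟨h'.of_injective (MonoidHom.inl A B) (fun x y h => congrArg Prod.fst h),
      h'.of_injective (MonoidHom.inr A B) (fun x y h => congrArg Prod.snd h), ?_⟩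
    apply Nat.Coprime.symm
    apply Nat.coprime_of_dvd
    intro p hp hpB hpA
    haveI := Fact.mk hp
    obtain ⟨x, hx⟩ := exists_prime_orderOf_dvd_card' p hpA
    obtain ⟨y, hy⟩ := exists_prime_orderOf_dvd_card' p hpB
    have hx1 : Nat.card (Subgroup.zpowers x) = p := by rw [Nat.card_zpowers, hx]
    have hy1 : Nat.card (Subgroup.zpowers y) = p := by rw [Nat.card_zpowers, hy]
    haveI : Nontrivial (Subgroup.zpowers x) := Finite.one_lt_card_iff_nontrivial.1 (hx1 ▸ hp.one_lt)
    have h2 := h'.of_injective ((Subgroup.zpowers x).subtype.prodMap (Subgroup.zpowers y).subtype)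
      (Subtype.val_injective.prodMap Subtype.val_injective)
    haveI : IsMulCommutative (Subgroup.zpowers x × Subgroup.zpowers y) :=
      ⟨⟨fun a b => Prod.ext (mul_comm' _ _) (mul_comm' _ _)⟩⟩
    have h3 := h2.isCyclic
    have h4 := (Group.isCyclic_prod_iff.1 h3).2.2
    rw [hx1, hy1] at h4
    simp [hp.ne_one] at h4
  · rintro ⟨hA, hB, hAB⟩
    obtain ⟨f, hf, hf0⟩ := FGS.FrobCompl.Occurs.exists_int hA
    obtain ⟨g, hg, hg0⟩ := FGS.FrobCompl.Occurs.exists_int hB
    refine FGS.FrobCompl.occurs_of_int (f := fun x : A × B => f x.1 * g x.2) ?_ ?_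
    · rintro ⟨a, b⟩ hab ⟨x, y⟩
      have h1 := pow_orderOf_eq_one (a, b)
      have ha : orderOf a ∣ orderOf (a, b) := orderOf_dvd_of_pow_eq_one (congrArg Prod.fst h1)
      have hb : orderOf b ∣ orderOf (a, b) := orderOf_dvd_of_pow_eq_one (congrArg Prod.snd h1)
      rcases (Nat.dvd_prime hab).1 ha with h2 | h2
      · rw [orderOf_eq_one_iff] at h2
        subst h2
        have h3 : orderOf ((1 : A), b) = orderOf b := by rw [Prod.orderOf]; simp
        rw [h3] at hab ⊢
        simp only [Prod.pow_mk, one_pow, Prod.mk_mul_mk, one_mul]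
        rw [← Finset.mul_sum, hg b hab, mul_zero]
      rcases (Nat.dvd_prime hab).1 hb with h3 | h3
      · rw [orderOf_eq_one_iff] at h3
        subst h3
        rw [← h2] at hab ⊢
        simp only [Prod.pow_mk, one_pow, Prod.mk_mul_mk, one_mul]
        rw [← Finset.sum_mul, hf a hab, zero_mul]
      · exact absurd (Nat.eq_one_of_dvd_coprimes hAB (h2 ▸ orderOf_dvd_natCard a)
          (h3 ▸ orderOf_dvd_natCard b)) hab.ne_one
    · obtain ⟨x, hx⟩ := Function.ne_iff.1 hf0
      obtain ⟨y, hy⟩ := Function.ne_iff.1 hg0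
      intro h
      exact mul_ne_zero hx hy (congrFun h (x, y))

end Cfsg.Agent.S4292
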