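import Cfsg.Statements.S4295
import Cfsg.Agent.FGS.FrobQ8

set_option autoImplicit false
open Cfsg

namespace Cfsg.Agent.S4295

/-- For a natural number m the following are equivalent: (a) some finite group has a Frobenius complement isomorphic to the quaternion group of order 8 whose Frobenius kernel (the identity together with the elements lying in no conjugate of the complement) has exactly m elements; (b) m is an odd perfect square greater than 1. -/
theorem result (m : ℕ) :
    (∃ (L : Type) (_ : Group L) (_ : Finite L) (H : Subgroup L), Cfsg.IsFrobeniusComplement H ∧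
        Nonempty (H ≃* QuaternionGroup 2) ∧ Nat.card (Cfsg.frobeniusKernel H) = m) ↔
    (Odd m ∧ IsSquare m ∧ 1 < m) := by
  constructor
  · rintro ⟨L, _, _, H, hH, ⟨e⟩, rfl⟩
    obtain ⟨φ, hφ, h1, -, h2⟩ := FGS.FrobCompl.exists_isFpf hH
    rw [← h2]
    obtain ⟨h3, h4⟩ := hφ.odd_isSquare_of_quaternion (m := 1) one_ne_zero e.symm.toMonoidHom
      e.symm.injective
    exact ⟨h3, h4, Finite.one_lt_card⟩
  · rintro ⟨h1, ⟨k, rfl⟩, h2⟩
    have hk : Odd k := (Nat.odd_mul.1 h1).1
    have hk1 : 1 < k := by
      by_contra h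
      have : k ≤ 1 := by omega
      nlinarith
    obtain ⟨L, _, _, H, hH, ⟨e⟩, h3⟩ := FGS.FrobCompl.occursWith_quaternion hk hk1
    exact ⟨L, inferInstance, inferInstance, H, hH, ⟨e.symm⟩, h3⟩

end Cfsg.Agent.S4295
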