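import Cfsg.Statements.S4296
import Cfsg.Agent.FGS.FrobQ8

set_option autoImplicit false
open Cfsg

namespace Cfsg.Agent.S4296

/-- Let H be a Frobenius complement in a finite group, and suppose some Sylow subgroup of H is not cyclic. Then the number of elements of the Frobenius kernel (the identity together with the elements lying in no conjugate of H) is an odd perfect square. -/
theorem result {L : Type*} [Group L] [Finite L] (H : Subgroup L) (hF : Cfsg.IsFrobeniusComplement H)
    (hZ : ∃ (p : ℕ) (_ : Fact p.Prime) (P : Sylow p H), ¬ IsCyclic P) :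
    Odd (Nat.card (Cfsg.frobeniusKernel H)) ∧ IsSquare (Nat.card (Cfsg.frobeniusKernel H)) := by
  obtain ⟨p, _, P, hP⟩ := hZ
  obtain ⟨φ, hφ, h1, -, h2⟩ := FGS.FrobCompl.exists_isFpf hF
  rw [← h2]
  have hc := Solv.Frob.isComplement'_fitting hF
  have hf := Solv.Frob.fpf_of_isFrobeniusComplement hF hc.disjoint
  let e : P ≃* (P : Subgroup H).map H.subtype := Subgroup.equivMapOfInjective _ _ H.subtype_injective
  rcases Solv.Frob.isCyclic_or_quaternion_of_fpf (P := (P : Subgroup H).map H.subtype)
    (K := fittingSubgroup L) (P.isPGroup'.map _) ((Subgroup.nontrivial_iff_ne_bot _).1 h1)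
    Subgroup.le_normalizer_of_normal (fun a ha => hf a (Subgroup.map_subtype_le _ ha)) with
    h | ⟨-, n, hn, ⟨e'⟩⟩
  · exact absurd (isCyclic_of_surjective e.symm e.symm.surjective) hP
  · obtain ⟨n, rfl⟩ := Nat.exists_eq_add_of_le' hn
    rw [pow_succ'] at e'
    exact hφ.odd_isSquare_of_quaternion (m := 2 ^ n) (by positivity)
      ((P : Subgroup H).subtype.comp (e.trans e').symm.toMonoidHom)
      ((P : Subgroup H).subtype_injective.comp (e.trans e').symm.injective)

end Cfsg.Agent.S4296
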