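import Cfsg.Statements.S4297
import Cfsg.Agent.FGS.FpfFun

set_option autoImplicit false
open Cfsg

namespace Cfsg.Agent.S4297

open QuaternionGroup in

/-- For every n ≥ 2 the dicyclic group of order 4n (generated by an element a of order 2n and an element x with x² = aⁿ and x a x⁻¹ = a⁻¹) occurs as a Frobenius complement of some finite Frobenius group. -/
theorem result (n : ℕ) (hn : 2 ≤ n) :
    ∃ (L : Type) (_ : Group L) (_ : Finite L) (H : Subgroup L), Cfsg.IsFrobeniusComplement H ∧ Nonempty (H ≃* QuaternionGroup n) := by
  haveI : NeZero n := ⟨by omega⟩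
  haveI : NeZero (2 * n) := ⟨by omega⟩
  let f : QuaternionGroup n → ℂ := fun g => match g with
    | .a i => ZMod.stdAddChar (N := 2 * n) i
    | .xa _ => 0
  refine FGS.FrobCompl.Occurs.symm_form (FGS.FrobCompl.occurs_of_torsionFree (f := f) ?_ ?_)
  · intro x hx g
    rcases x with i | i
    · have hpow : ∀ k : ℕ, (a i : QuaternionGroup n) ^ k = a ((k : ZMod (2 * n)) * i) := by
        intro k
        induction k with
        | zero => simp
        | succ k ih => rw [pow_succ, ih, a_mul_a]; congr 1; push_cast; ring
      rcases g with j | j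
      · simp only [hpow, a_mul_a, f, AddChar.map_add_eq_mul]
        rw [← Finset.sum_mul]
        have h0 : ∀ k : ℕ, ZMod.stdAddChar (N := 2 * n) ((k : ZMod (2 * n)) * i) = ZMod.stdAddChar (N := 2 * n) i ^ k := by
          intro k
          rw [← nsmul_eq_mul, AddChar.map_nsmul_eq_pow]
        simp only [h0]
        have h1 := mul_geom_sum (ZMod.stdAddChar (N := 2 * n) i) (orderOf (a i : QuaternionGroup n))
        have h2 := pow_orderOf_eq_one (a i : QuaternionGroup n)
        rw [hpow, one_def, a.injEq] at h2
        rw [← h0, h2, AddChar.map_zero_eq_one, sub_self, mul_eq_zero, sub_eq_zero] at h1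
        rw [h1.resolve_left, zero_mul]
        intro h3
        have h4 : i = 0 := ZMod.injective_stdAddChar (h3.trans (AddChar.map_zero_eq_one _).symm)
        rw [h4, ← one_def, orderOf_one] at hx
        exact Nat.not_prime_one hx
      · simp [hpow, f]
    · rw [orderOf_xa] at hx
      exact absurd hx (by decide)
  · intro m hm
    rw [one_def]
    simp only [f, AddChar.map_zero_eq_one]
    simpa using hm

end Cfsg.Agent.S4297
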