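import Cfsg.Statements.S4298
import Cfsg.Agent.FGS.FpfFun

set_option autoImplicit false
open Cfsg

namespace Cfsg.Agent.S4298

abbrev SL23 := Matrix.SpecialLinearGroup (Fin 2) (ZMod 3)

def chi (g : SL23) : ℤ :=
  if g = 1 then 2 else if g * g = 1 then -2 else if g.1 0 0 + g.1 1 1 = 0 then 0
    else if g.1 0 0 + g.1 1 1 = 1 then 1 else -1

theorem chi_two : ∀ a g : SL23, a ≠ 1 → a * a = 1 → chi g + chi (a * g) = 0 := by
  decide +kernel

theorem chi_three : ∀ a g : SL23, a ≠ 1 → a * a * a = 1 →
    chi g + chi (a * g) + chi (a * a * g) = 0 := by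
  decide +kernel

theorem card_eq : Fintype.card SL23 = 24 := by decide +kernel


/-- The group SL(2,3) of order 24 (the binary tetrahedral group) occurs as a Frobenius complement of some finite Frobenius group. -/
theorem result :
    ∃ (L : Type) (_ : Group L) (_ : Finite L) (H : Subgroup L), Cfsg.IsFrobeniusComplement H ∧ Nonempty (H ≃* Matrix.SpecialLinearGroup (Fin 2) (ZMod 3)) := by
  haveI : Nontrivial SL23 := Fintype.one_lt_card_iff_nontrivial.1 (by rw [card_eq]; norm_num)
  refine FGS.FrobCompl.Occurs.symm_form (FGS.FrobCompl.occurs_of_int (f := chi) ?_ ?_)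
  · intro a ha g
    have hne : a ≠ 1 := by
      rintro rfl
      exact Nat.not_prime_one (by simpa using ha)
    have h1 : orderOf a ∣ 2 ^ 3 * 3 := by
      have := orderOf_dvd_card (x := a)
      rwa [card_eq] at this
    have h2 := pow_orderOf_eq_one a
    rcases (Nat.Prime.dvd_mul ha).1 h1 with h | h
    · have h3 : orderOf a = 2 := (Nat.prime_dvd_prime_iff_eq ha Nat.prime_two).1 (ha.dvd_of_dvd_pow h)
      rw [h3] at h2 ⊢
      simpa [Finset.sum_range_succ] using chi_two a g hne (by rw [← h2, pow_two])
    · have h3 : orderOf a = 3 := (Nat.prime_dvd_prime_iff_eq ha Nat.prime_three).1 h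
      rw [h3] at h2 ⊢
      simpa [Finset.sum_range_succ, pow_two] using chi_three a g hne (by rw [← h2, pow_three'])
  · intro h
    have := congrFun h 1
    simp [chi] at this

end Cfsg.Agent.S4298
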