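import Cfsg.Statements.S4299
import Cfsg.Agent.FGS.FpfFun

set_option autoImplicit false
open Cfsg

namespace Cfsg.Agent.S4299

/-- Every nontrivial finite cyclic group occurs as a Frobenius complement of some finite Frobenius group. -/
theorem result {C : Type*} [Group C] [Finite C] [IsCyclic C] [Nontrivial C] :
    ∃ (L : Type) (_ : Group L) (_ : Finite L) (H : Subgroup L), Cfsg.IsFrobeniusComplement H ∧ Nonempty (C ≃* H) := by
  let n := Nat.card C
  haveI : NeZero n := ⟨Nat.card_pos.ne'⟩
  let e : Multiplicative (ZMod n) ≃* C := zmodCyclicMulEquiv inferInstance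
  let ρ : C →* ℂ := (ZMod.stdAddChar (N := n)).toMonoidHom.comp e.symm.toMonoidHom
  refine FGS.FrobCompl.occurs_of_torsionFree (FGS.FrobCompl.fpfFun_of_monoidHom ρ ?_) ?_
  · intro a ha
    have h1 : ZMod.stdAddChar (N := n) (e.symm a).toAdd = ZMod.stdAddChar (N := n) 0 := by
      rw [AddChar.map_zero_eq_one]; exact ha
    have h2 : e.symm a = 1 := ZMod.injective_stdAddChar h1
    exact e.symm.injective (h2.trans (map_one _).symm)
  · intro m hm
    simpa using hm

end Cfsg.Agent.S4299
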