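import Cfsg.Statements.S4300


set_option autoImplicit false
open Cfsg

namespace Cfsg.Agent.S4300

/-- Let G act faithfully and primitively on a set X, and suppose the stabilizer of some point is a simple group. Then either G is simple, or G has a normal subgroup, neither trivial nor the whole group, that acts regularly on X (transitively with trivial point stabilizers). -/
theorem result {G : Type*} [Group G] {X : Type*} [MulAction G X] [FaithfulSMul G X]
    (hprim : MulAction.IsPreprimitive G X) (x : X) (hsimple : IsSimpleGroup (MulAction.stabilizer G x)) :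
    IsSimpleGroup G ∨ ∃ N : Subgroup G, N.Normal ∧ N ≠ ⊥ ∧ N ≠ ⊤ ∧
      MulAction.IsPretransitive N X ∧ ∀ y : X, MulAction.stabilizer N y = ⊥ := by
  by_contra hcon
  rw [not_or] at hcon
  obtain ⟨hns, hN⟩ := hcon
  haveI : Nontrivial G := (MulAction.stabilizer G x).subtype_injective.nontrivial
  apply hns
  refine ⟨fun N hNn => ?_⟩
  by_contra h
  rw [not_or] at h
  have htr : MulAction.IsPretransitive N X := by
    apply MulAction.IsQuasiPreprimitive.isPretransitive_of_normal
    intro hu
    apply h.1
    rw [eq_bot_iff]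
    intro n hn
    refine FaithfulSMul.eq_of_smul_eq_smul (α := X) fun y => ?_
    have : y ∈ MulAction.fixedPoints N X := hu ▸ Set.mem_univ y
    rw [one_smul]
    exact this ⟨n, hn⟩
  refine hN ⟨N, hNn, h.1, h.2, htr, ?_⟩
  rcases hsimple.eq_bot_or_eq_top_of_normal (N.subgroupOf (MulAction.stabilizer G x)) inferInstance
    with h1 | h1
  · intro y
    obtain ⟨g, rfl⟩ := MulAction.exists_smul_eq G x y
    rw [eq_bot_iff]
    intro n hn
    have h2 : g⁻¹ * n * g ∈ MulAction.stabilizer G x := by
      have h3 : (n : G) • g • x = g • x := hn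
      rw [MulAction.mem_stabilizer_iff, mul_smul, mul_smul, h3, inv_smul_smul]
    have h3 : (⟨_, h2⟩ : MulAction.stabilizer G x) ∈ N.subgroupOf (MulAction.stabilizer G x) :=
      hNn.conj_mem' _ n.2 g
    rw [h1, Subgroup.mem_bot, Subtype.ext_iff] at h3
    have h4 : g⁻¹ * n * g = 1 := h3
    rw [mul_assoc, inv_mul_eq_one, eq_comm, mul_eq_right] at h4
    exact Subtype.ext h4
  · exfalso
    apply h.2
    rw [eq_top_iff]
    intro g _
    obtain ⟨n, hn⟩ := MulAction.exists_smul_eq N x (g • x)
    have h2 : (n : G)⁻¹ * g ∈ MulAction.stabilizer G x := by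
      rw [MulAction.mem_stabilizer_iff, mul_smul, inv_smul_eq_iff]
      exact hn.symm
    have h3 := Subgroup.subgroupOf_eq_top.1 h1 h2
    simpa using N.mul_mem n.2 h3

end Cfsg.Agent.S4300
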