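import Cfsg.Statements.S4301


set_option autoImplicit false
open Cfsg

namespace Cfsg.Agent.S4301

/-- One-point extension of a multiply transitive group. Let X be a set and G a group of permutations of Option X (the set X with one extra point ∗ = none) all of whose elements fix ∗, such that G is k-transitive on the points of X for some k ≥ 2, X having at least k points. Suppose a permutation h of Option X and an element g of G satisfy: h interchanges ∗ with a point x of X and fixes a point y of X; g interchanges x and y; (g h)³ and h² lie in G; and for every f in G fixing x, the product h f h lies in G and fixes x. Then an element of the group generated by G and h fixes ∗ exactly when it lies in G, and that group acts (k+1)-transitively on Option X. -/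
theorem result {X : Type*} (G : Subgroup (Equiv.Perm (Option X))) (hfix : ∀ f ∈ G, f none = none)
    (k : ℕ) (hk : 2 ≤ k) (hkX : Nonempty (Fin k ↪ X))
    (htrans : ∀ a b : Fin k ↪ X, ∃ f ∈ G, ∀ i, f (some (a i)) = some (b i))
    (h g : Equiv.Perm (Option X)) (hg : g ∈ G) (x y : X)
    (h1 : h none = some x) (h2 : h (some x) = none) (h3 : h (some y) = some y)
    (h4 : g (some x) = some y) (h5 : g (some y) = some x)
    (h6 : (g * h) ^ 3 ∈ G) (h7 : h ^ 2 ∈ G)
    (h8 : ∀ f ∈ G, f (some x) = some x → h * f * h ∈ G ∧ (h * f * h) (some x) = some x) :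
    (∀ f ∈ Subgroup.closure ((G : Set (Equiv.Perm (Option X))) ∪ {h}), f none = none ↔ f ∈ G) ∧
      MulAction.IsMultiplyPretransitive (Subgroup.closure ((G : Set (Equiv.Perm (Option X))) ∪ {h})) (Option X) (k + 1) := by
  have hsome : ∀ f ∈ G, ∀ z : X, f (some z) ≠ none := by
    intro f hf z hz
    rw [← hfix f hf] at hz
    exact absurd (f.injective hz) (by simp)
  have hxy : x ≠ y := by
    rintro rfl
    rw [h2] at h3
    exact absurd h3 (by simp)
  have h2tr : ∀ z : X, x ≠ z → ∃ f ∈ G, f (some x) = some x ∧ f (some y) = some z := by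
    intro z hz
    obtain ⟨p, rfl⟩ := Nat.exists_eq_add_of_le hk
    have hc : ((2 : ℕ) : ℕ∞) + p ≤ ENat.card X := by
      obtain ⟨e⟩ := hkX
      have := ENat.card_le_card_of_injective e.injective
      simpa using this
    obtain ⟨a, ha⟩ := Fin.Embedding.restrictSurjective_of_add_le_ENatCard hc
      (Function.Embedding.embFinTwo hxy)
    obtain ⟨b, hb⟩ := Fin.Embedding.restrictSurjective_of_add_le_ENatCard hc
      (Function.Embedding.embFinTwo hz)
    obtain ⟨f, hf, hab⟩ := htrans a b
    have ha' : ∀ i : Fin 2, a (Fin.castAdd p i) = Function.Embedding.embFinTwo hxy i :=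
      fun i => DFunLike.congr_fun ha i
    have hb' : ∀ i : Fin 2, b (Fin.castAdd p i) = Function.Embedding.embFinTwo hz i :=
      fun i => DFunLike.congr_fun hb i
    refine ⟨f, hf, ?_, ?_⟩
    · have := hab (Fin.castAdd p 0)
      rw [ha', hb'] at this
      exact this
    · have := hab (Fin.castAdd p 1)
      rw [ha', hb'] at this
      exact this
  let D : Equiv.Perm (Option X) → Prop := fun f => ∃ a ∈ G, ∃ b ∈ G, f = a * h * b
  have hD : ∀ a ∈ G, ∀ b ∈ G, ∀ f, D f → D (a * f * b) := by
    rintro a ha b hb _ ⟨c, hc, d, hd, rfl⟩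
    exact ⟨a * c, G.mul_mem ha hc, d * b, G.mul_mem hd hb, by group⟩
  have hDh : D h := ⟨1, G.one_mem, 1, G.one_mem, by simp⟩
  have hDinv : D h⁻¹ := ⟨1, G.one_mem, (h ^ 2)⁻¹, G.inv_mem h7, by group⟩
  have hgh : D (h⁻¹ * g * h⁻¹) := by
    have e1 : h⁻¹ * g * h⁻¹ = ((h ^ 2)⁻¹ * g⁻¹ * (g * h) ^ 3) * h⁻¹ * (g⁻¹ * (h ^ 2)⁻¹) := by
      simp only [pow_succ, pow_zero]; group
    rw [e1]
    exact hD _ (G.mul_mem (G.mul_mem (G.inv_mem h7) (G.inv_mem hg)) h6) _
      (G.mul_mem (G.inv_mem hg) (G.inv_mem h7)) _ hDinv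
  have hkey : ∀ f ∈ G, h * f * h ∈ G ∨ D (h * f * h) := by
    intro f hf
    by_cases hfx : f (some x) = some x
    · exact Or.inl (h8 f hf hfx).1
    right
    obtain ⟨z, hz⟩ := Option.ne_none_iff_exists'.1 (hsome f hf x)
    obtain ⟨a, ha, hax, hay⟩ := h2tr z (by rintro rfl; exact hfx hz)
    have hb : (g⁻¹ * a⁻¹ * f) (some x) = some x := by
      rw [Equiv.Perm.mul_apply, Equiv.Perm.mul_apply, hz, ← hay, Equiv.Perm.inv_eq_iff_eq.2 rfl,
        ← h4, Equiv.Perm.inv_eq_iff_eq.2 rfl]
    have hbG : g⁻¹ * a⁻¹ * f ∈ G := G.mul_mem (G.mul_mem (G.inv_mem hg) (G.inv_mem ha)) hf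
    have e1 : h * f * h = (h * a * h) * (h⁻¹ * g * h⁻¹) * (h * (g⁻¹ * a⁻¹ * f) * h) := by group
    rw [e1]
    exact hD _ (h8 a ha hax).1 _ (h8 _ hbG hb).1 _ hgh
  have hleft : ∀ f, D f → ∀ w, (w ∈ G ∨ D w) → (f * w ∈ G ∨ D (f * w)) := by
    rintro _ ⟨a, ha, b, hb, rfl⟩ w (hw | ⟨c, hc, d, hd, rfl⟩)
    · exact Or.inr ⟨a, ha, b * w, G.mul_mem hb hw, by group⟩
    · have e1 : a * h * b * (c * h * d) = a * (h * (b * c) * h) * d := by group
      rw [e1]
      rcases hkey _ (G.mul_mem hb hc) with h9 | h9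
      · exact Or.inl (G.mul_mem (G.mul_mem ha h9) hd)
      · exact Or.inr (hD _ ha _ hd _ h9)
  have hleftG : ∀ f ∈ G, ∀ w, (w ∈ G ∨ D w) → (f * w ∈ G ∨ D (f * w)) := by
    rintro f hf w (hw | hw)
    · exact Or.inl (G.mul_mem hf hw)
    · exact Or.inr (by simpa using hD f hf 1 G.one_mem w hw)
  have hmem : ∀ f ∈ Subgroup.closure ((G : Set (Equiv.Perm (Option X))) ∪ {h}), f ∈ G ∨ D f := by
    intro f hf
    induction hf using Subgroup.closure_induction_left with
    | one => exact Or.inl G.one_mem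
    | mul_left z hz w _ ih =>
      rcases hz with hz | rfl
      · exact hleftG z hz w ih
      · exact hleft z hDh w ih
    | inv_mul_cancel z hz w _ ih =>
      rcases hz with hz | rfl
      · exact hleftG _ (G.inv_mem hz) w ih
      · exact hleft _ hDinv w ih
  have hGH : G ≤ Subgroup.closure ((G : Set (Equiv.Perm (Option X))) ∪ {h}) :=
    fun f hf => Subgroup.subset_closure (Or.inl hf)
  refine ⟨fun f hf => ⟨fun hf0 => ?_, hfix f⟩, ?_⟩
  · refine (hmem f hf).resolve_right ?_
    rintro ⟨a, ha, b, hb, rfl⟩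
    rw [Equiv.Perm.mul_apply, Equiv.Perm.mul_apply, hfix b hb, h1] at hf0
    exact hsome a ha x hf0
  · set H := Subgroup.closure ((G : Set (Equiv.Perm (Option X))) ∪ {h}) with hH
    haveI : MulAction.IsPretransitive H (Option X) := by
      rw [MulAction.isPretransitive_iff_base (some x)]
      rintro (_ | z)
      · exact ⟨⟨h, Subgroup.subset_closure (Or.inr rfl)⟩, h2⟩
      · by_cases hz : x = z
        · exact ⟨1, by rw [hz, one_smul]⟩
        · obtain ⟨a, ha, -, hay⟩ := h2tr z hz
          refine ⟨⟨a * g, hGH (G.mul_mem ha hg)⟩, ?_⟩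
          change a (g (some x)) = some z
          rw [h4, hay]
    rw [SubMulAction.ofStabilizer.isMultiplyPretransitive (a := none),
      MulAction.isMultiplyPretransitive_iff]
    intro a b
    have hex : ∀ c : Fin k ↪ SubMulAction.ofStabilizer H (none : Option X),
        ∃ c' : Fin k ↪ X, ∀ i, some (c' i) = c i := by
      intro c
      choose c' hc' using fun i => Option.ne_none_iff_exists.1 (c i).2
      refine ⟨⟨c', fun i j hij => c.injective (Subtype.ext ?_)⟩, hc'⟩
      rw [← hc', ← hc', hij]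
    obtain ⟨a', ha'⟩ := hex a
    obtain ⟨b', hb'⟩ := hex b
    obtain ⟨f, hf, hab⟩ := htrans a' b'
    refine ⟨⟨⟨f, hGH hf⟩, hfix f hf⟩, ?_⟩
    refine Function.Embedding.ext fun i => Subtype.ext ?_
    change f (a i) = b i
    rw [← ha', ← hb', hab]

end Cfsg.Agent.S4301
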