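import Cfsg.Statements.S4302
import Mathlib
import Cfsg.Agent.PLocal.FFModel
import Cfsg.Agent.PLocal.ThompsonAb
import Cfsg.Agent.PLocal.AmbSyl
import Cfsg.Agent.Inv.AutTwo
import Cfsg.Agent.Class.SmallGroupIso
import Cfsg.Agent.PLocal.SL2Recog
import Cfsg.Agent.Grp.Fitting

set_option autoImplicit false
open Cfsg

namespace Cfsg.Agent.S4302

open Subgroup Cfsg.Agent.PLocal
open scoped commutatorElement

theorem sl22 : Nonempty (Matrix.SpecialLinearGroup (Fin 2) (ZMod 2) ≃* Equiv.Perm (Fin 3)) := by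
    obtain ⟨s, hs, hs2⟩ : ∃ s : Matrix.SpecialLinearGroup (Fin 2) (ZMod 2), orderOf s = 2 ∧
        ∃ g, g * s * g⁻¹ ≠ s := 
      have : ∃ s : Matrix.SpecialLinearGroup (Fin 2) (ZMod 2), s ^ 2 = 1 ∧ s ≠ 1 ∧
        ∃ g, g * s * g⁻¹ ≠ s := by decide
      this.imp fun s h => ⟨orderOf_eq_prime h.1 h.2.1, h.2.2⟩
    have h2 := (zpowers s).card_mul_index
    rw [Nat.card_zpowers, hs, card_sl2_two] at h2
    refine Class.SmallIso.nonempty_equiv_perm_of_core (H := zpowers s) ?_ (by omega) card_sl2_two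
    by_contra hne
    have h3 : (zpowers s).normalCore = zpowers s := eq_of_le_of_card_ge (normalCore_le _) (by
      rw [Nat.card_zpowers, hs]
      exact (one_lt_card_iff_ne_bot _).2 hne)
    obtain ⟨g, hg⟩ := hs2
    have h4 := (normalCore_normal (zpowers s)).conj_mem s (h3.ge (mem_zpowers s)) g
    rw [h3, mem_zpowers_iff_mem_range_orderOf, hs] at h4
    simp only [Finset.mem_image, Finset.mem_range] at h4
    obtain ⟨k, hk, e⟩ := h4
    interval_cases k
    · rw [pow_zero, eq_comm, conj_eq_one_iff] at e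
      simp [e] at hs
    · exact hg (by rw [← e, pow_one])

section
variable {G : Type*} [Group G] [Finite G]

theorem isEA_of_max {V H O : Subgroup G} (h : FFSetup 2 V H O) {A : Subgroup G} (hAH : A ≤ H)
    (hA2 : IsPGroup 2 A) (hA : IsBestOffenderOn 0 V A) : IsElementaryAbelian 2 A := by
  have := Fact.mk Nat.prime_two
  induction A using WellFoundedLT.induction with | ind A ih => ?_
  by_cases hA1 : A = ⊥
  · rw [hA1]; exact isEA_bot
  have hAV : A ≤ normalizer (V : Set G) := hAH.trans h.norm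
  have hVc := (isEA_iff.1 h.ea).1
  have hab : A ≤ centralizer (A : Set G) := commutator_eq_bot_iff_le_centralizer.1
    (eq_bot_iff.2 ((le_inf ((Solv.commutator_le_of_le_normalizer le_normalizer).trans hAH)
      hA.2.1).trans h.faithful.le))
  obtain ⟨h1, h2⟩ := replacement_of_max hVc hAV hA.2.1 hA.1 (le_refl V)
  have hD0 := isBestOffenderOn_of_le_of_card_le hA inf_le_left h2.le
  have hD : IsBestOffenderOn 2 V (A ⊓ centralizer ((⁅V, A⁆ : Subgroup G) : Set G)) := by
    refine ⟨hD0.1, hD0.2.1, fun a ha v hv => ?_⟩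
    have e1 : ⁅v, a⁆ ∈ ⁅V, A⁆ := commutator_mem_commutator hv ha.1
    have e2 := ha.2 _ e1
    have e3 := h.ea.2 _ (Solv.commutator_le_of_le_normalizer hAV e1)
    calc v * a ^ 2 = ⁅v, a⁆ * (a * ⁅v, a⁆) * a * v := by
          simp only [commutatorElement_def, sq]; group
      _ = ⁅v, a⁆ ^ 2 * a ^ 2 * v := by rw [← e2]; simp only [sq, mul_assoc]
      _ = a ^ 2 * v := by rw [e3, one_mul]
  have hD1 : A ⊓ centralizer ((⁅V, A⁆ : Subgroup G) : Set G) ≠ ⊥ := fun e => by
    rw [e, centralizer_bot', inf_top_eq] at h1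
    exact h.commutator_ne_bot hAH hA1 (commutator_eq_bot_of_le_commutator_sup (isEA_isPGroup h.ea)
      hAV (fun a ha => by
        obtain ⟨k, hk⟩ := hA2 ⟨a, ha⟩
        exact ⟨k, by rw [show a ^ 2 ^ k = 1 from congrArg Subtype.val hk]; exact one_mem _⟩) h1.le)
  obtain ⟨A1, hA1D, hm⟩ : ∃ A1 ≤ A ⊓ centralizer ((⁅V, A⁆ : Subgroup G) : Set G),
      IsMinOffender 2 V A1 := by
    by_contra hne
    refine hD1 ?_
    rw [← h.eq_sSup_minOffender (inf_le_left.trans hAH) hD, sSup_eq_bot]
    exact fun B hB => (hne ⟨B, hB⟩).elim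
  have hA1A : A1 ≤ A := hA1D.trans inf_le_left
  have hA1H := hA1A.trans hAH
  have hc := h.card_commutator_block hA1H hm
  have hf := h.faithful_block hA1H
  have hn1 : A ≤ normalizer (A1 : Set G) :=
    (le_centralizer_iff.1 (hA1A.trans hab)).trans (centralizer_le_normalizer _)
  have hn : A ≤ normalizer ((⁅V, ⁅O, A1⁆ ⊔ A1⁆ : Subgroup G) : Set G) :=
    Solv.le_normalizer_commutator hAV (Solv.le_normalizer_sup
      (Solv.le_normalizer_commutator (hAH.trans h.normO) hn1) hn1)
  have hWV : ⁅V, ⁅O, A1⁆ ⊔ A1⁆ ≤ V :=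
    Solv.commutator_le_of_le_normalizer ((h.block_le hA1H).trans h.norm)
  have hnc : ¬ A1 ≤ centralizer ((⁅V, ⁅O, A1⁆ ⊔ A1⁆ : Subgroup G) : Set G) := fun e =>
    hm.2.1 (by rw [eq_bot_iff.2 ((le_inf le_sup_right e).trans hf.le), commutator_bot_right])
  generalize ⁅V, ⁅O, A1⁆ ⊔ A1⁆ = W at hc hn hWV hnc
  have hW := isEA_mono h.ea hWV
  have hlt : A ⊓ centralizer (W : Set G) < A1 ⊔ A ⊓ centralizer (W : Set G) :=
    right_lt_sup.2 fun e => hnc (e.trans inf_le_right)
  have hle : A1 ⊔ A ⊓ centralizer (W : Set G) ≤ A := sup_le hA1A inf_le_left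
  have h3 : Nat.card A ≤ 2 * Nat.card ↥(A ⊓ centralizer (W : Set G)) := by
    have : Nontrivial W := Finite.one_lt_card_iff_nontrivial.1 (by rw [hc]; norm_num)
    have : IsKleinFour W := ⟨hc, (Monoid.exponent_eq_prime_iff Nat.prime_two).2 fun g hg =>
      orderOf_eq_prime (Subtype.ext (hW.2 g g.2)) hg⟩
    have h4 := card_subgroup_dvd_card (W.normalizerMonoidHom.comp (inclusion hn)).range
    rw [Inv.card_mulAut_kleinFour, ← index_ker, ← MonoidHom.comap_ker, normalizerMonoidHom_ker,
      subgroupOf, comap_comap, subtype_comp_inclusion] at h4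
    have h5 := Grp.card_inf_mul_relIndex' (centralizer (W : Set G)) A
    obtain ⟨k, hk⟩ := hA2.index ((centralizer (W : Set G)).comap A.subtype)
    rw [hk] at h4
    have h6 : k ≤ 1 := by
      by_contra h6
      exact absurd ((pow_dvd_pow 2 (by omega : 2 ≤ k)).trans h4) (by decide)
    rw [← h5, relIndex, subgroupOf, hk, mul_comm, inf_comm]
    exact Nat.mul_le_mul_right _ (Nat.pow_le_pow_right two_pos h6)
  have h4 := mul_card_le_of_lt (isEA_isPGroup (isEA_mono h.ea inf_le_left))
    (lt_of_le_of_ne (inf_le_inf_left V (centralizer_le (inf_le_left :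
      A ⊓ centralizer (W : Set G) ≤ A))) fun e => hnc (hA1A.trans (le_centralizer_iff.1
        ((le_inf hWV (le_centralizer_iff.1 inf_le_right)).trans (e.ge.trans inf_le_right)))))
  have h5 := ih _ (hlt.trans_le hle) (inf_le_left.trans hAH) hA2.to_inf_left
    (isBestOffenderOn_of_le_of_card_le hA inf_le_left (by nlinarith))
  rw [← eq_of_le_of_card_ge hle (h3.trans (mul_card_le_of_lt (hA2.to_le hle) hlt))]
  exact isEA_sup (h.isEA_of_offender hA1H hm.1) h5
    ((hA1A.trans hab).trans (centralizer_le (inf_le_left : _ ≤ A)))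
end

/-- Let `X` be a finite solvable group whose Fitting subgroup is a 2-group (equivalently `F(X) = O₂(X)`), `T` a Sylow 2-subgroup of `X`, `J(T)` the subgroup generated by the abelian subgroups of `T` of largest order, `C` the largest normal subgroup of `X` centralizing the centre `Z(T)`, and `Y` the normal closure of `J(T)` in `X`. Then `X = C · Y · N_X(J(T))`, and either `Y ≤ C`, or `CY/C` is isomorphic to a direct product of at least one copy of the symmetric group of degree 3. -/
theorem result {X : Type*} [Group X] [Finite X]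
    [Group.IsSolvable X] (hF : Cfsg.fittingSubgroup X = Cfsg.pCore 2 X) (T : Sylow 2 X) :
    ((Subgroup.centralizer (((T : Subgroup X) ⊓ Subgroup.centralizer ((T : Subgroup X) : Set X) : Subgroup X) : Set X)).normalCore
        ⊔ Subgroup.normalClosure (Cfsg.thompsonSubgroupAOf (T : Subgroup X) : Set X)
        ⊔ Subgroup.normalizer (Cfsg.thompsonSubgroupAOf (T : Subgroup X) : Set X) = ⊤) ∧
    (Subgroup.normalClosure (Cfsg.thompsonSubgroupAOf (T : Subgroup X) : Set X)
        ≤ (Subgroup.centralizer (((T : Subgroup X) ⊓ Subgroup.centralizer ((T : Subgroup X) : Set X) : Subgroup X) : Set X)).normalCore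
      ∨ ∃ n : ℕ, 1 ≤ n ∧
        Nonempty (↥(Subgroup.normalClosure (Cfsg.thompsonSubgroupAOf (T : Subgroup X) : Set X)) ⧸
            ((Subgroup.centralizer (((T : Subgroup X) ⊓ Subgroup.centralizer ((T : Subgroup X) : Set X) : Subgroup X) : Set X)).normalCore).subgroupOf
              (Subgroup.normalClosure (Cfsg.thompsonSubgroupAOf (T : Subgroup X) : Set X))
          ≃* (Fin n → Equiv.Perm (Fin 3)))) := by
  have := Fact.mk Nat.prime_two
  constructor
  · have h1 := ((Amb.isSyl_top T).inf_of_le (N := normalClosure (thompsonSubgroupAOf (T : Subgroup X) : Set X))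
      le_top (by rw [normalizer_eq_top])).frattini_sup (L := ⊤) le_top (by rw [normalizer_eq_top])
    rw [eq_top_iff, ← h1]
    refine sup_le (le_sup_of_le_left le_sup_right) (le_sup_of_le_right (inf_le_right.trans ?_))
    refine (normalizer_le_normalizer_thompsonSubgroupAOf _).trans_eq ?_
    rw [thompsonSubgroupAOf_eq_of_le (le_inf (thompsonSubgroupAOf_le _) le_normalClosure)
      (inf_le_left : (T : Subgroup X) ⊓ _ ≤ T)]
  have hTC : (T : Subgroup X) ≤ centralizer (((T : Subgroup X) ⊓ centralizer ((T : Subgroup X) : Set X) :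
      Subgroup X) : Set X) := le_centralizer_iff.1 inf_le_right
  have hQ : (T : Subgroup X) ⊓ centralizer ((T : Subgroup X) : Set X) ≤
      pCore 2 X ⊓ centralizer (pCore 2 X : Set X) := by
    have h1 : (T : Subgroup X) ⊓ centralizer ((T : Subgroup X) : Set X) ≤
        centralizer (pCore 2 X : Set X) := inf_le_right.trans (centralizer_le (Grp.pCore_le_sylow T))
    exact le_inf (h1.trans (hF ▸ Grp.centralizer_fitting_le X)) h1
  generalize (T : Subgroup X) ⊓ centralizer ((T : Subgroup X) : Set X) = Z at hTC hQ ⊢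
  have hV1 : normalClosure (Z : Set X) ≤ pCore 2 X ⊓ centralizer (pCore 2 X : Set X) :=
    normalClosure_le_normal hQ
  have hC : (centralizer (Z : Set X)).normalCore = centralizer (normalClosure (Z : Set X) : Set X) :=
    le_antisymm (le_centralizer_iff.1 (normalClosure_le_normal
      (N := centralizer ((centralizer (Z : Set X)).normalCore : Set X))
      (le_centralizer_iff.1 (normalCore_le _)))) (normal_le_normalCore.2
        (centralizer_le le_normalClosure))
  have hD : ∀ D : Subgroup X, D.Normal → IsPGroup 2 (D.map (QuotientGroup.mk'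
      (centralizer (Z : Set X)).normalCore)) → D ≤ (centralizer (Z : Set X)).normalCore :=
    fun D _ hD => normal_le_normalCore.2 ((le_sylow_sup_of_isPGroup_map _ hD T).trans
      (sup_le hTC (normalCore_le _)))
  have hVn : (normalClosure (Z : Set X)).Normal := inferInstance
  generalize normalClosure (Z : Set X) = V at hV1 hC hVn
  have hVc : V ≤ centralizer (V : Set X) :=
    (hV1.trans inf_le_right).trans (centralizer_le (hV1.trans inf_le_left))
  have hV2 : IsPGroup 2 V := (Grp.pCore_isPGroup 2 X).to_le (hV1.trans inf_le_left)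
  obtain ⟨W, hWn, hWV, hW, hW2⟩ : ∃ W : Subgroup X, W.Normal ∧ W ≤ V ∧ IsElementaryAbelian 2 W ∧
      ∀ v ∈ V, v ^ 2 = 1 → v ∈ W := by
    refine ⟨{ carrier := {v | v ∈ V ∧ v ^ 2 = 1}
              one_mem' := ⟨one_mem _, one_pow _⟩
              mul_mem' := fun {a b} ha hb => ⟨mul_mem ha.1 hb.1, by
                rw [Commute.mul_pow (hVc hb.1 a ha.1), ha.2, hb.2, one_mul]⟩
              inv_mem' := fun {a} ha => ⟨inv_mem ha.1, by rw [inv_pow, ha.2, inv_one]⟩ },
      ⟨fun a ha g => ⟨hVn.conj_mem a ha.1 g, by rw [conj_pow, ha.2]; group⟩⟩, fun a ha => ha.1,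
      isEA_iff.2 ⟨fun a ha b hb => hVc hb.1 a ha.1, fun a ha => ha.2⟩, fun v h1 h2 => ⟨h1, h2⟩⟩
  have hCW : (centralizer (Z : Set X)).normalCore = centralizer (W : Set X) := by
    refine le_antisymm (hC.le.trans (centralizer_le hWV)) (hD _ inferInstance ?_)
    rintro ⟨_, g, hg, rfl⟩
    obtain ⟨k, m, hm, he⟩ := Nat.exists_eq_two_pow_mul_odd (orderOf_pos g).ne'
    refine ⟨k, Subtype.ext ?_⟩
    show QuotientGroup.mk' _ g ^ 2 ^ k = 1
    rw [← map_pow, QuotientGroup.mk'_apply, QuotientGroup.eq_one_iff, hC, ← zpowers_le]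
    have : IsMulCommutative V := ⟨⟨fun a b => Subtype.ext (hVc b.2 a a.2)⟩⟩
    refine Solv.coprime_le_centralizer_of_prime_order _ V le_normalizer_of_normal
      (Solv.coprime_card_of_isPGroup hV2 ?_) fun v hv hp a ha => ?_
    · rw [Nat.card_zpowers]
      exact Nat.Coprime.coprime_dvd_left (orderOf_dvd_of_pow_eq_one
        (by rw [← pow_mul, ← he, pow_orderOf_eq_one])) (Nat.coprime_two_right.2 hm)
    · obtain ⟨j, hj⟩ := IsPGroup.iff_orderOf.1 hV2 ⟨v, hv⟩
      rw [orderOf_mk] at hj
      have h2 := (Nat.prime_dvd_prime_iff_eq hp Nat.prime_two).1 (hp.dvd_of_dvd_pow hj.dvd)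
      exact (zpowers_le.2 (pow_mem hg _) ha v (hW2 v hv (h2 ▸ pow_orderOf_eq_one v))).symm
  have hO : pCore 2 (X ⧸ centralizer (W : Set X)) = ⊥ := by
    revert hD
    generalize_proofs h1
    revert h1
    rw [hCW]
    intro h1 hD
    refine eq_bot_iff.2 fun q hq => ?_
    obtain ⟨g, rfl⟩ := QuotientGroup.mk_surjective q
    rw [mem_bot, QuotientGroup.eq_one_iff]
    exact hD ((pCore 2 (X ⧸ centralizer (W : Set X))).comap (QuotientGroup.mk' _)) inferInstance
      ((Grp.pCore_isPGroup 2 _).to_le (map_comap_le _ _)) hq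
  have hWT : W ≤ T := hWV.trans ((hV1.trans inf_le_left).trans (Grp.pCore_le_sylow T))
  have h := ffSetup_hol isPSolvable_of_isSolvable hW hO
    (normalClosure (thompsonSubgroupAOf (T : Subgroup X) : Set X))
  have hoff : ∀ A ∈ maxAb (T : Subgroup X), IsBestOffenderOn 2 W A := by
    intro A hA
    have hAc : A ≤ centralizer (A : Set X) := fun a ha b hb =>
      congrArg Subtype.val (hA.2.1.is_comm.comm ⟨b, hb⟩ ⟨a, ha⟩)
    have h0 : IsBestOffenderOn 0 W A := by
      refine ⟨fun B hB => ?_, by rw [commutator_eq_bot_iff_le_centralizer.2 hAc]; exact bot_le,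
        fun a _ => by simp⟩
      have hc : B ≤ centralizer ((W ⊓ centralizer (B : Set X) : Subgroup X) : Set X) :=
        le_centralizer_iff.1 inf_le_right
      rw [← card_sup_mul_card_inf (hc.trans (centralizer_le_normalizer _))]
      refine Nat.mul_le_mul (hA.2.2 _ (sup_le (hB.trans hA.1) (inf_le_left.trans hWT)) ?_)
        (card_le_of_le (le_inf (inf_le_right.trans inf_le_left)
          (inf_le_left.trans (hB.trans hAc))))
      refine le_centralizer_iff_isMulCommutative.1 ?_
      rw [centralizer_sup]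
      exact sup_le (le_inf (hB.trans (hAc.trans (centralizer_le hB))) hc) (le_inf inf_le_right
        (inf_le_left.trans ((isEA_le_centralizer hW).trans (centralizer_le inf_le_left))))
    have h1 := isEA_of_max h (map_mono ((le_thompsonSubgroupAOf hA).trans le_normalClosure))
      ((T.isPGroup'.to_le hA.1).map _) (isBestOffenderOn_holMap h0)
    refine ⟨h0.1, h0.2.1, fun a ha => ?_⟩
    rw [← ker_holMap, MonoidHom.mem_ker, map_pow]
    exact h1.2 _ (mem_map_of_mem _ ha)
  have hgen : (normalClosure (thompsonSubgroupAOf (T : Subgroup X) : Set X)).map (holMap W) =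
      ⨆ A : {A : Subgroup (Hol W) // A ≤ (normalClosure (thompsonSubgroupAOf (T : Subgroup X) :
        Set X)).map (holMap W) ∧ IsBestOffenderOn 2 (holV W) A}, (A : Subgroup (Hol W)) := by
    refine le_antisymm ?_ (iSup_le fun A => A.2.1)
    rw [map_le_iff_le_comap, normalClosure, closure_le]
    intro x hx
    obtain ⟨y, hy, hyx⟩ := Group.mem_conjugatesOfSet_iff.1 hx
    obtain ⟨g, rfl⟩ := isConj_iff.1 hyx
    refine mem_comap.1 ((thompsonSubgroupAOf_le_iff.2 fun A hA => ?_ :
      thompsonSubgroupAOf (T : Subgroup X) ≤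
      (Subgroup.comap (holMap W) _).comap (MulAut.conj g).toMonoidHom) hy)
    rw [← map_le_iff_le_comap, ← map_le_iff_le_comap]
    refine le_iSup_of_le ⟨_, map_mono ?_, isBestOffenderOn_holMap
      (isBestOffenderOn_mapConj (le_normalizer_of_normal (mem_top g)) (hoff A hA))⟩ le_rfl
    rintro _ ⟨a, ha, rfl⟩
    exact Normal.conj_mem inferInstance a
      (((le_thompsonSubgroupAOf hA).trans le_normalClosure) ha) g
  generalize normalClosure (thompsonSubgroupAOf (T : Subgroup X) : Set X) = Y at h hgen ⊢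
  refine or_iff_not_imp_left.2 fun hY => ?_
  have hY1 : Y.map (holMap W) ≠ ⊥ := by rwa [Ne, Subgroup.map_eq_bot_iff, ker_holMap, ← hCW]
  obtain ⟨A, hAH, hA⟩ := h.exists_isMinOffender hgen hY1
  obtain ⟨hind, hsup, -⟩ := h.structure_blocks hgen fun E => Iff.rfl
  generalize (pPrimeCore 2 ↥(Y.map (holMap W))).map (Y.map (holMap W)).subtype = O at h hind hsup
  have := Fintype.ofFinite {E : Subgroup (Hol W) // ∃ A ≤ Y.map (holMap W),
    IsMinOffender 2 (holV W) A ∧ E = ⁅O, A⁆ ⊔ A}
  have hcomm : Pairwise fun i j : {E : Subgroup (Hol W) // ∃ A ≤ Y.map (holMap W),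
      IsMinOffender 2 (holV W) A ∧ E = ⁅O, A⁆ ⊔ A} => ∀ x y : Hol W, x ∈ i.1 → y ∈ j.1 → Commute x y := by
    rintro ⟨_, A, h1, h2, rfl⟩ ⟨_, B, h3, h4, rfl⟩ hne x y hx hy
    exact (commutator_eq_bot_iff_le_centralizer.1 (h.commutator_block_block h1 h2 h3 h4
      fun e => hne (Subtype.ext e)) hx y hy).symm
  obtain ⟨e0⟩ := sl22
  refine ⟨_, Fintype.card_pos_iff.2 ⟨(⟨_, A, hAH, hA, rfl⟩ : {E : Subgroup (Hol W) //
    ∃ A ≤ Y.map (holMap W), IsMinOffender 2 (holV W) A ∧ E = ⁅O, A⁆ ⊔ A})⟩, ⟨?_⟩⟩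
  refine (QuotientGroup.quotientMulEquivOfEq ?_).trans ((QuotientGroup.quotientKerEquivOfSurjective
    ((holMap W).subgroupMap Y) (MonoidHom.subgroupMap_surjective _ _)).trans
    ((MulEquiv.subgroupCongr (hsup.symm.trans (noncommPiCoprod_range (hcomm := hcomm)).symm)).trans
    ((MonoidHom.ofInjective (injective_noncommPiCoprod_of_iSupIndep hind)).symm.trans
    ((MulEquiv.piCongrRight fun E => (Classical.choice ?_ : _ ≃* Equiv.Perm (Fin 3))).trans
      (MulEquiv.arrowCongr (Fintype.equivFin _) (MulEquiv.refl _))))))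
  · rw [hCW, ← ker_holMap]
    ext x
    rw [mem_subgroupOf, MonoidHom.mem_ker, MonoidHom.mem_ker, Subtype.ext_iff]
    rfl
  · obtain ⟨_, B, h1, h2, rfl⟩ := E
    obtain ⟨e⟩ := h.nonempty_block_equiv h1 h2
    exact ⟨e.trans e0⟩

end Cfsg.Agent.S4302
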