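import Mathlib
import Cfsg.Statements.S4306
import Cfsg.Agent.FH.S3

set_option autoImplicit false
open Cfsg

namespace Cfsg.Agent.S4306

/-- Let `A` be a non-abelian group of order `pq` with `p, q` distinct primes, acting by automorphisms on a finite solvable group `G` of order prime to `pq`, so that only the identity of `G` is fixed by all of `A`. Then `G` has Fitting height at most 2: there is a normal nilpotent subgroup `F` of `G` with `G/F` nilpotent. -/
theorem result {G A : Type*} [Group G] [Finite G]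
    [Group.IsSolvable G] [Group A] [Finite A] [MulDistribMulAction A G] (p q : ℕ) (hp : p.Prime) (hq : q.Prime) (hpq : p ≠ q)
    (hA : Nat.card A = p * q) (hAna : ¬ IsMulCommutative A) (hcop : (Nat.card G).Coprime (p * q))
    (hfpf : ∀ g : G, (∀ a : A, a • g = g) → g = 1) :
    ∃ F : Subgroup G, ∃ hF : F.Normal, Group.IsNilpotent ↥F ∧ Group.IsNilpotent (G ⧸ F) := by
  have := Solv.Ext.finite_SD (A := A) (G := G)
  have h : FH.resN 2 (⊤ : Subgroup G) = ⊥ := by
    rw [← FH.resN_range (A := A)]
    rcases hpq.lt_or_gt with h | h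
    · obtain ⟨k, h, f, -⟩ := FH.exists_fa ‹_› hq hp h (mul_comm p q ▸ hA) hAna
        (mul_comm p q ▸ hcop) hfpf
      exact f.resN_two
    · obtain ⟨k, h, f, -⟩ := FH.exists_fa ‹_› hp hq h hA hAna hcop hfpf
      exact f.resN_two
  have := FH.resN_normal (G := G) 1
  refine ⟨FH.resN 1 ⊤, this, FH.res_eq_bot_iff.mp h, ?_⟩
  have h1 := FH.res_eq_bot_iff.mp (show FH.resN 1 ((⊤ : Subgroup G).map
    (QuotientGroup.mk' (FH.resN 1 ⊤))) = ⊥ by rw [← FH.map_resN, QuotientGroup.map_mk'_self])
  rw [Subgroup.map_top_of_surjective _ (QuotientGroup.mk'_surjective _)] at h1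
  exact Group.nilpotent_of_mulEquiv Subgroup.topEquiv

end Cfsg.Agent.S4306
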