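import Cfsg.Statements.S4314
import Cfsg.Agent.FGS.ClassSize
import Cfsg.Agent.FGS.PrimePart
import Cfsg.Agent.Solv.Coprime2
import Cfsg.Agent.Grp.Fitting
import Cfsg.Agent.Grp.IndexPrimeComm
import Cfsg.Agent.Transfer.PCompl
import Cfsg.Agent.S0143

set_option autoImplicit false
open Cfsg

namespace Cfsg.Agent.S4314

open Subgroup

universe u

theorem isNilpotent_of_centralize {G : Type*} [Group G] [Finite G] [Group.IsSolvable G]
    (h : ∀ p q : ℕ, p.Prime → q.Prime → p ≠ q → ∀ y : G, (∃ k, y ^ p ^ k = 1) →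
      y ∈ centralizer (pCore q G : Set G)) : Group.IsNilpotent G := by
  rw [← Grp.fitting_eq_top_iff]
  by_contra hF
  haveI : Nontrivial (G ⧸ fittingSubgroup G) := QuotientGroup.nontrivial_iff.2 hF
  obtain ⟨p, hp, hne⟩ := Grp.exists_pCore_ne_bot (G ⧸ fittingSubgroup G)
  haveI := Fact.mk hp
  let N := (pCore p (G ⧸ fittingSubgroup G)).comap (QuotientGroup.mk' (fittingSubgroup G))
  have hmap : N.map (QuotientGroup.mk' (fittingSubgroup G)) = pCore p _ :=
    map_comap_eq_self_of_surjective (QuotientGroup.mk'_surjective _) _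
  have hFN : fittingSubgroup G ≤ N := QuotientGroup.le_comap_mk' _ _
  let P : Sylow p N := default
  let T := (P : Subgroup N).map N.subtype
  have hT : IsPGroup p T := P.isPGroup'.map _
  have h1 : N = fittingSubgroup G ⊔ T := by
    obtain ⟨k, hk⟩ := Grp.card_pCore p (G ⧸ fittingSubgroup G)
    have h2 : ((fittingSubgroup G).subgroupOf N).index = p ^ k := by
      rw [← hk, ← hmap, ← relIndex_ker, QuotientGroup.ker_mk']; rfl
    have h3 := congrArg (Subgroup.map N.subtype) (Transfer.sup_sylow_eq_top_of_index h2 P)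
    rw [Subgroup.map_sup, subgroupOf_map_subtype, inf_of_le_left hFN, ← MonoidHom.range_eq_map,
      range_subtype] at h3
    exact h3.symm
  have h2 : N ≤ normalizer (T : Set G) := by
    rw [h1, sup_le_iff, Grp.fitting_eq_iSup_pCore, iSup_le_iff]
    refine ⟨fun q => ?_, le_normalizer⟩
    by_cases hq : (q : ℕ) = p
    · refine le_trans ?_ le_normalizer
      rw [hq]
      refine le_trans ?_ (map_mono (Grp.pCore_le_sylow P))
      rw [Grp.map_pCore_eq_inf_of_normal]
      exact le_inf le_rfl ((Grp.pCore_le_fitting p).trans hFN)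
    · refine le_trans (le_centralizer_iff.1 fun y hy => ?_) (centralizer_le_normalizer _)
      obtain ⟨k, hk⟩ := hT ⟨y, hy⟩
      exact h p q hp q.2 (Ne.symm hq) y ⟨k, congrArg Subtype.val hk⟩
  have h3 : T ≤ fittingSubgroup G := ((Grp.le_map_pCore (map_subtype_le _) h2 hT).trans
    (Grp.map_pCore_le_of_normal p N)).trans (Grp.pCore_le_fitting p)
  apply hne
  rw [← hmap, h1, sup_of_le_left h3, Subgroup.map_eq_bot_iff, QuotientGroup.ker_mk']

theorem solvable (G : Type u) [Group G] [Finite G]
    (h : ∀ x : G, (centralizer ({x} : Set G)).index = 1 ∨ ((centralizer ({x} : Set G)).index).Prime) :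
    Group.IsSolvable G := by
  have aux : ∀ {a b : ℕ}, a ∣ b → (b = 1 ∨ b.Prime) → (a = 1 ∨ a.Prime) := by
    rintro a b hab (rfl | hb)
    · exact Or.inl (Nat.dvd_one.1 hab)
    · rcases (Nat.dvd_prime hb).1 hab with h | h
      · exact Or.inl h
      · exact Or.inr (h ▸ hb)
  refine FGS.isSolvable_of_closed (P := fun G _ _ => ∀ x : G, (centralizer ({x} : Set G)).index = 1 ∨
    ((centralizer ({x} : Set G)).index).Prime) ?_ ?_ ?_ G h
  · intro G _ _ N _ h x
    exact aux (FGS.index_centralizer_normal_dvd N x) (h x)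
  · intro G _ _ N _ h x
    obtain ⟨x, rfl⟩ := QuotientGroup.mk'_surjective N x
    exact aux (FGS.index_centralizer_map_dvd _ (QuotientGroup.mk'_surjective N) x) (h x)
  · intro G _ _ _ h
    obtain ⟨x, hx⟩ := exists_ne (1 : G)
    have hp : (Nat.card G).Prime := by
      rcases h x with h1 | h1
      · exact S0143.result 2 0 Nat.prime_two x hx h1
      · exact S0143.result _ 1 h1 x hx (pow_one _).symm
    haveI := Fact.mk hp
    haveI := isCyclic_of_prime_card (α := G) rfl
    exact Solv.isSolvable_of_isMulCommutative G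

theorem coprime_orderOf {G : Type*} [Group G] {p q : ℕ} (hp : p.Prime) (hq : q.Prime) (hpq : p ≠ q)
    {x y : G} (hx : ∃ k, x ^ p ^ k = 1) (hy : ∃ k, y ^ q ^ k = 1) :
    (orderOf x).Coprime (orderOf y) := by
  obtain ⟨i, hi⟩ := hx
  obtain ⟨j, hj⟩ := hy
  exact Nat.Coprime.coprime_dvd_left (orderOf_dvd_of_pow_eq_one hi)
    (Nat.Coprime.coprime_dvd_right (orderOf_dvd_of_pow_eq_one hj)
      (Nat.coprime_pow_primes _ _ hp hq hpq))


/-- Let `G` be a finite group every conjugacy class of which has size 1 or a prime. Then either `G` is nilpotent of class at most 2, or `G/Z(G)` is a non-abelian group of order `pq` for distinct primes `p, q` (a Frobenius group of order `pq`). -/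
theorem result {G : Type*} [Group G] [Finite G]
    (h : ∀ x : G, (Subgroup.centralizer ({x} : Set G)).index = 1 ∨ ((Subgroup.centralizer ({x} : Set G)).index).Prime) :
    Subgroup.upperCentralSeries G 2 = ⊤ ∨
      ∃ p q : ℕ, p.Prime ∧ q.Prime ∧ p ≠ q ∧ Nat.card (G ⧸ Subgroup.center G) = p * q ∧ ¬ IsMulCommutative (G ⧸ Subgroup.center G) := by
  have hZ : ∀ x : G, x ∈ center G ↔ centralizer ({x} : Set G) = ⊤ := fun x => by
    rw [centralizer_eq_top_iff_subset]; simp
  have hprime : ∀ x : G, x ∉ center G → (centralizer ({x} : Set G)).index.Prime := fun x hx =>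
    (h x).resolve_left fun h1 => hx ((hZ x).2 (index_eq_one.1 h1))
  have hle : ∀ A B : Subgroup G, A.index.Prime → B ≠ ⊤ → A ≤ B → A = B := by
    intro A B hA hB hAB
    refine le_antisymm hAB fun b hb => ?_
    by_contra hbA
    exact hB (Grp.eq_top_of_index_prime hA rfl hAB hbA hb)
  have key : ∀ x y : G, Commute x y → (orderOf x).Coprime (orderOf y) → x ∉ center G →
      y ∉ center G → centralizer ({x} : Set G) = centralizer {y} := by
    intro x y hc hxy hx hy
    have h1 := FGS.centralizer_mul_of_coprime hc hxy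
    have h2 : x * y ∉ center G := by
      rw [hZ, h1, inf_eq_top_iff, ← hZ]
      exact fun h => hx h.1
    rw [← hle _ _ (hprime _ h2) (mt (hZ x).2 hx) (h1 ▸ inf_le_left),
      hle _ _ (hprime _ h2) (mt (hZ y).2 hy) (h1 ▸ inf_le_right)]
  have hclass : commutator G ≤ center G → Subgroup.upperCentralSeries G 2 = ⊤ := by
    intro h1
    rw [eq_top_iff]
    intro x _
    rw [Subgroup.mem_upperCentralSeries_succ_iff]
    intro y
    rw [Subgroup.upperCentralSeries_one]
    exact h1 (commutator_mem_commutator (mem_top x) (mem_top y))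
  by_cases hnil : Group.IsNilpotent G
  · left
    apply hclass
    intro z hz
    rw [mem_center_iff]
    intro x
    by_cases hx : x ∈ center G
    · exact (mem_center_iff.1 hx z).symm
    have hco : IsCoatom (centralizer ({x} : Set G)) :=
      ⟨mt (hZ x).2 hx, fun B hB => by
        by_contra h1
        exact hB.ne (hle _ _ (hprime x hx) h1 hB.le)⟩
    haveI := NormalizerCondition.normal_of_coatom _ Group.normalizerCondition_of_isNilpotent hco
    haveI := Fact.mk (hprime x hx)
    haveI : IsCyclic (G ⧸ centralizer ({x} : Set G)) :=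
      isCyclic_of_prime_card (p := (centralizer ({x} : Set G)).index) rfl
    have h1 : commutator G ≤ centralizer ({x} : Set G) :=
      Normal.quotient_commutative_iff_commutator_le.1 inferInstance
    exact (mem_centralizer_singleton_iff.1 (h1 hz)).symm
  right
  haveI := solvable G h
  obtain ⟨p, q, hp, hq, hpq, y, hy, hyQ⟩ : ∃ p q : ℕ, p.Prime ∧ q.Prime ∧ p ≠ q ∧ ∃ y : G,
      (∃ k, y ^ p ^ k = 1) ∧ y ∉ centralizer (pCore q G : Set G) := by
    by_contra h1
    push Not at h1
    exact hnil (isNilpotent_of_centralize h1)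
  haveI := Fact.mk hq
  set Q := pCore q G with hQ
  have hQp : IsPGroup q Q := Grp.pCore_isPGroup q G
  have hQel : ∀ x ∈ Q, ∃ k, x ^ q ^ k = 1 := fun x hx =>
    (hQp ⟨x, hx⟩).imp fun k hk => congrArg Subtype.val hk
  have hyZ : y ∉ center G := fun h1 => hyQ (center_le_centralizer _ h1)
  set Cy := centralizer ({y} : Set G) with hCy
  have hQC : ¬ Q ≤ Cy := fun h1 => hyQ (mem_centralizer_iff.2 fun x hx =>
    mem_centralizer_singleton_iff.1 (h1 hx))
  have hrel : Cy.relIndex Q = Cy.index :=
    ((Nat.dvd_prime (hprime y hyZ)).1 (FGS.relIndex_normal_dvd_index Cy Q)).resolve_left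
      fun h1 => hQC (relIndex_eq_one.1 h1)
  have hCyq : Cy.index = q := by
    obtain ⟨k, hk⟩ := Grp.card_pCore q G
    have h1 : Cy.index ∣ q ^ k := by rw [← hrel, ← hk]; exact relIndex_dvd_card _ _
    exact (Nat.prime_dvd_prime_iff_eq (hprime y hyZ) hq).1 ((hprime y hyZ).dvd_of_dvd_pow h1)
  have hBZ : Cy ⊓ Q ≤ center G := by
    rintro x ⟨hxy, hxQ⟩
    by_contra hx
    have hn : (Cy.subgroupOf Q).Normal := by
      haveI := hQp.isNilpotent
      refine NormalizerCondition.normal_of_coatom _ Group.normalizerCondition_of_isNilpotent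
        ⟨fun h1 => hQC (subgroupOf_eq_top.1 h1), fun B hB => ?_⟩
      obtain ⟨b, hb1, hb2⟩ := SetLike.exists_of_lt hB
      exact Grp.eq_top_of_index_prime hq (hrel.trans hCyq) hB.le hb2 hb1
    have hBY : ⁅Cy ⊓ Q, zpowers y⁆ = ⊥ := by
      rw [commutator_eq_bot_iff_le_centralizer, zpowers_eq_closure, centralizer_closure]
      exact inf_le_left
    have hBQ : ⁅Cy ⊓ Q, Q⁆ ≤ Cy ⊓ Q := by
      rw [commutator_comm]
      rw [commutator_comm]
      apply Solv.commutator_le_of_le_normalizer
      rw [← normal_subgroupOf_iff_le_normalizer inf_le_right, inf_subgroupOf_right]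
      exact hn
    have h1 : ⁅⁅Q, zpowers y⁆, Cy ⊓ Q⁆ = ⊥ := by
      apply commutator_commutator_eq_bot_of_rotate
      · rw [commutator_comm (zpowers y), hBY, commutator_bot_left]
      · rw [eq_bot_iff, ← hBY]
        exact commutator_mono hBQ le_rfl
    have h2 : ⁅⁅Q, zpowers y⁆, zpowers y⁆ = ⊥ := by
      rw [commutator_eq_bot_iff_le_centralizer] at h1 ⊢
      rw [zpowers_eq_closure y, centralizer_closure, ← zpowers_eq_closure y,
        ← key x y (mem_centralizer_singleton_iff.1 hxy)
          (coprime_orderOf hq hp hpq.symm (hQel x hxQ) hy) hx hyZ]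
      exact h1.trans (centralizer_le (Set.singleton_subset_iff.2 ⟨hxy, hxQ⟩))
    have h3 := Solv.coprime_commutator_eq_bot (zpowers y) Q le_normalizer_of_normal
      (Solv.coprime_card_of_isPGroup hQp (by
        obtain ⟨k, hk⟩ := hy
        rw [Nat.card_zpowers]
        exact Nat.Coprime.coprime_dvd_left (orderOf_dvd_of_pow_eq_one hk)
          (Nat.Coprime.pow_left _ ((Nat.coprime_primes hp hq).2 hpq)))) (Or.inr inferInstance) h2
    rw [commutator_eq_bot_iff_le_centralizer, zpowers_eq_closure, centralizer_closure] at h3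
    exact hQC h3
  obtain ⟨x, hxQ, hxy⟩ := SetLike.not_le_iff_exists.1 hQC
  have hxZ : x ∉ center G := fun h1 => hxy (center_le_centralizer _ h1)
  have hCx : centralizer ({x} : Set G) = centralizer (Q : Set G) := by
    refine le_antisymm (fun g hg => ?_) (centralizer_le (Set.singleton_subset_iff.2 hxQ))
    have h1 : (centralizer ({g} : Set G)).subgroupOf Q = ⊤ := by
      refine Grp.eq_top_of_index_prime hq (hrel.trans hCyq) (N := Cy.subgroupOf Q) ?_
        (x := ⟨x, hxQ⟩) hxy (mem_centralizer_singleton_iff.2 (mem_centralizer_singleton_iff.1 hg).symm)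
      intro b hb
      exact center_le_centralizer _ (hBZ ⟨hb, b.2⟩)
    exact mem_centralizer_iff.2 fun b hb => mem_centralizer_singleton_iff.1 (subgroupOf_eq_top.1 h1 hb)
  haveI hCxn : (centralizer ({x} : Set G)).Normal := hCx ▸ inferInstance
  have hyx : y ∉ centralizer ({x} : Set G) := hCx ▸ hyQ
  have hCxp : (centralizer ({x} : Set G)).index = p := by
    obtain ⟨k, hk⟩ := hy
    have h1 : orderOf (y : G ⧸ centralizer ({x} : Set G)) ∣ p ^ k :=
      orderOf_dvd_of_pow_eq_one (by rw [← QuotientGroup.mk_pow, hk, QuotientGroup.mk_one])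
    have h2 := ((Nat.dvd_prime (hprime x hxZ)).1
      (orderOf_dvd_natCard (y : G ⧸ centralizer ({x} : Set G)))).resolve_left
      (fun h3 => hyx ((QuotientGroup.eq_one_iff _).1 (orderOf_eq_one_iff.1 h3)))
    rw [h2] at h1
    exact (Nat.prime_dvd_prime_iff_eq (hprime x hxZ) hp).1 ((hprime x hxZ).dvd_of_dvd_pow h1)
  have hD : centralizer ({x} : Set G) ⊓ Cy = center G := by
    refine le_antisymm (FGS.le_of_forall_primePow fun r hr d hd hdr => ?_)
      (le_inf (center_le_centralizer _) (center_le_centralizer _))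
    by_contra hdZ
    by_cases hrp : r = p
    · subst hrp
      have h1 := key d x (mem_centralizer_singleton_iff.1 hd.1)
        (coprime_orderOf hr hq hpq hdr (hQel x hxQ)) hdZ hxZ
      exact hyx (h1 ▸ mem_centralizer_singleton_iff.2 (mem_centralizer_singleton_iff.1 hd.2).symm)
    · have h1 := key d y (mem_centralizer_singleton_iff.1 hd.2)
        (coprime_orderOf hr hp hrp hdr hy) hdZ hyZ
      exact hxy (hCy ▸ h1 ▸ mem_centralizer_singleton_iff.2 (mem_centralizer_singleton_iff.1 hd.1).symm)
  refine ⟨p, q, hp, hq, hpq, ?_, fun hc => hnil ?_⟩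
  · change (center G).index = _
    rw [← hD]
    apply Nat.le_antisymm
    · rw [← hCxp, ← hCyq]; exact index_inf_le
    · refine Nat.le_of_dvd (Nat.pos_of_ne_zero index_ne_zero_of_finite)
        (((Nat.coprime_primes hp hq).2 hpq).mul_dvd_of_dvd_of_dvd ?_ ?_)
      · exact hCxp ▸ index_dvd_of_le inf_le_left
      · exact hCyq ▸ index_dvd_of_le inf_le_right
  · exact ⟨⟨2, hclass (Normal.quotient_commutative_iff_commutator_le.1 hc)⟩⟩

end Cfsg.Agent.S4314
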