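import Cfsg.Statements.S4320
import Mathlib


set_option autoImplicit false
open Cfsg

namespace Cfsg.Agent.S4320

theorem core {G : Type*} [Group G] [Finite G] {Λ : Type*} [CommRing Λ] (ε : Λ →+* ℤ) (u : G → Λ)
    (hu : ∀ g, ε (u g) = 1) {M : Type*} [AddCommGroup M] [Module Λ M] (d : G → M)
    (hd : ∀ g h, d (g * h) = d g + u g • d h) :
    ∃ μ : Λ, (ε μ).natAbs ∣ Nat.card (Abelianization G) ∧ ∀ g, μ • d g = 0 := by
  classical
  haveI := Fintype.ofFinite G
  let φ : (G → Λ) →ₗ[Λ] M := Fintype.linearCombination Λ d
  have hφ : ∀ (g : G) (a : Λ), φ (Pi.single g a) = a • d g := fun g a =>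
    Fintype.linearCombination_apply_single _ _ _ _
  let E : (G → Λ) →ₗ[ℤ] (G → ℤ) := ε.toIntAlgHom.toLinearMap.compLeft G
  have hE : ∀ (g : G) (a : Λ), E (Pi.single g a) = Pi.single g (ε a) := by
    intro g a
    funext x
    show ε ((Pi.single g a : G → Λ) x) = _
    by_cases h : x = g
    · subst h; simp
    · simp [h]
  let L : Submodule ℤ (G → ℤ) := ((LinearMap.ker φ).restrictScalars ℤ).map E
  let f : G →* Multiplicative ((G → ℤ) ⧸ L) := MonoidHom.mk'
    (fun g => Multiplicative.ofAdd (L.mkQ (Pi.single g 1))) (by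
      intro g h
      rw [← ofAdd_add, ← map_add]
      refine congrArg _ ((Submodule.Quotient.eq L).2
        ⟨Pi.single (g * h) 1 - (Pi.single g 1 + Pi.single h (u g)), ?_, ?_⟩)
      · show φ _ = 0
        rw [map_sub, map_add, hφ, hφ, hφ, one_smul, one_smul, hd, sub_self]
      · rw [map_sub, map_add, hE, hE, hE, map_one, hu])
  have hf : Function.Surjective (Abelianization.lift f) := by
    intro y
    obtain ⟨v, rfl⟩ := L.mkQ_surjective (Multiplicative.toAdd y) |>.imp fun v (hv : _ = _) =>
      (show Multiplicative.ofAdd (L.mkQ v) = y from congrArg Multiplicative.ofAdd hv)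
    refine ⟨∏ g, Abelianization.of g ^ v g, ?_⟩
    rw [map_prod]
    conv_rhs => rw [← Finset.univ_sum_single v, map_sum, ofAdd_sum]
    refine Finset.prod_congr rfl fun g _ => ?_
    rw [map_zpow, Abelianization.lift_apply_of]
    show Multiplicative.ofAdd (L.mkQ (Pi.single g 1)) ^ v g = _
    rw [← ofAdd_zsmul, ← map_zsmul, ← Pi.single_smul, smul_eq_mul, mul_one]
  haveI : Finite ((G → ℤ) ⧸ L) := Finite.of_surjective _ hf
  have hdvd : Nat.card ((G → ℤ) ⧸ L) ∣ Nat.card (Abelianization G) :=
    (Subgroup.card_dvd_of_surjective (Abelianization.lift f) hf :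
      Nat.card (Multiplicative ((G → ℤ) ⧸ L)) ∣ _)
  let bL := Submodule.smithNormalFormBotBasis (Pi.basisFun ℤ G) ((L.finiteQuotient_iff).1 this)
  have hdet := Submodule.natAbs_det_basis_change (Pi.basisFun ℤ G) L bL
  choose v hv hv' using fun i => (bL i).2
  refine ⟨(Matrix.of v).det, ?_, fun g => ?_⟩
  · rw [← hdet, Pi.basisFun_det_apply] at hdvd
    rw [RingHom.map_det]
    have : ε.mapMatrix (Matrix.of v) = Matrix.of (Subtype.val ∘ bL) := by
      ext i j
      exact congrFun (hv' i) j
    rwa [this]
  · have h1 : (Pi.single g (Matrix.of v).det : G → Λ) = ∑ i, (Matrix.of v).adjugate g i • v i := by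
      funext x
      have := congrFun (congrFun (Matrix.adjugate_mul (Matrix.of v)) g) x
      rw [Matrix.mul_apply] at this
      rw [Finset.sum_apply]
      refine Eq.trans ?_ this.symm
      by_cases h : g = x
      · subst h; simp
      · simp [h, Ne.symm h]
    rw [← hφ, h1, map_sum]
    refine Finset.sum_eq_zero fun i _ => ?_
    rw [map_smul, show φ (v i) = 0 from hv i, smul_zero]

theorem norm_eq_zero {G : Type*} [Group G] [Finite G] [Fintype (Abelianization G)] {B : Type*}
    [AddCommGroup B] (ρ : Representation ℤ (Abelianization G) B) (d : G → B)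
    (hd : ∀ g h, d (g * h) = d g + ρ (Abelianization.of g) (d h)) (g : G) :
    ∑ q, ρ q (d g) = 0 := by
  letI : Module (MonoidAlgebra ℤ (Abelianization G)) B := Module.compHom B ρ.asAlgebraHom.toRingHom
  have hs : ∀ (μ : MonoidAlgebra ℤ (Abelianization G)) (b : B), μ • b = ρ.asAlgebraHom μ b :=
    fun _ _ => rfl
  let ε := MonoidAlgebra.lift ℤ ℤ (Abelianization G) 1
  obtain ⟨μ, h1, h2⟩ := core ε.toRingHom (fun g => MonoidAlgebra.single (Abelianization.of g) 1)
    (fun g => by simp [ε]) (M := B × MonoidAlgebra ℤ (Abelianization G))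
    (fun g => (d g, MonoidAlgebra.single (Abelianization.of g) 1 - 1)) (fun g h => by
      refine Prod.ext ?_ ?_
      · simp [hs, hd]
      · simp [mul_sub, MonoidAlgebra.single_mul_single])
  have h3 : ∀ q, μ.coeff q = μ.coeff 1 := by
    intro q
    obtain ⟨x, rfl⟩ := QuotientGroup.mk_surjective (s := commutator G) q
    have h4 : μ * (MonoidAlgebra.single (Abelianization.of x) 1 - 1) = 0 := congrArg Prod.snd (h2 x)
    rw [mul_sub, mul_one, sub_eq_zero] at h4
    have := congrArg (fun a => a.coeff (Abelianization.of x)) h4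
    simp at this
    exact this.symm
  have h4 : μ = μ.coeff 1 • ∑ q, MonoidAlgebra.single q 1 := by
    classical
    ext q
    rw [MonoidAlgebra.coeff_smul_apply, MonoidAlgebra.coeff_sum]
    simp [h3 q, Finsupp.single_apply]
  generalize μ.coeff 1 = r at h4
  subst h4
  have h5 : (ε.toRingHom (r • ∑ q, MonoidAlgebra.single q 1)).natAbs =
      r.natAbs * Nat.card (Abelianization G) := by
    simp [ε, Int.natAbs_mul]
  rw [h5] at h1
  have h6 : r.natAbs = 1 := Nat.dvd_one.1 (Nat.dvd_of_mul_dvd_mul_right
    (Nat.card_pos (α := Abelianization G)) (by rwa [one_mul]))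
  have h7 := congrArg Prod.fst (h2 g)
  simp only [Prod.smul_fst, hs, map_zsmul, map_sum, Representation.asAlgebraHom_single_one,
    LinearMap.smul_apply, LinearMap.sum_apply, Prod.fst_zero] at h7
  rcases Int.natAbs_eq_iff.1 h6 with rfl | rfl
  · simpa using h7
  · simpa using h7

/-- The Principal Ideal Theorem of class field theory in its group-theoretic form: for every finite group `G`, the transfer homomorphism from `G` into the abelianization `G'/G''` of its derived subgroup `G'` is the trivial homomorphism. -/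
theorem result {G : Type*} [Group G] [Finite G] :
    MonoidHom.transfer (Abelianization.of : ↥(commutator G) →* Abelianization ↥(commutator G)) =
      (1 : G →* Abelianization ↥(commutator G)) := by
  ext g
  let T : (commutator G).LeftTransversal := default
  let α : Abelianization G → G := fun q => T.2.leftQuotientEquiv q
  have hα : ∀ q, Abelianization.of (α q) = q := fun q => T.2.quotientGroupMk_leftQuotientEquiv q
  have hm : ∀ (g : G) (q : Abelianization G),
      (α q)⁻¹ * (g * α ((Abelianization.of g)⁻¹ * q)) ∈ commutator G := by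
    intro g q
    rw [← Abelianization.ker_of, MonoidHom.mem_ker]
    simp [hα]
  let ρ : Representation ℤ (Abelianization G)
      (Abelianization G → Additive (Abelianization (commutator G))) :=
    { toFun := fun q => LinearMap.funLeft ℤ _ (q⁻¹ * ·)
      map_one' := by ext; simp
      map_mul' := fun a b => by ext; simp [LinearMap.funLeft, mul_assoc] }
  letI : Fintype (Abelianization G) := (commutator G).fintypeQuotientOfFiniteIndex
  have h := norm_eq_zero ρ (fun g q => Additive.ofMul (Abelianization.of ⟨_, hm g q⟩)) (by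
    intro g h
    funext q
    show _ = Additive.ofMul (Abelianization.of (G := commutator G) ⟨_, hm g q⟩) +
      Additive.ofMul (Abelianization.of (G := commutator G) ⟨_, hm h ((Abelianization.of g)⁻¹ * q)⟩)
    rw [← ofMul_mul, ← map_mul]
    congr 2
    ext
    simp [mul_assoc]) g
  have h2 := congrFun h 1
  rw [Finset.sum_apply] at h2
  have h3 : ∑ q : Abelianization G, 
      Additive.ofMul (Abelianization.of (G := commutator G) ⟨_, hm g q⟩) = 0 := by
    refine Eq.trans ?_ h2
    refine (Fintype.sum_equiv (Equiv.inv _) _ _ fun q => ?_).symm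
    show Additive.ofMul (Abelianization.of (G := commutator G) ⟨_, hm g (q⁻¹ * 1)⟩) = _
    simp
  rw [← ofMul_prod, ofMul_eq_zero] at h3
  rw [MonoidHom.transfer_def _ T, MonoidHom.one_apply, ← h3]
  refine Finset.prod_congr rfl fun q _ => congrArg _ (Subtype.ext ?_)
  show _ * (((g • T).2.leftQuotientEquiv q : G)) = _
  rw [Subgroup.smul_apply_eq_smul_apply_inv_smul]
  rfl

end Cfsg.Agent.S4320
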