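import Cfsg.Agent.TT.ESType
import Cfsg.Statements.S4416
-- import your own Cfsg.Agent.* helpers here

set_option autoImplicit false
open Cfsg

namespace Cfsg.Agent.S4416

open Cfsg.Agent.TT Cfsg.Agent.TT.ESM

/-- The sign character of `ZMod 2`. -/
def chi (a : ZMod 2) : ℤ := if a = 0 then 1 else -1

theorem chi_add : ∀ a b : ZMod 2, chi (a + b) = chi a * chi b := by decide

theorem chi_sum {ι : Type} (s : Finset ι) (f : ι → ZMod 2) :
    chi (∑ i ∈ s, f i) = ∏ i ∈ s, chi (f i) := by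
  classical
  induction s using Finset.induction_on with
  | empty => simp [chi]
  | insert a s ha ih => rw [Finset.sum_insert ha, Finset.prod_insert ha, chi_add, ih]

theorem card_sq {ι : Type} [Fintype ι] [DecidableEq ι]
    (β : (ι → ZMod 2) →ₗ[ZMod 2] (ι → ZMod 2) →ₗ[ZMod 2] ZMod 2) :
    (Nat.card {x : ESM β // x ^ 2 = 1} : ℤ) = 2 ^ Fintype.card ι + ∑ v, chi (β v v) := by
  have h2 : ∀ a : ZMod 2, a + a = 0 := by decide
  have key : ∀ x : ESM β, x ^ 2 = 1 ↔ β x.v x.v = 0 := fun x => by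
    rw [sq, ESM.ext_iff]
    simp only [mul_v, mul_a, one_v, one_a, h2, zero_add, and_iff_right_iff_imp]
    intro _
    funext i
    exact h2 _
  have e : {x : ESM β // x ^ 2 = 1} ≃ {v : ι → ZMod 2 // β v v = 0} × ZMod 2 :=
    { toFun := fun x => (⟨x.1.v, (key _).mp x.2⟩, x.1.a)
      invFun := fun y => ⟨⟨y.1.1, y.2⟩, (key _).mpr y.1.2⟩
      left_inv := fun _ => rfl
      right_inv := fun _ => rfl }
  have h1 : (2 : ℤ) ^ Fintype.card ι = ∑ _v : ι → ZMod 2, 1 := by simp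
  rw [Nat.card_congr e, Nat.card_prod, Nat.card_zmod, h1, ← Finset.sum_add_distrib,
    Nat.card_eq_fintype_card, Fintype.card_subtype, Finset.card_filter]
  push_cast
  rw [Finset.sum_mul]
  refine Finset.sum_congr rfl fun v _ => ?_
  unfold chi
  split_ifs <;> norm_num

theorem sum_plus (n : ℕ) :
    ∑ v : Fin n ⊕ Fin n → ZMod 2, chi (∑ i, v (.inl i) * v (.inr i)) = 2 ^ n := by
  have h1 : ∑ p : ZMod 2 × ZMod 2, chi (p.1 * p.2) = 2 := by decide
  have h2 := Finset.prod_univ_sum (fun _ : Fin n => (Finset.univ : Finset (ZMod 2 × ZMod 2)))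
    (fun _ p => chi (p.1 * p.2))
  rw [Fintype.piFinset_univ] at h2
  simp only [h1, Finset.prod_const, Finset.card_univ, Fintype.card_fin] at h2
  rw [h2]
  refine Fintype.sum_equiv ((Equiv.sumArrowEquivProdArrow _ _ _).trans
    (Equiv.arrowProdEquivProdArrow _ _ _).symm) _ _ fun v => ?_
  rw [chi_sum]
  rfl

theorem count_plus (n : ℕ) :
    Nat.card {x : ESM (bPlus n) // x ^ 2 = 1} = 2 ^ (2 * n) + 2 ^ n := by
  have := card_sq (bPlus n)
  simp only [bPlus_apply, sum_plus, Fintype.card_sum, Fintype.card_fin, ← two_mul] at this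
  exact_mod_cast this

theorem count_minus (m : ℕ) :
    Nat.card {x : ESM (bMinus m) // x ^ 2 = 1} + 2 ^ (m + 1) = 2 ^ (2 * (m + 1)) := by
  have h0 := card_sq (bMinus m)
  have h1 : ∑ w : Fin 2 → ZMod 2, chi (w 0 * w 0 + w 0 * w 1 + w 1 * w 1) = -2 := by decide
  have h2 : ∑ v, chi (bMinus m v v) = 2 ^ m * -2 := by
    rw [← sum_plus, ← h1, Finset.sum_mul_sum, ← Fintype.sum_prod_type']
    refine Fintype.sum_equiv (Equiv.sumArrowEquivProdArrow _ _ _) _ _ fun v => ?_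
    rw [bMinus_apply, chi_add]
    rfl
  rw [h2] at h0
  simp only [Fintype.card_sum, Fintype.card_fin] at h0
  have h3 : ((Nat.card {x : ESM (bMinus m) // x ^ 2 = 1} + 2 ^ (m + 1) : ℕ) : ℤ) =
      ((2 ^ (2 * (m + 1)) : ℕ) : ℤ) := by
    push_cast
    rw [h0]
    ring
  exact_mod_cast h3

theorem count_congr {E E' : Type*} [Group E] [Group E'] (e : E ≃* E') :
    Nat.card {x : E // x ^ 2 = 1} = Nat.card {x : E' // x ^ 2 = 1} :=
  Nat.card_congr (e.toEquiv.subtypeEquiv fun x => by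
    rw [MulEquiv.toEquiv_eq_coe, MulEquiv.coe_toEquiv, ← map_pow, map_eq_one_iff _ e.injective])

theorem cases {E : Type*} [Group E] [Finite E] (hE : Cfsg.IsExtraspecial 2 E) {n : ℕ}
    (hn : Nat.card E = 2 ^ (2 * n + 1)) : 1 ≤ n ∧
    ((Nonempty (E ≃* ESM (bPlus n)) ∧ Nat.card {x : E // x ^ 2 = 1} = 2 ^ (2 * n) + 2 ^ n) ∨
     (Nonempty (E ≃* ESM (bMinus (n - 1))) ∧
       Nat.card {x : E // x ^ 2 = 1} + 2 ^ n = 2 ^ (2 * n))) := by
  obtain ⟨h1, ⟨⟨e⟩⟩ | ⟨⟨e⟩⟩⟩ := exists_equiv_plus_or_minus hE hn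
  · exact ⟨h1, Or.inl ⟨⟨e⟩, (count_congr e).trans (count_plus n)⟩⟩
  · refine ⟨h1, Or.inr ⟨⟨e⟩, ?_⟩⟩
    have := count_minus (n - 1)
    rwa [Nat.sub_add_cancel h1, ← count_congr e] at this

/-- Classification of extraspecial 2-groups in intrinsic form. An extraspecial 2-group has order 2^(2m+1) for some m ≥ 1, and the number of its elements squaring to the identity is either 2^(2m) + 2^m or 2^(2m) − 2^m; two extraspecial 2-groups of the same order with the same number of such elements are isomorphic. (The two cases are the central products of m dihedral groups of order 8, and of m − 1 dihedral groups with one quaternion group.) -/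
theorem result (E : Type*) [Group E] [Finite E] (hE : Cfsg.IsExtraspecial 2 E) :
    (∃ m : ℕ, 1 ≤ m ∧ Nat.card E = 2 ^ (2 * m + 1) ∧
      (Nat.card {x : E // x ^ 2 = 1} = 2 ^ (2 * m) + 2 ^ m ∨ Nat.card {x : E // x ^ 2 = 1} = 2 ^ (2 * m) - 2 ^ m)) ∧
    ∀ (E' : Type*) [Group E'] [Finite E'], Cfsg.IsExtraspecial 2 E' → Nat.card E' = Nat.card E →
      Nat.card {x : E' // x ^ 2 = 1} = Nat.card {x : E // x ^ 2 = 1} → Nonempty (E ≃* E') := by
  haveI : Fact (Nat.Prime 2) := ⟨Nat.prime_two⟩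
  obtain ⟨z, hz, hne, -⟩ := Grp.ES.isES_top_of_isExtraspecial hE
  obtain ⟨m, x, y, B, -⟩ := hz.exists_sympBasis_two
  have hm : Nat.card E = 2 ^ (2 * m + 1) := by rw [← Subgroup.card_top, B.card]
  obtain ⟨h1, h2⟩ := cases hE hm
  refine ⟨⟨m, h1, hm, h2.imp And.right fun h => by have := h.2; omega⟩, ?_⟩
  intro E' _ _ hE' hc hs
  obtain ⟨-, h3⟩ := cases hE' (hc.trans hm)
  have hp : 0 < 2 ^ m := by positivity
  rcases h2 with ⟨⟨e⟩, h⟩ | ⟨⟨e⟩, h⟩ <;> rcases h3 with ⟨⟨e'⟩, h'⟩ | ⟨⟨e'⟩, h'⟩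
  · exact ⟨e.trans e'.symm⟩
  · omega
  · omega
  · exact ⟨e.trans e'.symm⟩

end Cfsg.Agent.S4416
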