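import Cfsg.Statements.S4423
import Mathlib
import Cfsg.Agent.Misc.Zsigmondy
import Cfsg.Agent.S4422

set_option autoImplicit false
open Cfsg

namespace Cfsg.Agent.S4423

open Cfsg.Agent.Misc.Zsig

theorem prod_le (S : Finset ℕ) (hS : ∀ p ∈ S, 2 ≤ p) :
    ∏ p ∈ S, p ≤ (S.card + 1) * ∏ p ∈ S, (p - 1) := by
  induction S using Finset.induction_on_max with
  | empty => simp
  | insert a S ha ih =>
    have haS : a ∉ S := fun h => lt_irrefl _ (ha a h)
    have ih := ih fun p hp => hS p (Finset.mem_insert_of_mem hp)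
    have h2 := hS a (Finset.mem_insert_self _ _)
    have hc : S.card ≤ (Finset.Ico 2 a).card := Finset.card_le_card fun p hp =>
      Finset.mem_Ico.2 ⟨hS p (Finset.mem_insert_of_mem hp), ha p hp⟩
    rw [Nat.card_Ico] at hc
    rw [Finset.prod_insert haS, Finset.prod_insert haS, Finset.card_insert_of_notMem haS]
    obtain ⟨b, rfl⟩ : ∃ b, a = b + 1 := ⟨a - 1, by omega⟩
    rw [Nat.add_sub_cancel, ← mul_assoc]
    refine (Nat.mul_le_mul_left _ ih).trans ?_
    rw [← mul_assoc]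
    refine Nat.mul_le_mul_right _ ?_
    have : S.card + 1 ≤ b := by omega
    nlinarith

theorem le_totient_mul {n : ℕ} (hn : 0 < n) : n ≤ n.totient * (Nat.log 2 n + 1) := by
  have h1 := prod_le n.primeFactors fun p hp => (Nat.prime_of_mem_primeFactors hp).two_le
  have h2 := Nat.totient_mul_prod_primeFactors n
  have h3 : 2 ^ n.primeFactors.card ≤ n := by
    refine le_trans ?_ (Nat.le_of_dvd hn (Nat.prod_primeFactors_dvd n))
    exact Finset.pow_card_le_prod _ _ _ fun p hp => (Nat.prime_of_mem_primeFactors hp).two_le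
  have h4 := Nat.le_log_of_pow_le (by norm_num) h3
  have h5 : 0 < ∏ p ∈ n.primeFactors, (p - 1) := Finset.prod_pos fun p hp => by
    have := (Nat.prime_of_mem_primeFactors hp).two_le; omega
  refine Nat.le_of_mul_le_mul_right ?_ h5
  rw [← h2, mul_assoc]
  exact Nat.mul_le_mul_left _ (h1.trans (Nat.mul_le_mul_right _ (by omega)))

theorem two_pow_le {e : ℕ} (he : 3 ≤ e) : 2 ^ e.totient ≤ phi e 2 ^ 2 := by
  obtain ⟨r, hr, d, rfl, hrd⟩ : ∃ r : ℕ, r.Prime ∧ ∃ d, e = d * r ∧ (r = 2 → r ∣ d) := by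
    by_cases h : ∃ r : ℕ, r.Prime ∧ r ∣ e ∧ r ≠ 2
    · obtain ⟨r, hr, ⟨d, rfl⟩, h2⟩ := h
      exact ⟨r, hr, d, mul_comm _ _, fun e => (h2 e).elim⟩
    · push Not at h
      have h1 := Nat.eq_prime_pow_of_unique_prime_dvd (p := 2) (by omega : e ≠ 0)
        fun {d} hd hde => h d hd hde
      generalize e.primeFactorsList.length = k at h1
      obtain ⟨j, rfl⟩ : ∃ j, k = j + 2 := by
        refine ⟨k - 2, ?_⟩
        by_contra hk
        have : k = 0 ∨ k = 1 := by omega
        rcases this with rfl | rfl <;> omega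
      exact ⟨2, Nat.prime_two, 2 ^ (j + 1), h1, fun _ => dvd_pow_self 2 (by omega)⟩
  have hr2 := hr.two_le
  have hd : 0 < d := Nat.pos_of_mul_pos_right (b := r) (by omega)
  obtain ⟨s, rfl⟩ : ∃ s, r = s + 1 := ⟨r - 1, by omega⟩
  have hs : 2 ≤ 2 ^ s := Nat.le_self_pow (by omega) 2
  have h1 : (2 ^ (s + 1) - 1) ^ d.totient ≤ phi d (2 ^ (s + 1)) := by
    rcases (show d = 1 ∨ 1 < d by omega) with rfl | hd1
    · have := phi_cast 1 (show 1 < 2 ^ (s + 1) by rw [pow_succ]; omega)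
      simp only [Polynomial.cyclotomic_one, Polynomial.eval_sub, Polynomial.eval_X,
        Polynomial.eval_one] at this
      rw [Nat.totient_one, pow_one]
      omega
    · exact (lt_phi hd1 (by rw [pow_succ]; omega)).le
  by_cases h : s + 1 ∣ d
  · rw [phi_mul_of_dvd hr h, mul_comm d, Nat.totient_mul_of_prime_of_dvd hr h, pow_mul]
    refine le_trans ?_ (Nat.pow_le_pow_left h1 2)
    rw [← pow_mul _ d.totient, mul_comm d.totient, pow_mul]
    refine Nat.pow_le_pow_left ?_ _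
    obtain ⟨t, ht⟩ : ∃ t, 2 ^ (s + 1) = t + 1 := ⟨2 ^ (s + 1) - 1, by rw [pow_succ]; omega⟩
    have : 3 ≤ t := by rw [pow_succ] at ht; omega
    rw [ht, Nat.add_sub_cancel]
    nlinarith
  · have h2 := phi_mul_of_not_dvd (a := 2) hr h
    have h3 := phi_le d (show 1 < 2 by norm_num)
    have hs2 : 2 ≤ s := by
      by_contra hs2
      exact h (hrd (by omega))
    have hs4 : 4 ≤ 2 ^ s := Nat.pow_le_pow_right (n := 2) two_pos hs2
    rw [mul_comm d, Nat.totient_mul_of_prime_of_not_dvd hr h, Nat.add_sub_cancel, pow_mul,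
      mul_comm (s + 1)]
    refine Nat.le_of_mul_le_mul_right ?_ (show 0 < (3 ^ d.totient) ^ 2 by positivity)
    rw [← mul_pow]
    refine le_trans ?_ (Nat.pow_le_pow_left (h1.trans (h2.symm.le.trans
      (Nat.mul_le_mul_left _ h3))) 2)
    rw [← pow_mul 3, ← pow_mul _ d.totient, mul_comm d.totient, pow_mul, pow_mul, ← mul_pow]
    refine Nat.pow_le_pow_left ?_ _
    obtain ⟨t, ht⟩ : ∃ t, 2 ^ s = t + 1 := ⟨2 ^ s - 1, by omega⟩
    rw [pow_succ 2 s, ht, show (t + 1) * 2 - 1 = 2 * t + 1 by omega]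
    have : 3 ≤ t := by omega
    nlinarith

def pp (q e : ℕ) : ℕ :=
  (List.range e).foldl (fun m i => if i = 0 then m else m / Nat.gcd m ((q ^ i - 1) * e)) (q ^ e - 1)

def goodm (q e m : ℕ) : Bool :=
  (q ^ e - 1) % m == 0 && (List.range e).all (fun i => i == 0 || Nat.gcd m (q ^ i - 1) == 1) &&
    Nat.ble (3 * e + 1) m

def exc : List (ℕ × ℕ) := [(2, 6), (2, 4), (2, 10), (2, 12), (2, 18), (3, 4), (3, 6), (5, 6), (2, 3),
  (2, 8), (2, 20), (4, 3), (4, 6)]

def chk (e t : ℕ) : Bool := (List.range (2 * e + 1)).all fun q =>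
  Nat.blt q 2 || (Nat.blt 2 q && Nat.ble (e * (2 * e + 1)) ((q - 1) ^ t)) || exc.contains (q, e) ||
    goodm q e (pp q e)

def tot (e : ℕ) : ℕ := ((List.range e).filter fun i => Nat.gcd e i == 1).length

theorem tot_eq (e : ℕ) : tot e = e.totient := by
  rw [Nat.totient, tot, Finset.card, Finset.filter_val, Finset.range_val, Multiset.range,
    Multiset.filter_coe, Multiset.coe_card]
  congr 2

theorem chk_all : (List.range 361).all (fun e => Nat.blt e 3 || chk e (tot e)) = true := by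
  decide +kernel

theorem chk_exc : ∀ x ∈ exc, x.1 ^ x.2 - 1 ∣ (x.2 + 1) * (∏ i ∈ Finset.Ico 1 x.2, (x.1 ^ i - 1)) ^ 2 ∨
    x.1 ^ x.2 - 1 ∣ (2 * x.2 + 1) * (∏ i ∈ Finset.Ico 1 x.2, (x.1 ^ i - 1)) ^ 2 := by
  decide +kernel

/-- Size of the primitive part of `q^e - 1`. For a prime power `q` and `e ≥ 3`, call a divisor of `q^e - 1` primitive when it is coprime to `q^i - 1` for every `1 ≤ i < e`; the primitive part is the largest primitive divisor. Apart from thirteen exceptional pairs, the primitive part is at least `3e + 1`: there is a primitive divisor `m ≥ 3e + 1` unless `(q, e)` is `(2, 6)` (where every primitive divisor is 1), one of `(2,4), (2,10), (2,12), (2,18), (3,4), (3,6), (5,6)` (where the primitive part is exactly `e + 1`), or one of `(2,3), (2,8), (2,20), (4,3), (4,6)` (where it is exactly `2e + 1`). The statement asserts the existence of a primitive divisor `m ≥ 3e + 1` outside the thirteen pairs, and that every primitive divisor is at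 most `2e + 1` for the thirteen pairs. -/
theorem result (q e : ℕ) (hq : IsPrimePow q) (he : 3 ≤ e) :
    ((q, e) ∉ [(2, 6), (2, 4), (2, 10), (2, 12), (2, 18), (3, 4), (3, 6), (5, 6), (2, 3), (2, 8), (2, 20), (4, 3), (4, 6)] →
      ∃ m : ℕ, m ∣ q ^ e - 1 ∧ (∀ i : ℕ, 1 ≤ i → i < e → Nat.Coprime m (q ^ i - 1)) ∧ 3 * e + 1 ≤ m) ∧
    ((q, e) ∈ [(2, 6), (2, 4), (2, 10), (2, 12), (2, 18), (3, 4), (3, 6), (5, 6), (2, 3), (2, 8), (2, 20), (4, 3), (4, 6)] →
      ∀ m : ℕ, m ∣ q ^ e - 1 → (∀ i : ℕ, 1 ≤ i → i < e → Nat.Coprime m (q ^ i - 1)) → m ≤ 2 * e + 1) := by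
  have hq2 : 1 < q := hq.one_lt
  refine ⟨fun hex => ?_, fun hex m hm hc => ?_⟩
  swap
  · have hcop : m.Coprime ((∏ i ∈ Finset.Ico 1 e, (q ^ i - 1)) ^ 2) :=
      (Nat.Coprime.prod_right fun i hi =>
        hc i (Finset.mem_Ico.1 hi).1 (Finset.mem_Ico.1 hi).2).pow_right 2
    rcases chk_exc _ hex with h | h
    · have := Nat.le_of_dvd (by omega) (hcop.dvd_of_dvd_mul_right (hm.trans h))
      simp only at this; omega
    · exact Nat.le_of_dvd (by omega) (hcop.dvd_of_dvd_mul_right (hm.trans h))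
  obtain ⟨m, r, hr, hmr, hm⟩ : ∃ m r, r ≤ e ∧ phi e q = m * r ∧
      ∀ s : ℕ, s.Prime → s ∣ m → ¬ s ∣ e := by
    by_cases h : ∃ r : ℕ, r.Prime ∧ r ∣ e ∧ r ∣ phi e q
    · obtain ⟨r, hr, hre, m, hm⟩ := h
      refine ⟨m, r, Nat.le_of_dvd (by omega) hre, by rw [hm, mul_comm], fun s hs hsm hse => ?_⟩
      have hsp : s ∣ phi e q := hm ▸ hsm.mul_left r
      obtain rfl : s = r := le_antisymm (le_of_dvd_phi (by omega) hq2 hr ⟨m, hm⟩ hs hse)
        (le_of_dvd_phi (by omega) hq2 hs hsp hr hre)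
      exact not_sq_dvd_phi (show 2 < e by omega) hq2 hr hre (by rw [hm, sq]; exact mul_dvd_mul_left _ hsm)
    · push Not at h
      exact ⟨phi e q, 1, by omega, (mul_one _).symm, fun s hs h1 h2 => h s hs h2 h1⟩
  have hmd : m ∣ phi e q := ⟨r, hmr⟩
  have hc : ∀ i : ℕ, 1 ≤ i → i < e → Nat.Coprime m (q ^ i - 1) := fun i hi hie =>
    Nat.coprime_of_dvd fun s hs h1 =>
      (isPPD_of_not_dvd (by omega) hq2 hs (h1.trans hmd) (hm s hs h1)).2.2 i hi hie
  by_cases hbig : 3 * e + 1 ≤ m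
  · exact ⟨m, hmd.trans (phi_dvd hq2), hc, hbig⟩
  have h1 := S4422.result q e m hq2 (by omega) (hmd.trans (phi_dvd hq2)) hc
  have h2 : m ≤ 2 * e + 1 := by
    rw [Nat.mod_eq_of_lt (show 1 < e by omega)] at h1
    have h3 := Nat.div_add_mod m e
    rw [h1] at h3
    have : m / e < 3 := by
      by_contra h4
      have := Nat.mul_le_mul_left e (not_lt.1 h4)
      omega
    have := Nat.mul_le_mul_left e (show m / e ≤ 2 by omega)
    omega
  have h3 : phi e q ≤ e * (2 * e + 1) := by rw [hmr, mul_comm]; exact Nat.mul_le_mul hr h2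
  have h4 := lt_phi (show 1 < e by omega) hq2
  have h5 : 2 ^ e.totient ≤ phi e q ^ 2 := by
    rcases (show q = 2 ∨ 2 < q by omega) with rfl | h
    · exact two_pow_le he
    · exact ((Nat.pow_le_pow_left (by omega) _).trans h4.le).trans (Nat.le_self_pow two_ne_zero _)
  have h6 : e ≤ 360 := by
    have a1 := le_totient_mul (show 0 < e by omega)
    have a2 := Nat.lt_pow_succ_log_self (b := 2) (by norm_num) e
    have a3 := Nat.pow_log_le_self 2 (show e ≠ 0 by omega)
    generalize Nat.log 2 e = L at a1 a2 a3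
    have a4 : 2 ^ e.totient < 2 ^ (4 * L + 8) := by
      calc 2 ^ e.totient ≤ (e * (2 * e + 1)) ^ 2 := h5.trans (Nat.pow_le_pow_left h3 2)
        _ < (2 ^ (L + 1) * (4 * 2 ^ (L + 1))) ^ 2 := Nat.pow_lt_pow_left
          (Nat.mul_lt_mul_of_lt_of_le a2 (by rw [Nat.succ_eq_add_one] at a2; omega)
            (by positivity)) two_ne_zero
        _ = 2 ^ (4 * L + 8) := by ring
    have a5 := (Nat.pow_lt_pow_iff_right (by norm_num)).1 a4
    have a6 : e ≤ (4 * L + 8) * (L + 1) := a1.trans (Nat.mul_le_mul_right _ a5.le)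
    have a7 : L ≤ 8 := by
      by_contra hL
      have : ∀ k, (4 * (k + 9) + 8) * (k + 9 + 1) < 2 ^ (k + 9) := fun k => by
        induction k with
        | zero => norm_num
        | succ k ih => rw [show k + 1 + 9 = k + 9 + 1 by ring, pow_succ]; nlinarith
      have := this (L - 9)
      rw [show L - 9 + 9 = L by omega] at this
      omega
    exact a6.trans (Nat.mul_le_mul (by omega : _ ≤ 40) (by omega : _ ≤ 9))
  have h7 : 2 ≤ e.totient := by
    have := (Nat.totient_even (show 2 < e by omega)).two_dvd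
    exact Nat.le_of_dvd (Nat.totient_pos.2 (by omega)) this
  have h8 : q < 2 * e + 1 := by
    by_contra h
    have a1 : (2 * e) ^ 2 ≤ (q - 1) ^ e.totient :=
      (Nat.pow_le_pow_left (by omega) 2).trans (Nat.pow_le_pow_right (by omega) h7)
    nlinarith
  have h9 := List.all_eq_true.1 chk_all e (List.mem_range.2 (by omega))
  rw [Bool.or_eq_true, Nat.blt_eq, tot_eq] at h9
  have h10 := List.all_eq_true.1 (h9.resolve_left (by omega)) q (List.mem_range.2 h8)
  simp only [Bool.or_eq_true, Bool.and_eq_true, Nat.blt_eq, Nat.ble_eq, List.contains_iff_mem,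
    goodm, beq_iff_eq, List.all_eq_true, List.mem_range] at h10
  rcases h10 with ((h | h) | h) | ⟨⟨a1, a2⟩, a3⟩
  · omega
  · omega
  · exact (hex h).elim
  · exact ⟨_, Nat.dvd_of_mod_eq_zero a1, fun i hi hie => (a2 i hie).resolve_left (by omega), a3⟩

end Cfsg.Agent.S4423
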