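import Cfsg.Statements.S4425
import Cfsg.Agent.Block.Contrib
import Cfsg.Agent.Block.ModExists
-- import your own Cfsg.Agent.* helpers here

set_option autoImplicit false
open Cfsg

namespace Cfsg.Agent.S4425

open Cfsg.Agent.Block Cfsg.Agent.Char
open scoped ComplexConjugate

theorem fun_eq {G : Type*} [Group G] (p : ℕ) (c : ℂ) (χ : G → ℂ) :
    (fun x : G => if p ∣ orderOf x then (0 : ℂ) else c * χ x) = c • regPart p χ := by
  funext x
  by_cases hx : p ∣ orderOf x
  · simp [hx, regPart_of_dvd _ hx]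
  · simp [hx, regPart_of_not_dvd _ hx]

/-- Let χ be an irreducible character of the finite group G, p a prime, p^a the p-part of the order of G and p^b the p-part of the degree χ(1). Let χ̃ be the class function equal to p^a · χ on p-regular elements and zero on p-singular elements. Then p^(−b) · χ̃ is a generalized character of G, while p^(−(b+1)) · χ̃ is not. -/
theorem result {G : Type*} [Group G] [Finite G] (p : ℕ) [Fact p.Prime] (χ : Cfsg.IrrCharacter G) : Cfsg.IsGeneralizedCharacter G (fun x : G => if p ∣ orderOf x then (0 : ℂ) else ((p ^ ((Nat.card G).factorization p - (Cfsg.charDegree (χ : G → ℂ)).factorization p) : ℕ) : ℂ) * (χ : G → ℂ) x) ∧ ¬ Cfsg.IsGeneralizedCharacter G (fun x : G => if p ∣ orderOf x then (0 : ℂ) else ((p ^ (Nat.card G).factorization p : ℕ) : ℂ) / ((p ^ ((Cfsg.charDegree (χ : G → ℂ)).factorization p + 1) : ℕ) : ℂ) * (χ : G → ℂ) x) := by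
  have := Fintype.ofFinite G
  obtain ⟨M, hM⟩ := exists_isPModular (p := p) Fact.out
  have hle := factorization_irrDegree_le χ.2 p
  have hp : (p : ℂ) ≠ 0 := by exact_mod_cast hM.1.ne_zero
  rw [fun_eq, fun_eq]
  constructor
  · refine ((χ.2.isClassFunction.regPart p).smul _).isGen_of_inner fun ψ hψ => ?_
    obtain ⟨n, hn⟩ := exists_int_pPart_inner hM.1 χ.2.isGen hψ.isGen
    rw [classInner_smul_left, Nat.cast_pow]
    have h1 := val_pPart_mul_inner_irr hM χ ψ
    rw [← Nat.add_sub_cancel' hle] at hn h1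
    refine exists_int_of_pow_mul hM hn ?_
    rw [pow_add, mul_assoc, map_mul, map_pow, mul_comm (val M (om _ _))] at h1
    rw [mul_left_cancel₀ (val_prime_pow_ne_zero hM _) h1]
    exact val_om_regElt_le χ.2 hψ.isGen
  · intro h
    have hB := isPBlock_blockOf (M := M) χ
    have hχ := self_mem_blockOf hM χ
    obtain ⟨ψ, hψ, h0⟩ := exists_blockHeight_eq_zero (p := p) ⟨χ, hχ⟩
    obtain ⟨n, hn⟩ := h.exists_int_inner ψ.2.isGen
    have h1 := val_pPart_mul_inner_irr hM χ (ψ : G → ℂ)
    rw [(val_om_regElt_eq_one_iff hM hB hχ ψ).2 ⟨hψ, h0⟩, one_mul] at h1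
    rw [classInner_smul_left, div_mul_eq_mul_div, div_eq_iff (by simp [hp]), Nat.cast_pow] at hn
    rw [hn, map_mul, Nat.cast_pow, map_pow] at h1
    have h2 := h1.ge.trans (mul_le_of_le_one_left' (val_intCast_le_one n))
    rw [val_prime_pow_le_iff hM] at h2
    omega

end Cfsg.Agent.S4425
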