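import Cfsg.Statements.S4427
import Mathlib
import Mathlib
import Cfsg.Agent.Block.IBrBlock
import Cfsg.Agent.Block.ModExists
import Cfsg.Agent.Char.Quot

set_option autoImplicit false
set_option linter.style.haveILetI false
open Cfsg

namespace Cfsg.Agent.S4427

open Cfsg.Agent.Char Cfsg.Agent.Block
open scoped ComplexConjugate

theorem exists_dec_le {G : Type*} [Group G] [Fintype G] {p : ℕ} {M : Ideal AlgInt}
    (hM : IsPModular p M) {i : IBr M G} (hi : ∀ g : G, ¬ p ∣ orderOf g → brauer i g = 1)
    (H : Subgroup G) [Fintype H] (hH : ¬ p ∣ Nat.card H) (χ : IrrCharacter G) :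
    ∃ n : ℕ, classInner (indFun H fun _ => 1) (χ : G → ℂ) = n ∧ dec (χ : G → ℂ) i ≤ n := by
  have hr : ∀ h : H, ¬ p ∣ orderOf (h : G) := fun h hh =>
    hH (hh.trans (by rw [Subgroup.orderOf_coe]; exact orderOf_dvd_natCard h))
  choose m hm using fun j : IBr M G => isIrrCharacter_one.isCharacter.exists_nat_inner
    (isCharacter_brauer_restrict hM hH j)
  have h1 : m i = 1 := by
    have := hm i
    simp only [hi _ (hr _)] at this
    rw [isIrrCharacter_one.inner_self] at this
    exact_mod_cast this.symm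
  refine ⟨∑ j, dec (χ : G → ℂ) j * m j, ?_, ?_⟩
  · rw [classInner_indFun_left _ _ χ.2.isClassFunction,
      show (fun h : H => (χ : G → ℂ) h) = ∑ j : IBr M G, dec (χ : G → ℂ) j • fun h : H => brauer j h by
        funext h
        simp [irr_eq_sum_dec hM χ (hr h)], classInner_sum_right]
    simp only [classInner_nsmul_right, hm]
    push_cast
    rfl
  · simpa [h1] using Finset.single_le_sum (f := fun j => dec (χ : G → ℂ) j * m j)
      (fun _ _ => Nat.zero_le _) (Finset.mem_univ i)

/-- Let G be a finite group of order p^a · q^b · r^c with p, q, r distinct primes, and suppose that G has exactly q^b · r^c elements of order not divisible by p. Then G has a normal p-complement: a normal subgroup of order q^b · r^c. -/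
theorem result {G : Type*} [Group G] [Finite G] (p q r a b c : ℕ) (hp : p.Prime) (hq : q.Prime) (hr : r.Prime) (hpq : p ≠ q) (hpr : p ≠ r) (hqr : q ≠ r) (hG : Nat.card G = p ^ a * q ^ b * r ^ c) (hcount : Nat.card {g : G // ¬ p ∣ orderOf g} = q ^ b * r ^ c) : ∃ N : Subgroup G, N.Normal ∧ Nat.card N = q ^ b * r ^ c := by
  classical
  haveI := Fintype.ofFinite G
  haveI := Fact.mk hq
  haveI := Fact.mk hr
  obtain ⟨M, hM⟩ := exists_isPModular hp
  obtain ⟨i, hi⟩ := exists_dec_ne_zero_of_irr (M := M) (irrOne G)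
  have h1 := regPart_eq_brauer_of_degree hM (irrOne G).2.isCharacter hi (by
    rw [charDegree_eq_of_eq (n := 1) (by simp [irrOne_apply])]
    exact Nat.one_le_iff_ne_zero.2 (brDeg_ne_zero i))
  have hi1 : ∀ g : G, ¬ p ∣ orderOf g → brauer i g = 1 := fun g hg => by
    rw [← h1]
    simp [regPart, hg, irrOne_apply]
  obtain ⟨Q, hQ⟩ := Sylow.exists_subgroup_card_pow_prime (G := G) q (n := b)
    (hG ▸ (dvd_mul_left _ _).mul_right _)
  obtain ⟨R, hR⟩ := Sylow.exists_subgroup_card_pow_prime (G := G) r (n := c)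
    (hG ▸ dvd_mul_left _ _)
  have hnd : ∀ {s k : ℕ}, s.Prime → p ≠ s → ¬ p ∣ s ^ k := fun hs h h' =>
    h ((Nat.prime_dvd_prime_iff_eq hp hs).1 (hp.dvd_of_dvd_pow h'))
  choose m hm hm' using exists_dec_le hM hi1 Q (hQ ▸ hnd hq hpq)
  choose n hn hn' using exists_dec_le hM hi1 R (hR ▸ hnd hr hpr)
  have hq0 : (q : ℂ) ^ b ≠ 0 := pow_ne_zero _ (Nat.cast_ne_zero.2 hq.ne_zero)
  have hr0 : (r : ℂ) ^ c ≠ 0 := pow_ne_zero _ (Nat.cast_ne_zero.2 hr.ne_zero)
  have hp0 : (p : ℂ) ^ a ≠ 0 := pow_ne_zero _ (Nat.cast_ne_zero.2 hp.ne_zero)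
  have h2 : classInner (indFun Q fun _ => 1) (indFun R fun _ => 1) = (p : ℂ) ^ a := by
    rw [classInner_indFun_right _ _ (isClassFunction_indFun _ _), classInner_one_right,
      Finset.sum_eq_single 1, OneMemClass.coe_one, indFun_one, hR]
    · have := Q.card_mul_index
      rw [hQ, hG] at this
      have h3 : (q : ℂ) ^ b * Q.index = p ^ a * q ^ b * r ^ c := by exact_mod_cast this
      push_cast
      field_simp
      exact mul_left_cancel₀ hq0 (by linear_combination h3)
    · intro y _ hy
      refine indFun_eq_zero _ _ _ fun x hx => (hy ?_).elim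
      have e1 := Q.orderOf_dvd_natCard hx
      have e2 := orderOf_dvd_natCard y
      rw [← MulAut.conj_apply, MulEquiv.orderOf_eq, Subgroup.orderOf_coe, hQ] at e1
      rw [hR] at e2
      exact orderOf_eq_one_iff.1 (Nat.eq_one_of_dvd_coprimes
        (Nat.Coprime.pow _ _ ((Nat.coprime_primes hq hr).2 hqr)) e1 e2)
    · simp
  have h3 : cartan i i ≤ p ^ a := by
    rw [(isClassFunction_indFun _ _).inner_eq_sum] at h2
    simp only [hm, hn, map_natCast] at h2
    have : ∑ χ, m χ * n χ = p ^ a := by exact_mod_cast h2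
    rw [← this]
    exact Finset.sum_le_sum fun χ _ => Nat.mul_le_mul (hm' χ) (hn' χ)
  have h4 : classInner (brauer i) (brauer i) = ((p : ℂ) ^ a)⁻¹ := by
    rw [classInner_def, Finset.sum_congr rfl (g := fun g => if ¬ p ∣ orderOf g then 1 else 0)
      fun g _ => by
        by_cases hg : p ∣ orderOf g
        · simp [hg, brauer_eq_zero hM i hg]
        · simp [hg, hi1 g hg], Finset.sum_boole, ← Fintype.card_subtype, ← Nat.card_eq_fintype_card,
      hcount, hG]
    push_cast
    field_simp
  have h5 : pim i - (p ^ a) • brauer i = 0 := by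
    have h6 := classInner_self_re_nonneg (pim i - (p ^ a) • brauer i)
    have h7 : classInner (pim i - (p ^ a) • brauer i) (pim i - (p ^ a) • brauer i) =
        ((cartan i i - p ^ a : ℝ) : ℂ) := by
      simp only [classInner_sub_left, classInner_sub_right, classInner_nsmul_left,
        classInner_nsmul_right, classInner_pim_pim, classInner_pim_brauer hM,
        classInner_brauer_pim hM, h4, if_true]
      push_cast
      field_simp
      ring
    rw [← classInner_self_eq_zero, h7]
    rw [h7, Complex.ofReal_re] at h6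
    have : (cartan i i : ℝ) ≤ p ^ a := by exact_mod_cast h3
    rw [show (cartan i i - p ^ a : ℝ) = 0 by linarith, Complex.ofReal_zero]
  refine ⟨charKer (pim i), charKer_normal (isClassFunction_pim i), ?_⟩
  rw [← hcount]
  refine Nat.card_congr (Equiv.subtypeEquivRight fun g => ?_)
  rw [mem_charKer_iff (isCharacter_pim i), sub_eq_zero.1 h5]
  have h8 : ¬ p ∣ orderOf (1 : G) := by simpa using hp.ne_one
  by_cases hg : p ∣ orderOf g
  · simpa [hg, brauer_eq_zero hM i hg, hi1 1 h8] using hp0.symm
  · simp [hg, hi1 g hg, hi1 1 h8]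

end Cfsg.Agent.S4427
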