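import Cfsg.Statements.S4430
import Cfsg.Agent.Block.Contrib
import Cfsg.Agent.Char.InducedRep
-- import your own Cfsg.Agent.* helpers here

set_option autoImplicit false
open Cfsg

namespace Cfsg.Agent.S4430

open Cfsg.Agent.Block Cfsg.Agent.Char
open scoped ComplexConjugate

/-- Let H be a subgroup of the finite group G, b a block of H whose induced block B₀ in G is defined (relative to a maximal ideal M of the algebraic integers containing p), and ξ ∈ b. For a block B of G let n_B be the value at 1 of the B-part of the induced character ξ^G (a natural number: the sum over χ ∈ B of the multiplicity of χ in ξ^G times χ(1)). Then for B = B₀ the exact power of p dividing n_B equals the exact power of p dividing ξ^G(1), while for every other block B either n_B = 0 or n_B is divisible by a strictly higher power of p than ξ^G(1). -/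
theorem result {G : Type*} [Group G] [Fintype G] (p : ℕ) [Fact p.Prime] (M : Ideal Cfsg.AlgInt) (hM : Cfsg.IsPModular p M) (H : Subgroup G) [Fintype H] (b : Set (Cfsg.IrrCharacter H)) (B₀ : Set (Cfsg.IrrCharacter G)) (hind : Cfsg.IsInducedBlock M H b B₀) (ξ : Cfsg.IrrCharacter H) (hξ : ξ ∈ b) : (∃ n : ℕ, Cfsg.blockPart B₀ (Cfsg.indFun H (ξ : H → ℂ)) 1 = (n : ℂ) ∧ n ≠ 0 ∧ n.factorization p = (Cfsg.charDegree (Cfsg.indFun H (ξ : H → ℂ))).factorization p) ∧ ∀ B : Set (Cfsg.IrrCharacter G), Cfsg.IsPBlock M B → B ≠ B₀ → ∃ n : ℕ, Cfsg.blockPart B (Cfsg.indFun H (ξ : H → ℂ)) 1 = (n : ℂ) ∧ (n = 0 ∨ (Cfsg.charDegree (Cfsg.indFun H (ξ : H → ℂ))).factorization p < n.factorization p) := by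
  classical
  have hind' : IsCharacter G (indFun H (ξ : H → ℂ)) := isCharacter_indFun H ξ.2.isCharacter
  have hnat : ∀ B : Set (IrrCharacter G), ∃ n : ℕ, blockPart B (indFun H (ξ : H → ℂ)) 1 = n := by
    intro B
    obtain ⟨c, hc, -⟩ := hind'.exists_coeff
    refine ⟨∑ χ ∈ Finset.univ.filter (· ∈ B), c χ * charDegree (χ : G → ℂ), ?_⟩
    rw [blockPart_apply, finsum_mem_irr_filter, Nat.cast_sum]
    exact Finset.sum_congr rfl fun χ _ => by
      rw [hc, Nat.cast_mul, cast_charDegree χ.2.isCharacter]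
  have hd : charDegree (indFun H (ξ : H → ℂ)) ≠ 0 := by
    intro h
    have h1 := cast_charDegree hind'
    rw [h, indFun_one, Nat.cast_zero, eq_comm, mul_eq_zero] at h1
    exact h1.elim (by exact_mod_cast Subgroup.index_ne_zero_of_finite) ξ.2.one_ne_zero
  have hv : val M (indFun H (ξ : H → ℂ) 1) =
      val M (p : ℂ) ^ (charDegree (indFun H (ξ : H → ℂ))).factorization p := by
    rw [← cast_charDegree hind', val_natCast_eq_pow hM hd]
  constructor
  · obtain ⟨n, hn⟩ := hnat B₀
    refine ⟨n, hn, (val_natCast_eq_pow_iff hM _ _).1 ?_⟩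
    rw [← hn, blockPart_indFun_one, map_mul, val_om_res_eSet_eq_one hM hind hξ, one_mul, hv]
  · intro B hB hne
    obtain ⟨n, hn⟩ := hnat B
    refine ⟨n, hn, ?_⟩
    rcases eq_or_ne n 0 with h0 | h0
    · exact Or.inl h0
    refine Or.inr ((val_prime_pow_lt_iff hM _ _).1 ?_)
    rw [← val_natCast_eq_pow hM h0, ← hn, blockPart_indFun_one, map_mul, hv]
    exact mul_lt_of_lt_one_left (val_prime_pow_pos hM _) (val_om_res_eSet_lt_one hM hind hB hne hξ)

end Cfsg.Agent.S4430
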