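import Cfsg.Statements.S4431
import Cfsg.Agent.Block.Contrib
-- import your own Cfsg.Agent.* helpers here

set_option autoImplicit false
open Cfsg

namespace Cfsg.Agent.S4431

open Cfsg.Agent.Block Cfsg.Agent.Char
open scoped ComplexConjugate

theorem fun_eq {G : Type*} [Group G] (p : ℕ) (c : ℂ) (χ : G → ℂ) :
    (fun x : G => if p ∣ orderOf x then (0 : ℂ) else c * χ x) = c • regPart p χ := by
  funext x
  by_cases hx : p ∣ orderOf x
  · simp [hx, regPart_of_dvd _ hx]
  · simp [hx, regPart_of_not_dvd _ hx]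

/-- Let H be a subgroup of the finite group G and b a block of H whose induced block B₀ in G is defined (relative to a maximal ideal M of the algebraic integers containing p). Let χ be an irreducible character of G, ψ ∈ b, and let η be the class function on H equal to p^a · χ on the p-regular elements of H and zero elsewhere, p^a being the p-part of the order of H. Then (a) if χ ∉ B₀, the number [η, ψ]/ψ(1) lies in the local ideal at M; (b) if χ ∈ B₀ has height zero, it does not. -/
theorem result {G : Type*} [Group G] [Fintype G] (p : ℕ) [Fact p.Prime] (M : Ideal Cfsg.AlgInt) (hM : Cfsg.IsPModular p M) (H : Subgroup G) [Fintype H] (b : Set (Cfsg.IrrCharacter H)) (B₀ : Set (Cfsg.IrrCharacter G)) (hind : Cfsg.IsInducedBlock M H b B₀) (χ : Cfsg.IrrCharacter G) (ψ : Cfsg.IrrCharacter H) (hψ : ψ ∈ b) : (χ ∉ B₀ → Cfsg.MemLocalIdeal M (Cfsg.classInner (fun h : H => if p ∣ orderOf h then (0 : ℂ) else ((p ^ (Nat.card H).factorization p : ℕ) : ℂ) * (χ : G → ℂ) h) (ψ : H → ℂ) / (ψ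 : H → ℂ) 1)) ∧ (χ ∈ B₀ → Cfsg.blockHeight p B₀ (χ : G → ℂ) = 0 → ¬ Cfsg.MemLocalIdeal M (Cfsg.classInner (fun h : H => if p ∣ orderOf h then (0 : ℂ) else ((p ^ (Nat.card H).factorization p : ℕ) : ℂ) * (χ : G → ℂ) h) (ψ : H → ℂ) / (ψ : H → ℂ) 1)) := by
  have hg : IsGeneralizedCharacter H (fun h : H => (χ : G → ℂ) h) := χ.2.isGen.restrict H
  rw [fun_eq p _ (fun h : H => (χ : G → ℂ) h), classInner_smul_left, Nat.cast_pow,
    classInner_regPart_symm hg ψ.2.isGen]
  obtain ⟨n, hn⟩ := exists_int_pPart_inner hM.1 ψ.2.isGen hg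
  have h1 := val_pPart_mul_inner_irr hM ψ (fun h : H => (χ : G → ℂ) h)
  rw [hn] at h1 ⊢
  rw [memLocalIdeal_iff_val hM (isAlgebraic_div (Block.isAlgebraic_intCast n)
    (ψ.2.isCharacter.isIntegral 1).isAlgebraic), map_div₀, h1, val_irr_one hM,
    mul_div_cancel_right₀ _ (val_prime_pow_ne_zero hM _)]
  refine ⟨fun h => val_om_regElt_restrict_lt hM hind hψ fun h' => h h'.1, fun h h0 => ?_⟩
  rw [val_om_regElt_restrict_eq_one hM hind hψ h h0]
  exact lt_irrefl _

end Cfsg.Agent.S4431
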