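import Cfsg.Statements.S4437
import Mathlib
import Cfsg.Agent.Block.CoverBridge

set_option autoImplicit false
open Cfsg

set_option linter.style.haveILetI false
set_option linter.unusedVariables false

namespace Cfsg.Agent.S4437

open Block Cfsg.Agent.Char Subgroup

theorem le_of_not_dvd {G : Type*} [Group G] [Finite G] {p : ℕ} [hp : Fact p.Prime]
    {H T R : Subgroup G} (hT : T ≤ normalizer (H : Set G)) (h : ¬ p ∣ H.relIndex T)
    (hR : R ≤ T) (hp' : IsPGroup p R) : R ≤ H := by
  intro x hx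
  haveI := normal_subgroupOf_of_le hT
  have h1 : x ^ H.relIndex T ∈ H := Subgroup.pow_index_mem (H.subgroupOf T) ⟨x, hR hx⟩
  obtain ⟨k, hk⟩ := IsPGroup.iff_orderOf.1 hp' ⟨x, hx⟩
  rw [← Subgroup.orderOf_coe] at hk
  have h2 : (H.relIndex T).Coprime (orderOf x) := by
    change (H.relIndex T).Coprime (orderOf ((⟨x, hx⟩ : R) : G))
    rw [hk]
    exact ((hp.out.coprime_iff_not_dvd.2 h).pow_left k).symm
  obtain ⟨m, hm⟩ := exists_pow_eq_self_of_coprime h2
  rw [← hm]
  exact H.pow_mem h1 m

/-- Let P be a p-subgroup of the finite group G, H = P·C_G(P), and b a block of H (relative to a maximal ideal M of the algebraic integers containing p) having P as a defect group; let B be the block of G induced by b. Let T be the stabilizer of b in N_G(P): the elements g of N_G(P) such that the g-conjugate of every member of b is again a member of b. Then B has defect group P if and only if p does not divide the index of H in T. -/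
theorem result {G : Type*} [Group G] [Fintype G] (p : ℕ) [Fact p.Prime] (M : Ideal Cfsg.AlgInt) (hM : Cfsg.IsPModular p M) (P : Subgroup G) (hP : IsPGroup p P) (H : Subgroup G) [Fintype H] (hH : H = P ⊔ Subgroup.centralizer (P : Set G)) (b : Set (Cfsg.IrrCharacter H)) (hb : Cfsg.IsPBlock M b) (hbP : Cfsg.IsDefectGroup p M b (P.subgroupOf H)) (B : Set (Cfsg.IrrCharacter G)) (hind : Cfsg.IsInducedBlock M H b B) (T : Subgroup G) (hT : ∀ g : G, g ∈ T ↔ (g ∈ Subgroup.normalizer (P : Set G) ∧ ∀ θ ∈ b, ∀ θ' : Cfsg.IrrCharacter H, (∀ h h' : H, (h' : G) = g * h * g⁻¹ → (θ' : H → ℂ) h' = (θ : H → ℂ) h) → θ' ∈ b)) : Cfsg.IsDefectGroup p M B P ↔ ¬ p ∣ H.relIndex T := by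
  classical
  haveI := charP_resField hM
  have hPH : P ≤ H := hH ▸ le_sup_left
  have hCH : centralizer (P : Set G) ≤ H := hH ▸ le_sup_right
  have hHN : H ≤ normalizer (P : Set G) := hH ▸ sup_centralizer_le_normalizer P
  have hNH : normalizer (P : Set G) ≤ normalizer (H : Set G) :=
    hH ▸ normalizer_le_normalizer_sup_centralizer P
  have hf : Alg.IsPrim (Alg.Z (resField M) H) (sbar M H b) := isPrim_bar_subtype hM hb
  have hf1 := (Alg.isPrim_Z_iff_of_normal hP hPH hHN inf_le_right hCH).1 hf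
  obtain ⟨e, he, hfe⟩ := hf1.exists_block_le hCH
  have hie : Alg.Inv H e := hH ▸ he.mem.1.inv_of_centralizer.sup he.mem.2
  have hfe' : sbar M H b = e := by
    rw [hf1.eq_osum hCH (hHN.trans (Alg.normalizer_le_normalizer_centralizer P)) he hfe,
      hie.osum_eq]
  have hBP : Alg.BP p ⊤ P (sbar M H b) := ⟨le_top, hP, by rw [top_inf_eq, hfe']; exact he⟩
  have hB := hind.2.1
  have hOf : Alg.Of p ⊤ (gbar M B) P (sbar M H b) :=
    ⟨isPrim_redAlg_eSet hM hB, hBP, (isInducedBlock_iff_br hM hP hPH hCH hHN hb hB).1 hind⟩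
  have hT' : T = Alg.nst ⊤ P (sbar M H b) := by
    ext g
    rw [hT, Alg.mem_nst]
    simp only [mem_top, true_and]
    refine and_congr_right fun hg => ?_
    have h1 := stabilizesBlock_iff hM hb (g := g)
    have h2 := Alg.map_cm_eq_iff.2 (hNH hg)
    constructor
    · intro h
      refine (h1.1 ⟨hNH hg, fun χ hχ => ?_⟩).2
      have h3 := (mem_trSet_conjEquiv h2 (f := {χ})).1
        (mem_trSet'.2 ⟨χ, rfl, rfl⟩)
      obtain ⟨ξ, rfl, h4⟩ := h3
      exact ⟨_, h ξ hχ _ h4, h4⟩
    · intro h θ hθ θ' h3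
      obtain ⟨χ', h4, h5⟩ := (h1.2 ⟨hNH hg, h⟩).2 θ hθ
      have : θ' = χ' := by
        refine Subtype.ext (funext fun x => ?_)
        have h6 : (x : G) = g * (conjEquiv h2 x : G) * g⁻¹ := by
          rw [coe_conjEquiv]; simp [mul_assoc]
        rw [h3 _ _ h6, h5 _ _ h6]
      rwa [this]
  have hHeq : H = ⊤ ⊓ centralizer (P : Set G) ⊔ P := by rw [top_inf_eq, sup_comm, hH]
  rw [← isDef_top_iff hM hB]
  constructor
  · intro h
    have := (hOf.maxBP_of_isDef h).not_dvd_relIndex
    rwa [← hT', ← hHeq] at this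
  · intro h
    refine (hOf.maxBP_of_isDef_center ?_ fun R hR hRp => ?_).isDef
    · refine hBP.isDef_inf_centralizer (L := H) (inf_le_right.trans hCH) ?_
        (isDef_sbar_of_isDefectGroup hM hb hPH hbP)
      exact Alg.le_nst le_top hHN hf.mem.2
    · rw [sup_comm, ← hHeq]
      refine le_of_not_dvd ?_ h (hT' ▸ hR) hRp
      rw [hT']
      exact (Alg.nst_le_normalizer _ _ _).trans hNH

end Cfsg.Agent.S4437
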