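import Cfsg.Statements.S4442
import Cfsg.Agent.Block.CycAll
-- import your own Cfsg.Agent.* helpers here

set_option autoImplicit false
open Cfsg

namespace Cfsg.Agent.S4442

open Cfsg.Agent.Block Cfsg.Agent.Char
open scoped ComplexConjugate

/-- Blocks of defect one. Let p be an odd prime and G a finite group whose Sylow p-subgroup P has order p; let C = C_G(P) and N = N_G(P), and fix a maximal ideal M of the algebraic integers containing p. Let B be a block of G with defect group P, b a block of C inducing B, and θ the member of b having P in its kernel (there is exactly one). Let T be the stabilizer of θ in N (the elements g ∈ N with θ(g c g⁻¹) = θ(c) for all c ∈ C) and e the index of C in T. Then e divides p − 1 and B contains exactly e + (p − 1)/e irreducible characters. Moreover B is the disjoint union of a set X of e characters and a set Y of (p − 1)/e characters such that, with f the index of C in N: every χ ∈ X has χ(1) ≡ ±(f/e)·θ(1)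 (mod p), there is one sign ε with ψ(1) ≡ ε f θ(1) (mod p) for all ψ ∈ Y, and all members of Y agree on the p-regular elements of G. -/
theorem result {G : Type*} [Group G] [Finite G] (p : ℕ) [Fact p.Prime] (M : Ideal Cfsg.AlgInt) (hM : Cfsg.IsPModular p M) (hodd : p ≠ 2) (P : Sylow p G) (hP : Nat.card P = p) (B : Set (Cfsg.IrrCharacter G)) (hB : Cfsg.IsPBlock M B) (hBP : Cfsg.IsDefectGroup p M B P) (b : Set (Cfsg.IrrCharacter (Subgroup.centralizer ((P : Subgroup G) : Set G)))) (hind : Cfsg.IsInducedBlock M (Subgroup.centralizer ((P : Subgroup G) : Set G)) b B) (θ : Cfsg.IrrCharacter (Subgroup.centralizer ((P : Subgroup G) : Set G))) (hθ : θ ∈ b) (hθP : ∀ x : Subgroup.centralizer ((P : Subgroup G) : Set G), (x : G) ∈ (P : Subgroup G) → (θ : Subgroup.centralizer ((P : Subgroup G) : Set G) → ℂ) x = (θ : Subgroup.centralizer ((P : Subgroup G) : Set G) → ℂ) 1) (T : Subgroup G) (hT : ∀ g : G, g ∈ T ↔ (g ∈ Subgroup.normalizer ((P : Subgroup G) : Set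 G) ∧ ∀ c c' : Subgroup.centralizer ((P : Subgroup G) : Set G), (c' : G) = g * c * g⁻¹ → (θ : Subgroup.centralizer ((P : Subgroup G) : Set G) → ℂ) c' = (θ : Subgroup.centralizer ((P : Subgroup G) : Set G) → ℂ) c)) (e f : ℕ) (he : (Subgroup.centralizer ((P : Subgroup G) : Set G)).relIndex T = e) (hf : (Subgroup.centralizer ((P : Subgroup G) : Set G)).relIndex (Subgroup.normalizer ((P : Subgroup G) : Set G)) = f) : e ∣ p - 1 ∧ Nat.card B = e + (p - 1) / e ∧ ∃ X Y : Set (Cfsg.IrrCharacter G), B = X ∪ Y ∧ Disjoint X Y ∧ Nat.card X = e ∧ Nat.card Y = (p - 1) / e ∧ (∀ χ ∈ X, (Cfsg.charDegree (χ : G → ℂ) : ℤ) ≡ ((f / e * Cfsg.charDegree (θ : Subgroup.centralizer ((P : Subgroup G) : Set G) → ℂ) : ℕ) : ℤ) [ZMOD p] ∨ (Cfsg.charDegree (χ : G → ℂ) : ℤ) ≡ -((f / e * Cfsg.charDegree (θ : Subgroup.centralizer ((P : Subgroup G) : Set G) → ℂ) : ℕ) : ℤ) [ZMOD p]) ∧ (∃ ε : ℤ, (ε = 1 ∨ ε = -1) ∧ ∀ ψ ∈ Y, (Cfsg.charDegree (ψ : G → ℂ) : ℤ) ≡ ε * ((f * Cfsg.charDegree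 (θ : Subgroup.centralizer ((P : Subgroup G) : Set G) → ℂ) : ℕ) : ℤ) [ZMOD p]) ∧ ∀ ψ ∈ Y, ∀ ψ' ∈ Y, ∀ g : G, ¬ p ∣ orderOf g → (ψ : G → ℂ) g = (ψ' : G → ℂ) g := by
  have := charP_resField hM
  have : NeZero (Nat.card (P : Subgroup G)) := ⟨Nat.card_pos.ne'⟩
  have hP' : Nat.card (P : Subgroup G) = p := hP
  let ω := zmodCyclicMulEquiv (isCyclic_of_prime_card hP')
  have hm := maxBP_of_isInducedBlock hM hind hBP
  have h : CycSet p M B P _ ω P _ b :=
    ⟨hM, hB, hm, le_rfl, hP', rfl, hind.1, Alg.PLE.refl hm.of.pair⟩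
  have hs := h.stable_of_ker hθ hθP
  obtain ⟨D, hD, hstr⟩ := h.exists_cycStr hθ hs
  obtain ⟨X, y, δ, ε, s, -⟩ := hstr (irrOne G)
  have hTN : T = Alg.nst ⊤ (P : Subgroup G) (cbar M P b) := by
    ext g
    rw [hT]
    refine ⟨fun ⟨h1, h2⟩ => Alg.mem_nst.2 ⟨trivial, h1, ?_⟩,
      fun h1 => ⟨Alg.nst_le_normalizer _ _ _ h1, hs g h1⟩⟩
    have h3 := Alg.map_cm_eq_iff.2 (Alg.normalizer_le_normalizer_centralizer _ h1)
    rw [Alg.mem_stab, ← sbar_trSet_conjEquiv h3 (eSet_mem_intAlg hM hind.1),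
      block_eq_of_mem hM (isPBlock_trSet _ hind.1) hind.1
        ((mem_trSet_conjEquiv h3).2 ⟨θ, hθ, h2⟩) hθ]
  have hR := h.card_R
  rw [← hTN, he] at hR
  rw [hTN] at hR
  have h1 := s.one_ne
  have hu : pPart p ((ex ω 1 : (P : Subgroup G)) : G) = (ex ω 1 : (P : Subgroup G)) :=
    pPart_eq_self_iff.2 (orderOf_eq_pow_of_mem P.isPGroup' (ex ω 1).2)
  obtain ⟨t, x, i, h2, h3, h4⟩ := h.exists_expand_prime hθ hD (hu.symm ▸ (ex ω 1).2)
    (pPart_ne_one_iff.1 (hu.symm ▸ h.ex_ne_one h1))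
  have h5 : e * t.card = f := by
    rw [h2, ← he, ← hf, hTN]
    exact Subgroup.relIndex_mul_relIndex _ _ _ h.CPN (Alg.nst_le_normalizer _ _ _)
  have he0 : 0 < e := hR ▸ Nat.card_pos
  have h6 : f / e = t.card := by rw [← h5, Nat.mul_div_cancel_left _ he0]
  have hdeg : ∀ χ ∈ B, val M (∑ g ∈ t, D (χ : G → ℂ) (i g) * charDegree θ.1 -
      (charDegree (χ : G → ℂ) : ℤ)) < 1 := fun χ hχ => by
    have h7 := val_char_mul_sub_lt_one hM χ.2.isCharacter (Commute.one_right _)
      (orderOf_eq_pow_of_mem P.isPGroup' (ex ω 1).2)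
    rw [mul_one, h4 _ (blockPart_irr_of_mem hχ)] at h7
    rw [Int.cast_natCast, cast_charDegree χ.2.isCharacter, cast_charDegree θ.2.isCharacter]
    convert h7 using 4 with g hg
    have h8 := (h3 g hg).2.2
    rw [hu] at h8
    rw [h8, extendByZero_of_mem _ _ (h.PC (ex ω _).2), hθP ⟨_, h.PC (ex ω (i g)).2⟩ (ex ω _).2]
  refine ⟨hR ▸ h.card_R_dvd, by rw [s.cardB, hR, hP'], X, y '' {j | j ≠ 0}, s.union, s.disjoint,
    s.cardX.trans hR, by rw [s.cardY, hR, hP'], fun χ hχ => ?_, ⟨-ε, ?_, ?_⟩, ?_⟩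
  · have h7 := hdeg χ (s.mem_of_memX hχ)
    rw [Finset.sum_congr rfl fun g hg => by rw [s.decX χ hχ _ (h3 g hg).1], Finset.sum_const,
      nsmul_eq_mul] at h7
    have h8 := (modEq_of_val_lt hM (a := t.card * (δ χ * charDegree θ.1))
      (by push_cast; exact h7)).symm
    rw [h6]
    rcases s.sgnX χ hχ with h9 | h9 <;> rw [h9] at h8
    · exact Or.inl (by simpa using h8)
    · exact Or.inr (by simpa using h8)
  · rcases s.sgn with h | h <;> simp [h]
  · rintro _ ⟨j, hj, rfl⟩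
    have h7 := hdeg _ (s.memY j hj)
    have h8 : val M (ε : ℂ) = 1 := by rcases s.sgn with h | h <;> simp [h]
    have h9 : val M (∑ g ∈ t, (ε * (rsum (inertR ω (Alg.nst ⊤ (P : Subgroup G) (cbar M P b)))
        (j * i g) - e)) * charDegree θ.1) < 1 := val_sum_lt_one fun g _ => by
      have := val_rsum_sub_lt hM (a := 1) (hP'.trans (pow_one p).symm)
        (inertR ω (Alg.nst ⊤ (P : Subgroup G) (cbar M P b))) (j * i g)
      rw [hR] at this
      rw [map_mul, map_mul, h8, one_mul]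
      exact mul_lt_one_of_nonneg_of_lt_one_left zero_le this (val_natCast_le_one _)
    refine (modEq_of_val_lt hM ?_).symm
    have h10 := val_add_lt_one h7 h9
    rw [sub_add_eq_add_sub, ← Finset.sum_add_distrib, Finset.sum_congr rfl fun g hg => by
      rw [s.decY j hj _ (h3 g hg).1, show ∀ a b c d : ℂ, -a * b * d + a * (b - c) * d =
        -a * c * d from fun a b c d => by ring], Finset.sum_const, nsmul_eq_mul] at h10
    convert h10 using 3
    rw [← h5]
    push_cast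
    ring
  · rintro _ ⟨j, hj, rfl⟩ _ ⟨j', hj', rfl⟩ g hg
    exact s.reg hj hj' hg

end Cfsg.Agent.S4442
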