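import Cfsg.Statements.S4443
import Cfsg.Agent.Block.Robinson

set_option autoImplicit false
open Cfsg

namespace Cfsg.Agent.S4443

/-- Let D be a normal p-subgroup of the finite group G, of order p^d, let p^a be the p-part of the order of G, and fix a Sylow p-subgroup S and a maximal ideal M of the algebraic integers containing p. Index by a finite type ι (via an injective map K) exactly the conjugacy classes of p-regular elements x of G for which D is a Sylow p-subgroup of C_G(x). For classes K_i, K_j let ω(i, j) be the number of pairs (y, z) ∈ K_i × K_j with z y⁻¹ ∈ S; this number is divisible by p^(a−d). Then the number of p-blocks of G having D as a defect group equals the rank over ℤ/pℤ of the matrix with (i, j) entry ω(i, j)/p^(a−d) reduced modulo p. -/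
theorem result {G : Type*} [Group G] [Finite G] (p : ℕ) [Fact p.Prime] (M : Ideal Cfsg.AlgInt) (hM : Cfsg.IsPModular p M) (D : Subgroup G) [D.Normal] (hD : IsPGroup p D) (S : Sylow p G) {ι : Type*} [Fintype ι] [DecidableEq ι] (K : ι → ConjClasses G) (hKinj : Function.Injective K) (hK : ∀ C : ConjClasses G, (∃ i, K i = C) ↔ ∃ x ∈ C.carrier, ¬ p ∣ orderOf x ∧ ∃ Q : Sylow p (Subgroup.centralizer ({x} : Set G)), (Q : Subgroup (Subgroup.centralizer ({x} : Set G))).map (Subgroup.centralizer ({x} : Set G)).subtype = D) : Nat.card {B : Set (Cfsg.IrrCharacter G) // Cfsg.IsPBlock M B ∧ Cfsg.IsDefectGroup p M B D} = (Matrix.of fun i j : ι => ((Nat.card {yz : G × G // yz.1 ∈ (K i).carrier ∧ yz.2 ∈ (K j).carrier ∧ yz.2 * yz.1⁻¹ ∈ (S : Subgroup G)} / p ^ ((Nat.card G).factorization p - (Nat.card D).factorization p) : ℕ) : ZMod p)).rank := by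
  open Cfsg.Agent.Block Cfsg.Agent.PLocal in
  classical
  have := charP_resField hM
  set I := {B : Set (Cfsg.IrrCharacter G) // Cfsg.IsPBlock M B ∧ Cfsg.IsDefectGroup p M B D}
  have := Fintype.ofFinite I
  choose r hr using fun B : I => block_nonempty hM B.2.1
  choose x hx1 hx2 Q hQ using fun i => (hK (K i)).1 ⟨i, rfl⟩
  have hxD : ∀ i, IsSylowIn p D (Subgroup.centralizer {x i}) := fun i => hQ i ▸ isSylowIn_map (Q i)
  have hmk : ∀ i, ConjClasses.mk (x i) = K i := fun i =>
    ConjClasses.mem_carrier_iff_mk_eq.1 (hx1 i)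
  have hmem : ∀ i g, g ∈ (K i).carrier ↔ IsConj (x i) g := fun i g => by
    rw [ConjClasses.mem_carrier_iff_mk_eq, ← hmk, eq_comm, ConjClasses.mk_eq_mk_iff_isConj]
  have hinj : ∀ i j, IsConj (x i) (x j) → i = j := fun i j h =>
    hKinj (by rw [← hmk, ← hmk]; exact ConjClasses.mk_eq_mk_iff_isConj.2 h)
  have hinv : ∀ a b : G, IsConj a⁻¹ b ↔ IsConj a b⁻¹ := fun a b => by
    rw [isConj_iff, isConj_iff]
    refine exists_congr fun c => ?_
    rw [← inv_inj]
    simp [mul_assoc]
  have hsupp : ∀ (B : I) g, val M (blockCoeff B.1 g) = 1 →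
      (∃ i, IsConj (x i) g) ∧ ∃ i, IsConj (x i)⁻¹ g := fun B g hg => by
    have h1 := isSylowIn_of_coeff_of_normal hM B.2.1 B.2.2 hg
    have h2 : ¬ p ∣ orderOf g := fun h => by
      rw [blockCoeff_eq_zero_of_val hM (val_blockCoeff_le_one hM B.2.1) h, map_zero] at hg
      exact zero_ne_one hg
    constructor
    · obtain ⟨i, hi⟩ := (hK (ConjClasses.mk g)).2
        ⟨g, ConjClasses.mem_carrier_mk, h2, h1.toSylow, h1.map_toSylow⟩
      exact ⟨i, (hmem i g).1 (hi ▸ ConjClasses.mem_carrier_mk)⟩
    · have h3 : IsSylowIn p D (Subgroup.centralizer {g⁻¹}) := by rwa [centralizer_singleton_inv]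
      obtain ⟨i, hi⟩ := (hK (ConjClasses.mk g⁻¹)).2
        ⟨g⁻¹, ConjClasses.mem_carrier_mk, by rwa [orderOf_inv], h3.toSylow, h3.map_toSylow⟩
      exact ⟨i, (hinv _ _).2 ((hmem i _).1 (hi ▸ ConjClasses.mem_carrier_mk))⟩
  have hone : ∀ B B' : I, red M (om (r B : G → ℂ) (eSet B'.1)) = (1 : Matrix I I _) B B' := by
    intro B B'
    rw [Matrix.one_apply]
    split_ifs with e
    · rw [← e, om_eSet_of_mem (hr B), red_one]
    · rw [om_eSet_of_notMem fun hm =>
        e (Subtype.ext (block_eq_of_mem hM B.2.1 B'.2.1 (hr B) hm)), red_zero]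
  let U : Matrix ι I (resField M) := fun i B => red M (centralChar (r B : G → ℂ) (x i)⁻¹)
  let W : Matrix I ι (resField M) := fun B i => red M (centralChar (r B : G → ℂ) (x i))
  let U' : Matrix I ι (resField M) := fun B i => red M (blockCoeff B.1 (x i)⁻¹)
  let W' : Matrix ι I (resField M) := fun i B => red M (blockCoeff B.1 (x i))
  let c : I → resField M := fun B => red M (blockCoeff B.1 1 /
    (p : ℂ) ^ ((Nat.card G).factorization p - (Nat.card D).factorization p))
  have hW : W * W' = 1 := by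
    ext B B'
    rw [← hone, red_om_eq_sum_reps x hinj (eSet_mem_ZA _) (eSet_mem_intAlg hM B'.2.1)
      fun g hg => (hsupp B' g hg).1]
    rfl
  have hU : U' * U = 1 := by
    ext B B'
    rw [← Matrix.transpose_one, Matrix.transpose_apply, ← hone,
      red_om_eq_sum_reps (fun i => (x i)⁻¹)
        (fun i j h => hinj i j (by rwa [hinv, inv_inv] at h)) (eSet_mem_ZA _)
        (eSet_mem_intAlg hM B.2.1) fun g hg => (hsupp B g hg).2, Matrix.mul_apply]
    exact Finset.sum_congr rfl fun i _ => mul_comm _ _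
  rw [← rank_map_ringHom (ZMod.castHom (dvd_refl p) (resField M))]
  have hA : (Matrix.of fun i j : ι => ((Nat.card {yz : G × G // yz.1 ∈ (K i).carrier ∧
      yz.2 ∈ (K j).carrier ∧ yz.2 * yz.1⁻¹ ∈ (S : Subgroup G)} /
        p ^ ((Nat.card G).factorization p - (Nat.card D).factorization p) : ℕ) : ZMod p)).map
      (ZMod.castHom (dvd_refl p) (resField M)) = U * (Matrix.diagonal c * W) := by
    ext i j
    obtain ⟨h1, h2⟩ := red_card_pairs hM S (hxD i) (hxD j) r hr
    simp only [Matrix.map_apply, Matrix.of_apply, map_natCast, hmem]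
    rw [map_div₀, map_pow, div_le_one₀ (val_prime_pow_pos hM _), val_natCast_le_pow_iff hM] at h1
    rw [← red_natCast, Nat.cast_div h1 (by exact_mod_cast pow_ne_zero _ hM.1.ne_zero),
      Nat.cast_pow, h2, Matrix.mul_apply]
    exact Finset.sum_congr rfl fun B _ => by rw [Matrix.diagonal_mul]
  rw [hA, Nat.card_eq_fintype_card]
  refine le_antisymm ?_ ((Matrix.rank_mul_le_left _ _).trans (Matrix.rank_le_card_width U))
  have h3 : U' * (U * (Matrix.diagonal c * W)) * W' = Matrix.diagonal c := by
    rw [← Matrix.mul_assoc, hU, Matrix.one_mul, Matrix.mul_assoc, hW, Matrix.mul_one]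
  have h4 : (Matrix.diagonal c).rank = Fintype.card I := by
    refine Matrix.rank_of_det_ne_zero ?_
    rw [Matrix.det_diagonal]
    exact Finset.prod_ne_zero_iff.2 fun B _ => red_blockCoeff_one_div_ne_zero hM B.2.1 B.2.2
  refine (h4.symm.trans (congrArg Matrix.rank h3.symm)).le.trans ?_
  exact (Matrix.rank_mul_le_left _ _).trans (Matrix.rank_mul_le_right _ _)

end Cfsg.Agent.S4443
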