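import Cfsg.Statements.S4450
import Mathlib
import Cfsg.Agent.Char.GlaubAbove

set_option autoImplicit false
open Cfsg

namespace Cfsg.Agent.S4450

open Cfsg.Agent.Char Subgroup

/-- Let N ≤ G be normal subgroups of the finite group Γ with the index of G in Γ coprime to the index of N in G, and Γ/G or G/N solvable. Then for every irreducible character ϑ of N invariant under conjugation by Γ, the induced character ϑ^G has an irreducible constituent invariant under conjugation by Γ. -/
theorem result {Γ : Type*} [Group Γ] [Fintype Γ] (G N : Subgroup Γ) [hG : G.Normal] [hN : N.Normal] [Fintype G] [Fintype N] (hNG : N ≤ G) (hcop : (G.index).Coprime (N.relIndex G)) (hsolv : Group.IsSolvable (Γ ⧸ G) ∨ Group.IsSolvable (G ⧸ N.subgroupOf G)) (θ : Cfsg.IrrCharacter N) (hinv : ∀ (x : Γ) (n : N), (θ : N → ℂ) ⟨x * n * x⁻¹, hN.conj_mem n n.2 x⟩ = (θ : N → ℂ) n) : ∃ χ : Cfsg.IrrCharacter G, Cfsg.classInner (fun n : N => (χ : G → ℂ) ⟨n, hNG n.2⟩) (θ : N → ℂ) ≠ 0 ∧ ∀ (x : Γ) (g : G), (χ : G → ℂ) ⟨x * g * x⁻¹,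 hG.conj_mem g g.2 x⟩ = (χ : G → ℂ) g := by
  let π := QuotientGroup.mk' N
  have hπ : Function.Surjective π := QuotientGroup.mk'_surjective N
  have hker : π.ker = N := QuotientGroup.ker_mk' N
  haveI : (G.map π).Normal := hG.map π hπ
  have h1 : Nat.card (G.map π) = N.relIndex G := by rw [← relIndex_ker, hker]
  have h2 : (G.map π).index = G.index := by
    rw [index_map_eq _ hπ (by rw [hker]; exact hNG)]
  obtain ⟨H, hH⟩ := exists_right_complement'_of_coprime (N := G.map π)
    (by rw [h1, h2]; exact hcop.symm)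
  let S := H.comap π
  have h3 : N.relIndex S = G.index := by
    have := relIndex_ker S π
    rw [hker, map_comap_eq_self_of_surjective hπ] at this
    rw [← h2, hH.symm.index_eq_card, this]
  have h4 : G.subgroupOf S ≤ N.subgroupOf S := by
    intro x hx
    have : π x ∈ G.map π ⊓ H := ⟨mem_map_of_mem _ hx, x.2⟩
    rw [hH.disjoint.eq_bot, mem_bot] at this
    exact (QuotientGroup.eq_one_iff (x : Γ)).1 this
  have h5 : G ⊔ S = ⊤ := by
    rw [eq_top_iff]
    intro x _
    obtain ⟨a, ⟨g, hg, rfl⟩, b, hb, e⟩ := mem_sup_of_normal_left.1 (hH.sup_eq_top.ge (mem_top (π x)))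
    have : x = g * (g⁻¹ * x) := by group
    rw [this]
    refine mul_mem (mem_sup_left hg) (mem_sup_right ?_)
    change π (g⁻¹ * x) ∈ H
    rw [map_mul, map_inv, ← e]
    simpa using hb
  have hθ : InvBy S θ.1 := fun s _ n n' e => by
    rw [← hinv s n]
    exact congrArg θ.1 (Subtype.ext e)
  have key : ∃ χ : IrrCharacter G, nmult hNG χ.1 θ.1 ≠ 0 ∧ InvBy S χ.1 := by
    rcases hsolv with h | h
    · refine exists_invBy_above_left le_normalizer_of_normal
        (solvMod_of_hom h ((QuotientGroup.mk' G).comp S.subtype) fun x hx => h4 ?_) θ hθ G hNG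
        le_normalizer_of_normal le_normalizer_of_normal (h3 ▸ hcop.symm)
      exact (QuotientGroup.eq_one_iff (x : Γ)).1 hx
    · exact exists_invBy_above_right le_normalizer_of_normal θ hθ G hNG
        le_normalizer_of_normal le_normalizer_of_normal (solvMod_of_quotient h) (h3 ▸ hcop.symm)
  obtain ⟨χ, h6, h7⟩ := key
  have h8 := (invBy_self χ.2.isClassFunction).sup le_normalizer_of_normal le_normalizer_of_normal h7
  rw [h5] at h8
  exact ⟨χ, (nmult_ne_zero_iff hNG χ θ).1 h6, fun x g => h8 x (mem_top x) g _ rfl⟩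

end Cfsg.Agent.S4450
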