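import Cfsg.Statements.S4451
import Mathlib
import Cfsg.Agent.Char.GlaubCyclic

set_option autoImplicit false
open Cfsg

namespace Cfsg.Agent.S4451

open Cfsg.Agent.Char Subgroup

/-- Let the finite group Γ be generated by a normal subgroup G and a cyclic subgroup S of coprime orders such that every non-identity element of S has the same centraliser C = G ⊓ C(S) in G. Let χ be an S-invariant irreducible character of G, χ̂ its canonical extension to Γ (determinantal order coprime to the order of S), and β the irreducible character of C with χ̂(c s) = ε₀ β(c) for c ∈ C and generators s of S (ε₀ = ±1). Then there are a sign ε = ±1, which may differ from ε₀, and a linear character μ of S with μ² = 1, such that: (a) χ̂(c x) = ε β(c) μ(x) for all c ∈ C and all x ∈ S other than 1; (b) the restriction of χ to C equals |S|·ϑ + ε β for some character ϑ of C or ϑ = 0; (c) |S| divides χ(1) − ε β(1). -/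
theorem result {Γ : Type*} [Group Γ] [Fintype Γ] (G S : Subgroup Γ) [Fintype G] (hnorm : ∀ s ∈ S, ∀ g ∈ G, s * g * s⁻¹ ∈ G) (hcop : (Nat.card G).Coprime (Nat.card S)) (htop : G ⊔ S = ⊤) (hcyc : IsCyclic S) (C : Subgroup Γ) [Fintype C] (hC : C = G ⊓ Subgroup.centralizer (S : Set Γ)) (hCG : C ≤ G) (hfpf : ∀ x ∈ S, x ≠ 1 → G ⊓ Subgroup.centralizer ({x} : Set Γ) = C) (χ : Cfsg.IrrCharacter G) (hinv : (∀ s ∈ S, ∀ g g' : G, (g' : Γ) = s * g * s⁻¹ → (χ : G → ℂ) g' = (χ : G → ℂ) g)) (χh : Cfsg.IrrCharacter Γ) (hext : (∀ g : G, (χh : Γ → ℂ) g = (χ : G → ℂ) g)) (hdet : (Cfsg.detOrder (χh : Γ → ℂ)).Coprime (Nat.card S)) (β : Cfsg.IrrCharacter C) (ε₀ : ℤ) (hε₀ : ε₀ = 1 ∨ ε₀ = -1) (hβ : ∀ c : C, ∀ s : Γ, Subgroup.zpowers s = S → (χh : Γ → ℂ) ((c : Γ) * s) = (ε₀ : ℂ) * (β : C → ℂ) c) : ∃ ε : ℤ, (ε = 1 ∨ ε = -1) ∧ (∃ μ : S → ℂ, Cfsg.IsCharacter S μ ∧ μ 1 = 1 ∧ (∀ x : S, μ x * μ x = 1) ∧ ∀ c : C, ∀ x : S, x ≠ 1 → (χh : Γ → ℂ) ((c : Γ)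 * x) = (ε : ℂ) * (β : C → ℂ) c * μ x) ∧ (∃ ϑ : C → ℂ, Cfsg.IsCharacter C ϑ ∧ (fun c : C => (χ : G → ℂ) ⟨c, hCG c.2⟩) = fun c => (Nat.card S : ℂ) * ϑ c + (ε : ℂ) * (β : C → ℂ) c) ∧ (Nat.card S : ℤ) ∣ (Cfsg.charDegree (χ : G → ℂ) : ℤ) - ε * (Cfsg.charDegree (β : C → ℂ) : ℤ) := by
  classical
  letI : Fintype S := Fintype.ofFinite S
  have hSG : S ≤ normalizer (G : Set Γ) := le_normalizer_iff.2 hnorm
  have hCS : C ≤ centralizer (S : Set Γ) := hC ▸ inf_le_right
  obtain ⟨s, hs⟩ := (Subgroup.isCyclic_iff_exists_zpowers_eq_top S).1 hcyc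
  have hsS : s ∈ S := hs.le (mem_zpowers s)
  have hirr : IsIrrCharacter G (fun g => χh.1 g) := by
    rw [funext hext]; exact χ.2
  have hcomm : ∀ a b : S, a * b = b * a := fun a b => IsCyclic.commGroup.mul_comm a b
  have hdeg : ∀ (ε : ℤ) (ϑ : C → ℂ), IsCharacter C ϑ → ((fun c : C => (χ : G → ℂ) ⟨c, hCG c.2⟩) =
      fun c => (Nat.card S : ℂ) * ϑ c + (ε : ℂ) * (β : C → ℂ) c) →
      (Nat.card S : ℤ) ∣ (charDegree (χ : G → ℂ) : ℤ) - ε * (charDegree (β : C → ℂ) : ℤ) := by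
    intro ε ϑ h1 h2
    obtain ⟨d, hd⟩ := h1.exists_nat_one
    refine ⟨d, ?_⟩
    have h3 : χ.1 1 = _ := congrFun h2 1
    rw [hd, ← coe_charDegree_irr, ← coe_charDegree_irr] at h3
    have : (((charDegree (χ : G → ℂ) : ℤ) - ε * (charDegree (β : C → ℂ) : ℤ) : ℤ) : ℂ) =
        (((Nat.card S : ℤ) * d : ℤ) : ℂ) := by
      push_cast
      rw [h3]; ring
    exact_mod_cast this
  have hres : ∀ c : C, χ.1 ⟨c, hCG c.2⟩ = χh.1 c := fun c => (hext ⟨c, hCG c.2⟩).symm
  have hβs : (fun c : C => χh.1 (c * s)) = (ε₀ : ℂ) • β.1 := funext fun c => hβ c s hs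
  by_cases hs1 : s = 1
  · subst hs1
    have h1 : ∀ c : C, χ.1 ⟨c, hCG c.2⟩ = ε₀ * β.1 c := fun c => by
      rw [hres]; simpa using hβ c 1 hs
    refine ⟨ε₀, hε₀, ⟨fun _ => 1, isCharacter_one, rfl, fun _ => by simp, fun c x hx => ?_⟩,
      ⟨0, isCharacter_zero, funext fun c => by simp [h1]⟩,
      hdeg ε₀ 0 isCharacter_zero (funext fun c => by simp [h1])⟩
    exact absurd (Subtype.ext (by simpa using hs.ge x.2)) hx
  have hs1' : (⟨s, hsS⟩ : S) ≠ 1 := fun h => hs1 (congrArg Subtype.val h)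
  let μ : IrrCharacter C → S → ℂ := fun γ t => classInner (fun c : C => χh.1 (c * t)) γ.1
  have hμ : ∀ γ, IsCharacter S (μ γ) := fun γ =>
    isCharacter_classInner_coset hCS χh.2.isCharacter γ.2.isCharacter
  have hle : ∀ γ (x : S), x ≠ 1 → ‖μ γ x‖ ≤ 1 := by
    intro γ x hx
    refine norm_classInner_le_one (classInner_coset_self hCG ?_ χh.2.isCharacter hirr) γ.2.inner_self
    refine cycPair_relCent (le_normalizer_bot G) bot_le (hSG x.2) (le_normalizer_bot ⊤ (mem_top _))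
      (m := Nat.card S) (by rwa [relIndex_bot_left]) (fun g _ => ?_) ?_ hCG
    · have : (x : Γ) ^ Nat.card S = 1 := congrArg Subtype.val (pow_card_eq_one' (x := x))
      rw [this]; simp
    · rw [relCent_bot, hfpf x x.2 fun h => hx (Subtype.ext h)]
  have hμs : ∀ γ, μ γ ⟨s, hsS⟩ = if β = γ then (ε₀ : ℂ) else 0 := fun γ => by
    simp only [μ, hβs, classInner_smul_left, irr_inner]
    split_ifs <;> simp
  have hε₀' : (ε₀ : ℂ) ≠ 0 := by rcases hε₀ with rfl | rfl <;> simp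
  have hother : ∀ γ, γ ≠ β → ∃ k : ℤ, μ γ = (k : ℂ) • regChar S := by
    intro γ hγ
    obtain ⟨k, h | ⟨ε, lam, hε, h⟩⟩ := eq_regChar_or_of_norm_le hcomm (hμ γ).isGen (hle γ)
    · exact ⟨k, h⟩
    · have := congrFun h ⟨s, hsS⟩
      rw [hμs, if_neg hγ.symm] at this
      replace this := this.symm
      rcases hε with rfl | rfl <;> simp [regChar_of_ne_one hs1'] at this
  obtain ⟨k, h | ⟨ε, lam, hε, h⟩⟩ := eq_regChar_or_of_norm_le hcomm (hμ β).isGen (hle β)
  · have := congrFun h ⟨s, hsS⟩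
    rw [hμs, if_pos rfl] at this
    simp [regChar_of_ne_one hs1', hε₀'] at this
  have hexp : ∀ (t : S) (c : C), χh.1 (c * t) = ∑ γ : IrrCharacter C, μ γ t * γ.1 c := fun t c =>
    (isClassFunction_coset hCS χh.2.isClassFunction t.2).apply_eq_sum_irr c
  have hall : ∀ γ, ∃ k : ℕ, μ γ 1 = Nat.card S * k + if γ = β then (ε : ℂ) else 0 := by
    intro γ
    obtain ⟨m, hm⟩ := (hμ γ).exists_nat_one
    have hn : 2 ≤ Nat.card S := by
      haveI : Nontrivial S := ⟨⟨_, _, hs1'⟩⟩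
      exact Finite.one_lt_card
    by_cases hγ : γ = β
    · subst hγ
      have h1 := congrFun h 1
      simp only [Pi.add_apply, Pi.smul_apply, regChar_one, smul_eq_mul, map_one, Units.val_one,
        mul_one] at h1
      have h2 : (m : ℤ) = k * Nat.card S + ε := by
        rw [hm] at h1; exact_mod_cast h1
      have h3 : 0 ≤ k := by
        by_contra h4
        have : k ≤ -1 := by omega
        rcases hε with rfl | rfl <;> nlinarith
      obtain ⟨k', rfl⟩ := Int.eq_ofNat_of_zero_le h3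
      exact ⟨k', by rw [h1, if_pos rfl]; push_cast; ring⟩
    · obtain ⟨k, hk⟩ := hother γ hγ
      have h1 := congrFun hk 1
      simp only [Pi.smul_apply, regChar_one, smul_eq_mul] at h1
      have h2 : (m : ℤ) = k * Nat.card S := by
        rw [hm] at h1; exact_mod_cast h1
      have h3 : 0 ≤ k := by
        by_contra h4
        have : k ≤ -1 := by omega
        nlinarith
      obtain ⟨k', rfl⟩ := Int.eq_ofNat_of_zero_le h3
      exact ⟨k', by rw [h1, if_neg hγ]; push_cast; ring⟩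
  choose κ hκ using hall
  have hϑ := isCharacter_sum_nsmul_irr κ
  have hb : (fun c : C => (χ : G → ℂ) ⟨c, hCG c.2⟩) = fun c => (Nat.card S : ℂ) *
      (∑ γ : IrrCharacter C, (κ γ : ℂ) • γ.1) c + (ε : ℂ) * (β : C → ℂ) c := by
    funext c
    have := hexp 1 c
    simp only [OneMemClass.coe_one, mul_one, hκ, add_mul, Finset.sum_add_distrib, ite_mul, zero_mul,
      Finset.sum_ite_eq', Finset.mem_univ, if_true] at this
    rw [hres, this, Finset.sum_apply, Finset.mul_sum]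
    simp [mul_assoc]
  refine ⟨ε, hε, ⟨fun x => lam x, isCharacter_hom lam, by simp, fun x => ?_, fun c x hx => ?_⟩,
    ⟨_, hϑ, hb⟩, hdeg ε _ hϑ hb⟩
  · have h1 := congrFun h ⟨s, hsS⟩
    rw [hμs, if_pos rfl] at h1
    simp only [Pi.add_apply, Pi.smul_apply, regChar_of_ne_one hs1', smul_eq_mul, mul_zero,
      zero_add] at h1
    have h2 : (lam ⟨s, hsS⟩ : ℂ) * lam ⟨s, hsS⟩ = 1 := by
      have e1 : (ε : ℂ) * ε = 1 := by rcases hε with rfl | rfl <;> simp
      have e2 : (ε₀ : ℂ) * ε₀ = 1 := by rcases hε₀ with rfl | rfl <;> simp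
      rw [h1] at e2
      linear_combination e2 - (lam ⟨s, hsS⟩ : ℂ) * lam ⟨s, hsS⟩ * e1
    obtain ⟨j, hj⟩ := hs.ge x.2
    have : x = ⟨s, hsS⟩ ^ j := Subtype.ext hj.symm
    change (lam x : ℂ) * lam x = 1
    rw [this, map_zpow, Units.val_zpow_eq_zpow_val, ← mul_zpow, h2, one_zpow]
  · rw [hexp, Finset.sum_eq_single β]
    · rw [h]
      simp only [Pi.add_apply, Pi.smul_apply, regChar_of_ne_one hx, smul_eq_mul, mul_zero, zero_add]
      ring
    · intro γ _ hγ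
      obtain ⟨k, hk⟩ := hother γ hγ
      rw [hk]
      simp [regChar_of_ne_one hx]
    · simp

end Cfsg.Agent.S4451
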