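import Cfsg.Statements.S4452
import Mathlib
import Cfsg.Agent.Char.GlaubCyclic
import Cfsg.Agent.Char.Gallagher

set_option autoImplicit false
open Cfsg

namespace Cfsg.Agent.S4452

open Cfsg.Agent.Char Subgroup

theorem card_coprime_eq {Γ : Type*} [Group Γ] [Finite Γ] (G S : Subgroup Γ) [hG : G.Normal]
    (htop : G ⊔ S = ⊤) (hcop : (Nat.card G).Coprime (Nat.card S)) :
    Nat.card {χ : IrrCharacter Γ // (charDegree χ.1).Coprime (Nat.card S)} =
      Nat.card {θ : IrrCharacter G // InvBy S θ.1} * Nat.card (S →* ℂˣ) := by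
  letI : Fintype Γ := Fintype.ofFinite Γ
  letI : Fintype G := Fintype.ofFinite G
  have hSG : S ≤ normalizer (G : Set Γ) := le_normalizer_of_normal
  have hbij : Function.Bijective ((QuotientGroup.mk' G).comp S.subtype) := by
    constructor
    · rw [injective_iff_map_eq_one]
      intro t ht
      exact Subtype.ext (Solv.eq_one_of_mem_of_coprime hcop
        ((QuotientGroup.eq_one_iff (t : Γ)).1 ht) t.2)
    · intro q
      obtain ⟨x, rfl⟩ := QuotientGroup.mk_surjective q
      obtain ⟨g, hg, t, ht, rfl⟩ := mem_sup_of_normal_left.1 (htop.ge (mem_top x))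
      exact ⟨⟨t, ht⟩, by simp [(QuotientGroup.eq_one_iff g).2 hg]⟩
  rw [Nat.card_congr (MulEquiv.ofBijective _ hbij).monoidHomCongrLeftEquiv, ← Nat.card_prod]
  choose E hE1 hE2 using exists_canonical_ext hSG hcop htop
  have hirr : ∀ θ hθ, IsIrrCharacter G (fun g : G => (E θ hθ).1 g) := fun θ hθ => by
    rw [funext (hE1 θ hθ)]; exact θ.2
  symm
  refine Nat.card_eq_of_bijective (fun x => ⟨⟨fun g => (E x.1.1 x.1.2).1 g *
    (x.2.comp (QuotientGroup.mk' G)) g, (E x.1.1 x.1.2).2.mul_linear _⟩, ?_⟩) ⟨?_, ?_⟩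
  · have : charDegree (fun g => (E x.1.1 x.1.2).1 g * (x.2.comp (QuotientGroup.mk' G)) g) =
        charDegree x.1.1.1 := charDegree_congr_one (by simpa using hE1 x.1.1 x.1.2 1)
    rw [this]
    exact hcop.coprime_dvd_left (x.1.1.2.deg_dvd_card (coe_charDegree_irr _).symm)
  · rintro ⟨⟨θ, hθ⟩, μ⟩ ⟨⟨θ', hθ'⟩, μ'⟩ e
    have e' := congrArg (fun χ => χ.1.1) e
    simp only at e'
    have h1 : θ = θ' := Subtype.ext (funext fun g => by
      have := congrFun e' g
      simpa [hE1, (QuotientGroup.eq_one_iff (g : Γ)).2 g.2] using this)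
    subst h1
    have h2 := gallagher_inj (E θ hθ).2.isCharacter (hirr θ hθ)
      (isIrrCharacter_hom (μ.comp (QuotientGroup.mk' G)))
      (fun n => by simp [(QuotientGroup.eq_one_iff (n : Γ)).2 n.2])
      (isIrrCharacter_hom (μ'.comp (QuotientGroup.mk' G)))
      (fun n => by simp [(QuotientGroup.eq_one_iff (n : Γ)).2 n.2])
      (funext fun g => by simpa [mul_comm] using congrFun e' g)
    have h3 := hom_coe_inj h2
    rw [QuotientGroup.monoidHom_ext G h3]
  · rintro ⟨χ, hχ⟩
    obtain ⟨θ, hθ, h0⟩ := exists_irr_inner_restrict_ne_zero G χ.2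
    have h1 := clifford_degree G χ.2 hθ h0
    obtain ⟨e, he⟩ := (χ.2.isCharacter.restrict G).exists_nat_inner hθ.isCharacter
    obtain ⟨d, -, hd⟩ := hθ.exists_nat_one
    rw [he, hd, ← coe_charDegree_irr] at h1
    have h2 : charDegree χ.1 = e * (inertia G θ).index * d := by exact_mod_cast h1
    have h3 : (inertia G θ).index = 1 := Nat.eq_one_of_dvd_coprimes hχ
      (h2 ▸ (Dvd.intro_left e rfl).mul_right d)
      ((index_dvd_of_le (le_inertia G hθ.isClassFunction)).trans (index_dvd_of_sup_eq_top htop))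
    have h4 := (inertia_eq_top_iff G).1 (index_eq_one.1 h3)
    have hinv : InvBy S θ := fun s _ n n' e => by
      rw [← h4 s n]
      exact congrArg θ (Subtype.ext e)
    obtain ⟨β, hβ, hβG, h5⟩ := gallagher_surj (E ⟨θ, hθ⟩ hinv).2.isCharacter (hirr ⟨θ, hθ⟩ hinv) χ.2
      (by rw [funext (hE1 ⟨θ, hθ⟩ hinv)]; exact h0)
    obtain ⟨b, -, hb⟩ := hβ.exists_nat_one
    have h6 : b ∣ G.index := hβ.deg_dvd_index_of_norm_eq hb G fun a ha => by rw [hβG ⟨a, ha⟩]
    have h7 : charDegree χ.1 = b * d := by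
      have := congrFun h5 1
      rw [Pi.mul_apply, hb, ← coe_charDegree_irr χ] at this
      have h8 : (E ⟨θ, hθ⟩ hinv).1 1 = d := (hE1 ⟨θ, hθ⟩ hinv 1).trans hd
      rw [h8] at this
      exact_mod_cast this.symm
    have h8 : b = 1 := Nat.eq_one_of_dvd_coprimes hχ (h7 ▸ Dvd.intro d rfl)
      (h6.trans (index_dvd_of_sup_eq_top htop))
    rw [h8, Nat.cast_one] at hb
    obtain ⟨lam, rfl⟩ := hβ.isCharacter.exists_linear hb
    refine ⟨(⟨⟨θ, hθ⟩, hinv⟩, QuotientGroup.lift G lam fun g hg => Units.ext ?_),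
      Subtype.ext (Subtype.ext ?_)⟩
    · simpa using hβG ⟨g, hg⟩
    · rw [← h5]
      funext g
      exact mul_comm _ _

/-- Let the finite group G be the product of a normal subgroup K and a solvable subgroup H of coprime orders, and let N = N_G(H). Then the number of irreducible characters of G of degree coprime to the order of H equals the number of irreducible characters of N of degree coprime to the order of H. (The two sets are in fact in a canonical bijection; only the equality of their sizes is stated here.) -/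
theorem result {G : Type*} [Group G] [Finite G] (K H : Subgroup G) [K.Normal] (hKH : K ⊔ H = ⊤) (hcop : (Nat.card K).Coprime (Nat.card H)) (hsolv : Group.IsSolvable H) : Nat.card {χ : Cfsg.IrrCharacter G // (Cfsg.charDegree (χ : G → ℂ)).Coprime (Nat.card H)} = Nat.card {η : Cfsg.IrrCharacter (Subgroup.normalizer (H : Set G)) // (Cfsg.charDegree (η : Subgroup.normalizer (H : Set G) → ℂ)).Coprime (Nat.card H)} := by
  set N := normalizer (H : Set G) with hN
  have hHN : H ≤ N := le_normalizer
  have hC : K ⊓ N = K ⊓ centralizer (H : Set G) := by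
    refine le_antisymm (fun k hk => ⟨hk.1, fun h hh => ?_⟩)
      (inf_le_inf_left _ (centralizer_le_normalizer _))
    have h1 : h * k * h⁻¹ * k⁻¹ ∈ K := mul_mem (Normal.conj_mem ‹_› k hk.1 h) (inv_mem hk.1)
    have h2 : h * k * h⁻¹ * k⁻¹ ∈ H := by
      have := mul_mem hh ((mem_normalizer_iff.1 hk.2 _).1 (inv_mem hh))
      simpa [mul_assoc] using this
    have := Solv.eq_one_of_mem_of_coprime hcop h1 h2
    rwa [mul_inv_eq_one, mul_inv_eq_iff_eq_mul] at this
  have e1 : H.subgroupOf N ≃* H := subgroupOfEquivOfLe hHN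
  have h1 : K.subgroupOf N ⊔ H.subgroupOf N = ⊤ := by
    rw [eq_top_iff]
    intro n _
    obtain ⟨k, hk, h, hh, e⟩ := mem_sup_of_normal_left.1 (hKH.ge (mem_top (n : G)))
    have hkN : k ∈ N := by
      rw [eq_mul_inv_of_mul_eq e]
      exact mul_mem n.2 (inv_mem (hHN hh))
    have : n = ⟨k, hkN⟩ * ⟨h, hHN hh⟩ := Subtype.ext e.symm
    rw [this]
    exact mul_mem (mem_sup_left hk) (mem_sup_right hh)
  have e2 : K.subgroupOf N ≃* (K ⊓ centralizer (H : Set G) : Subgroup G) := by
    rw [← hC, ← inf_subgroupOf_right]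
    exact subgroupOfEquivOfLe inf_le_right
  have h2 := card_coprime_eq (K.subgroupOf N) (H.subgroupOf N) h1 (by
    rw [Nat.card_congr e1.toEquiv, Nat.card_congr e2.toEquiv]
    exact hcop.coprime_dvd_left (card_dvd_of_le inf_le_left))
  rw [Nat.card_congr e1.toEquiv] at h2
  rw [h2, card_coprime_eq K H hKH hcop, card_invBy_eq hsolv K le_normalizer_of_normal hcop _ rfl,
    Nat.card_congr e1.monoidHomCongrLeftEquiv, Nat.card_congr (irrCongr e2),
    Nat.card_congr (Equiv.subtypeUnivEquiv fun θ => invBy_of_centralizer _ ?_)]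
  intro k hk h hh
  exact Subtype.ext ((hC.le ⟨hk, k.2⟩).2 h hh)

end Cfsg.Agent.S4452
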