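import Cfsg.Statements.S4453
import Cfsg.Agent.Char.IsaacsCorr

set_option autoImplicit false
open Cfsg

namespace Cfsg.Agent.S4453

open Cfsg.Agent.Char Cfsg.Agent.PLocal.Amb Subgroup

/-- Inside a finite group Γ let S normalise the solvable subgroup G of odd order with the orders of G and S coprime, let C = G ⊓ C(S), and let L ≤ K be S-invariant normal subgroups of G with K/L abelian, G = KC and H = LC (so C ≤ H ≤ G). Then for each S-invariant irreducible character χ of G there is exactly one S-invariant irreducible character ψ of H whose multiplicity in the restriction of χ to H is odd, and χ ↦ ψ is a bijection from the S-invariant irreducible characters of G onto those of H (distinct χ give distinct ψ, and every S-invariant ψ arises). -/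
theorem result {Γ : Type*} [Group Γ] [Fintype Γ] (G S : Subgroup Γ) [Fintype G] (hnorm : ∀ s ∈ S, ∀ g ∈ G, s * g * s⁻¹ ∈ G) (hcop : (Nat.card G).Coprime (Nat.card S)) (hGsolv : Group.IsSolvable G) (hodd : Odd (Nat.card G)) (C : Subgroup Γ) [Fintype C] (hC : C = G ⊓ Subgroup.centralizer (S : Set Γ)) (hCG : C ≤ G) (K L H : Subgroup Γ) [Fintype H] (hLK : L ≤ K) (hKG : K ≤ G) (hKn : ∀ g ∈ G, ∀ k ∈ K, g * k * g⁻¹ ∈ K) (hLn : ∀ g ∈ G, ∀ l ∈ L, g * l * g⁻¹ ∈ L) (hKS : ∀ s ∈ S, ∀ k ∈ K, s * k * s⁻¹ ∈ K) (hLS : ∀ s ∈ S, ∀ l ∈ L, s * l * s⁻¹ ∈ L) (hab : ∀ a ∈ K, ∀ b ∈ K, a * b * a⁻¹ * b⁻¹ ∈ L) (hGKC : K ⊔ C = G) (hH : H = L ⊔ C) (hHG : H ≤ G) : (∀ χ : Cfsg.IrrCharacter G, (∀ s ∈ S, ∀ g g' : G, (g' : Γ) = s * g * s⁻¹ → (χ : G → ℂ) g' = (χ : G → ℂ) g) → ∃! ψ : Cfsg.IrrCharacter H, (∀ s ∈ S, ∀ g g' : H, (g' : Γ) = s * g * s⁻¹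 → (ψ : H → ℂ) g' = (ψ : H → ℂ) g) ∧ ∃ m : ℕ, Cfsg.classInner (fun h : H => (χ : G → ℂ) ⟨h, hHG h.2⟩) (ψ : H → ℂ) = (m : ℂ) ∧ Odd m) ∧ (∀ χ χ' : Cfsg.IrrCharacter G, (∀ s ∈ S, ∀ g g' : G, (g' : Γ) = s * g * s⁻¹ → (χ : G → ℂ) g' = (χ : G → ℂ) g) → (∀ s ∈ S, ∀ g g' : G, (g' : Γ) = s * g * s⁻¹ → (χ' : G → ℂ) g' = (χ' : G → ℂ) g) → ∀ ψ : Cfsg.IrrCharacter H, (∀ s ∈ S, ∀ g g' : H, (g' : Γ) = s * g * s⁻¹ → (ψ : H → ℂ) g' = (ψ : H → ℂ) g) → ∀ m m' : ℕ, Cfsg.classInner (fun h : H => (χ : G → ℂ) ⟨h, hHG h.2⟩) (ψ : H → ℂ) = (m : ℂ) → Odd m → Cfsg.classInner (fun h : H => (χ' : G → ℂ) ⟨h, hHG h.2⟩) (ψ : H → ℂ) = (m' : ℂ) → Odd m' → χ = χ') ∧ (∀ ψ : Cfsg.IrrCharacter H, (∀ s ∈ S, ∀ g g' : H, (g' : Γ) = s * g * s⁻¹ → (ψ : H → ℂ) g' = (ψ : H → ℂ) g) → ∃ χ : Cfsg.IrrCharacter G, (∀ s ∈ S, ∀ g g' : G, (g' : Γ) = s * g * s⁻¹ → (χ :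 G → ℂ) g' = (χ : G → ℂ) g) ∧ ∃ m : ℕ, Cfsg.classInner (fun h : H => (χ : G → ℂ) ⟨h, hHG h.2⟩) (ψ : H → ℂ) = (m : ℂ) ∧ Odd m) := by
  have hn : ∀ {A B : Subgroup Γ}, (∀ s ∈ A, ∀ g ∈ B, s * g * s⁻¹ ∈ B) → A ≤ 𝐍[B] :=
    fun h => le_normalizer_iff_cj.2 fun s hs => cj_le_iff_forall.2 (h s hs)
  subst hC
  have hab' : ⁅K, K⁆ ≤ L := commutator_le.2 hab
  have hLH : L ≤ H := hH ▸ le_sup_left
  have hCH : G ⊓ 𝐂[S] ≤ H := hH ▸ le_sup_right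
  have hSH : S ≤ 𝐍[H] := hH ▸ le_normalizer_sup (hn hLS)
    (le_normalizer_inf (hn hnorm) (le_normalizer_centralizer le_normalizer))
  have h : IsaacsHyp G S K (K ⊓ H) H := by
    refine ⟨hn hnorm, hcop, hGsolv, by rwa [← even_iff_two_dvd, Nat.not_even_iff_odd], inf_le_left,
      hKG, hn hKn, ?_, hn hKS, le_normalizer_inf (hn hKS) hSH, hab'.trans (le_inf hLK hLH), hGKC.ge,
      le_antisymm (hH.le.trans (sup_le_sup_right (le_inf hLK hLH) _)) (sup_le inf_le_right hCH),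
      le_inf inf_le_left ((inf_le_inf_right _ hKG).trans hCH)⟩
    rw [← hGKC]
    exact sup_le (mem_normalizer_of_commutator_le (hab'.trans (le_inf hLK hLH)) inf_le_left)
      (le_normalizer_inf (inf_le_left.trans (hn hKn)) (hCH.trans le_normalizer))
  have g := h.gcorr
  have key : ∀ (χ : IrrCharacter G) (ψ : IrrCharacter H),
      (∃ m : ℕ, classInner (fun h : H => χ.1 ⟨h, hHG h.2⟩) ψ.1 = m ∧ Odd m) ↔
        ¬ 2 ∣ nmult hHG χ.1 ψ.1 := fun χ ψ => by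
    rw [← even_iff_two_dvd, Nat.not_even_iff_odd]
    exact ⟨fun ⟨m, h1, h2⟩ => by rwa [nmult_eq_of hHG h1], fun h1 =>
      ⟨_, (coe_nmult_irr hHG χ ψ).symm, h1⟩⟩
  refine ⟨fun χ hχ => ?_, fun χ χ' hχ hχ' ψ hψ m m' h1 h2 h3 h4 =>
    g.inj χ χ' hχ hχ' ψ hψ ((key χ ψ).1 ⟨m, h1, h2⟩) ((key χ' ψ).1 ⟨m', h3, h4⟩), fun ψ hψ => ?_⟩
  · obtain ⟨ψ, h1, h2⟩ := g.ex χ hχ
    exact ⟨ψ, ⟨h1, (key χ ψ).2 h2⟩, fun ψ' h3 => g.uniq χ hχ _ _ h3.1 h1 ((key χ ψ').1 h3.2) h2⟩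
  · obtain ⟨χ, h1, h2⟩ := g.surj ψ hψ
    exact ⟨χ, h1, (key χ ψ).2 h2⟩

end Cfsg.Agent.S4453
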