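import Cfsg.Statements.S4454
import Mathlib
import Cfsg.Agent.Char.GlaubCyclic
import Cfsg.Agent.Char.Induction

set_option autoImplicit false
open Cfsg

namespace Cfsg.Agent.S4454

open Cfsg.Agent.Char Subgroup

theorem fus_frob {Γ : Type*} [Group Γ] {G N : Subgroup Γ} [hN : N.Normal]
    {x : Γ} (hx : ∀ g : Γ, g ∈ G → x * g * x⁻¹ * g⁻¹ ∈ N → g ∈ N) {g c c' : Γ} (hg : g ∈ G)
    (hc : c ∈ N) (hc' : c' ∈ N) (e : g * (c * x) * g⁻¹ = c' * x) : g ∈ N := by
  refine hx g hg ?_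
  have : x * g * x⁻¹ * g⁻¹ = c'⁻¹ * (g * c * g⁻¹) := by
    calc x * g * x⁻¹ * g⁻¹ = c'⁻¹ * (c' * x) * g * x⁻¹ * g⁻¹ := by group
      _ = _ := by rw [← e]; group
  rw [this]
  exact mul_mem (inv_mem hc') (hN.conj_mem c hc g)

theorem cycPair_frob {Γ : Type*} [Group Γ] (G N : Subgroup Γ) [hG : G.Normal] [hN : N.Normal]
    (hNG : N ≤ G) {x : Γ} (hx : ∀ g : Γ, g ∈ G → x * g * x⁻¹ * g⁻¹ ∈ N → g ∈ N) :
    CycPair (inclusion (le_sup_left : G ≤ G ⊔ zpowers x))
      (inclusion (le_sup_left : N ≤ N ⊔ zpowers x))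
      (inclusion (sup_le_sup_right hNG _)) (inclusion hNG) ⟨x, mem_sup_right (mem_zpowers x)⟩ := by
  refine ⟨isCyc_inclusion (le_normalizer_of_normal (mem_top x)),
    isCyc_inclusion (le_normalizer_of_normal (mem_top x)), fun _ => rfl, inclusion_injective _, ?_⟩
  intro g c c' e
  rw [inclusion_range]
  exact fus_frob hx g.2 c.2 c'.2 (congrArg Subtype.val e)

/-- Let N ≤ G be normal subgroups of the finite group Γ with Γ/G cyclic and Γ/N a Frobenius group with kernel G/N: G ≠ Γ, N ≠ G, and no element of Γ outside G fixes a non-identity coset of N in G under conjugation. Let ϑ be an irreducible character of N invariant under conjugation by Γ and suppose ϑ is fully ramified in G: the character of G induced from ϑ equals e·χ for an irreducible character χ of G and a natural number e. Then the index of G in Γ divides e − 1 or e + 1. -/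
theorem result {Γ : Type*} [Group Γ] [Fintype Γ] (G N : Subgroup Γ) [hG : G.Normal] [hN : N.Normal] [Fintype G] [Fintype N] (hNG : N ≤ G) (hGlt : G ≠ ⊤) (hNlt : N ≠ G) (hcyc : IsCyclic (Γ ⧸ G)) (hfrob : ∀ x : Γ, x ∉ G → ∀ g : Γ, g ∈ G → x * g * x⁻¹ * g⁻¹ ∈ N → g ∈ N) (θ : Cfsg.IrrCharacter N) (hinv : ∀ (x : Γ) (n : N), (θ : N → ℂ) ⟨x * n * x⁻¹, hN.conj_mem n n.2 x⟩ = (θ : N → ℂ) n) (χ : Cfsg.IrrCharacter G) (e : ℕ) (hram : Cfsg.indFun (N.subgroupOf G) (fun n : N.subgroupOf G => (θ : N → ℂ) ⟨(n : G), n.2⟩) = fun g => (e : ℂ) * (χ : G → ℂ) g) : (G.index : ℤ) ∣ (e : ℤ) - 1 ∨ (G.index : ℤ) ∣ (e : ℤ) + 1 := by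
  classical
  letI : Fintype (N.subgroupOf G) := Fintype.ofFinite _
  obtain ⟨q, hq⟩ := IsCyclic.exists_generator (α := Γ ⧸ G)
  obtain ⟨s, rfl⟩ := QuotientGroup.mk_surjective q
  have htop : G ⊔ zpowers s = ⊤ := by
    rw [eq_top_iff]
    intro x _
    obtain ⟨k, hk⟩ := hq (QuotientGroup.mk x)
    have h1 : (s ^ k)⁻¹ * x ∈ G := QuotientGroup.eq.1 (by simpa using hk)
    have : x = s ^ k * ((s ^ k)⁻¹ * x) := by group
    rw [this]
    exact mul_mem (mem_sup_right ⟨k, rfl⟩) (mem_sup_left h1)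
  have hsG : s ∉ G := fun h => hGlt (by rw [← htop, sup_eq_left.2 (zpowers_le.2 h)])
  let D := N ⊔ zpowers s
  have hND : N ≤ D := le_sup_left
  have hsD : s ∈ D := mem_sup_right (mem_zpowers s)
  have hcyc' : IsCyc (inclusion hND) ⟨s, hsD⟩ := isCyc_inclusion (le_normalizer_of_normal (mem_top s))
  have hcomm := hcyc'.commutator_le
  rw [inclusion_range] at hcomm
  have hDG : ∀ d ∈ D, d ∈ G → d ∈ N := fun d hd hdG => hfrob s hsG d hdG
    (hcomm (commutator_mem_commutator (mem_top (⟨s, hsD⟩ : D)) (mem_top (⟨d, hd⟩ : D))))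
  have hidx : G.index = N.relIndex D := by
    have h1 : G ⊔ D = ⊤ := by rw [eq_top_iff, ← htop]; exact sup_le_sup_left le_sup_right _
    have h2 : G ⊓ D = N := le_antisymm (fun x hx => hDG x hx.2 hx.1) (le_inf hNG hND)
    rw [← relIndex_top_right, ← h1, relIndex_sup_left, ← inf_relIndex_right, h2]
  have hp : CycPair G.subtype (inclusion hND) D.subtype (inclusion hNG) ⟨s, hsD⟩ := by
    refine ⟨⟨G.subtype_injective, by rwa [range_subtype], by rwa [range_subtype]⟩, hcyc',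
      fun _ => rfl, D.subtype_injective, fun g c c' e => ?_⟩
    rw [inclusion_range]
    exact fus_frob (hfrob s hsG) g.2 c.2 c'.2 e
  have hθ : InvBy ⊤ θ.1 := fun s _ n n' e => by
    rw [← hinv s n]
    exact congrArg θ.1 (Subtype.ext e)
  have hmult : ∀ ψ : IrrCharacter G, (nmult hNG ψ.1 θ.1 : ℂ) = e * if χ = ψ then 1 else 0 := by
    intro ψ
    rw [coe_nmult_subgroupOf hNG ψ.2.isCharacter θ.2.isCharacter, ← classInner_indFun_eq_restrict _
      (isIrr_subgroupOf hNG θ.2).isGen ψ.2.isGen, hram, ← irr_inner, ← classInner_smul_left]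
    rfl
  have he : e ≠ 0 := by
    rintro rfl
    obtain ⟨ψ, hψ⟩ := exists_nmult_ne_zero_above hNG θ
    exact hψ (by simpa using hmult ψ)
  have hχθ : nmult hNG χ.1 θ.1 = e := by simpa using hmult χ
  have hχ : (⟨s, le_normalizer_of_normal (mem_top s)⟩ : normalizer (G : Set Γ)) • χ = χ := by
    by_contra hne
    have h1 := hmult ((⟨s, le_normalizer_of_normal (mem_top s)⟩ : normalizer (G : Set Γ)) • χ)
    rw [if_neg (Ne.symm hne), mul_zero, Nat.cast_eq_zero,
      ← hθ.smul_eq (x := ⟨s, le_normalizer_of_normal (mem_top s)⟩) (mem_top _),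
      nmult_smul hNG χ θ _ _ rfl, hχθ] at h1
    exact he h1
  obtain ⟨η, hη, hext⟩ := hp.cyc.exists_ext χ.2 ((irr_smul_eq_iff _ _).1 hχ)
  have hirr : IsIrrCharacter G (fun g => η (G.subtype g)) := by rw [funext hext]; exact χ.2
  obtain ⟨ξ, hξ, hξN, h0⟩ := hp.exists_right hη.isCharacter hirr
  have hμ := hp.isCharacter_mu hη.isCharacter hξ.isCharacter
  have hμ1 := hp.mu_one η ξ
  simp only [hext] at hμ1
  have h1 : (fun c : N => ξ (inclusion hND c)) = θ.1 := by
    obtain ⟨x, hx⟩ := exists_smul_eq_of_nmult hNG le_normalizer_of_normal χ θ ⟨_, hξN⟩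
      (hχθ ▸ he) ((nmult_ne_zero_iff hNG χ ⟨_, hξN⟩).2 fun h => h0 (by
        rw [hμ.eq_zero_of_one (hμ1.trans h)]; rfl))
    rw [hθ.smul_eq (mem_top _)] at hx
    exact (congrArg Subtype.val hx).symm
  have hμe : cin (inclusion hND) (fun d => η (D.subtype d)) ξ 1 = e := by
    rw [hμ1, h1, ← hχθ, coe_nmult_irr]
    rfl
  obtain ⟨ν, hν, hνμ⟩ := exists_deflation (N.subgroupOf D) hμ fun n hn => by
    have := cin_mul_left (inclusion hND) (fun d => η (D.subtype d)) ξ ⟨n, hn⟩ 1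
    rw [mul_one] at this
    exact this
  have hc : ∀ a b : D ⧸ N.subgroupOf D, a * b = b * a := fun a b =>
    (Normal.quotient_commutative_iff_commutator_le.2 hcomm).is_comm.comm a b
  have hν1 : ν 1 = e := (hνμ 1).trans hμe
  have hcard : Nat.card (D ⧸ N.subgroupOf D) = G.index := hidx.symm
  obtain ⟨k, h | ⟨ε, lam, hε, h⟩⟩ := eq_regChar_or_of_norm_le hc hν.isGen fun q hq => by
    obtain ⟨d, rfl⟩ := QuotientGroup.mk_surjective q
    have hd : (d : Γ) ∉ G := fun h => hq ((QuotientGroup.eq_one_iff d).2 (hDG d d.2 h))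
    rw [hνμ]
    exact norm_classInner_le_one
      (classInner_coset_self hNG (cycPair_frob G N hNG (hfrob d hd)) hη.isCharacter hirr)
      (cin_self_of_irr _ hcyc'.inj hcyc'.normal hξ.isCharacter hξN d)
  · have h2 : (QuotientGroup.mk ⟨s, hsD⟩ : D ⧸ N.subgroupOf D) ≠ 1 := fun h =>
      hsG (hNG ((QuotientGroup.eq_one_iff (⟨s, hsD⟩ : D)).1 h))
    rw [← hνμ, h] at h0
    simp [regChar_of_ne_one h2] at h0
  · have h2 := congrFun h 1
    simp only [hν1, Pi.add_apply, Pi.smul_apply, regChar_one, hcard, smul_eq_mul, map_one,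
      Units.val_one, mul_one] at h2
    have h3 : (e : ℤ) = k * G.index + ε := by exact_mod_cast h2
    rcases hε with rfl | rfl
    · exact Or.inl ⟨k, by rw [h3]; ring⟩
    · exact Or.inr ⟨k, by rw [h3]; ring⟩

end Cfsg.Agent.S4454
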