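import Cfsg.Statements.S4455
import Cfsg.Agent.Char.Degrees

set_option autoImplicit false
open Cfsg

namespace Cfsg.Agent.S4455

open Cfsg.Agent.Char

/-- Fix a prime p and a finite group G. Let s be the sum of χ(1)² over the irreducible characters χ of G whose degree is not divisible by p and whose determinantal order o(χ) is not divisible by p. Then the order of O^p(G), the subgroup generated by the elements of order prime to p, is congruent to s modulo p. -/
theorem result {G : Type*} [Group G] [Finite G] (p : ℕ) (hp : p.Prime) : (Nat.card (Cfsg.pResidual p G) : ℤ) ≡ (∑ᶠ χ ∈ {χ : Cfsg.IrrCharacter G | ¬ p ∣ Cfsg.charDegree (χ : G → ℂ) ∧ ¬ p ∣ Cfsg.detOrder (χ : G → ℂ)}, (Cfsg.charDegree (χ : G → ℂ) : ℤ) ^ 2) [ZMOD p] := by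
  classical
  have := Fact.mk hp
  rw [← ZMod.intCast_eq_intCast_iff, finsum_mem_eq_finite_toFinset_sum _ (Set.toFinite _)]
  push_cast
  rw [card_pResidual_eq_sum]
  refine Finset.sum_congr ?_ fun _ _ => rfl
  ext χ
  simp

end Cfsg.Agent.S4455
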