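import Cfsg.Statements.S4459
import Cfsg.Agent.Char.DegreeP

set_option autoImplicit false
open Cfsg

namespace Cfsg.Agent.S4459

open Cfsg.Agent.Char

/-- Let G be a non-abelian finite group and p a prime. Then the irreducible character degrees of G are exactly 1 and p if and only if either G has an abelian normal subgroup of index p or the centre of G has index p³. -/
theorem result {G : Type*} [Group G] [Finite G] (hG : ∃ a b : G, a * b ≠ b * a) (p : ℕ) (hp : p.Prime) : ((∀ χ : Cfsg.IrrCharacter G, Cfsg.charDegree (χ : G → ℂ) = 1 ∨ Cfsg.charDegree (χ : G → ℂ) = p) ∧ ∃ χ : Cfsg.IrrCharacter G, Cfsg.charDegree (χ : G → ℂ) = p) ↔ ((∃ A : Subgroup G, A.Normal ∧ (∀ a ∈ A, ∀ b ∈ A, a * b = b * a) ∧ A.index = p) ∨ (Subgroup.center G).index = p ^ 3) := by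
  refine ⟨fun h => two_deg_prime hp h.1 h.2, fun h => ?_⟩
  have h1 : ∀ χ : Cfsg.IrrCharacter G, Cfsg.charDegree (χ : G → ℂ) = 1 ∨
      Cfsg.charDegree (χ : G → ℂ) = p := fun χ => by
    rcases h with ⟨A, hA, hc, hi⟩ | h
    · exact (Nat.dvd_prime hp).mp (hi ▸ χ.2.deg_dvd_index_of_comm (coe_charDegree_irr χ).symm A hc)
    · obtain ⟨k, -, hk⟩ := (Nat.dvd_prime_pow hp).mp
        (h ▸ χ.2.deg_dvd_index_center (coe_charDegree_irr χ).symm)
      have h2 := charDegree_sq_le_index_center χ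
      rw [h, hk, ← pow_mul, Nat.pow_le_pow_iff_right hp.one_lt] at h2
      obtain rfl | rfl : k = 0 ∨ k = 1 := by omega
      · exact Or.inl hk
      · exact Or.inr (hk.trans (pow_one p))
  obtain ⟨χ, hχ⟩ := exists_charDegree_ne_one hG
  exact ⟨h1, χ, (h1 χ).resolve_left hχ⟩

end Cfsg.Agent.S4459
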