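import Cfsg.Statements.S4460
import Cfsg.Agent.Char.ThreeDeg

set_option autoImplicit false
open Cfsg

namespace Cfsg.Agent.S4460

/-- A finite group with exactly three distinct irreducible character degrees is solvable of derived length at most 3: its third derived subgroup is trivial. -/
theorem result {G : Type*} [Group G] [Finite G] (hcd : Nat.card {n : ℕ // ∃ χ : Cfsg.IrrCharacter G, Cfsg.charDegree (χ : G → ℂ) = n} = 3) : derivedSeries G 3 = ⊥ := by
  obtain ⟨a, b, c, -, -, -, h⟩ := Set.ncard_eq_three.1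
    (show (Cfsg.Agent.Char.cdSet G).ncard = 3 from hcd)
  have h1 : ∀ χ : IrrCharacter G, charDegree χ.1 = a ∨ charDegree χ.1 = b ∨ charDegree χ.1 = c :=
    fun χ => (h ▸ ⟨χ, rfl⟩ : charDegree χ.1 ∈ ({a, b, c} : Set ℕ))
  have h2 := h1 (Cfsg.Agent.Char.irrOne G)
  rw [Cfsg.Agent.Char.charDegree_irrOne] at h2
  rcases h2 with rfl | rfl | rfl
  · exact Cfsg.Agent.Char.derivedSeries_three_eq_bot G b c h1
  · exact Cfsg.Agent.Char.derivedSeries_three_eq_bot G a c fun χ => by have := h1 χ; tauto
  · exact Cfsg.Agent.Char.derivedSeries_three_eq_bot G a b fun χ => by have := h1 χ; tauto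

end Cfsg.Agent.S4460
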