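import Cfsg.Statements.S4470
import Cfsg.Agent.Char.Unitary
import Cfsg.Agent.Char.Values
import Cfsg.Agent.Char.Quot

set_option autoImplicit false
open Cfsg

namespace Cfsg.Agent.S4470

open Cfsg.Agent.Char Cfsg.Agent.Char.Unitary Module
open scoped ComplexConjugate InnerProductSpace

variable {G : Type*} [Group G] {E : Type*} [NormedAddCommGroup E] [InnerProductSpace ℂ E]
  [FiniteDimensional ℂ E] {ρ : Representation ℂ G E}

noncomputable def U (ρ : Representation ℂ G E) : G →* (E →L[ℂ] E) where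
  toFun g := LinearMap.toContinuousLinearMap (ρ g)
  map_one' := by ext v; simp
  map_mul' g h := by ext v; simp

theorem U_apply (g : G) (v : E) : U ρ g v = ρ g v := rfl

theorem norm_U_le (hρ : ∀ g v, ‖ρ g v‖ = ‖v‖) (g : G) : ‖U ρ g‖ ≤ 1 :=
  ContinuousLinearMap.opNorm_le_bound _ zero_le_one fun v => by rw [U_apply, hρ, one_mul]

theorem norm_mul_U_le (hρ : ∀ g v, ‖ρ g v‖ = ‖v‖) (g : G) (X : E →L[ℂ] E) : ‖X * U ρ g‖ ≤ ‖X‖ :=
  (norm_mul_le _ _).trans (mul_le_of_le_one_right (norm_nonneg _) (norm_U_le hρ g))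

theorem norm_U_mul_le (hρ : ∀ g v, ‖ρ g v‖ = ‖v‖) (g : G) (X : E →L[ℂ] E) : ‖U ρ g * X‖ ≤ ‖X‖ :=
  (norm_mul_le _ _).trans (mul_le_of_le_one_left (norm_nonneg _) (norm_U_le hρ g))

theorem comm_bound (hρ : ∀ g v, ‖ρ g v‖ = ‖v‖) (c : ℂ) (g h : G) :
    ‖U ρ (g * h * g⁻¹ * h⁻¹) - 1‖ ≤ 2 * ‖U ρ g - c • 1‖ * ‖U ρ h - 1‖ := by
  have e : U ρ (g * h * g⁻¹ * h⁻¹) - 1 =
      ((U ρ g - c • 1) * (U ρ h - 1) - (U ρ h - 1) * (U ρ g - c • 1)) * U ρ (g⁻¹ * h⁻¹) := by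
    have : (U ρ g - c • 1) * (U ρ h - 1) - (U ρ h - 1) * (U ρ g - c • 1) =
        U ρ g * U ρ h - U ρ h * U ρ g := by
      simp only [sub_mul, mul_sub, mul_one, one_mul, smul_mul_assoc, mul_smul_comm, smul_sub]
      abel
    rw [this, sub_mul, ← map_mul, ← map_mul, ← map_mul, ← map_mul]
    simp [mul_assoc]
  rw [e]
  refine (norm_mul_U_le hρ _ _).trans ((norm_sub_le _ _).trans ?_)
  have h1 := norm_mul_le (U ρ g - c • 1) (U ρ h - 1)
  have h2 := norm_mul_le (U ρ h - 1) (U ρ g - c • 1)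
  linarith

theorem eq_of_comm [Finite G] (hρ : ∀ g v, ‖ρ g v‖ = ‖v‖) (hi : Function.Injective ρ) {g h : G}
    (hd : ‖U ρ h - 1‖ < 1) (hc : g * (h * g * h⁻¹) = (h * g * h⁻¹) * g) : h * g * h⁻¹ = g := by
  let H := Subgroup.closure ({g, h * g * h⁻¹} : Set G)
  have hH : ∀ a b : H, a * b = b * a := by
    have : IsMulCommutative H := Subgroup.isMulCommutative_closure (by
      rintro a (rfl | rfl) b (rfl | rfl) <;> simp only [hc])
    exact fun a b => mul_comm' a b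
  obtain ⟨b, lam, hb⟩ := exists_orthonormalBasis (ρ := ρ.comp H.subtype) (fun g v => hρ g v) hH
  let g₁ : H := ⟨g, Subgroup.subset_closure (by simp)⟩
  let g₂ : H := ⟨h * g * h⁻¹, Subgroup.subset_closure (by simp)⟩
  refine hi (b.toBasis.ext fun i => ?_)
  have h1 : ρ g (b i) = (lam i g₁ : ℂ) • b i := hb g₁ i
  have h2 : ρ (h * g * h⁻¹) (b i) = (lam i g₂ : ℂ) • b i := hb g₂ i
  rw [OrthonormalBasis.coe_toBasis, h1, h2]
  by_contra hne
  have h3 : ρ h (ρ h⁻¹ (b i)) = b i := by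
    rw [← Module.End.mul_apply, ← map_mul, mul_inv_cancel, map_one, Module.End.one_apply]
  have h4 : ρ g (ρ h⁻¹ (b i)) = (lam i g₂ : ℂ) • ρ h⁻¹ (b i) := by
    rw [← map_smul, ← h2, ← Module.End.mul_apply, ← Module.End.mul_apply, ← map_mul, ← map_mul]
    simp [mul_assoc]
  have h5 := inner_eq_zero hρ h1 h4 fun e => hne (by rw [e])
  have h6 := (U ρ h - 1).le_opNorm (ρ h⁻¹ (b i))
  rw [sub_apply, U_apply, h3, one_apply_eq_self, hρ,
    b.orthonormal.1 i] at h6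
  have h7 := @norm_sub_sq ℂ _ _ _ _ (b i) (ρ h⁻¹ (b i))
  rw [h5, hρ, b.orthonormal.1 i] at h7
  simp only [map_zero] at h7
  nlinarith [norm_nonneg (b i - ρ h⁻¹ (b i))]

theorem comm_of_small [Finite G] (hρ : ∀ g v, ‖ρ g v‖ = ‖v‖) (hi : Function.Injective ρ) {c : ℂ}
    {g : G} (hg : ‖U ρ g - c • 1‖ < 1 / 2) {h : G} (hd : ‖U ρ h - 1‖ < 1) : g * h = h * g := by
  by_contra hne
  obtain ⟨k, ⟨hk1, hk2⟩, hmin⟩ := Set.exists_min_image {k | ‖U ρ k - 1‖ < 1 ∧ g * k ≠ k * g}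
    (fun k => ‖U ρ k - 1‖) (Set.toFinite _) ⟨h, hd, hne⟩
  have h0 : 0 < ‖U ρ k - 1‖ := by
    rw [norm_pos_iff, sub_ne_zero]
    intro e
    have : k = 1 := hi (by
      ext v
      rw [← U_apply, e]
      simp)
    exact hk2 (by simp [this])
  have h1 := comm_bound hρ c g k
  have h2 : ‖U ρ (g * k * g⁻¹ * k⁻¹) - 1‖ < ‖U ρ k - 1‖ := by nlinarith
  have h3 : g * (g * k * g⁻¹ * k⁻¹) = (g * k * g⁻¹ * k⁻¹) * g := by
    by_contra h3
    exact absurd (hmin _ ⟨h2.trans hk1, h3⟩) (not_le.2 h2)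
  have h4 : g * (k * g * k⁻¹) = (k * g * k⁻¹) * g := by
    have h5 : g * (k * g⁻¹ * k⁻¹) = (k * g⁻¹ * k⁻¹) * g :=
      mul_left_cancel (a := g) (by simpa only [mul_assoc] using h3)
    have h6 : Commute g (k * g⁻¹ * k⁻¹)⁻¹ := Commute.inv_right h5
    simpa [Commute, SemiconjBy, mul_assoc] using h6
  exact hk2 (mul_inv_eq_iff_eq_mul.1 (eq_of_comm hρ hi hk1 h4)).symm

theorem norm_sub_lt {z w : ℂ} (hz : ‖z‖ = 1) (hw : ‖w‖ = 1)
    (h : ⌈z.arg * 6 / Real.pi⌉ = ⌈w.arg * 6 / Real.pi⌉) :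
    ‖z⁻¹ * w - (Real.sqrt 3 / 2 : ℝ)‖ < 1 / 2 := by
  have hpi := Real.pi_pos
  have h1 : |w.arg - z.arg| < Real.pi / 6 := by
    have : |w.arg * 6 / Real.pi - z.arg * 6 / Real.pi| < 1 := by
      have a1 := Int.le_ceil (w.arg * 6 / Real.pi)
      have a2 := Int.le_ceil (z.arg * 6 / Real.pi)
      have a3 := Int.ceil_lt_add_one (w.arg * 6 / Real.pi)
      have a4 := Int.ceil_lt_add_one (z.arg * 6 / Real.pi)
      rw [h] at a2 a4
      rw [abs_lt]
      constructor <;> linarith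
    rw [← sub_div, ← sub_mul, abs_div, abs_mul, abs_of_pos hpi, div_lt_one hpi,
      abs_of_pos (by norm_num : (0 : ℝ) < 6)] at this
    linarith
  have h2 : Real.sqrt 3 / 2 < Real.cos (w.arg - z.arg) := by
    rw [← Real.cos_pi_div_six, ← Real.cos_abs (w.arg - z.arg)]
    exact Real.cos_lt_cos_of_nonneg_of_le_pi (abs_nonneg _) (by linarith) h1
  have h3 : z⁻¹ * w = Complex.exp ((w.arg - z.arg : ℝ) * Complex.I) := by
    conv_lhs => rw [← Complex.norm_mul_exp_arg_mul_I z, ← Complex.norm_mul_exp_arg_mul_I w, hz, hw]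
    simp only [Complex.ofReal_one, one_mul, ← Complex.exp_neg, ← Complex.exp_add]
    congr 1
    push_cast
    ring
  rw [h3, ← sq_lt_sq₀ (norm_nonneg _) (by norm_num), ← Complex.normSq_eq_norm_sq,
    Complex.normSq_apply]
  simp only [Complex.sub_re, Complex.exp_ofReal_mul_I_re, Complex.ofReal_re, Complex.sub_im,
    Complex.exp_ofReal_mul_I_im, Complex.ofReal_im, sub_zero]
  have h4 := Real.sin_sq_add_cos_sq (w.arg - z.arg)
  have h5 : Real.sqrt 3 * Real.sqrt 3 = 3 := Real.mul_self_sqrt (by norm_num)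
  have h6 : 0 < Real.sqrt 3 := by positivity
  nlinarith

theorem ceil_mem (z : ℂ) : ⌈z.arg * 6 / Real.pi⌉ ∈ Finset.Icc (-5 : ℤ) 6 := by
  have hpi := Real.pi_pos
  have h1 := z.neg_pi_lt_arg
  have h2 := z.arg_le_pi
  rw [Finset.mem_Icc, Int.ceil_le, ← Int.lt_add_one_iff, ← sub_lt_iff_lt_add, Int.lt_ceil,
    lt_div_iff₀ hpi, div_le_iff₀ hpi]
  push_cast
  constructor <;> linarith

theorem main [Finite G] (hρ : ∀ g v, ‖ρ g v‖ = ‖v‖) (hi : Function.Injective ρ) :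
    ∃ A : Subgroup G, A.Normal ∧ (∀ x ∈ A, ∀ y ∈ A, x * y = y * x) ∧
      ∀ H : Subgroup G, (∀ x ∈ H, ∀ y ∈ H, x * y = y * x) →
        (A.subgroupOf H).index ≤ 12 ^ finrank ℂ E := by
  let c : ℂ := (Real.sqrt 3 / 2 : ℝ)
  let S : Set G := {g | ‖U ρ g - c • 1‖ < 1 / 2}
  have hS : ∀ g ∈ S, ‖U ρ g - 1‖ < 1 := by
    intro g hg
    have h1 : U ρ g - 1 = (U ρ g - c • 1) + (c - 1) • 1 := by rw [sub_smul, one_smul]; abel
    have h2 : ‖(c - 1) • (1 : E →L[ℂ] E)‖ ≤ 1 / 2 := by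
      rw [norm_smul]
      have h3 : ‖c - 1‖ ≤ 1 / 2 := by
        have h5 : Real.sqrt 3 * Real.sqrt 3 = 3 := Real.mul_self_sqrt (by norm_num)
        have h6 : 0 < Real.sqrt 3 := by positivity
        rw [show c - 1 = ((Real.sqrt 3 / 2 - 1 : ℝ) : ℂ) by simp [c], Complex.norm_real,
          Real.norm_eq_abs, abs_le]
        constructor <;> nlinarith
      exact (mul_le_of_le_one_right (norm_nonneg _) ContinuousLinearMap.norm_id_le).trans h3
    have h3 : ‖U ρ g - c • 1‖ < 1 / 2 := hg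
    rw [h1]
    linarith [norm_add_le (U ρ g - c • 1) ((c - 1) • 1)]
  refine ⟨Subgroup.closure S, ?_, ?_, fun H hH => ?_⟩
  · refine ⟨fun x hx g => ?_⟩
    have : Subgroup.closure S ≤ (Subgroup.closure S).comap (MulAut.conj g).toMonoidHom := by
      refine (Subgroup.closure_le _).2 fun x hx => Subgroup.subset_closure ?_
      change ‖U ρ (g * x * g⁻¹) - c • 1‖ < 1 / 2
      have e : U ρ (g * x * g⁻¹) - c • 1 = U ρ g * (U ρ x - c • 1) * U ρ g⁻¹ := by
        simp only [sub_mul, mul_sub, mul_one, smul_mul_assoc, mul_smul_comm, ← map_mul,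
          mul_inv_cancel, map_one]
      rw [e]
      exact ((norm_mul_U_le hρ _ _).trans (norm_U_mul_le hρ _ _)).trans_lt hx
    exact this hx
  · have : IsMulCommutative (Subgroup.closure S) := Subgroup.isMulCommutative_closure
      fun a ha b hb => comm_of_small hρ hi ha (hS b hb)
    exact fun x hx y hy => congrArg Subtype.val
      (mul_comm' (⟨x, hx⟩ : Subgroup.closure S) ⟨y, hy⟩)
  obtain ⟨b, lam, hb⟩ := exists_orthonormalBasis (ρ := ρ.comp H.subtype) (fun g v => hρ g v)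
    fun a b => Subtype.ext (hH _ a.2 _ b.2)
  have hl : ∀ i x, ‖(lam i x : ℂ)‖ = 1 := fun i x =>
    norm_eigenvalue (ρ := ρ.comp H.subtype) (fun g v => hρ g v) (b.orthonormal.ne_zero i) (hb x i)
  let f : H → Fin (finrank ℂ E) → Finset.Icc (-5 : ℤ) 6 := fun x i => ⟨_, ceil_mem (lam i x)⟩
  have hf : ∀ x y, f x = f y → x⁻¹ * y ∈ (Subgroup.closure S).subgroupOf H := by
    intro x y e
    refine Subgroup.subset_closure ?_
    have h1 : ∀ i, ‖(lam i (x⁻¹ * y) : ℂ) - c‖ < 1 / 2 := fun i => by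
      have := norm_sub_lt (hl i x) (hl i y) (congrArg Subtype.val (congrFun e i))
      simpa [c] using this
    obtain ⟨s, hs0, hs1, hs⟩ : ∃ s : ℝ, 0 ≤ s ∧ s < 1 / 2 ∧
        ∀ i, ‖(lam i (x⁻¹ * y) : ℂ) - c‖ ≤ s := by
      rcases isEmpty_or_nonempty (Fin (finrank ℂ E)) with h | h
      · exact ⟨0, le_rfl, by norm_num, fun i => h.elim i⟩
      · obtain ⟨i, hi⟩ := Finite.exists_max fun i => ‖(lam i (x⁻¹ * y) : ℂ) - c‖
        exact ⟨_, norm_nonneg _, h1 i, hi⟩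
    refine (ContinuousLinearMap.opNorm_le_bound _ hs0 fun v => ?_).trans_lt hs1
    exact norm_le_of_eigenbasis b (ρ (x⁻¹ * y : H) - c • 1) _ (fun i => by
      rw [sub_smul, ← hb]; rfl) hs0 hs v
  have h1 : Function.Injective fun q : H ⧸ (Subgroup.closure S).subgroupOf H => f q.out := by
    intro q q' e
    rw [← q.out_eq, ← q'.out_eq]
    exact QuotientGroup.eq.2 (hf _ _ e)
  have h2 := Nat.card_le_card_of_injective _ h1
  rw [Nat.card_fun, Nat.card_eq_fintype_card (α := Finset.Icc (-5 : ℤ) 6), Fintype.card_coe,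
    Nat.card_fin] at h2
  exact h2

/-- Let the finite group G have a faithful character of degree n. Then G has an abelian normal subgroup A such that every abelian subgroup H of G satisfies [H : H ⊓ A] ≤ 12^n. -/
theorem result {G : Type*} [Group G] [Finite G] (χ : G → ℂ) (hχ : Cfsg.IsCharacter G χ) (hfaith : ∀ g : G, χ g = χ 1 → g = 1) (n : ℕ) (hn : Cfsg.charDegree χ = n) : ∃ A : Subgroup G, A.Normal ∧ (∀ x ∈ A, ∀ y ∈ A, x * y = y * x) ∧ ∀ H : Subgroup G, (∀ x ∈ H, ∀ y ∈ H, x * y = y * x) → (A.subgroupOf H).index ≤ 12 ^ n := by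
  obtain ⟨m, ρ, hρ, rfl⟩ := exists_unitary hχ
  have h1 : ρ.character 1 = (finrank ℂ (EuclideanSpace ℂ (Fin m)) : ℂ) := by
    simp [Representation.character]
  rw [← hn, charDegree_eq_of_one_eq h1]
  refine main hρ ((injective_iff_map_eq_one ρ).2 fun g hg => hfaith g ?_)
  simp [Representation.character, hg]

end Cfsg.Agent.S4470
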