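import Cfsg.Statements.S4469
import Cfsg.Agent.S4470
import Cfsg.Agent.S4465
import Cfsg.Agent.Char.Monomial
import Cfsg.Agent.Char.Induction
import Cfsg.Agent.Char.Quot

set_option autoImplicit false
open Cfsg

namespace Cfsg.Agent.S4469

open Cfsg.Agent.Char

theorem index_normalCore_dvd {G : Type*} [Group G] [Finite G] (H : Subgroup G) :
    H.normalCore.index ∣ H.index.factorial := by
  rw [Subgroup.normalCore_eq_ker, Subgroup.index_ker, Subgroup.index_eq_card, ← Nat.card_perm]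
  exact Subgroup.card_subgroup_dvd_card _

theorem exists_ker {P : Type*} [Group P] [Fintype P] [Group.IsNilpotent P] {χ : P → ℂ}
    (hχ : IsCharacter P χ) : ∀ n : ℕ, χ 1 = n → ∃ K : Subgroup P, K.Normal ∧ K.index ∣ n.factorial ∧
      ∀ a ∈ K, ∀ b ∈ K, χ (a * b * a⁻¹ * b⁻¹) = χ 1 := by
  refine hχ.induction_on (P := fun χ => ∀ n : ℕ, χ 1 = n → ∃ K : Subgroup P, K.Normal ∧
    K.index ∣ n.factorial ∧ ∀ a ∈ K, ∀ b ∈ K, χ (a * b * a⁻¹ * b⁻¹) = χ 1)
    (fun n _ => ⟨⊤, inferInstance, by simp, fun _ _ _ _ => rfl⟩) ?_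
  intro φ ψ hφ hψ ih n hn
  obtain ⟨m, hm⟩ := hψ.exists_nat_one
  obtain ⟨K, hK, hKi, hKc⟩ := ih m hm
  obtain ⟨H, lam, rfl⟩ := exists_monomial_of_isNilpotent hφ
  have h1 : indFun H (fun h => (lam h : ℂ)) 1 = H.index := by simp [indFun_one]
  have h2 : n = H.index + m := by
    rw [Pi.add_apply, h1, hm] at hn
    exact_mod_cast hn.symm
  refine ⟨H.normalCore ⊓ K, inferInstance, ?_, fun a ha b hb => ?_⟩
  · rw [h2, ← Subgroup.relIndex_mul_index (inf_le_right : H.normalCore ⊓ K ≤ K),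
      Subgroup.inf_relIndex_right]
    exact (mul_dvd_mul ((Subgroup.relIndex_dvd_index_of_normal _ _).trans (index_normalCore_dvd H))
      hKi).trans (Nat.factorial_mul_factorial_dvd_factorial_add _ _)
  · rw [Pi.add_apply, Pi.add_apply, hKc a ha.2 b hb.2]
    congr 1
    unfold indFun
    congr 1
    refine Finset.sum_congr rfl fun x _ => ?_
    have ha' : x⁻¹ * a * x ∈ H := by simpa using ha.1 x⁻¹
    have hb' : x⁻¹ * b * x ∈ H := by simpa using hb.1 x⁻¹
    have e : x⁻¹ * (a * b * a⁻¹ * b⁻¹) * x =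
        ((⟨_, ha'⟩ * ⟨_, hb'⟩ * (⟨_, ha'⟩ : H)⁻¹ * (⟨_, hb'⟩ : H)⁻¹ : H) : P) := by
      simp [mul_assoc]
    rw [e, show x⁻¹ * 1 * x = ((1 : H) : P) by simp, extendByZero_coe, extendByZero_coe]
    simp only [map_mul, map_inv, map_one]
    rw [mul_comm (lam _) (lam ⟨_, hb'⟩)]
    simp

theorem index_dvd {G : Type*} [Group G] (A K : Subgroup G) :
    A.index ∣ K.index * (A.subgroupOf K).index := by
  refine (Subgroup.index_dvd_of_le (inf_le_left : A ⊓ K ≤ A)).trans ?_
  rw [← Subgroup.relIndex_mul_index (inf_le_right : A ⊓ K ≤ K), Subgroup.inf_relIndex_right, mul_comm]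
  rfl

/-- The classical bound for finite linear groups, in explicit form. Let the finite group G have a faithful character of degree n. Then G has an abelian normal subgroup whose index is at most n! · 12^(n·(π(n+1)+1)), π(k) denoting the number of primes not exceeding k. -/
theorem result {G : Type*} [Group G] [Finite G] (χ : G → ℂ) (hχ : Cfsg.IsCharacter G χ) (hfaith : ∀ g : G, χ g = χ 1 → g = 1) (n : ℕ) (hn : Cfsg.charDegree χ = n) : ∃ A : Subgroup G, A.Normal ∧ (∀ x ∈ A, ∀ y ∈ A, x * y = y * x) ∧ A.index ≤ Nat.factorial n * 12 ^ (n * (Nat.primeCounting (n + 1) + 1)) := by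
  classical
  obtain ⟨A, hA, hAc, hAH⟩ := S4470.result χ hχ hfaith n hn
  obtain ⟨H, hHc, -, hH⟩ := S4465.result χ hχ hfaith n hn
  have h1 : χ 1 = n := by rw [← hn, coe_charDegree_of_isCharacter hχ]
  have key : ∀ p : ℕ, ∃ k : ℕ, 0 < k ∧ k ≤ 12 ^ n ∧
      (p.Prime → ∀ j, p ^ j ∣ A.index → p ^ j ∣ n.factorial * k) := by
    intro p
    by_cases hp : p.Prime
    swap
    · exact ⟨1, one_pos, Nat.one_le_pow _ _ (by norm_num), fun h => (hp h).elim⟩
    have := Fact.mk hp
    obtain ⟨P⟩ : Nonempty (Sylow p G) := inferInstance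
    have := P.isPGroup'.isNilpotent
    have := Fintype.ofFinite P
    obtain ⟨K, -, hKi, hKc⟩ := exists_ker (hχ.restrict (P : Subgroup G)) n h1
    refine ⟨(A.subgroupOf (K.map (P : Subgroup G).subtype)).index,
      Nat.pos_of_ne_zero Subgroup.index_ne_zero_of_finite, hAH _ ?_, fun _ j hj => ?_⟩
    · rintro _ ⟨a, ha, rfl⟩ _ ⟨b, hb, rfl⟩
      have := hfaith _ (hKc a ha b hb)
      simpa [mul_inv_eq_iff_eq_mul] using this
    · have h2 := hj.trans (index_dvd A (K.map (P : Subgroup G).subtype))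
      rw [Subgroup.index_map_subtype, mul_right_comm] at h2
      exact ((((Nat.Prime.coprime_iff_not_dvd hp).2 P.not_dvd_index).pow_left j).dvd_of_dvd_mul_right
        h2).trans (mul_dvd_mul_right hKi _)
  choose k hk0 hk1 hk using key
  refine ⟨A, hA, hAc, ?_⟩
  have h2 : A.index ∣ n.factorial * ((∏ p ∈ Nat.primesBelow (n + 2), k p) * (A.subgroupOf H).index) := by
    refine (Nat.dvd_iff_prime_pow_dvd_dvd _ _).2 fun p j hp hj => ?_
    by_cases hpn : p ≤ n + 1
    · refine (hk p hp j hj).trans (mul_dvd_mul_left _ (Dvd.dvd.mul_right ?_ _))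
      exact Finset.dvd_prod_of_mem _ (Nat.mem_primesBelow.2 ⟨by omega, hp⟩)
    · have h3 := (((Nat.Prime.coprime_iff_not_dvd hp).2 fun h => hpn (hH p hp h)).pow_left
        j).dvd_of_dvd_mul_left (hj.trans (index_dvd A H))
      exact (h3.mul_left _).mul_left _
  refine (Nat.le_of_dvd (Nat.mul_pos n.factorial_pos (Nat.mul_pos (Finset.prod_pos fun p _ => hk0 p)
    (Nat.pos_of_ne_zero Subgroup.index_ne_zero_of_finite))) h2).trans (Nat.mul_le_mul_left _ ?_)
  rw [mul_add, mul_one, pow_add, pow_mul]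
  refine Nat.mul_le_mul ?_ (hAH H hHc)
  refine (Finset.prod_le_pow_card _ _ _ fun p _ => hk1 p).trans_eq ?_
  rw [Nat.primesBelow_card_eq_primeCounting']
  rfl

end Cfsg.Agent.S4469
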