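import Cfsg.Statements.S4471
import Cfsg.Agent.Char.SolvDeg
import Cfsg.Agent.Char.Blichfeldt
import Cfsg.Agent.Char.Blich60

set_option autoImplicit false
open Cfsg

namespace Cfsg.Agent.S4471

open Cfsg.Agent.Char Cfsg.Agent.Char.SolvDeg Cfsg.Agent.Char.Unitary Subgroup Module
open scoped commutatorElement

theorem geom {p : ℕ} {w : ℂ} (hw : w ^ p = 1) :
    ∑ k ∈ Finset.range p, w ^ k = if w = 1 then (p : ℂ) else 0 := by
  split_ifs with h
  · simp [h]
  · rw [geom_sum_eq h, hw, sub_self, zero_div]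

theorem eigen_mem {ι : Type*} [Fintype ι] {p : ℕ} (hp : p ≠ 0) {x : ι → ℂ} (hx : ∀ i, x i ^ p = 1)
    {a b ω : ℂ} (hω : ω ^ p = 1) (h : ∀ k : ℕ, ∑ i, x i ^ k = a * ω ^ k + b) (j : ι) :
    x j = 1 ∨ x j = ω := by
  classical
  by_contra hc
  push Not at hc
  have h0 : x j ≠ 0 := fun e => by simpa [e, hp] using hx j
  have h1 : ∑ k ∈ Finset.range p, ∑ i, (x i / x j) ^ k =
      ∑ k ∈ Finset.range p, (a * (ω / x j) ^ k + b * (1 / x j) ^ k) :=
    Finset.sum_congr rfl fun k _ => by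
      simp only [div_pow, ← Finset.sum_div, h k, one_pow]
      ring
  rw [Finset.sum_comm, Finset.sum_add_distrib, ← Finset.mul_sum, ← Finset.mul_sum,
    geom (by rw [div_pow, hω, hx, div_one]), geom (by rw [div_pow, one_pow, hx, div_one]),
    if_neg (fun e => hc.2 ((div_eq_one_iff_eq h0).1 e).symm),
    if_neg (fun e => hc.1 ((div_eq_one_iff_eq h0).1 e).symm),
    Finset.sum_congr rfl fun i _ => geom (by rw [div_pow, hx, hx, div_one]), ← Finset.sum_filter,
    Finset.sum_const, nsmul_eq_mul] at h1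
  simp only [mul_zero, add_zero, mul_eq_zero, Nat.cast_eq_zero, hp, or_false,
    Finset.card_eq_zero, Finset.filter_eq_empty_iff] at h1
  exact h1 (Finset.mem_univ j) (div_self h0)

theorem exists_two_eigen {P : Type*} [Group P] [Finite P] {p : ℕ} [hp : Fact p.Prime]
    (hP : IsPGroup p P) (hc : ∃ a b : P, a * b ≠ b * a) {χ : P → ℂ} (hχ : IsCharacter P χ)
    (hf : ∀ g, χ g = χ 1 → g = 1) (hn : charDegree χ < 2 * p) :
    p ≤ charDegree χ ∧ ∃ (z : P) (ε : ℂ), z ^ p = 1 ∧ ε ^ p = 1 ∧ ε ≠ 1 ∧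
      ∀ k : ℕ, χ (z ^ k) = p * ε ^ k + (charDegree χ - p) := by
  classical
  let _ : Fintype P := Fintype.ofFinite _
  obtain ⟨m, hm⟩ := hP.exists_card_eq
  have hdeg : ∀ θ : IrrCharacter P, ∃ j, charDegree (θ : P → ℂ) = p ^ j := fun θ => by
    obtain ⟨j, -, hj⟩ := (Nat.dvd_prime_pow hp.out).1 (hm ▸ charDegree_irr_dvd_card θ)
    exact ⟨j, hj⟩
  have hlin : ∀ θ : IrrCharacter P, charDegree (θ : P → ℂ) = 1 → ∀ z ∈ commutator P,
      (θ : P → ℂ) z = (θ : P → ℂ) 1 := fun θ h z hz => (mem_charKer_irr θ).1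
    (commutator_le_charKer_of_one θ.2.isCharacter ((charDegree_eq_one_iff θ.2.isCharacter).1 h) hz)
  obtain ⟨a, b, hab⟩ := hc
  have hab' : ⁅a, b⁆ ≠ 1 := fun e => hab (commutatorElement_eq_one_iff_mul_comm.1 e)
  have hab'' : ⁅a, b⁆ ∈ commutator P := commutator_mem_commutator (mem_top a) (mem_top b)
  obtain ⟨θ, h0, h1⟩ : ∃ θ : IrrCharacter P, classInner χ θ ≠ 0 ∧ charDegree (θ : P → ℂ) ≠ 1 := by
    by_contra hcon
    push Not at hcon
    exact hab' (hf _ (apply_eq_of_forall_irr hχ fun θ h => hlin θ (hcon θ h) _ hab''))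
  have hle := charDegree_le_of_inner_ne_zero hχ θ.2 h0
  have h2 : charDegree (θ : P → ℂ) = p := by
    obtain ⟨j, hj⟩ := hdeg θ
    rcases j with _ | _ | j
    · exact absurd hj h1
    · simpa using hj
    · have : p * p ≤ p ^ (j + 1 + 1) := by
        rw [pow_succ, pow_succ, mul_assoc]
        exact Nat.le_mul_of_pos_left _ (pow_pos hp.out.pos j)
      have := hp.out.two_le
      nlinarith
  refine ⟨h2 ▸ hle, ?_⟩
  have hφ := hχ.sub_irr θ.2 h0
  have hθ1 : (θ : P → ℂ) 1 = p := by rw [← coe_charDegree_irr, h2]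
  have hφ1 : (χ - θ) 1 = (charDegree χ - p : ℕ) := by
    rw [Pi.sub_apply, hθ1, Nat.cast_sub (h2 ▸ hle), coe_charDegree_of_isCharacter hχ]
  have hφz : ∀ z ∈ commutator P, (χ - θ) z = (χ - θ) 1 := fun z hz =>
    apply_eq_of_forall_irr hφ fun η h => hlin η (by
      have h3 := charDegree_le_of_inner_ne_zero hφ η.2 h
      rw [charDegree_eq_of_one_eq hφ1] at h3
      obtain ⟨j, hj⟩ := hdeg η
      rcases j with _ | j
      · simpa using hj
      · have : p ≤ p ^ (j + 1) := Nat.le_self_pow j.succ_ne_zero p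
        omega) z hz
  obtain ⟨z, hz⟩ : ∃ z : ↥(commutator P ⊓ centralizer ((⊤ : Subgroup P) : Set P)),
      orderOf z = p := by
    refine exists_prime_orderOf_dvd_card' p ?_
    have h3 := Grp.ConjCount.card_modEq (hP.to_subgroup ⊤) (commutator P : Set P)
      fun g _ x hx => (inferInstance : (commutator P).Normal).conj_mem x hx g
    refine (h3.dvd_iff dvd_rfl).1 ?_
    refine ((hP.to_subgroup (commutator P)).card_eq_or_dvd).resolve_left fun e => hab' ?_
    exact mem_bot.1 (card_eq_one.1 e ▸ hab'')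
  have hz1 : (z : P) ^ p = 1 := by
    rw [← hz]
    exact congrArg Subtype.val (pow_orderOf_eq_one z)
  obtain ⟨ω, -, hω⟩ := (isCharacter_norm_eq_iff θ.2.isCharacter (z : P)).1
    (norm_eq_of_mem_center θ.2 (mem_center_iff.2 fun g => z.2.2 g (mem_top g)))
  have h3 : ∀ k : ℕ, (θ : P → ℂ) ((z : P) ^ k) = p * ω ^ k := fun k => by
    induction k with
    | zero => simpa using hθ1
    | succ k ih => rw [pow_succ', hω, ih]; ring
  have h4 : ∀ k : ℕ, χ ((z : P) ^ k) = p * ω ^ k + (charDegree χ - p) := fun k => by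
    have := hφz _ (pow_mem z.2.1 k)
    rw [hφ1, Pi.sub_apply, h3, Nat.cast_sub (h2 ▸ hle)] at this
    linear_combination this
  have hp0 : (p : ℂ) ≠ 0 := Nat.cast_ne_zero.2 hp.out.ne_zero
  refine ⟨z, ω, hz1, ?_, fun e => ?_, h4⟩
  · have := h3 p
    rw [hz1, hθ1] at this
    exact mul_left_cancel₀ hp0 (by rw [← this, mul_one])
  · have h5 := h4 1
    rw [pow_one, e, one_pow, mul_one, add_sub_cancel, coe_charDegree_of_isCharacter hχ] at h5
    have h6 : z = 1 := Subtype.ext (hf _ h5)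
    rw [h6, orderOf_one] at hz
    exact hp.out.one_lt.ne hz

theorem conj_comm {G : Type*} [Group G] [Finite G] {χ : G → ℂ} (hχ : IsCharacter G χ)
    (hf : ∀ g, χ g = χ 1 → g = 1) {p : ℕ} (hp : p ≠ 0) {g : G} (hg : g ^ p = 1) {a b ω : ℂ}
    (hω : ω ^ p = 1) (hω1 : ‖ω - 1‖ < 1) (h : ∀ k : ℕ, χ (g ^ k) = a * ω ^ k + b) (x : G) :
    g * (x⁻¹ * g * x) = x⁻¹ * g * x * g := by
  obtain ⟨n, ρ, hρ, rfl⟩ := exists_unitary hχ
  obtain ⟨B, lam, hB⟩ := exists_orthonormalBasis (ρ := ρ.comp (zpowers g).subtype)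
    (fun g v => hρ g v) fun a b => mul_comm' a b
  let g' : zpowers g := ⟨g, mem_zpowers g⟩
  have h1 : ∀ k : ℕ, ∀ i, ρ (g ^ k) (B i) = (lam i g' : ℂ) ^ k • B i := fun k i => by
    have := hB (g' ^ k) i
    rwa [map_pow (lam i), Units.val_pow_eq_pow_val] at this
  have h2 : ∀ i, (lam i g' : ℂ) ^ p = 1 := fun i => by
    rw [← Units.val_pow_eq_pow_val, ← map_pow, show g' ^ p = 1 from Subtype.ext hg, map_one,
      Units.val_one]
  have h3 : ∀ i, (lam i g' : ℂ) = 1 ∨ (lam i g' : ℂ) = ω := by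
    refine eigen_mem hp h2 hω (a := a) (b := b) fun k => ?_
    rw [← h k]
    exact (trace_eq_sum_of_eigenbasis _ B.toBasis _ fun i => h1 k i).symm
  have h4 : ∀ i, ρ g (B i) = (lam i g' : ℂ) • B i := fun i => hB g' i
  have h5 : ρ (g * (x⁻¹ * g * x)) = ρ (x⁻¹ * g * x * g) := by
    refine B.toBasis.ext fun i => ?_
    have h7 : ∀ j, ‖(lam j g' : ℂ) - lam i g'‖ ≤ ‖ω - 1‖ := fun j => by
      rcases h3 i with e | e <;> rcases h3 j with e' | e' <;> rw [e, e']
      · simp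
      · rw [norm_sub_rev]
      · simp
    have h8 : ∀ v, ‖ρ g v - (lam i g' : ℂ) • v‖ ≤ ‖ω - 1‖ * ‖v‖ := fun v => by
      have := norm_le_of_eigenbasis B (ρ g - (lam i g' : ℂ) • LinearMap.id)
        (fun j => (lam j g' : ℂ) - lam i g') (fun j => by
          rw [LinearMap.sub_apply, LinearMap.smul_apply, LinearMap.id_apply, h4, sub_smul])
        (norm_nonneg _) h7 v
      rwa [LinearMap.sub_apply, LinearMap.smul_apply, LinearMap.id_apply] at this
    have h6 := Blich60.conj_mem_eigenspace hρ (norm_eq_one_of_pow_eq_one hp (h2 i))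
      (norm_nonneg _) hω1 h8 x (B i) (End.mem_eigenspace_iff.2 (h4 i))
    rw [End.mem_eigenspace_iff] at h6
    rw [OrthonormalBasis.coe_toBasis, map_mul ρ g, map_mul ρ _ g, End.mul_apply, End.mul_apply, h6,
      h4, map_smul]
  have h6 : ρ (g * (x⁻¹ * g * x) * (x⁻¹ * g * x * g)⁻¹) = LinearMap.id := by
    rw [map_mul, h5, ← map_mul, mul_inv_cancel, map_one]
    rfl
  rw [← mem_charKer_character_iff, mem_charKer_iff hχ] at h6
  exact mul_inv_eq_one.1 (hf _ h6)

theorem main {G : Type*} [Group G] [Finite G] {χ : G → ℂ} (hχ : IsIrrCharacter G χ)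
    (hf : ∀ g, χ g = χ 1 → g = 1) {p : ℕ} [hp : Fact p.Prime] (h7 : 7 ≤ p)
    (hn : charDegree χ < 2 * p) (hnp : charDegree χ ≠ p) {P : Subgroup G} (hP : IsPGroup p P)
    (hc : ∃ a b : P, a * b ≠ b * a) : ¬ p ^ 2 ∣ (pCore p G).index := by
  classical
  let _ : Fintype G := Fintype.ofFinite _
  obtain ⟨hle, z, ε, h1, h2, h3, h4⟩ := exists_two_eigen hP hc (hχ.isCharacter.restrict P)
    (fun g hg => Subtype.ext (hf g hg)) hn
  change p ≤ charDegree χ at hle
  have hp0 : (p : ℂ) ≠ 0 := Nat.cast_ne_zero.2 hp.out.ne_zero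
  have hprim := Complex.isPrimitiveRoot_exp p hp.out.ne_zero
  set ω := Complex.exp (2 * Real.pi * Complex.I / p) with hω
  have hε : IsPrimitiveRoot ε p := orderOf_eq_prime h2 h3 ▸ IsPrimitiveRoot.orderOf ε
  obtain ⟨i, -, hi⟩ := hε.eq_pow_of_pow_eq_one hprim.pow_eq_one
  set g : G := (z : G) ^ i with hg
  have hg1 : g ^ p = 1 := by
    rw [hg, ← pow_mul, mul_comm, pow_mul, ← Subgroup.coe_pow, h1, OneMemClass.coe_one, one_pow]
  have h5 : ∀ k : ℕ, χ (g ^ k) = p * ω ^ k + (charDegree χ - p) := fun k => by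
    rw [hg, ← pow_mul, ← hi, ← pow_mul]
    exact h4 (i * k)
  have h6 : ‖ω - 1‖ < 1 := by
    have e : ω = Complex.exp (Complex.I * (2 * Real.pi / p : ℝ)) := by
      rw [hω]
      congr 1
      push_cast
      ring
    rw [e]
    refine Real.norm_exp_I_mul_ofReal_sub_one_le.trans_lt ?_
    have h7' : (7 : ℝ) ≤ p := by exact_mod_cast h7
    rw [Real.norm_of_nonneg (by positivity), div_lt_one (by linarith)]
    linarith [Real.pi_lt_d2]
  have h7 := conj_comm hχ.isCharacter hf hp.out.ne_zero hg1 hprim.pow_eq_one h6 h5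
  set A := normalClosure ({g} : Set G) with hA
  have hAc : IsMulCommutative A := by
    refine isMulCommutative_closure fun a ha b hb => ?_
    obtain ⟨_, rfl, ha⟩ := Group.mem_conjugatesOfSet_iff.1 ha
    obtain ⟨_, rfl, hb⟩ := Group.mem_conjugatesOfSet_iff.1 hb
    obtain ⟨u, rfl⟩ := isConj_iff.1 ha
    obtain ⟨v, rfl⟩ := isConj_iff.1 hb
    have := congrArg (fun y => u * y * u⁻¹) (h7 (v⁻¹ * u))
    simpa [mul_assoc] using this
  obtain ⟨θ, hθ, h0⟩ := exists_irr_inner_restrict_ne_zero A hχ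
  have hθ1 : θ 1 = 1 := hθ.one_eq_one_of_comm fun a b => mul_comm' a b
  obtain ⟨e, -, he, hdeg⟩ := exists_charDegree_eq_of_over A hχ hθ h0
  rw [(charDegree_eq_one_iff hθ.isCharacter).2 hθ1, mul_one] at hdeg
  let g' : A := ⟨g, subset_normalClosure rfl⟩
  have h8 : e ∣ charDegree χ - p := by
    have h9 := clifford A hχ hθ h0
    rw [he] at h9
    have h10 : ∀ φ ∈ conjugates A θ, ∑ k ∈ Finset.range p, φ (g' ^ k) =
        if φ g' = 1 then (p : ℂ) else 0 := fun φ hφ => by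
      obtain ⟨x, rfl⟩ := (mem_conjugates A).1 hφ
      obtain ⟨μ, rfl⟩ := hθ.isCharacter.exists_linear hθ1
      simp only [conjChar_eq_comp, map_pow, Units.val_pow_eq_pow_val]
      refine geom ?_
      rw [← Units.val_pow_eq_pow_val, ← map_pow, ← map_pow, show g' ^ p = 1 from Subtype.ext hg1,
        map_one, map_one, Units.val_one]
    have h11 : ∑ k ∈ Finset.range p, χ (g ^ k) =
        ∑ k ∈ Finset.range p, (e : ℂ) * ∑ φ ∈ conjugates A θ, φ (g' ^ k) :=
      Finset.sum_congr rfl fun k _ => by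
        have := congrFun h9 (g' ^ k)
        rwa [Pi.smul_apply, Finset.sum_apply] at this
    rw [← Finset.mul_sum, Finset.sum_comm, Finset.sum_congr rfl h10, ← Finset.sum_filter,
      Finset.sum_const, nsmul_eq_mul, Finset.sum_congr rfl fun k _ => h5 k, Finset.sum_add_distrib,
      ← Finset.mul_sum, hprim.geom_sum_eq_zero hp.out.one_lt, Finset.sum_const, Finset.card_range,
      nsmul_eq_mul, ← Nat.cast_sub hle, mul_zero, zero_add, ← mul_assoc, mul_comm] at h11
    exact ⟨_, by exact_mod_cast mul_right_cancel₀ hp0 h11⟩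
  have he1 : e = 1 := by
    have h9 : e ∣ charDegree χ := Dvd.intro _ hdeg.symm
    have h10 : e ∣ p := by
      have := Nat.dvd_sub h9 h8
      rwa [Nat.sub_sub_self hle] at this
    refine ((Nat.dvd_prime hp.out).1 h10).resolve_right fun e' => hnp ?_
    obtain ⟨c, hc⟩ := e' ▸ h9
    have := hp.out.pos
    have h11 : c = 1 := by
      rcases c with _ | _ | c
      · omega
      · rfl
      · nlinarith
    rw [hc, h11, mul_one]
  rw [he1, one_mul] at hdeg
  obtain ⟨ψ, hψ, hind, -⟩ := exists_clifford_corr (le_inertia A hθ.isClassFunction) hθ le_rfl hχ h0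
  have hψ1 : ψ 1 = 1 := by
    have h9 := indFun_one (inertia A θ) ψ
    rw [hind, ← coe_charDegree_of_isCharacter hχ.isCharacter, ← hdeg] at h9
    exact (mul_eq_left₀ (Nat.cast_ne_zero.2 (charDegree_pos_of_isIrr hχ).ne')).1 h9.symm
  set K := (inertia A θ).normalCore with hK
  have hKc : ∀ a ∈ K, ∀ b ∈ K, a * b = b * a := fun a ha b hb => by
    refine commutatorElement_eq_one_iff_mul_comm.1 (hf _ ?_)
    rw [← hind, indFun, indFun]
    congr 1
    refine Finset.sum_congr rfl fun x _ => ?_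
    have ha' : x⁻¹ * a * x ∈ inertia A θ := normalCore_le _ (Normal.conj_mem' inferInstance a ha x)
    have hb' : x⁻¹ * b * x ∈ inertia A θ := normalCore_le _ (Normal.conj_mem' inferInstance b hb x)
    have h9 := (mem_charKer_iff hψ.isCharacter).1 (commutator_le_charKer_of_one hψ.isCharacter hψ1
      (commutator_mem_commutator (mem_top ⟨_, ha'⟩) (mem_top ⟨_, hb'⟩)))
    rw [← extendByZero_coe (inertia A θ) ψ, ← extendByZero_coe (inertia A θ) ψ] at h9
    convert h9 using 2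
    · simp [commutatorElement_def, mul_assoc]
    · simp
  obtain ⟨Q⟩ : Nonempty (Sylow p K) := inferInstance
  have hQn : (Q : Subgroup K).Normal :=
    ⟨fun a ha b => by rwa [show b * a = a * b from Subtype.ext (hKc _ b.2 _ a.2),
      mul_inv_cancel_right]⟩
  have := Q.characteristic_of_normal hQn
  intro hd
  have h9 : ((Q : Subgroup K).map K.subtype) ≤ pCore p G :=
    le_sSup ⟨inferInstance, Q.isPGroup'.map _⟩
  replace hd := hd.trans (index_dvd_of_le h9)
  rw [index_map_subtype] at hd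
  replace hd := (((Nat.Prime.coprime_iff_not_dvd hp.out).2
    Q.not_dvd_index).pow_left 2).dvd_of_dvd_mul_left hd
  have h10 : K.index ∣ (charDegree χ).factorial := by
    rw [hdeg, hK, normalCore_eq_ker, index_ker, index_eq_card, ← Nat.card_perm]
    exact card_subgroup_dvd_card _
  have h11 := (hp.out.pow_dvd_factorial_iff (b := 2) (Nat.log_lt_of_lt_pow
    (charDegree_pos_of_isIrr hχ).ne' (by nlinarith))).1 (hd.trans h10)
  rw [Finset.sum_Ico_succ_top le_rfl, Finset.Ico_self, Finset.sum_empty, pow_one, zero_add,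
    Nat.le_div_iff_mul_le hp.out.pos] at h11
  omega


/-- Let p ≥ 7 be a prime and let the finite group G have a faithful irreducible character of degree n with n < 2p and n ≠ p. If the Sylow p-subgroups of G are non-abelian then p² does not divide the index of O_p(G) in G; consequently, in every case G/O_p(G) has abelian Sylow p-subgroups. -/
theorem result {G : Type*} [Group G] [Finite G] (χ : Cfsg.IrrCharacter G) (hfaith : ∀ g : G, (χ : G → ℂ) g = (χ : G → ℂ) 1 → g = 1) (n : ℕ) (hn : Cfsg.charDegree (χ : G → ℂ) = n) (p : ℕ) (hp : p.Prime) (h7 : 7 ≤ p) (hn2 : n < 2 * p) (hnp : n ≠ p) : ((∃ P : Sylow p G, ∃ x ∈ (P : Subgroup G), ∃ y ∈ (P : Subgroup G), x * y ≠ y * x) → ¬ p ^ 2 ∣ (Cfsg.pCore p G).index) ∧ ∀ Q : Sylow p (G ⧸ Cfsg.pCore p G), ∀ x ∈ (Q : Subgroup (G ⧸ Cfsg.pCore p G)), ∀ y ∈ (Q : Subgroup (G ⧸ Cfsg.pCore p G)), x * y = y * x := by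
  have := Fact.mk hp
  subst hn
  have h1 : (∃ P : Sylow p G, ∃ x ∈ (P : Subgroup G), ∃ y ∈ (P : Subgroup G), x * y ≠ y * x) →
      ¬ p ^ 2 ∣ (Cfsg.pCore p G).index := fun ⟨P, x, hx, y, hy, h⟩ =>
    main χ.2 hfaith h7 hn2 hnp P.isPGroup' ⟨⟨x, hx⟩, ⟨y, hy⟩, fun e => h (congrArg Subtype.val e)⟩
  refine ⟨h1, fun Q => ?_⟩
  by_cases h : ∃ P : Sylow p G, ∃ x ∈ (P : Subgroup G), ∃ y ∈ (P : Subgroup G), x * y ≠ y * x
  · obtain ⟨j, hj⟩ := Q.isPGroup'.exists_card_eq
    have h2 : j ≤ 1 := by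
      by_contra hc
      exact h1 h (((pow_dvd_pow p (by omega)).trans (hj ▸ card_subgroup_dvd_card _)))
    have : IsCyclic (Q : Subgroup (G ⧸ Cfsg.pCore p G)) :=
      isCyclic_of_card_dvd_prime (p := p) (hj ▸ (pow_dvd_pow p h2).trans (pow_one p).dvd)
    exact fun x hx y hy => congrArg Subtype.val (mul_comm' (⟨x, hx⟩ : (Q : Subgroup _)) ⟨y, hy⟩)
  · push Not at h
    obtain ⟨P, rfl⟩ := Sylow.mapSurjective_surjective (QuotientGroup.mk'_surjective _) p Q
    rintro _ ⟨x, hx, rfl⟩ _ ⟨y, hy, rfl⟩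
    rw [← map_mul, h P x hx y hy, map_mul]


end Cfsg.Agent.S4471
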