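import Cfsg.Statements.S4473
import Cfsg.Agent.Char.Degrees
import Cfsg.Agent.Class.PGL2Dickson
import Cfsg.Agent.Class.PGL2Action

set_option autoImplicit false
open Cfsg

namespace Cfsg.Agent.S4473

open Cfsg.Agent.Char Cfsg.Agent.Class.Dickson Subgroup MatrixGroups
open scoped LinearAlgebra.Projectivization

/-- Let the finite group G have a faithful irreducible character χ of degree 2 that is primitive: χ is not induced from a character of any proper subgroup. Then the centre of G has index 12, 24 or 60. -/
theorem result {G : Type*} [Group G] [Fintype G] (χ : Cfsg.IrrCharacter G) (hfaith : ∀ g : G, (χ : G → ℂ) g = (χ : G → ℂ) 1 → g = 1) (h2 : Cfsg.charDegree (χ : G → ℂ) = 2) (hprim : ∀ H : Subgroup G, H ≠ ⊤ → ∀ θ : H → ℂ, Cfsg.IsCharacter H θ → (χ : G → ℂ) ≠ Cfsg.indFun H θ) : (Subgroup.center G).index = 12 ∨ (Subgroup.center G).index = 24 ∨ (Subgroup.center G).index = 60 := by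
  obtain ⟨χ, n, ρ, hρ, rfl⟩ := χ
  obtain rfl : n = 2 := by simpa [charDegree_character] using h2
  let f : G →* GL (Fin 2) ℂ := ((LinearMap.toMatrixAlgEquiv' (R := ℂ) (n := Fin 2)
    ).toMonoidHom.comp ρ).toHomUnits
  have hf : ∀ g v, (f g : Matrix (Fin 2) (Fin 2) ℂ).mulVec v = ρ g v := fun g v =>
    LinearMap.toMatrix'_mulVec (ρ g) v
  have hinj : Function.Injective f := (injective_iff_map_eq_one f).mpr fun g hg =>
    hfaith g (by
      have : ρ g = ρ 1 := LinearMap.ext fun v => by rw [← hf, ← hf, hg, map_one]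
      simp only [Representation.character, this])
  let π : G →* PGL(2, ℂ) := Matrix.ProjGenLinGroup.mk.comp f
  have hker : π.ker = center G := by
    ext z
    rw [MonoidHom.mem_ker, MonoidHom.comp_apply, Matrix.ProjGenLinGroup.mk_eq_one]
    refine ⟨fun h => mem_center_iff.mpr fun g => hinj ?_, fun h => mem_center_iff.mpr fun g => ?_⟩
    · rw [map_mul, map_mul, mem_center_iff.mp h]
    · obtain ⟨c, hc⟩ := exists_scalar_of_commute ρ (ρ z) fun g => by
        rw [← Module.End.mul_eq_comp, ← Module.End.mul_eq_comp, ← map_mul, ← map_mul,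
          mem_center_iff.mp h]
      have : (f z : Matrix (Fin 2) (Fin 2) ℂ) = c • 1 := Matrix.ext_of_mulVec_single fun i => by
        rw [hf, hc, Matrix.smul_mulVec, Matrix.one_mulVec]; rfl
      exact Units.ext (by simp [this])
  let φ := QuotientGroup.lift (center G) π hker.ge
  have hφ : Function.Injective φ := (QuotientGroup.injective_lift_iff _ _ _).mpr hker.symm
  let _ : MulAction (G ⧸ center G) (P1 ℂ) := MulAction.compHom _ φ
  rcases (lineAction φ hφ).tame (fun x => eq_bot_iff.mpr fun g hg => by
    obtain ⟨h, rfl⟩ := exists_smul_inf x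
    obtain ⟨b, hb⟩ := mem_unip_inf.mp ((conj_mem_unip h _ _).mpr hg)
    have h1 : transl b ^ Nat.card (G ⧸ center G) = 1 := by
      rw [← hb, ← inv_inv h, inv_inv h⁻¹, conj_pow, ← map_pow, pow_card_eq_one', map_one]
      group
    rw [transl_pow, transl_eq_one_iff, mul_eq_zero, Nat.cast_eq_zero] at h1
    rw [h1.resolve_left Nat.card_pos.ne', transl_zero, mul_assoc, inv_mul_eq_one, right_eq_mul] at hb
    exact (map_eq_one_iff φ hφ).mp hb) with ⟨x, hx⟩ | ⟨x, hx⟩ | ⟨m, h, -⟩
  · have := finrank_le_index_of_eigenvector ρ ⊤ x.rep x.rep_nonzero fun g _ => by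
      have h1 : f g • x = x := (Class.PGL_mk_smul_point _ _).symm.trans (hx g)
      rw [← x.mk_rep, Projectivization.smul_mk, Projectivization.mk_eq_mk_iff'] at h1
      obtain ⟨c, hc⟩ := h1
      exact ⟨c, by rw [hc, ← hf]; rfl⟩
    simp at this
  · obtain ⟨y, hxy, hy⟩ := pair_of_card_orbit hx
    let H := (MulAction.stabilizer (G ⧸ center G) x).comap (QuotientGroup.mk' _)
    have hH : H.index = 2 := by
      rw [index_comap_of_surjective _ (QuotientGroup.mk'_surjective _),
        MulAction.index_stabilizer, ← hx]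
      rfl
    have : Finite (π.comp H.subtype).range := Finite.of_surjective _
      (π.comp H.subtype).rangeRestrict_surjective
    have := isCyclic_of_fix_two (π.comp H.subtype).range hxy (by
      rintro _ ⟨g, rfl⟩
      exact (hy g).resolve_right fun h => hxy (g.2.symm.trans h.1))
    have hc := ((π.comp H.subtype).rangeRestrict.isMulCommutative_of_isCyclic_of_ker_le_center (by
      intro g hg
      rw [MonoidHom.ker_rangeRestrict] at hg
      exact mem_center_iff.mpr fun k => Subtype.ext (mem_center_iff.mp (hker.le hg) k))).1.1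
    have := Fintype.ofFinite H
    have hχ := isIrrCharacter_character ρ
    obtain ⟨θ, hθ, h1⟩ := exists_irr_inner_restrict_ne_zero H hχ
    refine absurd ((isCharacter_indFun H hθ.isCharacter).eq_of_inner_ne_zero_of_one_eq hχ ?_ ?_).symm
      (hprim H (fun h => by simp [h] at hH) θ hθ.isCharacter)
    · rwa [classInner_indFun_eq_restrict H hθ.isGen hχ.isGen]
    · rw [indFun_one, hH, hθ.one_eq_one_of_comm hc]
      simp
  · rw [index_eq_card]
    omega

end Cfsg.Agent.S4473
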