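import Cfsg.Statements.S4476
import Cfsg.Agent.Char.FS
import Cfsg.Agent.Char.Quot

set_option autoImplicit false
open Cfsg

namespace Cfsg.Agent.S4476

/-- Let G be a finite group of even order g with exactly t involutions, and put α = (g − 1)/t (a rational number). Then (a) some non-identity element x of G has at most α² conjugates; and (b) some non-principal real-valued irreducible character of G has degree at most α. -/
theorem result {G : Type*} [Group G] [Fintype G] (heven : Even (Nat.card G)) (t : ℕ) (ht : Nat.card {x : G // orderOf x = 2} = t) : (∃ x : G, x ≠ 1 ∧ ((Subgroup.centralizer ({x} : Set G)).index : ℚ) ≤ (((Nat.card G : ℚ) - 1) / t) ^ 2) ∧ ∃ χ : Cfsg.IrrCharacter G, (χ : G → ℂ) ≠ (fun _ => 1) ∧ (∀ g : G, ((χ : G → ℂ) g).im = 0) ∧ (Cfsg.charDegree (χ : G → ℂ) : ℚ) ≤ ((Nat.card G : ℚ) - 1) / t := by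
  classical
  have hgpos : 0 < Nat.card G := Nat.card_pos
  have ht0 : 0 < t := by
    have : Fact (Nat.Prime 2) := ⟨Nat.prime_two⟩
    obtain ⟨x, hx⟩ := exists_prime_orderOf_dvd_card' (G := G) 2 heven.two_dvd
    have : Nonempty {x : G // orderOf x = 2} := ⟨⟨x, hx⟩⟩
    rw [← ht]; exact Nat.card_pos
  have hsq : Nat.card {s : G // s * s = 1} = t + 1 := by
    rw [← ht, Nat.card_eq_fintype_card, Nat.card_eq_fintype_card, Fintype.card_subtype,
      Fintype.card_subtype, ← Finset.card_insert_of_notMem (a := 1) (by simp)]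
    congr 1
    ext s
    simp only [Finset.mem_filter, Finset.mem_univ, true_and, Finset.mem_insert]
    constructor
    · intro h
      by_cases h1 : s = 1
      · exact Or.inl h1
      · exact Or.inr (orderOf_eq_prime (by rw [pow_two, h]) h1)
    · rintro (rfl | h)
      · simp
      · rw [← pow_two, ← h, pow_orderOf_eq_one]
  set S : Finset (IrrCharacter G) :=
    (Finset.univ.erase (Char.irrOne G)).filter (fun χ => ∀ g, ((χ : G → ℂ) g).im = 0) with hS
  let d : IrrCharacter G → ℕ := fun χ => charDegree (χ : G → ℂ)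
  have hd : ∀ χ : IrrCharacter G, (χ : G → ℂ) 1 = d χ := fun χ => (Char.coe_charDegree_irr χ).symm
  have h1 : (t : ℝ) ≤ ∑ χ ∈ S, (d χ : ℝ) := by
    have h := Char.card_sqrt_eq_sum (G := G) 1
    rw [hsq, ← Finset.add_sum_erase _ _ (Finset.mem_univ (Char.irrOne G)),
      show Char.fsInd (Char.irrOne G : G → ℂ) = 1 from Char.fsInd_one, Char.irrOne_apply,
      one_mul, Nat.cast_add, Nat.cast_one, add_comm, add_right_inj] at h
    have h' := congrArg Complex.re h
    rw [Complex.natCast_re, Complex.re_sum] at h'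
    rw [h', hS, Finset.sum_filter]
    refine Finset.sum_le_sum fun χ _ => ?_
    rw [hd]
    split_ifs with hr
    · rcases Char.fsInd_eq_one_or_of_real χ.2 hr with e | e <;> simp [e]
    · simp [Char.fsInd_eq_zero_of_not_real χ.2 hr]
  have h1' : (t : ℚ) ≤ ∑ χ ∈ S, (d χ : ℚ) := by exact_mod_cast h1
  have h2 : ∑ χ ∈ S, (d χ : ℚ) ^ 2 ≤ Nat.card G - 1 := by
    have h := Char.sum_irr_one_sq (G := G)
    rw [← Finset.add_sum_erase _ _ (Finset.mem_univ (Char.irrOne G)), Char.irrOne_apply] at h
    simp only [hd] at h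
    have h' : (1 : ℚ) ^ 2 + ∑ χ ∈ Finset.univ.erase (Char.irrOne G), (d χ : ℚ) ^ 2 =
        Nat.card G := by exact_mod_cast h
    have h'' : ∑ χ ∈ S, (d χ : ℚ) ^ 2 ≤ ∑ χ ∈ Finset.univ.erase (Char.irrOne G), (d χ : ℚ) ^ 2 :=
      Finset.sum_le_sum_of_subset_of_nonneg (Finset.filter_subset _ _) fun _ _ _ => by positivity
    linarith
  have htq : (0 : ℚ) < t := by exact_mod_cast ht0
  have hg1 : (0 : ℚ) < Nat.card G - 1 := by
    have : 2 ≤ Nat.card G := Nat.le_of_dvd hgpos heven.two_dvd
    have : (2 : ℚ) ≤ Nat.card G := by exact_mod_cast this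
    linarith
  set α : ℚ := ((Nat.card G : ℚ) - 1) / t with hα
  have hαt : α * t = Nat.card G - 1 := div_mul_cancel₀ _ htq.ne'
  have hαpos : 0 < α := div_pos hg1 htq
  constructor
  · by_contra hcon
    push Not at hcon
    have := Fintype.ofFinite (ConjClasses G)
    have h3 : (S.card : ℚ) ≤ Nat.card (ConjClasses G) - 1 := by
      have : S.card + 1 ≤ Nat.card (ConjClasses G) := by
        rw [← Char.card_irr, Nat.card_eq_fintype_card, ← Finset.card_univ,
          ← Finset.card_erase_add_one (Finset.mem_univ (Char.irrOne G))]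
        exact Nat.add_le_add_right (Finset.card_filter_le _ _) 1
      have : (S.card : ℚ) + 1 ≤ Nat.card (ConjClasses G) := by exact_mod_cast this
      linarith
    have h4 : (t : ℚ) ^ 2 ≤ S.card * (Nat.card G - 1) :=
      calc (t : ℚ) ^ 2 ≤ (∑ χ ∈ S, (d χ : ℚ)) ^ 2 := by gcongr
        _ ≤ S.card * ∑ χ ∈ S, (d χ : ℚ) ^ 2 := sq_sum_le_card_mul_sum_sq
        _ ≤ _ := by gcongr
    have h5 := Char.sum_card_centralizer_mul (G := G) (fun _ => 1)
    simp only [mul_one, Finset.sum_const, Finset.card_univ, nsmul_eq_mul,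
      ← Nat.card_eq_fintype_card] at h5
    rw [← Finset.add_sum_erase _ _ (Finset.mem_univ (1 : G))] at h5
    have h6 : Nat.card (Subgroup.centralizer ({1} : Set G)) = Nat.card G := by
      rw [show Subgroup.centralizer ({1} : Set G) = ⊤ from
        eq_top_iff.mpr fun x _ => by simp [Subgroup.mem_centralizer_iff], Subgroup.card_top]
    rw [h6] at h5
    have h7 : (Nat.card G : ℚ) + ∑ x ∈ Finset.univ.erase (1 : G),
        (Nat.card (Subgroup.centralizer ({x} : Set G)) : ℚ) =
        Nat.card G * Nat.card (ConjClasses G) := by exact_mod_cast h5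
    have h8 : ∑ x ∈ Finset.univ.erase (1 : G),
        α ^ 2 * (Nat.card (Subgroup.centralizer ({x} : Set G)) : ℚ) <
        ∑ x ∈ Finset.univ.erase (1 : G), (Nat.card G : ℚ) := by
      refine Finset.sum_lt_sum_of_nonempty ?_ fun x hx => ?_
      · have : Nontrivial G := Finite.one_lt_card_iff_nontrivial.mp
          (Nat.le_of_dvd hgpos heven.two_dvd)
        obtain ⟨x, hx⟩ := exists_ne (1 : G)
        exact ⟨x, by simpa using hx⟩
      · have h9 := hcon x (Finset.ne_of_mem_erase hx)
        rw [← (Subgroup.centralizer ({x} : Set G)).index_mul_card, Nat.cast_mul]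
        have : (0 : ℚ) < Nat.card (Subgroup.centralizer ({x} : Set G)) := by
          exact_mod_cast Nat.card_pos
        gcongr
    rw [← Finset.mul_sum, Finset.sum_const, Finset.card_erase_of_mem (Finset.mem_univ _),
      Finset.card_univ, ← Nat.card_eq_fintype_card, nsmul_eq_mul, Nat.cast_sub hgpos,
      eq_sub_of_add_eq' h7] at h8
    have hgq : (0 : ℚ) < Nat.card G := by exact_mod_cast hgpos
    have h9 : α ^ 2 * (Nat.card (ConjClasses G) - 1) < Nat.card G - 1 := by
      refine lt_of_mul_lt_mul_right ?_ hgq.le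
      push_cast at h8
      linarith
    have h10 : α ^ 2 * t ^ 2 ≤ α ^ 2 * (Nat.card (ConjClasses G) - 1) * (Nat.card G - 1) := by
      rw [mul_assoc]
      gcongr
      exact h4.trans (by gcongr)
    rw [← mul_pow, hαt] at h10
    nlinarith
  · by_contra hcon
    push Not at hcon
    have hne : S.Nonempty := by
      by_contra h
      rw [Finset.not_nonempty_iff_eq_empty] at h
      rw [h, Finset.sum_empty] at h1'
      linarith
    have h3 : ∑ χ ∈ S, α * (d χ : ℚ) < ∑ χ ∈ S, (d χ : ℚ) ^ 2 := by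
      refine Finset.sum_lt_sum_of_nonempty hne fun χ hχ => ?_
      rw [hS, Finset.mem_filter, Finset.mem_erase] at hχ
      have h4 := hcon χ (fun e => hχ.1.1 (Subtype.ext e)) hχ.2
      have : (0 : ℚ) < d χ := by exact_mod_cast Char.charDegree_irr_pos χ
      rw [pow_two]
      gcongr
    rw [← Finset.mul_sum] at h3
    have h4 : α * t ≤ α * ∑ χ ∈ S, (d χ : ℚ) := by gcongr
    linarith

end Cfsg.Agent.S4476
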