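import Cfsg.Statements.S4478
import Cfsg.Agent.Char.FS
import Cfsg.Agent.Char.Quot
import Cfsg.Agent.Char.DefectZero
import Cfsg.Agent.Char.Integrality

set_option autoImplicit false
open Cfsg

namespace Cfsg.Agent.S4478

open Cfsg.Agent.Char


/-- Let G be a finite group of even order and χ an irreducible character of G whose degree x is divisible by the full power of 2 dividing the order of G and, for every odd prime p such that G has an element of order 2p, by the full power of p dividing the order of G. Then all involutions of G are conjugate, the centralizer of every involution has order exactly x with x coprime to its index, and the Frobenius–Schur indicator of χ equals 1. -/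
theorem result {G : Type*} [Group G] [Fintype G] (heven : Even (Nat.card G)) (χ : Cfsg.IrrCharacter G) (h2 : 2 ^ (Nat.card G).factorization 2 ∣ Cfsg.charDegree (χ : G → ℂ)) (hp : ∀ p : ℕ, p.Prime → p ≠ 2 → (∃ g : G, orderOf g = 2 * p) → p ^ (Nat.card G).factorization p ∣ Cfsg.charDegree (χ : G → ℂ)) : (∀ s t : G, orderOf s = 2 → orderOf t = 2 → IsConj s t) ∧ (∀ s : G, orderOf s = 2 → Nat.card (Subgroup.centralizer ({s} : Set G)) = Cfsg.charDegree (χ : G → ℂ) ∧ (Nat.card (Subgroup.centralizer ({s} : Set G))).Coprime (Subgroup.centralizer ({s} : Set G)).index) ∧ (Nat.card G : ℂ)⁻¹ * ∑ g : G, (χ : G → ℂ) (g * g) = 1 := by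
  classical
  set x := charDegree (χ : G → ℂ) with hx
  have hx1 : (χ : G → ℂ) 1 = x := (coe_charDegree_irr χ).symm
  have hxpos : 0 < x := charDegree_irr_pos χ
  have hG0 : Nat.card G ≠ 0 := Nat.card_pos.ne'
  have two : Fact (Nat.Prime 2) := ⟨Nat.prime_two⟩
  -- full prime powers
  have hfull : ∀ s : G, orderOf s = 2 → ∀ q : ℕ, q.Prime →
      q ∣ Nat.card (Subgroup.centralizer ({s} : Set G)) →
      q ^ (Nat.card G).factorization q ∣ x := by
    intro s hs q hq hqd
    by_cases hq2 : q = 2
    · subst hq2; exact h2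
    · have : Fact q.Prime := ⟨hq⟩
      obtain ⟨z, hz⟩ := exists_prime_orderOf_dvd_card' q hqd
      refine hp q hq hq2 ⟨s * z, ?_⟩
      have hc : Commute s (z : G) := (Subgroup.mem_centralizer_singleton_iff.mp z.2).symm
      rw [hc.orderOf_mul_eq_mul_orderOf_of_coprime, hs, Subgroup.orderOf_coe, hz]
      rw [hs, Subgroup.orderOf_coe, hz]
      exact (Nat.coprime_primes Nat.prime_two hq).mpr (Ne.symm hq2)
  have hvan : ∀ q : ℕ, q.Prime → q ^ (Nat.card G).factorization q ∣ x → ∀ g : G,
      q ∣ orderOf g → (χ : G → ℂ) g = 0 := fun q hq h g hg =>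
    χ.2.eq_zero_of_pow_dvd hq hx1 (Nat.pow_succ_factorization_not_dvd hG0 hq) h hg
  have hC : ∀ s : G, orderOf s = 2 → ∀ g ∈ Subgroup.centralizer ({s} : Set G), g ≠ 1 →
      (χ : G → ℂ) g = 0 := by
    intro s hs g hg hg1
    obtain ⟨q, hq, hqd⟩ := Nat.exists_prime_and_dvd (n := orderOf g) (by simpa using hg1)
    exact hvan q hq (hfull s hs q hq (hqd.trans (Subgroup.orderOf_dvd_natCard _ hg))) g hqd
  have hCd : ∀ s : G, orderOf s = 2 → Nat.card (Subgroup.centralizer ({s} : Set G)) ∣ x := by
    intro s hs
    obtain ⟨n, hn⟩ := (χ.2.isCharacter.restrict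
      (Subgroup.centralizer ({s} : Set G))).exists_nat_inner isCharacter_one
    rw [classInner_one_right, Finset.sum_eq_single 1, OneMemClass.coe_one, hx1,
      inv_mul_eq_iff_eq_mul₀ (card_ne_zero _)] at hn
    · exact ⟨n, by exact_mod_cast hn⟩
    · intro g _ hg
      exact hC s hs g g.2 (by simpa using hg)
    · simp
  have hne : (χ : G → ℂ) ≠ fun _ => 1 := by
    intro e
    have h1 : x = 1 := by rw [hx, e, charDegree_const_one]
    rw [h1, Nat.dvd_one, Nat.pow_eq_one] at h2
    have := (Nat.prime_two.dvd_iff_one_le_factorization hG0).mp heven.two_dvd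
    omega
  set T : Finset G := Finset.univ.filter (fun g => orderOf g = 2) with hT
  have hsum : ∑ g : G, (χ : G → ℂ) (g * g) = T.card * x := by
    rw [← Finset.sum_filter_add_sum_filter_not Finset.univ (fun g : G => 2 ∣ orderOf g)]
    have h3 : ∑ g ∈ Finset.univ.filter (fun g : G => ¬ 2 ∣ orderOf g), (χ : G → ℂ) (g * g) =
        ∑ g ∈ Finset.univ.filter (fun g : G => ¬ 2 ∣ orderOf g), (χ : G → ℂ) g := by
      have hcop : ∀ g : G, ¬ 2 ∣ orderOf g → (orderOf g).Coprime 2 := fun g hg =>
        ((Nat.Prime.coprime_iff_not_dvd Nat.prime_two).mpr hg).symm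
      refine Finset.sum_bij (fun g _ => g * g) (fun g hg => ?_) (fun a ha b hb hab => ?_)
        (fun g hg => ?_) (fun _ _ => rfl)
      · simp only [Finset.mem_filter, Finset.mem_univ, true_and] at hg ⊢
        rwa [← pow_two, (hcop g hg).orderOf_pow]
      · simp only [Finset.mem_filter, Finset.mem_univ, true_and] at ha hb
        have hab' : a ^ 2 = b ^ 2 := by simpa only [pow_two] using hab
        have ho : orderOf a = orderOf b := by
          rw [← (hcop a ha).orderOf_pow, ← (hcop b hb).orderOf_pow, hab']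
        obtain ⟨k, hk⟩ : Odd (orderOf a) := Nat.odd_iff.mpr (by omega)
        have e1 : a = (a ^ 2) ^ (k + 1) := by
          rw [← pow_mul, show 2 * (k + 1) = orderOf a + 1 by omega, pow_succ, pow_orderOf_eq_one,
            one_mul]
        have e2 : b = (b ^ 2) ^ (k + 1) := by
          rw [← pow_mul, show 2 * (k + 1) = orderOf b + 1 by omega, pow_succ, pow_orderOf_eq_one,
            one_mul]
        rw [e1, e2, hab']
      · simp only [Finset.mem_filter, Finset.mem_univ, true_and] at hg ⊢
        obtain ⟨k, hk⟩ : Odd (orderOf g) := Nat.odd_iff.mpr (by omega)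
        refine ⟨g ^ (k + 1), fun h => hg (h.trans (orderOf_pow_dvd _)), ?_⟩
        rw [← pow_add, show k + 1 + (k + 1) = orderOf g + 1 by omega, pow_succ,
          pow_orderOf_eq_one, one_mul]
    have h4 : ∑ g ∈ Finset.univ.filter (fun g : G => ¬ 2 ∣ orderOf g), (χ : G → ℂ) g = 0 := by
      rw [← χ.2.sum_eq_zero hne, Finset.sum_filter]
      refine Finset.sum_congr rfl fun g _ => ?_
      split_ifs with h
      · exact (hvan 2 Nat.prime_two h2 g h).symm
      · rfl
    rw [h3, h4, add_zero, hT, ← nsmul_eq_mul, ← Finset.sum_const, Finset.sum_filter,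
      Finset.sum_filter]
    refine Finset.sum_congr rfl fun g _ => ?_
    by_cases h : orderOf g = 2
    · rw [if_pos h, if_pos (h ▸ dvd_rfl), ← pow_two, ← h, pow_orderOf_eq_one, hx1]
    · rw [if_neg h]
      split_ifs with h'
      · have h5 : orderOf (g ^ (orderOf g / 2)) = 2 := orderOf_pow_orderOf_div (orderOf_pos g).ne' h'
        refine hC _ h5 _ (Subgroup.mem_centralizer_singleton_iff.mpr ?_) fun e => h ?_
        · exact (((Commute.refl g).mul_left (Commute.refl g)).pow_right _).eq
        · exact Nat.dvd_antisymm (orderOf_dvd_of_pow_eq_one (by rw [pow_two, e])) h'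
      · rfl
  have hTpos : 0 < T.card := by
    obtain ⟨s, hs⟩ := exists_prime_orderOf_dvd_card' (G := G) 2 heven.two_dvd
    exact Finset.card_pos.mpr ⟨s, by simp [hT, hs]⟩
  have hν : fsInd (χ : G → ℂ) = 1 ∧ T.card * x = Nat.card G := by
    have h3 : (Nat.card G : ℂ) * fsInd (χ : G → ℂ) = (T.card * x : ℕ) := by
      rw [fsInd_def, hsum, mul_inv_cancel_left₀ (card_ne_zero G), Nat.cast_mul]
    have h4 := Nat.mul_pos hTpos hxpos
    rcases fsInd_trichotomy χ.2 with e | e | e
    · rw [e, mul_zero] at h3
      exact absurd (by exact_mod_cast h3.symm) h4.ne'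
    · rw [e, mul_one] at h3
      exact ⟨e, by exact_mod_cast h3.symm⟩
    · rw [e, mul_neg_one, neg_eq_iff_add_eq_zero] at h3
      have : Nat.card G + T.card * x = 0 := by exact_mod_cast h3
      omega
  have hcl : ∀ s : G, orderOf s = 2 → Finset.univ.filter (IsConj s) ⊆ T := by
    intro s hs g hg
    simp only [hT, Finset.mem_filter, Finset.mem_univ, true_and] at hg ⊢
    obtain ⟨c, hc⟩ := hg
    rw [← SemiconjBy.orderOf_eq _ hc, hs]
  have key : ∀ s : G, orderOf s = 2 → (Subgroup.centralizer ({s} : Set G)).index = T.card ∧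
      Nat.card (Subgroup.centralizer ({s} : Set G)) = x := by
    intro s hs
    have h3 := Finset.card_le_card (hcl s hs)
    rw [card_filter_isConj] at h3
    have h4 := Nat.le_of_dvd hxpos (hCd s hs)
    have h5 := (Subgroup.centralizer ({s} : Set G)).index_mul_card
    rw [← hν.2] at h5
    constructor
    · by_contra h
      have : (Subgroup.centralizer ({s} : Set G)).index < T.card := lt_of_le_of_ne h3 h
      nlinarith
    · by_contra h
      have : Nat.card (Subgroup.centralizer ({s} : Set G)) < x := lt_of_le_of_ne h4 h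
      nlinarith
  refine ⟨fun s t hs ht => ?_, fun s hs => ⟨(key s hs).2, ?_⟩, hν.1⟩
  · have h3 := Finset.eq_of_subset_of_card_le (hcl s hs)
      (by rw [card_filter_isConj, (key s hs).1])
    have h4 : t ∈ T := by simp [hT, ht]
    rw [← h3] at h4
    exact (Finset.mem_filter.mp h4).2
  · refine Nat.coprime_of_dvd fun q hq hq1 hq2 => Nat.pow_succ_factorization_not_dvd hG0 hq ?_
    have h3 := hfull s hs q hq hq1
    rw [← (key s hs).2] at h3
    conv_rhs => rw [← (Subgroup.centralizer ({s} : Set G)).card_mul_index]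
    rw [pow_succ]
    exact Nat.mul_dvd_mul h3 hq2

end Cfsg.Agent.S4478
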