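import Cfsg.Statements.S4481
import Mathlib
import Cfsg.Agent.Block.DihBlock

set_option autoImplicit false
open Cfsg

namespace Cfsg.Agent.S4481


/-- The principal 2-block of a group with dihedral Sylow 2-subgroups. Let G be a finite group whose Sylow 2-subgroup P is dihedral of order 2^n ≥ 8, let σ be an element of P of order 2^(n−1), ζ a primitive 2^(n−1)-th root of unity, and M a maximal ideal of the algebraic integers containing 2. Then the principal 2-block consists of exactly 3 + 2^(n−2) irreducible characters, which can be labelled 1, χ₁, χ₂, χ₃ and χ^(j) for 1 ≤ j ≤ 2^(n−2) − 1 (all distinct), with signs δ₁, δ₂, δ₃ such that for 0 < λ < 2^(n−1): χ₁(σ^λ) = δ₁, χ₂(σ^λ) = δ₂(−1)^(λ+1), χ₃(σ^λ) = δ₃(−1)^(λ+1) and χ^(j)(σ^λ) = δ₁(ζ^(jλ) + ζ^(−jλ)); and for every element ρ of odd order and every j: 1 + δ₁χ₁(ρ)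 = −δ₂χ₂(ρ) − δ₃χ₃(ρ) = δ₁χ^(j)(ρ). -/
theorem result {G : Type*} [Group G] [Finite G] (M : Ideal Cfsg.AlgInt) (hM : Cfsg.IsPModular 2 M) (n : ℕ) (hn : 3 ≤ n) (P : Sylow 2 G) (hP : Nonempty ((P : Subgroup G) ≃* DihedralGroup (2 ^ (n - 1)))) (σ : G) (hσ : σ ∈ (P : Subgroup G)) (hσo : orderOf σ = 2 ^ (n - 1)) (ζ : ℂ) (hζ : IsPrimitiveRoot ζ (2 ^ (n - 1))) : Nat.card (Cfsg.principalBlock M G) = 3 + 2 ^ (n - 2) ∧ ∃ (χ₁ χ₂ χ₃ : Cfsg.IrrCharacter G) (χ' : Fin (2 ^ (n - 2) - 1) → Cfsg.IrrCharacter G) (δ₁ δ₂ δ₃ : ℤ), (δ₁ = 1 ∨ δ₁ = -1) ∧ (δ₂ = 1 ∨ δ₂ = -1) ∧ (δ₃ = 1 ∨ δ₃ = -1) ∧ Function.Injective χ' ∧ (χ₁ : G → ℂ) ≠ (fun _ => 1) ∧ (χ₂ : G → ℂ) ≠ (fun _ => 1) ∧ (χ₃ : G → ℂ) ≠ (fun _ => 1) ∧ χ₁ ≠ χ₂ ∧ χ₁ ≠ χ₃ ∧ χ₂ ≠ χ₃ ∧ (∀ j, χ' j ≠ χ₁ ∧ χ' j ≠ χ₂ ∧ χ' j ≠ χ₃ ∧ (χ' j : G → ℂ) ≠ (fun _ => 1)) ∧ Cfsg.principalBlock M G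 = {χ : Cfsg.IrrCharacter G | (χ : G → ℂ) = (fun _ => 1) ∨ χ = χ₁ ∨ χ = χ₂ ∨ χ = χ₃ ∨ ∃ j, χ = χ' j} ∧ (∀ l : ℕ, 0 < l → l < 2 ^ (n - 1) → (χ₁ : G → ℂ) (σ ^ l) = δ₁ ∧ (χ₂ : G → ℂ) (σ ^ l) = δ₂ * (-1) ^ (l + 1) ∧ (χ₃ : G → ℂ) (σ ^ l) = δ₃ * (-1) ^ (l + 1) ∧ ∀ j : Fin (2 ^ (n - 2) - 1), (χ' j : G → ℂ) (σ ^ l) = δ₁ * (ζ ^ (((j : ℕ) + 1) * l) + (ζ ^ (((j : ℕ) + 1) * l))⁻¹)) ∧ ∀ ρ : G, Odd (orderOf ρ) → ∀ j : Fin (2 ^ (n - 2) - 1), 1 + δ₁ * (χ₁ : G → ℂ) ρ = -δ₂ * (χ₂ : G → ℂ) ρ - δ₃ * (χ₃ : G → ℂ) ρ ∧ 1 + δ₁ * (χ₁ : G → ℂ) ρ = δ₁ * (χ' j : G → ℂ) ρ := by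
  open Cfsg.Agent.Char Cfsg.Agent.Inv Cfsg.Agent.Block.DihBlock in
  classical
  obtain ⟨k, rfl⟩ : ∃ k, n = k + 3 := ⟨n - 3, by omega⟩
  obtain ⟨e⟩ := hP
  obtain ⟨c, rfl⟩ := exists_DC (k := k) (CycExt.ofMulEquiv e (dihedralCycExt _)) hσ hσo
  change IsPrimitiveRoot ζ (2 ^ (k + 2)) at hζ
  obtain ⟨χ₁, χ₂, χ₃, χ', δ₁, δ₂, δ₃, s1, s2, s3, hinj, n1, n2, n3, n12, n13, n23, n', hB, hval,
    hodd⟩ := main c hM hζ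
  have hone : ∀ χ : IrrCharacter G, (χ : G → ℂ) = (fun _ => 1) ↔ χ = irrOne G := fun χ =>
    ⟨fun h => Subtype.ext h, fun h => by rw [h]; rfl⟩
  refine ⟨?_, χ₁, χ₂, χ₃, χ', δ₁, δ₂, δ₃, s1, s2, s3, hinj, by rwa [Ne, hone], by rwa [Ne, hone],
    by rwa [Ne, hone], n12, n13, n23, fun j => by rw [Ne, Ne, Ne, Ne, hone]; exact n' j, ?_,
    fun l h0 hl => ?_, fun ρ hρ j => ?_⟩
  · have : principalBlock M G = ((insert (irrOne G) (insert χ₁ (insert χ₂ (insert χ₃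
        (Finset.univ.image χ')))) : Finset (IrrCharacter G)) : Set _) := by
      ext χ
      simp [hB, eq_comm]
    rw [this, Nat.card_coe_set_eq, Set.ncard_coe_finset,
      Finset.card_insert_of_notMem (by simp [n1.symm, n2.symm, n3.symm, fun j => (n' j).2.2.2]),
      Finset.card_insert_of_notMem (by simp [n12, n13, fun j => (n' j).1]),
      Finset.card_insert_of_notMem (by simp [n23, fun j => (n' j).2.1]),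
      Finset.card_insert_of_notMem (by simp [fun j => (n' j).2.2.1]),
      Finset.card_image_of_injective _ hinj, Finset.card_univ, Fintype.card_fin]
    change _ = 3 + 2 ^ (k + 1)
    have : 0 < 2 ^ (k + 1) := by positivity
    omega
  · ext χ
    rw [hB, Set.mem_setOf_eq, hone]
    rfl
  · have hl0 : (l : ZMod (2 ^ (k + 2))) ≠ 0 := fun h =>
      h0.ne' (natCast_inj hl (by positivity) (h.trans Nat.cast_zero.symm))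
    have hE : E hζ (2 ^ (k + 1) * l) = (-1) ^ l := by
      rw [mul_comm, ← nsmul_eq_mul, AddChar.map_nsmul_eq_pow, E_h]
    obtain ⟨v1, v2, v3, v4⟩ := hval l hl0
    rw [c.r_pow, mul_one, v1, v2, v3, hE]
    refine ⟨rfl, by ring, by ring, fun j => ?_⟩
    rw [v4 j, E_neg, tt, ← Nat.cast_mul, E_natCast]
  · obtain ⟨o1, o2⟩ := hodd ρ hρ
    exact ⟨by linear_combination o1, by linear_combination o2 j⟩

end Cfsg.Agent.S4481
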