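import Cfsg.Statements.S4483
import Cfsg.Agent.Block.DefectNum
-- import your own Cfsg.Agent.* helpers here

set_option autoImplicit false
open Cfsg

namespace Cfsg.Agent.S4483

open Cfsg.Agent.Block Cfsg.Agent.Char
open scoped ComplexConjugate

/-- Let G be a finite group of order 2^n·g₀ with g₀ odd, and M a maximal ideal of the algebraic integers containing 2. Every real-valued irreducible character of G of odd degree lies in the principal 2-block; consequently G has at most 2^(2n) real-valued irreducible characters of odd degree. -/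
theorem result {G : Type*} [Group G] [Finite G] (M : Ideal Cfsg.AlgInt) (hM : Cfsg.IsPModular 2 M) : (∀ χ : Cfsg.IrrCharacter G, (∀ g : G, ((χ : G → ℂ) g).im = 0) → Odd (Cfsg.charDegree (χ : G → ℂ)) → χ ∈ Cfsg.principalBlock M G) ∧ Nat.card {χ : Cfsg.IrrCharacter G // (∀ g : G, ((χ : G → ℂ) g).im = 0) ∧ Odd (Cfsg.charDegree (χ : G → ℂ))} ≤ 2 ^ (2 * (Nat.card G).factorization 2) := by
  have key : ∀ χ : Cfsg.IrrCharacter G, (∀ g : G, ((χ : G → ℂ) g).im = 0) →
      Odd (Cfsg.charDegree (χ : G → ℂ)) → χ ∈ Cfsg.principalBlock M G := by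
    intro χ hr hodd
    refine mem_principal_of_real_odd hM (fun g _ => ?_) hodd
    rw [χ.2.map_inv, Complex.conj_eq_iff_im.2 (hr g)]
    simp
  refine ⟨key, ?_⟩
  have h1 := four_mul_card_le hM (isPBlock_principal (G := G))
  have h2 : Nat.card {χ : Cfsg.IrrCharacter G // (∀ g : G, ((χ : G → ℂ) g).im = 0) ∧
      Odd (Cfsg.charDegree (χ : G → ℂ))} ≤ Nat.card (Cfsg.principalBlock M G) :=
    Nat.card_le_card_of_injective (fun χ => ⟨χ.1, key χ.1 χ.2.1 χ.2.2⟩)
      fun a b h => Subtype.ext (congrArg (fun x => x.1) h)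
  have h3 : 2 ^ (2 * blockDefect 2 (principalBlock M G)) ≤ 2 ^ (2 * (Nat.card G).factorization 2) :=
    Nat.pow_le_pow_right (by norm_num) (Nat.mul_le_mul_left _ (blockDefect_le _ _))
  have h4 : 0 < 2 ^ (2 * (Nat.card G).factorization 2) := by positivity
  omega

end Cfsg.Agent.S4483
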