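import Cfsg.Statements.S4484
import Cfsg.Agent.Char.Blich60
import Cfsg.Agent.Block.Teich

set_option autoImplicit false
open Cfsg

namespace Cfsg.Agent.S4484

open Cfsg.Agent.Char Cfsg.Agent.Block Subgroup Module in
theorem card_eig_le {G : Type*} [Group G] [Finite G] {M : Ideal AlgInt} {p q b g₀ n : ℕ}
    [hp : Fact p.Prime] (hM : IsPModular p M) (hq : q.Prime) {χ : IrrCharacter G}
    (hχ : χ ∈ principalBlock M G) (hqχ : ¬ q ∣ n) (hn : χ.1 1 = n) {z : G} (hz : orderOf z = p)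
    (hi : ∀ k : ℕ, (centralizer ({z ^ k} : Set G)).index ∣ q ^ b * g₀)
    (hpi : ∀ k : ℕ, ¬ p ∣ (centralizer ({z ^ k} : Set G)).index) (ε : Fin n → ℂ)
    (hε : ∀ i, ε i ^ p = 1) (hχε : ∀ k : ℕ, χ.1 (z ^ k) = ∑ i, ε i ^ k) [DecidableEq ℂ]
    (hg₀ : 0 < g₀) : (Finset.univ.image ε).card ≤ g₀ := by
  have hn0 : (n : ℂ) ≠ 0 := hn ▸ χ.2.one_ne_zero
  have hn0' : n ≠ 0 := by exact_mod_cast hn0
  have hint : ∀ k : ℕ, IsIntegral ℤ (g₀ * χ.1 (z ^ k) / n) := fun k => by
    obtain ⟨c, hc⟩ := hi k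
    obtain ⟨u, v, huv⟩ : IsCoprime ((q ^ b : ℕ) : ℤ) (n : ℤ) := Nat.isCoprime_iff_coprime.2
      (Nat.Coprime.pow_left _ ((Nat.Prime.coprime_iff_not_dvd hq).2 hqχ))
    have h1 := isIntegral_centralChar χ.2 (z ^ k)
    have h2 := χ.2.isCharacter.isIntegral (z ^ k)
    have h3 : (g₀ * χ.1 (z ^ k) / n : ℂ) = (u : ℂ) * ((c : ℤ) * centralChar χ.1 (z ^ k)) +
        (v : ℂ) * ((g₀ : ℤ) * χ.1 (z ^ k)) := by
      have h4 : (u : ℂ) * (q ^ b : ℕ) + v * n = 1 := by exact_mod_cast huv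
      have h5 : ((q ^ b : ℕ) : ℂ) * g₀ = (centralizer ({z ^ k} : Set G)).index * c := by
        exact_mod_cast hc
      rw [centralChar, hn]
      field_simp
      push_cast at h4 h5 ⊢
      linear_combination (-(g₀ : ℂ) * χ.1 (z ^ k)) * h4 + (u * χ.1 (z ^ k)) * h5
    rw [h3]
    exact (isIntegral_algebraMap.mul (isIntegral_algebraMap.mul h1)).add
      (isIntegral_algebraMap.mul (isIntegral_algebraMap.mul h2))
  have hval : ∀ k : ℕ, val M (g₀ * χ.1 (z ^ k) / n - g₀) < 1 := fun k => by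
    have h1 := val_centralChar_sub_index_lt hM hχ (z ^ k)
    have h2 := (val_natCast_eq_one_iff hM _).2 (hpi k)
    have h3 := ne_zero_of_val_eq_one h2
    have h4 : (g₀ * χ.1 (z ^ k) / n - g₀ : ℂ) = g₀ * (centralChar χ.1 (z ^ k) -
        (centralizer ({z ^ k} : Set G)).index) / (centralizer ({z ^ k} : Set G)).index := by
      rw [centralChar, hn]
      field_simp
    rw [h4, map_div₀, h2, div_one, map_mul]
    exact lt_of_le_of_lt (mul_le_of_le_one_left' (val_natCast_le_one _)) h1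
  have key : ∀ l ∈ Finset.univ.image ε, n ≤ g₀ * (Finset.univ.filter fun i => ε i = l).card := by
    intro l hl
    obtain ⟨j, -, rfl⟩ := Finset.mem_image.1 hl
    set m := (Finset.univ.filter fun i => ε i = ε j).card with hm
    have hm0 : 0 < m := Finset.card_pos.2 ⟨j, by simp⟩
    have hj0 : ε j ≠ 0 := fun h => by simpa [h, hp.out.ne_zero] using hε j
    have h1 : ∑ k ∈ Finset.range p, χ.1 (z ^ k) * (ε j)⁻¹ ^ k = p * m := by
      simp only [hχε, Finset.sum_mul, ← mul_pow]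
      rw [Finset.sum_comm, Finset.sum_congr rfl (g := fun i => if ε i = ε j then (p : ℂ) else 0),
        Finset.sum_ite, Finset.sum_const_zero, add_zero, Finset.sum_const, nsmul_eq_mul, mul_comm]
      intro i _
      split_ifs with h
      · simp [h, hj0]
      · have h2 : ε i * (ε j)⁻¹ ≠ 1 := fun h' => h (by field_simp at h'; exact h')
        rw [geom_sum_eq h2, mul_pow, inv_pow, hε, hε]
        simp
    have hinv : (ε j)⁻¹ ^ p = 1 := by rw [inv_pow, hε, inv_one]
    have h2 : ((p * (g₀ * m) : ℕ) : ℂ) / n =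
        ∑ k ∈ Finset.range p, g₀ * χ.1 (z ^ k) / n * (ε j)⁻¹ ^ k := by
      push_cast
      rw [mul_left_comm, ← h1, Finset.mul_sum, Finset.sum_div]
      refine Finset.sum_congr rfl fun k _ => by ring
    have h3 : n ∣ p * (g₀ * m) := dvd_of_isIntegral_div hn0' (by
      rw [h2]
      exact IsIntegral.sum _ fun k _ => (hint k).mul
        ((isIntegral_of_pow_eq_one hp.out.ne_zero hinv).pow _))
    obtain ⟨u, hu⟩ := h3
    have h4 : (u : ℂ) = ∑ k ∈ Finset.range p, g₀ * χ.1 (z ^ k) / n * (ε j)⁻¹ ^ k := by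
      rw [← h2, hu]
      push_cast
      field_simp
    have hv1 : ∀ k : ℕ, val M ((ε j)⁻¹ ^ k - 1) < 1 := fun k => by
      have h5 : ((ε j)⁻¹ ^ k) ^ p = 1 := by rw [← pow_mul, mul_comm, pow_mul, hinv, one_pow]
      exact val_sub_one_lt_of_val_pow hM (a := 1)
        (val_eq_one_of_pow_eq_one hp.out.ne_zero h5).le (by rw [pow_one, h5]; simp)
    have h6 : val M ((u : ℂ) - (p * g₀ : ℕ)) < 1 := by
      have h7 : (u : ℂ) - (p * g₀ : ℕ) = ∑ k ∈ Finset.range p,
          ((g₀ * χ.1 (z ^ k) / n - g₀) + g₀ * χ.1 (z ^ k) / n * ((ε j)⁻¹ ^ k - 1)) := by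
        rw [h4]
        simp only [mul_sub, mul_one, sub_add_sub_cancel', Finset.sum_sub_distrib]
        simp
      rw [h7]
      refine val_sum_lt_one fun k _ => Valuation.map_add_lt _ (hval k) ?_
      rw [map_mul]
      exact lt_of_le_of_lt (mul_le_of_le_one_left' (val_le_one_of_isIntegral (hint k))) (hv1 k)
    have h8 : p ∣ u := by
      have h9 := Valuation.map_add_lt _ h6 ((val_natCast_lt_one_iff hM (p * g₀)).2 (dvd_mul_right _ _))
      rw [sub_add_cancel] at h9
      exact (val_natCast_lt_one_iff hM _).1 h9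
    obtain ⟨w, rfl⟩ := h8
    rw [mul_left_comm n] at hu
    exact Nat.le_of_dvd (Nat.mul_pos hg₀ hm0) ⟨w, Nat.eq_of_mul_eq_mul_left hp.out.pos hu⟩
  have h1 : n = ∑ l ∈ Finset.univ.image ε, (Finset.univ.filter fun i => ε i = l).card := by
    rw [← Finset.card_eq_sum_card_image]
    simp
  have h2 : (Finset.univ.image ε).card * n ≤ g₀ * n := by
    calc _ = ∑ _l ∈ Finset.univ.image ε, n := by simp
      _ ≤ ∑ l ∈ Finset.univ.image ε, g₀ * (Finset.univ.filter fun i => ε i = l).card :=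
        Finset.sum_le_sum key
      _ = _ := by rw [← Finset.mul_sum, ← h1]
  exact Nat.le_of_mul_le_mul_right h2 (Nat.pos_of_ne_zero hn0')


/-- A refinement of Burnside's result on simple groups of order divisible by only two primes. Let G be a finite simple group of order p^a · q^b · g₀ with p, q distinct primes, a > 0, g₀ coprime to p and q, and the order of G different from p. Then g₀ − 1 > log p / log 6, that is 6^(g₀ − 1) > p. -/
theorem result {G : Type*} [Group G] [Finite G] [IsSimpleGroup G] (p q a b g₀ : ℕ) (hp : p.Prime) (hq : q.Prime) (hpq : p ≠ q) (ha : 0 < a) (hg : Nat.card G = p ^ a * q ^ b * g₀) (hcop : ¬ p ∣ g₀) (hcoq : ¬ q ∣ g₀) (hne : Nat.card G ≠ p) : p < 6 ^ (g₀ - 1) := by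
  open Cfsg.Agent.Char Cfsg.Agent.Block Subgroup Module in
  classical
  by_contra hlt
  rw [not_lt] at hlt
  have : Fact p.Prime := ⟨hp⟩
  have hg₀ : 0 < g₀ := Nat.pos_of_ne_zero (by rintro rfl; exact hcop (dvd_zero p))
  have hpG : p ∣ Nat.card G := by
    rw [hg, mul_assoc]; exact dvd_mul_of_dvd_left (dvd_pow_self p ha.ne') _
  have hZ : center G = ⊥ := by
    refine (IsSimpleGroup.eq_bot_or_eq_top_of_normal (center G) inferInstance).resolve_right
      fun h => hne ?_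
    have hc : ∀ x y : G, x * y = y * x := fun x y => mem_center_iff.1 (h ▸ mem_top y) x
    let _ : CommGroup G := { (inferInstance : Group G) with mul_comm := hc }
    exact ((Nat.prime_dvd_prime_iff_eq hp IsSimpleGroup.prime_card).1 hpG).symm
  obtain ⟨P⟩ := (inferInstance : Nonempty (Sylow p G))
  have hP : Nontrivial (P : Subgroup G) := by
    rw [nontrivial_iff_ne_bot]
    exact P.ne_bot_of_dvd_card hpG
  have hZP := P.isPGroup'.center_nontrivial
  obtain ⟨k₀, hk₀, hk₁⟩ := (P.isPGroup'.to_subgroup (center (P : Subgroup G))).nontrivial_iff_card.1 hZP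
  obtain ⟨z₀, hz₀⟩ := exists_prime_orderOf_dvd_card' (G := center (P : Subgroup G)) p
    (hk₁ ▸ dvd_pow_self p hk₀.ne')
  set z : G := ((z₀ : (P : Subgroup G)) : G) with hzdef
  have hz : orderOf z = p := by rw [hzdef, orderOf_coe, orderOf_coe, hz₀]
  have hpi : ∀ k : ℕ, ¬ p ∣ (centralizer ({z ^ k} : Set G)).index := fun k h =>
    P.not_dvd_index (h.trans (index_dvd_of_le fun x hx => mem_centralizer_singleton_iff.2
      ((show Commute x z from congrArg Subtype.val (mem_center_iff.1 z₀.2 ⟨x, hx⟩)).pow_right k).eq))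
  have hi : ∀ k : ℕ, (centralizer ({z ^ k} : Set G)).index ∣ q ^ b * g₀ := fun k =>
    Nat.Coprime.dvd_of_dvd_mul_left (Nat.Coprime.pow_right a
      ((Nat.Prime.coprime_iff_not_dvd hp).2 (hpi k)).symm)
      (by rw [← mul_assoc, ← hg]; exact index_dvd_card _)
  obtain ⟨M, hM⟩ := exists_isPModular hp
  obtain ⟨χ, hχ, h1, h2⟩ := Blich60.exists_principal_not_dvd (G := G) hM hpG hq
  have hf : ∀ g, χ.1 g = χ.1 1 → g = 1 := (charKer_eq_bot_iff χ.2.isCharacter).1
    ((IsSimpleGroup.eq_bot_or_eq_top_of_normal _ inferInstance).resolve_right fun h =>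
      h1 (Subtype.ext (eq_one_of_charKer_eq_top χ.2 h)))
  obtain ⟨n₀, ρ, hρ, hρχ⟩ := Unitary.exists_unitary χ.2.isCharacter
  have hirr : ρ.IsIrreducible := by
    obtain ⟨n₁, σ, hσ, hσχ⟩ := χ.2
    obtain ⟨e⟩ := nonempty_equiv_of_irr_char_eq σ ρ (hσχ.trans hρχ.symm)
    exact isIrreducible_of_equiv e
  obtain ⟨n, hn, B, ε, hBk⟩ : ∃ (n : ℕ) (_ : finrank ℂ (EuclideanSpace ℂ (Fin n₀)) = n)
      (B : OrthonormalBasis (Fin n) ℂ (EuclideanSpace ℂ (Fin n₀))) (ε : Fin n → ℂ),
      ∀ (k : ℕ) i, ρ (z ^ k) (B i) = ε i ^ k • B i := by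
    obtain ⟨B, lam, hB⟩ := Unitary.exists_orthonormalBasis (ρ := ρ.comp (zpowers z).subtype)
      (fun g v => hρ g v) (fun x y => mul_comm' x y)
    refine ⟨_, rfl, B, fun i => lam i ⟨z, mem_zpowers z⟩, fun k i => ?_⟩
    have := hB (⟨z, mem_zpowers z⟩ ^ k) i
    rwa [map_pow (lam i), Units.val_pow_eq_pow_val] at this
  have hεp : ∀ i, ε i ^ p = 1 := fun i => by
    have h3 := hBk p i
    rw [← hz, pow_orderOf_eq_one, map_one, End.one_apply, hz] at h3
    have h4 : (ε i ^ p - 1) • B i = 0 := by rw [sub_smul, one_smul, ← h3, sub_self]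
    exact sub_eq_zero.1 ((smul_eq_zero.1 h4).resolve_right (B.toBasis.ne_zero i))
  have hn1 : χ.1 1 = n := by rw [← hρχ, Representation.char_one, hn]
  have hcard := card_eig_le hM hq hχ (by rwa [charDegree_eq_of_one_eq hn1] at h2) hn1 hz hi hpi ε hεp
    (fun k => by
      rw [← hρχ]
      exact trace_eq_sum_of_eigenbasis _ B.toBasis _ (hBk k)) hg₀
  have hn0 : 0 < n := hn ▸ finrank_pos_of_isIrreducible ρ
  obtain ⟨i₀⟩ : Nonempty (Fin n) := ⟨⟨0, hn0⟩⟩
  have hε1 : ∀ i, ‖ε i‖ = 1 := fun i => norm_eq_one_of_pow_eq_one hp.ne_zero (hεp i)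
  have hε0 : ε i₀ ≠ 0 := fun h => by simpa [h] using hε1 i₀
  obtain ⟨k, hk0, hk6, hk⟩ := Blich60.exists_pow_near_one
    (((Finset.univ.image ε).erase (ε i₀)).image fun w => w / ε i₀) (fun w hw => by
      obtain ⟨w', hw', rfl⟩ := Finset.mem_image.1 hw
      obtain ⟨i, -, rfl⟩ := Finset.mem_image.1 (Finset.mem_of_mem_erase hw')
      rw [norm_div, hε1, hε1, div_one])
  have hkp : k < p := by
    have h3 : (((Finset.univ.image ε).erase (ε i₀)).image fun w => w / ε i₀).card ≤ g₀ - 1 := by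
      refine Finset.card_image_le.trans ?_
      rw [Finset.card_erase_of_mem (Finset.mem_image_of_mem _ (Finset.mem_univ _))]
      omega
    have h4 : k ≤ 6 ^ (g₀ - 1) := hk6.trans (Nat.pow_le_pow_right (by norm_num) h3)
    refine lt_of_le_of_lt h4 (lt_of_le_of_ne hlt fun h => ?_)
    rcases Nat.eq_zero_or_pos (g₀ - 1) with h0 | h0
    · rw [h0] at h
      exact hp.one_lt.ne h
    · have h5 : 2 ∣ p := h ▸ dvd_pow (by norm_num) h0.ne'
      have h6 : 3 ∣ p := h ▸ dvd_pow (by norm_num) h0.ne'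
      have h7 := (Nat.prime_dvd_prime_iff_eq Nat.prime_two hp).1 h5
      omega
  have hnear : ∀ i, ‖ε i ^ k - ε i₀ ^ k‖ < 1 := fun i => by
    by_cases h : ε i = ε i₀
    · simp [h]
    · have h3 := hk _ (Finset.mem_image_of_mem _ (Finset.mem_erase.2
        ⟨h, Finset.mem_image_of_mem _ (Finset.mem_univ i)⟩))
      have h4 : ε i ^ k - ε i₀ ^ k = ε i₀ ^ k * ((ε i / ε i₀) ^ k - 1) := by
        rw [div_pow]
        field_simp
      rwa [h4, norm_mul, norm_pow, hε1, one_pow, one_mul]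
  obtain ⟨j, -, hj⟩ := Finset.exists_max_image Finset.univ (fun i => ‖ε i ^ k - ε i₀ ^ k‖)
    ⟨i₀, Finset.mem_univ _⟩
  have hbd : ∀ v, ‖ρ (z ^ k) v - ε i₀ ^ k • v‖ ≤ ‖ε j ^ k - ε i₀ ^ k‖ * ‖v‖ := fun v => by
    have h3 := Unitary.norm_le_of_eigenbasis B (ρ (z ^ k) - ε i₀ ^ k • LinearMap.id)
      (fun i => ε i ^ k - ε i₀ ^ k) (fun i => by
        rw [LinearMap.sub_apply, LinearMap.smul_apply, LinearMap.id_apply, hBk, sub_smul])
      (norm_nonneg _) (fun i => hj i (Finset.mem_univ _)) v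
    rwa [LinearMap.sub_apply, LinearMap.smul_apply, LinearMap.id_apply] at h3
  have hconj := Blich60.conj_mem_eigenspace hρ (g := z ^ k) (c := ε i₀ ^ k)
    (by rw [norm_pow, hε1, one_pow]) (norm_nonneg _) (hnear j) hbd
  set U := End.eigenspace (ρ (z ^ k)) (ε i₀ ^ k) with hU
  have hzk : z ^ k ≠ 1 := pow_ne_one_of_lt_orderOf hk0.ne' (hz ▸ hkp)
  let H : Subgroup G :=
    { carrier := {x | ∀ u ∈ U, ρ x u ∈ U}
      one_mem' := fun u hu => by simpa using hu
      mul_mem' := fun {x y} hx hy u hu => by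
        rw [map_mul, End.mul_apply]
        exact hx _ (hy u hu)
      inv_mem' := fun {x} hx => by
        have h3 : ∀ m : ℕ, ∀ u ∈ U, ρ (x ^ m) u ∈ U := fun m => by
          induction m with
          | zero => simp
          | succ m ih =>
            intro u hu
            rw [pow_succ', map_mul, End.mul_apply]
            exact hx _ (ih u hu)
        have h4 : x⁻¹ = x ^ (orderOf x - 1) := by
          rw [eq_comm, eq_inv_iff_mul_eq_one, ← pow_succ, Nat.sub_add_cancel (orderOf_pos x),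
            pow_orderOf_eq_one]
        rw [h4]
        exact h3 _ }
  have hH : normalClosure ({z ^ k} : Set G) ≤ H := by
    refine (closure_le _).2 fun y hy => ?_
    obtain ⟨_, rfl, h3⟩ := Group.mem_conjugatesOfSet_iff.1 hy
    obtain ⟨c, rfl⟩ := isConj_iff.1 h3
    have h4 := hconj c⁻¹
    rw [inv_inv] at h4
    exact h4
  have htop : normalClosure ({z ^ k} : Set G) = ⊤ :=
    (IsSimpleGroup.eq_bot_or_eq_top_of_normal _ inferInstance).resolve_left fun h =>
      hzk (mem_bot.1 (h ▸ subset_normalClosure (Set.mem_singleton _)))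
  rcases submodule_eq_bot_or_eq_top ρ U (fun g => hH (htop ▸ mem_top g)) with h | h
  · have h3 : B i₀ ∈ U := End.mem_eigenspace_iff.2 (hBk k i₀)
    rw [h, Submodule.mem_bot] at h3
    exact B.toBasis.ne_zero i₀ h3
  · have h3 : ‖ρ.character (z ^ k)‖ = (n : ℝ) := hn ▸ (rep_norm_char_eq_iff ρ _).2
      ⟨ε i₀ ^ k, LinearMap.ext fun v => End.mem_eigenspace_iff.1 (h ▸ Submodule.mem_top : v ∈ U)⟩
    have h4 := mem_center_of_norm_eq χ.2.isCharacter hf (z := z ^ k)
      (by rw [hn1, ← hρχ, h3, Complex.norm_natCast])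
    exact hzk (mem_bot.1 (hZ ▸ h4))

end Cfsg.Agent.S4484
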