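import Cfsg.Statements.S4489
import Cfsg.Agent.Char.Degrees
import Cfsg.Agent.Char.Galois
import Cfsg.Agent.Char.ExtraspecialChar
import Cfsg.Agent.Grp.UniqueOrderP
import Cfsg.Agent.Grp.PChain

set_option autoImplicit false
open Cfsg

namespace Cfsg.Agent.S4489

open Cfsg.Agent.Char Subgroup MulAction
open scoped IsMulCommutative

universe u

theorem orbit_finite {G : Type*} [Group G] [Finite G] {χ : G → ℂ} (hχ : IsIrrCharacter G χ) :
    (orbit (RingAut ℂ) χ).Finite :=
  (Set.finite_range fun ψ : IrrCharacter G => ψ.1).subset (by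
    rintro _ ⟨σ, rfl⟩
    exact ⟨⟨_, hχ.galois σ⟩, rfl⟩)

theorem index_ne_zero {G : Type*} [Group G] [Finite G] {χ : G → ℂ} (hχ : IsIrrCharacter G χ) :
    (stabilizer (RingAut ℂ) χ).index ≠ 0 := by
  rw [index_stabilizer]
  exact ((Set.ncard_pos (orbit_finite hχ)).mpr ⟨_, mem_orbit_self χ⟩).ne'

theorem bern {p : ℕ} (hp : p.Prime) (k : ℕ) : 1 + (p - 1) * k ≤ p ^ k := by
  obtain ⟨q, rfl⟩ : ∃ q, p = q + 1 := ⟨p - 1, (Nat.sub_add_cancel hp.pos).symm⟩
  rw [Nat.add_sub_cancel]
  induction k with
  | zero => simp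
  | succ k ih => rw [pow_succ]; nlinarith [Nat.zero_le (q * k * q)]

theorem main {p : ℕ} [hp : Fact p.Prime] (t : ℕ) (P : Type u) [Group P] [Finite P] :
    ∀ a : ℕ, Nat.card P = p ^ a → ∀ χ : P → ℂ, IsIrrCharacter P χ → (∀ g, χ g = χ 1 → g = 1) →
    (stabilizer (RingAut ℂ) χ).index ≤ (p - 1) * p ^ t →
    (p - 1) * a + 1 ≤ charDegree χ + (p - 1) * (t + 1) * charDegree χ := by
  induction hn : Nat.card P using Nat.strong_induction_on generalizing P with | _ n ih => ?_
  subst hn
  intro a ha χ hχ hf hc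
  have := Fintype.ofFinite P
  have hP : IsPGroup p P := IsPGroup.of_card ha
  have := hP.isNilpotent
  obtain ⟨A, hA, hAc, hCA⟩ := Grp.exists_normal_comm_centralizer_eq (G := P)
  have := Fintype.ofFinite A
  obtain ⟨θ, hθ, h1⟩ := exists_irr_inner_restrict_ne_zero A hχ
  obtain ⟨lam, rfl⟩ := hθ.exists_linear_of_comm hAc.1.1
  let V : Subgroup P := ((powMonoidHom p : A →* A).ker).map A.subtype
  have hVA : V ≤ A := map_subtype_le _
  have hV : V.Normal := ⟨by
    rintro _ ⟨v, hv, rfl⟩ g
    refine ⟨⟨_, hA.conj_mem _ v.2 g⟩, Subtype.ext ?_, rfl⟩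
    have : (v : P) ^ p = 1 := congrArg Subtype.val hv
    simp [conj_pow, this]⟩
  have := Fintype.ofFinite V
  have hμ := isIrrCharacter_hom (lam.comp (inclusion hVA))
  have h2 : classInner (fun v : V => χ v) (fun v => (lam.comp (inclusion hVA) v : ℂ)) ≠ 0 :=
    inner_comp_ne_zero_of_sub (inclusion hVA) hθ.isCharacter
      ((hχ.isCharacter.restrict A).sub_irr hθ h1) hμ.isCharacter (hμ.inner_self ▸ one_ne_zero)
  rcases eq_top_or_exists_le_coatom (inertia V fun v => (lam.comp (inclusion hVA) v : ℂ)) with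
    hT | ⟨H, hH, hTH⟩
  · have h3 := clifford_invariant V hχ hμ h2 fun g => (mem_inertia V).mp (hT ▸ mem_top g)
    have h4 : Function.Injective lam := by
      rw [← MonoidHom.ker_eq_bot_iff, eq_bot_iff]
      intro x hx
      by_contra hx1
      obtain ⟨k, hk, hk'⟩ := Grp.PChain.exists_pow_notMem_pow_mem (hP.to_subgroup A) ⊥ hx1
      refine hk (Subtype.ext (hf _ ?_))
      have h5 := congrFun h3 ⟨_, x ^ p ^ k, hk', rfl⟩
      have h6 := congrFun h3 1
      have h7 : lam (x ^ p ^ k) = 1 := by rw [map_pow, hx, one_pow]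
      simp only [Pi.smul_apply, map_one, OneMemClass.coe_one] at h5 h6
      rw [h6]
      exact h5.trans (congrArg _ (congrArg _ h7))
    have h5 : inertia A (fun a => (lam a : ℂ)) ≤ A := fun g hg => hCA ▸ fun a ha =>
      (mul_inv_eq_iff_eq_mul.mp (congrArg Subtype.val
        (h4 (Units.ext ((mem_inertia' A).mp hg ⟨a, ha⟩))))).symm
    obtain ⟨e, he, -, h6⟩ := exists_charDegree_eq_of_over A hχ hθ h1
    rw [le_antisymm h5 (le_inertia A hθ.isClassFunction)] at h6
    obtain ⟨k, hk⟩ := hP.index A
    obtain ⟨s, hs⟩ := IsPGroup.iff_card.mp (hP.to_subgroup A)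
    have h7 : p ^ k ≤ charDegree χ := by
      rw [h6, hk]
      exact (Nat.le_mul_of_pos_left _ he).trans
        (Nat.le_mul_of_pos_right _ (charDegree_pos_of_isIrr hθ))
    obtain rfl : a = s + k := Nat.pow_right_injective hp.out.two_le (by
      simp only; rw [← ha, pow_add, ← hs, ← hk, card_mul_index])
    have h8 : (stabilizer (RingAut ℂ) fun a => (lam a : ℂ)).relIndex (stabilizer (RingAut ℂ) χ) ≤
        p ^ k := by
      change (stabilizer (stabilizer (RingAut ℂ) χ) fun a => (lam a : ℂ)).index ≤ _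
      rw [index_stabilizer, ← hk, ← congrArg index (le_antisymm h5 (le_inertia A hθ.isClassFunction)),
        ← card_conjugates, ← Set.ncard_coe_finset]
      refine Set.ncard_le_ncard ?_ (Finset.finite_toSet _)
      rintro _ ⟨σ, rfl⟩
      refine (mem_conjugates A).mpr (exists_conjChar_eq_of_inner_ne_zero A hχ hθ
        (hθ.galois σ.1) h1 ?_)
      have h9 := classInner_galois (fun a : A => χ a) hθ.isGen σ.1
      rw [show (fun a : A => (σ.1 : ℂ →+* ℂ) (χ a)) = fun a : A => χ a from
        funext fun a => congrFun σ.2 a] at h9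
      exact fun h => h1 ((map_eq_zero _).mp (h9.symm.trans h))
    have h9 : (p ^ s).totient ≤ (stabilizer (RingAut ℂ) fun a => (lam a : ℂ)).index := by
      have := isCyclic_of_injective_ringHom ((Units.coeHom ℂ).comp lam)
        (Units.val_injective.comp h4)
      obtain ⟨x, hx⟩ := IsCyclic.exists_ofOrder_eq_natCard (α := A)
      rw [index_stabilizer, Nat.totient_eq_card_coprime, ← Set.ncard_coe_finset, ← hs]
      refine Set.ncard_le_ncard_of_injOn (fun m a => (lam (a ^ m) : ℂ)) (fun m hm => ?_)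
        (fun m hm m' hm' e => ?_) (orbit_finite hθ)
      · obtain ⟨σ, hσ⟩ := exists_galois_pow (G := A) (Finset.mem_filter.mp hm).2.symm
        exact ⟨σ, funext (hσ _ hθ.isGen)⟩
      · exact pow_injOn_Iio_orderOf (x := x)
          (hx ▸ Finset.mem_range.mp (Finset.mem_filter.mp hm).1)
          (hx ▸ Finset.mem_range.mp (Finset.mem_filter.mp hm').1) (h4 (Units.ext (congrFun e x)))
    have h10 : s ≤ k + t + 1 := by
      obtain _ | s := s
      · omega
      have : (stabilizer (RingAut ℂ) fun a => (lam a : ℂ)).FiniteIndex := ⟨index_ne_zero hθ⟩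
      have : (stabilizer (RingAut ℂ) χ).FiniteIndex := ⟨index_ne_zero hχ⟩
      have h11 := index_antitone (inf_le_left (a := stabilizer (RingAut ℂ) fun a => (lam a : ℂ))
        (b := stabilizer (RingAut ℂ) χ))
      rw [← relIndex_mul_index inf_le_right, inf_relIndex_right] at h11
      have h12 := (h9.trans h11).trans (Nat.mul_le_mul h8 hc)
      rw [Nat.totient_prime_pow_succ hp.out, mul_comm (p - 1), ← mul_assoc, ← pow_add,
        Nat.mul_le_mul_right_iff (by have := hp.out.two_le; omega),
        Nat.pow_le_pow_iff_right hp.out.one_lt] at h12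
      omega
    have h11 := bern hp.out k
    have h12 : k + 1 ≤ p ^ k := Nat.lt_pow_self hp.out.one_lt
    have h13 : s + k ≤ k + (t + 1) * charDegree χ := by nlinarith
    nlinarith [Nat.mul_le_mul_left (p - 1) h13]
  · have hHn : H.Normal := (Group.normalizerCondition_of_isNilpotent (G := P)).normal_of_coatom H hH
    have := Fintype.ofFinite H
    have hVH : V ≤ H := (le_inertia V hμ.isClassFunction).trans hTH
    obtain ⟨η, hη, h3, h4⟩ := exists_clifford_corr hVH hμ hTH hχ h2
    have h5 : classInner (fun h : H => χ h) η ≠ 0 := by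
      rw [← classInner_indFun_eq_restrict H hη.isGen hχ.isGen, h3, hχ.inner_self]
      exact one_ne_zero
    have : Nontrivial P := (Subgroup.nontrivial_iff (G := P)).mp ⟨_, _, hH.1⟩
    obtain ⟨z, hz⟩ := exists_prime_orderOf_dvd_card' p
      ((hP.to_subgroup (center P)).card_eq_or_dvd.resolve_left
        (have := hP.center_nontrivial; Finite.one_lt_card.ne'))
    have h6 : ∀ n : ℕ, χ (z ^ n) = (χ z / χ 1) ^ n * χ 1 := fun n => by
      induction n with
      | zero => simp
      | succ n ih =>
        refine mul_left_cancel₀ hχ.one_ne_zero ?_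
        rw [pow_succ', irr_one_mul_apply_central_mul hχ z.2, ih]
        rw [pow_succ, mul_assoc, div_mul_cancel₀ _ hχ.one_ne_zero]
        ring
    have h7 : IsPrimitiveRoot (χ z / χ 1) p := by
      refine IsPrimitiveRoot.iff_orderOf.mpr (orderOf_eq_prime ?_ fun h => ?_)
      · have h7 := h6 p
        rw [← Subgroup.coe_pow, ← hz, pow_orderOf_eq_one, hz] at h7
        exact (mul_left_eq_self₀.mp h7.symm).resolve_right hχ.one_ne_zero
      · rw [div_eq_one_iff_eq hχ.one_ne_zero] at h
        rw [show z = 1 from Subtype.ext (hf _ h), orderOf_one] at hz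
        exact hp.out.ne_one hz.symm
    have h8 : stabilizer (RingAut ℂ) χ ≤ stabilizer (RingAut ℂ) η := fun σ hσ => by
      have h9 : ∀ g, σ (χ g) = χ g := congrFun hσ
      have h10 : ∀ v : V, σ (lam.comp (inclusion hVA) v : ℂ) = lam.comp (inclusion hVA) v := by
        rintro ⟨_, v, hv, rfl⟩
        have := NeZero.mk hp.out.ne_zero
        obtain ⟨i, -, hi⟩ := h7.eq_pow_of_pow_eq_one (ξ := (lam v : ℂ)) (by
          rw [← Units.val_pow_eq_pow_val, ← map_pow, show v ^ p = 1 from hv, map_one, Units.val_one])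
        change σ (lam v) = lam v
        rw [← hi, map_pow, map_div₀, h9, h9]
      refine (clifford_corr_unique hVH hη (hη.galois σ) hμ hTH (h4 ▸ h2) ?_ ?_).symm
      · have h11 := classInner_galois (fun n : V => η ⟨n, hVH n.2⟩) hμ.isGen σ
        simp only [RingEquiv.coe_toRingHom, h10] at h11
        exact fun h => h2 (h4 ▸ (map_eq_zero σ).mp (h11.symm.trans h))
      · have h11 := classInner_galois (fun n : H => χ n) hη.isGen σ
        simp only [RingEquiv.coe_toRingHom, h9] at h11
        rw [h3]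
        exact fun h => h5 ((map_eq_zero σ).mp (h11.symm.trans h))
    obtain ⟨ψ, h9, h10⟩ := exists_faithful_deflation ⟨η, hη⟩
    have := charKer_normal hη.isClassFunction
    have : (stabilizer (RingAut ℂ) χ).FiniteIndex := ⟨index_ne_zero hχ⟩
    obtain ⟨b, hb⟩ := IsPGroup.iff_card.mp ((hP.to_subgroup H).to_quotient (charKer η))
    have h8' : stabilizer (RingAut ℂ) η ≤ stabilizer (RingAut ℂ) ψ.1 := fun σ hσ =>
      funext fun q => by
        obtain ⟨g, rfl⟩ := QuotientGroup.mk_surjective q
        exact (congrArg σ (h9 g)).trans ((congrFun hσ g).trans (h9 g).symm)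
    have h11 := ih _ ((Nat.le_of_dvd Nat.card_pos (card_quotient_dvd_card _)).trans_lt
      (Grp.card_lt_of_ne_top hH.1)) _ rfl b hb _ ψ.2 h10 ((index_antitone (h8.trans h8')).trans hc)
    rw [charDegree_congr_one (h9 1)] at h11
    obtain ⟨j, hj⟩ := hP.index H
    have h12 : charDegree χ = p ^ j * charDegree η := charDegree_eq_of_one_eq (by
      rw [← h3, indFun_one, hj, Nat.cast_mul, coe_charDegree_of_isCharacter hη.isCharacter])
    have := Fintype.ofFinite (P ⧸ H)
    have h13 := index_iInf_le fun q : P ⧸ H => charKer (conjChar H η q.out)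
    have h14 : ⨅ q : P ⧸ H, charKer (conjChar H η q.out) = ⊥ := eq_bot_iff.mpr fun x hx => by
      refine Subtype.ext (hf _ ?_)
      have h15 := clifford H hχ hη h5
      rw [show χ x = _ from congrFun h15 x, show χ 1 = _ from congrFun h15 1, Pi.smul_apply,
        Pi.smul_apply, Finset.sum_apply, Finset.sum_apply]
      refine congrArg _ (Finset.sum_congr rfl fun φ hφ => ?_)
      obtain ⟨g, rfl⟩ := (mem_conjugates H).mp hφ
      obtain ⟨h, hh⟩ := QuotientGroup.mk_out_eq_mul H g
      have h16 := (mem_charKer_iff (hη.isCharacter.conjChar _)).mp (mem_iInf.mp hx (g : P ⧸ H))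
      rwa [hh, conjChar_mul, conjChar_of_mem (hη.isClassFunction.conjChar g) h.2] at h16
    have h15 : ∀ g : P, (charKer (conjChar H η g)).index = p ^ b := fun g => by
      rw [← hb, ← index_eq_card, ← index_comap_of_surjective (charKer η)
        (f := (MulAut.conjNormal g : MulAut H).toMonoidHom) (MulEquiv.surjective _)]
      congr 1
      ext x
      rw [mem_comap, mem_charKer_iff (hη.isCharacter.conjChar _), mem_charKer_iff hη.isCharacter,
        conjChar_apply_one]
      rfl
    rw [h14, index_bot, Finset.prod_congr rfl fun q _ => h15 _, Finset.prod_const,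
      Finset.card_univ, ← Nat.card_eq_fintype_card, ← index_eq_card, hj, ← pow_mul] at h13
    have h16 := Nat.mul_le_mul_right (p ^ j) h13
    rw [← hj, card_mul_index, ha, hj, ← pow_add, Nat.pow_le_pow_iff_right hp.out.one_lt] at h16
    have h17 := bern hp.out j
    rw [h12]
    nlinarith [Nat.mul_le_mul_left (p - 1) h16, Nat.mul_le_mul_left (p ^ j) h11]


/-- Let P be a finite p-group of order p^a with a > 0, and χ a faithful irreducible character of P of degree f whose field of values ℚ(χ) has degree (p − 1)·p^t over ℚ. Then a ≤ (f − 1)/(p − 1) + (t + 1)·f; in integer form, (p − 1)·a ≤ (f − 1) + (p − 1)(t + 1)·f. -/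
theorem result {P : Type*} [Group P] [Finite P] (p a : ℕ) (hp : p.Prime) (ha : 0 < a) (hP : Nat.card P = p ^ a) (χ : Cfsg.IrrCharacter P) (hfaith : ∀ g : P, (χ : P → ℂ) g = (χ : P → ℂ) 1 → g = 1) (f t : ℕ) (hf : Cfsg.charDegree (χ : P → ℂ) = f) (hfield : Module.finrank ℚ (IntermediateField.adjoin ℚ (Set.range (χ : P → ℂ))) = (p - 1) * p ^ t) : (p - 1) * a ≤ (f - 1) + (p - 1) * (t + 1) * f := by
  have := Fact.mk hp
  have h1 := main t P a hP χ χ.2 hfaith (by
    set K := IntermediateField.adjoin ℚ (Set.range (χ : P → ℂ))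
    have : FiniteDimensional ℚ K := Module.finite_of_finrank_pos (hfield ▸ Nat.mul_pos
      (by have := hp.two_le; omega) (pow_pos hp.pos t))
    rw [← hfield, ← AlgHom.card ℚ K ℂ, ← Nat.card_eq_fintype_card, index_eq_card]
    refine Nat.card_le_card_of_injective (fun q => (q.out : ℂ →+* ℂ).toRatAlgHom.comp K.val)
      fun q r e => ?_
    rw [← q.out_eq', ← r.out_eq', QuotientGroup.eq, mem_stabilizer_iff, mul_smul, inv_smul_eq_iff]
    exact funext fun g => (DFunLike.congr_fun e
      ⟨_, IntermediateField.subset_adjoin ℚ _ ⟨g, rfl⟩⟩).symm)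
  have := charDegree_irr_pos χ
  rw [hf] at h1 this
  omega

end Cfsg.Agent.S4489
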