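import Cfsg.Statements.S4490
import Cfsg.Agent.Block.DefectNum
-- import your own Cfsg.Agent.* helpers here

set_option autoImplicit false
open Cfsg

namespace Cfsg.Agent.S4490

open Cfsg.Agent.Block Cfsg.Agent.Char
open scoped ComplexConjugate

/-- Let G be a finite group and M a maximal ideal of the algebraic integers containing 2. Every 2-block B of G whose defect groups are the Sylow 2-subgroups of G (a block of full defect) and which is not the principal block is different from its complex-conjugate block, the block formed by the complex conjugates of the members of B. -/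
theorem result {G : Type*} [Group G] [Finite G] (M : Ideal Cfsg.AlgInt) (hM : Cfsg.IsPModular 2 M) (B : Set (Cfsg.IrrCharacter G)) (hB : Cfsg.IsPBlock M B) (P : Sylow 2 G) (hfull : Cfsg.IsDefectGroup 2 M B (P : Subgroup G)) (hnp : B ≠ Cfsg.principalBlock M G) : {ψ : Cfsg.IrrCharacter G | ∃ χ ∈ B, (ψ : G → ℂ) = fun g => (starRingEnd ℂ) ((χ : G → ℂ) g)} ≠ B := by
  classical
  intro heq
  have := Fintype.ofFinite G
  have := charP_resField hM
  obtain ⟨χ, hχ, h0⟩ := exists_blockHeight_eq_zero (p := 2) (block_nonempty hM hB)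
  let χ' : IrrCharacter G := ⟨fun g => conj ((χ : G → ℂ) g), χ.2.conj⟩
  have hχ' : χ' ∈ B := by rw [← heq]; exact ⟨χ, hχ, rfl⟩
  have hd : blockDefect 2 B = (Nat.card G).factorization 2 := by
    have h := card_defectGroup hM hB hfull
    rw [P.card_eq_multiplicity] at h
    exact (Nat.pow_right_injective le_rfl h).symm
  have hdeg : charDegree (χ' : G → ℂ) = charDegree (χ : G → ℂ) :=
    charDegree_congr_one χ.2.isCharacter.conj_one
  have h0' : blockHeight 2 B (χ' : G → ℂ) = 0 := by rw [← h0, blockHeight, blockHeight, hdeg]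
  have h1 := (val_om_regElt_eq_one_iff hM hB hχ χ').2 ⟨hχ', h0'⟩
  have hv : val M ((χ : G → ℂ) 1) = 1 := by
    rw [val_irr_one_of_mem hM hχ, h0, hd]; simp
  rw [om_apply, map_div₀, hv, div_one, ev_regElt] at h1
  apply hnp
  refine block_eq_of_mem hM hB isPBlock_principal hχ' ?_
  refine ((val_om_regElt_eq_one_iff hM isPBlock_principal (irrOne_mem_principal hM) χ').1 ?_).1
  rw [om_one_regElt]
  have hF : ∀ x, val M (if 2 ∣ orderOf x then 0 else conj ((χ' : G → ℂ) x)) ≤ 1 := fun x => by
    split_ifs
    · simp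
    · exact val_conj_char_le_one χ'.2.isCharacter x
  have hsq : ∀ x, (if 2 ∣ orderOf x then 0 else (χ : G → ℂ) x * conj ((χ' : G → ℂ) x)) =
      (if 2 ∣ orderOf x then 0 else conj ((χ' : G → ℂ) x)) ^ 2 := fun x => by
    split_ifs
    · simp
    · simp [χ', sq]
  simp only [hsq] at h1
  rw [← red_ne_zero_iff (val_sum_le_one fun x _ => val_pow_le_one (hF x) 2),
    red_sum fun x _ => val_pow_le_one (hF x) 2] at h1
  rw [← red_ne_zero_iff (val_sum_le_one fun x _ => hF x), red_sum fun x _ => hF x]
  intro h
  apply h1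
  simp only [red_pow (hF _)]
  rw [← sum_pow_char 2, h, zero_pow two_ne_zero]

end Cfsg.Agent.S4490
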