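import Cfsg.Statements.S4495
import Cfsg.Agent.Grp.SelfCentPrime

set_option autoImplicit false
open Cfsg

namespace Cfsg.Agent.S4495

open Subgroup Cfsg.Agent.Grp Cfsg.Agent.Grp.SelfCent


/-- Let the finite group G contain an element x of prime order p with C_G(x) = ⟨x⟩, and let t be the number of conjugacy classes of elements of order p. If t ≠ p − 1 then the commutator subgroup has index at most (p − 1)/t; if t = p − 1 it has index exactly p. -/
theorem result {G : Type*} [Group G] [Finite G] (p : ℕ) (hp : p.Prime) (x : G) (hx : orderOf x = p) (hC : Subgroup.centralizer ({x} : Set G) = Subgroup.zpowers x) (t : ℕ) (ht : Nat.card {C : ConjClasses G // ∃ g ∈ C.carrier, orderOf g = p} = t) : (t ≠ p - 1 → (commutator G).index * t ≤ p - 1) ∧ (t = p - 1 → (commutator G).index = p) := by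
  haveI := Fact.mk hp
  have h1 := card_classes_mul hx hC
  rw [ht] at h1
  have hp1 : 0 < p - 1 := by have := hp.one_lt; omega
  constructor
  · intro h
    have he : (zpowers x).relIndex (normalizer ((zpowers x : Subgroup G) : Set G)) ≠ 1 := by
      intro he; rw [he, mul_one] at h1; exact h h1
    have h2 := index_dvd_of_mem hx hC _ (mem_commutator hx hC he)
    have h3 : (zpowers x).relIndex (normalizer ((zpowers x : Subgroup G) : Set G)) ≠ 0 := by
      intro h0; rw [h0] at h1; omega
    rw [← h1, mul_comm]
    exact Nat.mul_le_mul_left _ (Nat.le_of_dvd (Nat.pos_of_ne_zero h3) h2)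
  · intro h
    refine index_commutator_of_eq_one hx hC ?_
    rw [h] at h1
    exact Nat.eq_of_mul_eq_mul_left hp1 (by rw [h1, mul_one])

end Cfsg.Agent.S4495
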