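import Cfsg.Statements.S4497
import Cfsg.Agent.Grp.SelfCentPrime

set_option autoImplicit false
open Cfsg

namespace Cfsg.Agent.S4497

open Subgroup Cfsg.Agent.Grp Cfsg.Agent.Grp.SelfCent


/-- Let the finite group G contain an element x of prime order p with C_G(x) = ⟨x⟩, let t be the number of conjugacy classes of elements of order p, and let S* = O_{p′}(G) be the largest normal subgroup of order prime to p. Then S* ≤ G′; if t ≠ p − 1 the quotient G′/S* is simple (in particular non-trivial); if t = p − 1 then G′ = S*. -/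
theorem result {G : Type*} [Group G] [Finite G] (p : ℕ) (hp : p.Prime) (x : G) (hx : orderOf x = p) (hC : Subgroup.centralizer ({x} : Set G) = Subgroup.zpowers x) (t : ℕ) (ht : Nat.card {C : ConjClasses G // ∃ g ∈ C.carrier, orderOf g = p} = t) : Cfsg.pPrimeCore p G ≤ commutator G ∧ (t ≠ p - 1 → ∀ h : ((Cfsg.pPrimeCore p G).subgroupOf (commutator G)).Normal, IsSimpleGroup (↥(commutator G) ⧸ (Cfsg.pPrimeCore p G).subgroupOf (commutator G))) ∧ (t = p - 1 → commutator G = Cfsg.pPrimeCore p G) := by
  haveI := Fact.mk hp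
  have h1 := card_classes_mul hx hC
  rw [ht] at h1
  have hp1 : 0 < p - 1 := by have := hp.one_lt; omega
  have h0 : Cfsg.pPrimeCore p G ≤ _root_.commutator G :=
    le_commutator hx hC _ (not_dvd_card_pPrimeCore p G)
  refine ⟨h0, ?_, ?_⟩
  · intro h hn
    have he : (zpowers x).relIndex (normalizer ((zpowers x : Subgroup G) : Set G)) ≠ 1 := by
      intro he; rw [he, mul_one] at h1; exact h h1
    have hxm := mem_commutator hx hC he
    haveI : Nontrivial (↥(_root_.commutator G) ⧸
        (Cfsg.pPrimeCore p G).subgroupOf (_root_.commutator G)) := by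
      refine ⟨⟨QuotientGroup.mk ⟨x, hxm⟩, 1, fun h2 => ?_⟩⟩
      rw [QuotientGroup.eq_one_iff, mem_subgroupOf] at h2
      have : x ∈ zpowers x ⊓ Cfsg.pPrimeCore p G := ⟨mem_zpowers x, h2⟩
      rw [zp_inf_eq_bot hx (not_dvd_card_pPrimeCore p G), mem_bot] at this
      exact ne_one hx this
    refine ⟨fun H hH => ?_⟩
    rcases eq_of_normal_commutator hx hC hxm (H.comap (QuotientGroup.mk' _)) with h2 | h2
    · left
      rw [eq_bot_iff]
      intro g hg
      obtain ⟨g, rfl⟩ := QuotientGroup.mk_surjective g
      rw [mem_bot, QuotientGroup.eq_one_iff]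
      exact h2 hg
    · right
      rw [eq_top_iff]
      intro g _
      obtain ⟨g, rfl⟩ := QuotientGroup.mk_surjective g
      have : g ∈ H.comap (QuotientGroup.mk' _) := by rw [h2]; trivial
      exact this
  · intro h
    rw [h] at h1
    have he : (zpowers x).relIndex (normalizer ((zpowers x : Subgroup G) : Set G)) = 1 :=
      Nat.eq_of_mul_eq_mul_left hp1 (by rw [h1, mul_one])
    refine le_antisymm ?_ h0
    exact le_pPrimeCore inferInstance
      ((hp.coprime_iff_not_dvd.2 (not_dvd_card_commutator_of_eq_one hx hC he)).symm)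

end Cfsg.Agent.S4497
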