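import Cfsg.Statements.S4498
import Cfsg.Agent.Block.DefectNum
-- import your own Cfsg.Agent.* helpers here

set_option autoImplicit false
open Cfsg

namespace Cfsg.Agent.S4498

open Cfsg.Agent.Block Cfsg.Agent.Char
open scoped ComplexConjugate

/-- Let p and q be distinct primes dividing the order of the finite group G, and suppose G has no element of order p·q. Fix maximal ideals M_p over p and M_q over q of the algebraic integers. Then the principal p-block and the principal q-block of G have a non-principal irreducible character in common. -/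
theorem result {G : Type*} [Group G] [Finite G] (p q : ℕ) [Fact p.Prime] [Fact q.Prime] (hpq : p ≠ q) (hp : p ∣ Nat.card G) (hq : q ∣ Nat.card G) (hno : ∀ g : G, orderOf g ≠ p * q) (Mp Mq : Ideal Cfsg.AlgInt) (hMp : Cfsg.IsPModular p Mp) (hMq : Cfsg.IsPModular q Mq) : ∃ χ : Cfsg.IrrCharacter G, (χ : G → ℂ) ≠ (fun _ => 1) ∧ χ ∈ Cfsg.principalBlock Mp G ∧ χ ∈ Cfsg.principalBlock Mq G := by
  classical
  have := Fintype.ofFinite G
  obtain ⟨x, hx⟩ := exists_prime_orderOf_dvd_card' p hp
  obtain ⟨y, hy⟩ := exists_prime_orderOf_dvd_card' q hq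
  have hcop : p.Coprime q := (Nat.coprime_primes Fact.out Fact.out).2 hpq
  have hreg : ∀ g : G, q ∣ orderOf g → ¬ p ∣ orderOf g := fun g h1 h2 => by
    have h3 := hcop.mul_dvd_of_dvd_of_dvd h2 h1
    exact hno _ (orderOf_pow_orderOf_div (orderOf_pos g).ne' h3)
  by_contra hcon
  push Not at hcon
  let θ : G → ℂ := fun u => ∑ χ : IrrCharacter G,
    (if χ ∈ principalBlock Mp G then conj ((χ : G → ℂ) x) else 0) * (χ : G → ℂ) u
  have h1 : blockPart (principalBlock Mq G) θ y = 0 := by
    refine blockPart_eq_zero_of_val hMq (val_blockCoeff_principal_le_one hMq) fun u hu => ?_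
    have h2 : q ∣ orderOf u := by
      have h3 : pPart q y = y := pPart_eq_of_isPPart (isPPart_self ⟨1, by rw [hy, pow_one]⟩)
      rw [h3] at hu
      rw [← hy, orderOf_eq_of_isConj hu]
      exact orderOf_dvd_of_mem_zpowers (pPart_mem_zpowers q u)
    have h4 := sum_mul_conj_eq_zero_of_regular_singular hMp (val_blockCoeff_principal_le_one hMp)
      (hreg u h2) (y := x) (by rw [hx])
    rw [finsum_mem_irr] at h4
    rw [← h4]
    exact Finset.sum_congr rfl fun χ _ => by split_ifs <;> simp [mul_comm]
  rw [blockPart_sum_smul, Finset.sum_eq_single (irrOne G)] at h1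
  · rw [if_pos (irrOne_mem_principal hMp), blockPart_irr_of_mem (irrOne_mem_principal hMq)] at h1
    simp [irrOne] at h1
  · intro χ _ hne
    split_ifs with h
    · rw [blockPart_irr_of_notMem (hcon χ (fun e => hne (Subtype.ext e)) h)]; simp
    · simp
  · simp

end Cfsg.Agent.S4498
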