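import Cfsg.Statements.S4500
import Cfsg.Agent.Char.Blich60
import Cfsg.Agent.Char.TIFN
import Cfsg.Agent.Char.Burnside
import Cfsg.Agent.Char.Degrees

set_option autoImplicit false
open Cfsg

namespace Cfsg.Agent.S4500

open Cfsg.Agent.Char Cfsg.Agent.Block in
theorem aux {G : Type*} [Group G] [Finite G] [Nontrivial G] (p q r a b c : ℕ) (hp : p.Prime)
    (hq : q.Prime) (hr : r.Prime) (ha : a ≤ 2) (hpq : p ≠ q) (hpr : p ≠ r)
    (hG : Nat.card G = p ^ a * q ^ b * r ^ c) :
    ∃ χ : Cfsg.IrrCharacter G, (χ : G → ℂ) ≠ (fun _ => 1) ∧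
      ∃ k : ℕ, Cfsg.charDegree (χ : G → ℂ) = r ^ k := by
  rcases Nat.eq_zero_or_pos a with rfl | ha0
  · have := isSolvable_of_card_dvd_pow_mul_pow hq hr G (a := b) (b := c) (by rw [hG]; simp)
    obtain ⟨lam, hlam⟩ := TIFN.exists_linear_ne_one G
    refine ⟨⟨_, isIrrCharacter_linear lam⟩, fun h => hlam ?_, 0, charDegree_eq_of_one_eq (by simp)⟩
    ext g
    simpa using congrFun h g
  have : Fact p.Prime := ⟨hp⟩
  obtain ⟨M, hM⟩ := exists_isPModular hp
  obtain ⟨χ, hχ, h1, h2⟩ := Blich60.exists_principal_not_dvd (G := G) hM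
    (by rw [hG, mul_assoc]; exact dvd_mul_of_dvd_left (dvd_pow_self p ha0.ne') _) hq
  have hf : (Nat.card G).factorization p = a := by
    rw [hG, Nat.factorization_mul (mul_ne_zero (pow_ne_zero _ hp.ne_zero) (pow_ne_zero _ hq.ne_zero))
      (pow_ne_zero _ hr.ne_zero), Nat.factorization_mul (pow_ne_zero _ hp.ne_zero)
      (pow_ne_zero _ hq.ne_zero)]
    simp [hp.factorization, hq.factorization, hr.factorization, hpq.symm, hpr.symm]
  have h3 := blockHeight_eq_zero_of_defect_le hM isPBlock_principal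
    ((blockDefect_le p _).trans (hf ▸ ha)) hχ
  have h4 := (blockHeight_eq_zero_iff ⟨_, hχ⟩ _).1 h3 _ (irrOne_mem_principal hM)
  rw [charDegree_irrOne] at h4
  have h5 : ¬ p ∣ charDegree (χ : G → ℂ) := fun h => by
    have := (hp.dvd_iff_one_le_factorization (charDegree_irr_ne_zero χ)).1 h
    simp at h4
    omega
  refine ⟨χ, fun h => h1 (Subtype.ext h), ?_⟩
  have h6 := charDegree_irr_dvd_card χ
  rw [hG, mul_assoc] at h6
  have h7 := Nat.Coprime.dvd_of_dvd_mul_left (Nat.Coprime.pow_right _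
    ((Nat.Prime.coprime_iff_not_dvd hq).2 h2).symm) (Nat.Coprime.dvd_of_dvd_mul_left
    (Nat.Coprime.pow_right _ ((Nat.Prime.coprime_iff_not_dvd hp).2 h5).symm) h6)
  obtain ⟨k, -, hk⟩ := (Nat.dvd_prime_pow hr).1 h7
  exact ⟨k, hk⟩


/-- Let G be a non-trivial finite group of order p^a · q^b · r^c with p, q, r distinct primes and a ≤ 2. Then G has a non-principal irreducible character whose degree is a power of q, and a non-principal irreducible character whose degree is a power of r; the power may be the zeroth, so a non-principal linear character serves for both. -/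
theorem result {G : Type*} [Group G] [Finite G] [Nontrivial G] (p q r a b c : ℕ) (hp : p.Prime) (hq : q.Prime) (hr : r.Prime) (hpq : p ≠ q) (hpr : p ≠ r) (hqr : q ≠ r) (ha : a ≤ 2) (hG : Nat.card G = p ^ a * q ^ b * r ^ c) : (∃ χ : Cfsg.IrrCharacter G, (χ : G → ℂ) ≠ (fun _ => 1) ∧ ∃ k : ℕ, Cfsg.charDegree (χ : G → ℂ) = q ^ k) ∧ ∃ χ : Cfsg.IrrCharacter G, (χ : G → ℂ) ≠ (fun _ => 1) ∧ ∃ k : ℕ, Cfsg.charDegree (χ : G → ℂ) = r ^ k := by
  exact ⟨aux p r q a c b hp hr hq ha hpr hpq (by rw [hG]; ring), aux p q r a b c hp hq hr ha hpq hpr hG⟩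

end Cfsg.Agent.S4500
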