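import Cfsg.Statements.S4502
import Cfsg.Agent.Block.CycPerf
import Cfsg.Agent.Block.ModExists
-- import your own Cfsg.Agent.* helpers here

set_option autoImplicit false
open Cfsg

namespace Cfsg.Agent.S4502

open Cfsg.Agent.Block Cfsg.Agent.Char
open scoped ComplexConjugate

/-- Let G be a finite group whose order is divisible by the prime p exactly once, and let P be a Sylow p-subgroup. Then the number of irreducible characters of G of degree not divisible by p equals the number of conjugacy classes of the normalizer of P. -/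
theorem result {G : Type*} [Group G] [Finite G] (p : ℕ) [Fact p.Prime] (hdiv : p ∣ Nat.card G) (hsq : ¬ p ^ 2 ∣ Nat.card G) (P : Sylow p G) : Nat.card {χ : Cfsg.IrrCharacter G // ¬ p ∣ Cfsg.charDegree (χ : G → ℂ)} = Nat.card (ConjClasses (Subgroup.normalizer ((P : Subgroup G) : Set G))) := by
  classical
  have hp : Fact p.Prime := inferInstance
  obtain ⟨M, hM⟩ := exists_isPModular hp.out
  have ha : (Nat.card G).factorization p = 1 := by
    have h1 := (hp.out.dvd_iff_one_le_factorization Nat.card_pos.ne').1 hdiv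
    have h2 := mt (hp.out.pow_dvd_iff_le_factorization (k := 2) Nat.card_pos.ne').2 hsq
    omega
  have hP : Nat.card (P : Subgroup G) = p := by rw [P.card_eq_multiplicity, ha, pow_one]
  have hP1 : (P : Subgroup G) ≠ ⊥ := fun h => by
    rw [h, Subgroup.card_bot] at hP
    exact hp.out.one_lt.ne hP
  set N := Subgroup.normalizer ((P : Subgroup G) : Set G)
  choose g hg using fun η : IrrCharacter N =>
    inducedBlockDefined_normalizer hM P.isPGroup' (isPBlock_blockOf (M := M) η)
  have hgD : ∀ η, IsDefectGroup p M (g η) P := fun η => by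
    obtain ⟨E, hE, h⟩ := exists_defectGroup_ge_of_induced_of_le hM P.isPGroup'
      Subgroup.le_normalizer le_rfl (hg η)
    rwa [P.is_maximal' (isPGroup_of_isDefectGroup hE) h] at hE
  have hS : ∀ χ : IrrCharacter G, ¬ p ∣ charDegree (χ : G → ℂ) →
      IsDefectGroup p M (blockOf M (χ : G → ℂ)) P := fun χ hχ => by
    have hB := isPBlock_blockOf (M := M) χ
    obtain ⟨D, hD⟩ := exists_isDefectGroup hM hB
    have h1 := factorization_add_blockDefect (p := p) (self_mem_blockOf hM χ)
    have h2 := blockDefect_le p (blockOf M (χ : G → ℂ))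
    rw [Nat.factorization_eq_zero_of_not_dvd hχ] at h1
    obtain ⟨Q, hQ⟩ := (isPGroup_of_isDefectGroup hD).exists_le_sylow
    obtain rfl : D = Q := Subgroup.eq_of_le_of_card_ge hQ (by
      rw [card_defectGroup hM hB hD, Q.card_eq_multiplicity]
      exact Nat.pow_le_pow_right hp.out.pos (by omega))
    obtain ⟨x, rfl⟩ := MulAction.exists_smul_eq G Q P
    exact isDefectGroup_conj hD x
  rw [← card_irr]
  refine Nat.card_congr (Equiv.ofFiberEquiv (f := fun χ => blockOf M (χ.1 : G → ℂ)) (g := g)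
    fun B => Classical.choice (Finite.card_eq.1 ?_))
  by_cases hB : IsPBlock M B ∧ IsDefectGroup p M B P
  · obtain ⟨b, hb, hbD⟩ := exists_brauerCorrespondent hM hB.1 hB.2
    have h1 := (exists_perfect_of_normalizer_le hM hB.2 hP1 (isCyclic_of_prime_card hP) le_rfl
      hbD hb).1
    have hd : blockDefect p B = 1 := Nat.pow_right_injective hp.out.two_le
      ((card_defectGroup hM hB.1 hB.2).symm.trans (hP.trans (pow_one p).symm))
    have k1 : ∀ χ ∈ B, ¬ p ∣ charDegree (χ : G → ℂ) := fun χ hχ h => by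
      have h2 := factorization_add_blockDefect (p := p) hχ
      rw [blockHeight_eq_zero_of_defect_le hM hB.1 (by omega) hχ] at h2
      have h3 := (hp.out.dvd_iff_one_le_factorization (charDegree_ne_zero χ.2)).1 h
      omega
    have k2 : ∀ η ∈ b, g η = B := fun η hη =>
      induced_unique hM (hg η) (eq_blockOf_of_mem hM hb.1 hη ▸ hb)
    have k3 : ∀ η, g η = B → η ∈ b := fun η hη => by
      rw [induced_normalizer_injective hM hb (hη ▸ hg η) hbD]
      exact self_mem_blockOf hM _
    exact (Nat.card_congr ⟨fun χ => ⟨χ.1.1, χ.2.le (self_mem_blockOf hM _)⟩,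
      fun χ => ⟨⟨χ.1, k1 _ χ.2⟩, (eq_blockOf_of_mem hM hB.1 χ.2).symm⟩, fun _ => rfl,
      fun _ => rfl⟩).trans (h1.symm.trans (Nat.card_congr ⟨fun η => ⟨η.1, k2 _ η.2⟩,
        fun η => ⟨η.1, k3 _ η.2⟩, fun _ => rfl, fun _ => rfl⟩))
  · exact (Nat.card_eq_zero.2 (Or.inl ⟨fun ⟨χ, h⟩ =>
      hB (h ▸ ⟨isPBlock_blockOf _, hS _ χ.2⟩)⟩)).trans
      (Nat.card_eq_zero.2 (Or.inl ⟨fun ⟨η, h⟩ => hB (h ▸ ⟨(hg η).2.1, hgD _⟩)⟩)).symm

end Cfsg.Agent.S4502
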