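import Cfsg.Statements.S4505
import Cfsg.Agent.Block.DefectNum
-- import your own Cfsg.Agent.* helpers here

set_option autoImplicit false
open Cfsg

namespace Cfsg.Agent.S4505

open Cfsg.Agent.Block Cfsg.Agent.Char
open scoped ComplexConjugate

/-- Let G be a finite group, p a prime and M a maximal ideal of the algebraic integers containing p. For every σ, the number of p-blocks of defect exactly σ is at most the number of conjugacy classes of p-regular elements whose centralizer has order divisible by p^σ but not by p^(σ+1). -/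
theorem result {G : Type*} [Group G] [Finite G] (p : ℕ) [Fact p.Prime] (M : Ideal Cfsg.AlgInt) (hM : Cfsg.IsPModular p M) (σ : ℕ) : Nat.card {B : Set (Cfsg.IrrCharacter G) // Cfsg.IsPBlock M B ∧ Cfsg.blockDefect p B = σ} ≤ Nat.card {C : ConjClasses G // ∃ g : G, ConjClasses.mk g = C ∧ ¬ p ∣ orderOf g ∧ (Nat.card (Subgroup.centralizer ({g} : Set G))).factorization p = σ} := by
  classical
  have := Fintype.ofFinite G
  have := Fintype.ofFinite (ConjClasses G)
  have := Fintype.ofFinite (Set (IrrCharacter G))
  rw [Nat.card_eq_fintype_card, Nat.card_eq_fintype_card]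
  choose χ hχ using fun B : {B : Set (Cfsg.IrrCharacter G) //
    Cfsg.IsPBlock M B ∧ Cfsg.blockDefect p B = σ} => block_nonempty hM B.2.1
  refine card_le_card_of_sum_mul_eq (k := resField M)
    (fun B C => red M (blockCoeff B.1 C.1.out))
    (fun B C => red M (centralChar (χ B : G → ℂ) C.1.out)) fun B B' => ?_
  have h1 : om (χ B' : G → ℂ) (eSet B.1) =
      ∑ C : ConjClasses G, blockCoeff B.1 C.out * centralChar (χ B' : G → ℂ) C.out := by
    conv_lhs => rw [ZA_eq_sum_classSum (eSet_mem_ZA B.1), map_sum]
    simp only [map_smul, om_classSum (χ B').2.isClassFunction, smul_eq_mul, coeff_eSet]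
  have h2 : red M (om (χ B' : G → ℂ) (eSet B.1)) = if B = B' then 1 else 0 := by
    split_ifs with h
    · rw [h, om_eSet_of_mem (hχ B'), red_one]
    · rw [om_eSet_of_notMem fun h' =>
        h (Subtype.ext (block_eq_of_mem hM B.2.1 B'.2.1 h' (hχ B'))), red_zero]
  rw [← h2, h1]
  refine Eq.trans ?_ (red_sum (f := fun C : ConjClasses G =>
    blockCoeff B.1 C.out * centralChar (χ B' : G → ℂ) C.out) fun C _ =>
    val_mul_le_one (val_blockCoeff_le_one hM B.2.1 _) (val_centralChar_le_one (χ B').2 _)).symm
  refine (Finset.sum_congr rfl fun C _ => (red_mul (val_blockCoeff_le_one hM B.2.1 _)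
    (val_centralChar_le_one (χ B').2 _)).symm).trans ?_
  rw [← Finset.sum_subtype (Finset.univ.filter fun C : ConjClasses G => ∃ g : G,
    ConjClasses.mk g = C ∧ ¬ p ∣ orderOf g ∧
      (Nat.card (Subgroup.centralizer ({g} : Set G))).factorization p = σ) (by simp)
    (fun C => red M (blockCoeff B.1 C.out * centralChar (χ B' : G → ℂ) C.out))]
  refine Finset.sum_subset (Finset.filter_subset _ _) fun C _ hC => red_eq_zero_of_lt ?_
  by_cases hv : val M (blockCoeff B.1 C.out) < 1
  · exact val_mul_lt_one_left hv (val_centralChar_le_one (χ B').2 _)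
  refine val_mul_lt_one_right (val_blockCoeff_le_one hM B.2.1 _)
    (lt_of_le_of_ne (val_centralChar_le_one (χ B').2 _) fun h3 => hC ?_)
  have h4 := le_blockDefect_of_val_blockCoeff hM B.2.1
    ((val_eq_one_iff_not_lt (val_blockCoeff_le_one hM B.2.1 _)).2 hv)
  have h5 := blockDefect_le_of_val_centralChar hM B'.2.1 (hχ B') h3
  refine Finset.mem_filter.2 ⟨Finset.mem_univ _, C.out, mk_out_conj C,
    not_dvd_orderOf_of_val_blockCoeff hM (eSet_mem_intAlg hM B.2.1) hv, ?_⟩
  have := B.2.2
  have := B'.2.2
  omega

end Cfsg.Agent.S4505
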