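import Cfsg.Statements.S4506
import Cfsg.Agent.Char.Degrees
import Cfsg.Agent.Char.Galois
import Cfsg.Agent.Char.DefectZero

set_option autoImplicit false
open Cfsg

namespace Cfsg.Agent.S4506

open Cfsg.Agent.Char
open scoped ComplexConjugate

/-- Let G be a finite group, p a prime, p^a the p-part of the order of G and g′ its p′-part. Call two irreducible characters p-conjugate when one is obtained from the other by applying a field automorphism of ℂ that fixes the g′-th roots of unity, and let r be the number of characters p-conjugate to the irreducible character χ (χ included). Then the exponent of p in r·χ(1) is at most a; and if p^a divides r·χ(1) then p^a already divides χ(1). -/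
theorem result {G : Type*} [Group G] [Finite G] (p : ℕ) (hp : p.Prime) (χ : Cfsg.IrrCharacter G) (r : ℕ) (hr : Nat.card {ψ : Cfsg.IrrCharacter G // ∃ σ : ℂ ≃+* ℂ, σ (Complex.exp (2 * Real.pi * Complex.I / ((Nat.card G / p ^ (Nat.card G).factorization p) : ℕ))) = Complex.exp (2 * Real.pi * Complex.I / ((Nat.card G / p ^ (Nat.card G).factorization p) : ℕ)) ∧ (ψ : G → ℂ) = fun g => σ ((χ : G → ℂ) g)} = r) : (r * Cfsg.charDegree (χ : G → ℂ)).factorization p ≤ (Nat.card G).factorization p ∧ (p ^ (Nat.card G).factorization p ∣ r * Cfsg.charDegree (χ : G → ℂ) → p ^ (Nat.card G).factorization p ∣ Cfsg.charDegree (χ : G → ℂ)) := by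
  classical
  have := Fact.mk hp
  have := Fintype.ofFinite G
  set a := (Nat.card G).factorization p
  set n := Nat.card G / p ^ a
  have hG : Nat.card G = p ^ a * n := (Nat.ordProj_mul_ordCompl_eq_self _ p).symm
  have hn : p.Coprime n := Nat.coprime_ordCompl hp Nat.card_pos.ne'
  have hn0 : n ≠ 0 := (Nat.ordCompl_pos p Nat.card_pos.ne').ne'
  rw [Nat.card_eq_fintype_card, Fintype.card_subtype] at hr
  set S := Finset.univ.filter fun ψ : IrrCharacter G => ∃ σ : ℂ ≃+* ℂ,
    σ (Complex.exp (2 * Real.pi * Complex.I / n)) = Complex.exp (2 * Real.pi * Complex.I / n) ∧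
      (ψ : G → ℂ) = fun g => σ ((χ : G → ℂ) g) with hS
  have hχS : χ ∈ S := Finset.mem_filter.mpr ⟨Finset.mem_univ _, RingEquiv.refl ℂ, rfl, rfl⟩
  have h1 : ∀ ψ ∈ S, ∀ g, ¬ p ∣ orderOf g → ψ.1 g = χ.1 g := fun ψ hψ g hg => by
    obtain ⟨σ, h1, h2⟩ := (Finset.mem_filter.mp hψ).2
    have := NeZero.mk hn0
    rw [h2]
    refine (χ.2.isCharacter.galois_apply σ (n := n) (m := 1) (fun z hz => ?_) g ?_).trans
      (by rw [pow_one])
    · obtain ⟨i, -, rfl⟩ := (Complex.isPrimitiveRoot_exp n hn0).eq_pow_of_pow_eq_one hz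
      rw [pow_one, map_pow]
      exact congrArg (· ^ i) h1
    · exact orderOf_dvd_iff_pow_eq_one.mp ((((Nat.Prime.coprime_iff_not_dvd hp).mpr hg).symm.pow_right
        a).dvd_of_dvd_mul_left (hG ▸ orderOf_dvd_natCard g))
  have hΨ := χ.2.isGen.pPart_smul_regPart hp
  set Ψ := ((p ^ a : ℕ) : ℂ) • regPart p χ.1 with hΨdef
  obtain ⟨c, hc, e⟩ := hΨ.exists_coeff
  have h2 : ∀ φ ψ : G → ℂ, (∀ g, ¬ p ∣ orderOf g → φ g = ψ g) →
      classInner Ψ φ = classInner Ψ ψ := fun φ ψ h => by
    rw [classInner_def, classInner_def]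
    refine congrArg _ (Finset.sum_congr rfl fun g _ => ?_)
    by_cases hg : p ∣ orderOf g
    · simp [hΨdef, regPart_of_dvd _ hg]
    · rw [h g hg]
  have h3 : ∀ ψ ∈ S, c ψ = c χ := fun ψ hψ => by
    exact_mod_cast (hc ψ).symm.trans ((h2 _ _ (h1 ψ hψ)).trans (hc χ))
  have h4 : ∑ ψ, c ψ ^ 2 = p ^ a * c χ := by
    have h5 := hΨ.inner_self_eq_sum_sq hc
    rw [h2 Ψ (((p ^ a : ℕ) : ℂ) • χ.1) fun g hg => by simp [hΨdef, regPart_of_not_dvd _ hg],
      classInner_smul_right, hc, map_natCast] at h5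
    exact_mod_cast h5.symm
  have h0 : c χ ≠ 0 := fun h => by
    rw [h, mul_zero, Finset.sum_eq_zero_iff_of_nonneg fun _ _ => sq_nonneg _] at h4
    have h5 := congrFun e 1
    rw [Finset.sum_eq_zero fun ψ hψ => by rw [pow_eq_zero_iff two_ne_zero |>.mp (h4 ψ hψ)]; simp,
      hΨdef, Pi.smul_apply, regPart_of_not_dvd _ (by simpa using hp.ne_one)] at h5
    simp [hp.ne_zero, χ.2.one_ne_zero] at h5
  have h5 : ∑ ψ ∈ S, c ψ ^ 2 = r * c χ ^ 2 := by
    rw [Finset.sum_congr rfl fun ψ hψ => by rw [h3 ψ hψ], Finset.sum_const, hr, nsmul_eq_mul]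
  have h6 := Finset.sum_filter_add_sum_filter_not Finset.univ (· ∈ S) fun ψ => c ψ ^ 2
  rw [Finset.filter_univ_mem, h4, h5] at h6
  have h7 := Finset.sum_nonneg (s := Finset.univ.filter (· ∉ S)) fun ψ _ => sq_nonneg (c ψ)
  have hr0 : 0 < r := hr ▸ Finset.card_pos.mpr ⟨χ, hχS⟩
  have h8 : 0 < c χ := by
    have : (0 : ℤ) < r * c χ ^ 2 := by positivity
    have : (0 : ℤ) < p ^ a * c χ := by omega
    exact pos_of_mul_pos_right this (by positivity)
  obtain ⟨m, hm⟩ := Int.eq_ofNat_of_zero_le h8.le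
  have h9 : r * m ≤ p ^ a := by
    have : (r : ℤ) * c χ ≤ p ^ a := le_of_mul_le_mul_right (by nlinarith) h8
    rw [hm] at this
    exact_mod_cast this
  have h10 : charDegree χ.1 ∣ m * n := by
    refine dvd_of_isIntegral_div (charDegree_irr_ne_zero χ) ?_
    obtain ⟨χ, d, ρ, hρ, rfl⟩ := χ
    have hχ := isCharacter_character ρ
    have h11 := isIntegral_sum_mul_char_div ρ (regPart p fun g => conj (ρ.character g))
      (hχ.conj.isClassFunction.regPart p) fun g => by
        by_cases hg : p ∣ orderOf g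
        · rw [regPart_of_dvd _ hg]; exact isIntegral_zero
        · rw [regPart_of_not_dvd _ hg]; exact hχ.conj.isIntegral g
    have h12 := hc ⟨_, d, ρ, hρ, rfl⟩
    rw [hm, classInner_def, hG, inv_mul_eq_iff_eq_mul₀ (by simp [hp.ne_zero, hn0])] at h12
    convert h11 using 2
    · refine mul_left_cancel₀ (a := ((p ^ a : ℕ) : ℂ)) (by simp [hp.ne_zero]) ?_
      rw [Finset.mul_sum]
      refine Eq.trans (by push_cast; ring) (h12.symm.trans (Finset.sum_congr rfl fun g _ => ?_))
      by_cases hg : p ∣ orderOf g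
      · simp [hΨdef, regPart_of_dvd _ hg]
      · simp only [hΨdef, Pi.smul_apply, regPart_of_not_dvd _ hg, smul_eq_mul]
        ring
    · rw [charDegree_character]
  have hm0 : 0 < m := by omega
  have h11 : p ^ (charDegree χ.1).factorization p ≤ m := Nat.le_of_dvd hm0
    ((hn.pow_left _).dvd_of_dvd_mul_right ((Nat.ordProj_dvd _ p).trans h10))
  have h12 := Nat.mul_le_mul (Nat.ordProj_le p hr0.ne') h11
  rw [← pow_add, ← Finsupp.add_apply, ← Nat.factorization_mul hr0.ne' (charDegree_irr_ne_zero χ)]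
    at h12
  refine ⟨(Nat.pow_le_pow_iff_right hp.one_lt).mp (h12.trans h9), fun h => ?_⟩
  have h13 : r * m = p ^ a := le_antisymm h9 (le_trans (Nat.pow_le_pow_right hp.pos
    ((hp.pow_dvd_iff_le_factorization (Nat.mul_ne_zero hr0.ne' (charDegree_irr_ne_zero χ))).mp h))
      h12)
  have h14 : ∀ ψ, ψ ∉ S → c ψ = 0 := fun ψ hψ => by
    have h15 : (p : ℤ) ^ a = r * c χ := by rw [hm]; exact_mod_cast h13.symm
    have h16 : ∑ ψ ∈ Finset.univ.filter (· ∉ S), c ψ ^ 2 = 0 := by rw [h15] at h6; linarith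
    exact pow_eq_zero_iff two_ne_zero |>.mp ((Finset.sum_eq_zero_iff_of_nonneg fun _ _ =>
      sq_nonneg _).mp h16 ψ (Finset.mem_filter.mpr ⟨Finset.mem_univ _, hψ⟩))
  obtain ⟨P⟩ : Nonempty (Sylow p G) := inferInstance
  have := Fintype.ofFinite (P : Subgroup G)
  obtain ⟨k, hk⟩ := (χ.2.isCharacter.restrict P).exists_nat_inner isCharacter_one
  have h15 : classInner (fun x : (P : Subgroup G) => Ψ x) (fun _ => 1) = χ.1 1 := by
    rw [classInner_one_right, Finset.sum_eq_single 1 (fun x _ hx => ?_) (by simp), hΨdef,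
      Pi.smul_apply, OneMemClass.coe_one, regPart_of_not_dvd _ (by simpa using hp.ne_one),
      P.card_eq_multiplicity, smul_eq_mul, inv_mul_cancel_left₀ (by simp [hp.ne_zero])]
    rw [hΨdef, Pi.smul_apply, regPart_of_dvd _ (by simpa using P.2.dvd_orderOf hx), smul_zero]
  rw [show (fun x : (P : Subgroup G) => Ψ x) = ∑ ψ : IrrCharacter G, (c ψ : ℂ) • fun x : (P : Subgroup G) => ψ.1 x from
    funext fun x => by rw [e]; simp, classInner_sum_left, ← Finset.sum_subset (Finset.subset_univ S)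
      fun ψ _ hψ => by simp [h14 ψ hψ, classInner_zero_left], Finset.sum_congr rfl
      (g := fun _ => (m * k : ℂ)) fun ψ hψ => by
        obtain ⟨σ, -, h16⟩ := (Finset.mem_filter.mp hψ).2
        have h17 := classInner_galois (fun x : (P : Subgroup G) => χ.1 x) isGen_one σ
        rw [hk, map_natCast] at h17
        simp only [map_one] at h17
        rw [classInner_smul_left, h3 ψ hψ, hm, h16, ← h17]
        rfl, Finset.sum_const, hr, ← coe_charDegree_irr, nsmul_eq_mul, ← mul_assoc] at h15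
  exact ⟨k, by rw [← h13]; exact_mod_cast h15.symm⟩

end Cfsg.Agent.S4506
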