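import Cfsg.Statements.S4507
import Cfsg.Agent.Block.CycAll
import Cfsg.Agent.Char.Galois
-- import your own Cfsg.Agent.* helpers here

set_option autoImplicit false
open Cfsg

namespace Cfsg.Agent.S4507

open Cfsg.Agent.Block Cfsg.Agent.Char
open scoped ComplexConjugate

/-- Let G be a finite group whose order g is divisible by the prime p exactly once, g′ = g/p, and fix a maximal ideal M of the algebraic integers containing p. Call two irreducible characters p-conjugate when a field automorphism of ℂ fixing the g′-th roots of unity carries one to the other. Let B be a p-block of positive defect (its defect group is a Sylow p-subgroup). Then B contains a subset Y (the exceptional family) such that: Y is a full p-conjugacy class (its members are pairwise p-conjugate and every p-conjugate of a member of Y lies in Y); every member of B outside Y is p-conjugate only to itself; the size t of Y divides p − 1 and B has exactly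 t + (p − 1)/t members; and there are signs δ_χ = ±1 (χ ∈ B) such that for every p-regular element x and every θ ∈ Y, Σ_{χ ∈ B ∖ Y} δ_χ χ(x) + δ_θ θ(x) = 0. -/
theorem result {G : Type*} [Group G] [Finite G] (p : ℕ) [Fact p.Prime] (M : Ideal Cfsg.AlgInt) (hM : Cfsg.IsPModular p M) (hdiv : p ∣ Nat.card G) (hsq : ¬ p ^ 2 ∣ Nat.card G) (B : Set (Cfsg.IrrCharacter G)) (hB : Cfsg.IsPBlock M B) (hd : 0 < Cfsg.blockDefect p B) : ∃ Y : Set (Cfsg.IrrCharacter G), Y ⊆ B ∧ Y.Nonempty ∧ (∀ θ ∈ Y, ∀ ψ : Cfsg.IrrCharacter G, (∃ σ : ℂ ≃+* ℂ, σ (Complex.exp (2 * Real.pi * Complex.I / ((Nat.card G / p ^ (Nat.card G).factorization p) : ℕ))) = Complex.exp (2 * Real.pi * Complex.I / ((Nat.card G / p ^ (Nat.card G).factorization p) : ℕ)) ∧ (ψ : G → ℂ) = fun g => σ ((θ : G → ℂ) g)) ↔ ψ ∈ Y) ∧ (∀ χ ∈ B, χ ∉ Y → ∀ ψ : Cfsg.IrrCharacter G, (∃ σ : ℂ ≃+* ℂ, σ (Complex.exp (2 * Real.pi * Complex.I / ((Nat.card G / p ^ (Nat.card G).factorization p) :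 ℕ))) = Complex.exp (2 * Real.pi * Complex.I / ((Nat.card G / p ^ (Nat.card G).factorization p) : ℕ)) ∧ (ψ : G → ℂ) = fun g => σ ((χ : G → ℂ) g)) → ψ = χ) ∧ Nat.card Y ∣ p - 1 ∧ Nat.card B = Nat.card Y + (p - 1) / Nat.card Y ∧ ∃ δ : Cfsg.IrrCharacter G → ℤ, (∀ χ ∈ B, δ χ = 1 ∨ δ χ = -1) ∧ ∀ x : G, ¬ p ∣ orderOf x → ∀ θ ∈ Y, (∑ᶠ χ ∈ B \ Y, (δ χ : ℂ) * (χ : G → ℂ) x) + (δ θ : ℂ) * (θ : G → ℂ) x = 0 := by
  classical
  have hp : p.Prime := Fact.out
  have := charP_resField hM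
  have ha : (Nat.card G).factorization p = 1 := by
    have h1 := (hp.dvd_iff_one_le_factorization Nat.card_pos.ne').1 hdiv
    have h2 := mt (hp.pow_dvd_iff_le_factorization (k := 2) Nat.card_pos.ne').2 hsq
    omega
  set n := Nat.card G / p ^ (Nat.card G).factorization p
  have hG : Nat.card G = p ^ (Nat.card G).factorization p * n :=
    (Nat.ordProj_mul_ordCompl_eq_self _ p).symm
  have hn : p.Coprime n := Nat.coprime_ordCompl hp Nat.card_pos.ne'
  have hn0 : n ≠ 0 := (Nat.ordCompl_pos p Nat.card_pos.ne').ne'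
  obtain ⟨P, hPD⟩ := exists_isDefectGroup hM hB
  have hP : Nat.card P = p := by
    have := blockDefect_le p B
    rw [card_defectGroup hM hB hPD, show blockDefect p B = 1 by omega, pow_one]
  obtain ⟨e, hm⟩ := ((isDef_top_iff hM hB).2 hPD).exists_maxBP (isPrim_redAlg_eSet hM hB)
  let ω : Multiplicative (ZMod p) ≃* P := mulEquivOfPrimeCardEq (p := p) (by simp) hP
  obtain ⟨c, h⟩ := exists_cycSet hM hB hm ω le_rfl hP rfl
  obtain ⟨θ, hθ, hker⟩ := h.exists_ker
  obtain ⟨D, hD, hstr⟩ := h.exists_cycStr hθ (h.stable_of_ker hθ hker)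
  obtain ⟨X, y, δ, ε, s, -⟩ := hstr (irrOne G)
  have hfix : ∀ σ : ℂ ≃+* ℂ, σ (Complex.exp (2 * Real.pi * Complex.I / n)) =
      Complex.exp (2 * Real.pi * Complex.I / n) → ∀ z : ℂ, z ^ n = 1 → σ z = z ^ 1 := by
    intro σ h1 z hz
    have := NeZero.mk hn0
    obtain ⟨i, -, rfl⟩ := (Complex.isPrimitiveRoot_exp n hn0).eq_pow_of_pow_eq_one hz
    rw [pow_one, map_pow]
    exact congrArg (· ^ i) h1
  have hord : ∀ g : G, ¬ p ∣ orderOf g → g ^ n = 1 := fun g hg =>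
    orderOf_dvd_iff_pow_eq_one.mp ((((Nat.Prime.coprime_iff_not_dvd hp).mpr hg).symm.pow_right
      _).dvd_of_dvd_mul_left (hG ▸ orderOf_dvd_natCard g))
  have key : ∀ σ : ℂ ≃+* ℂ, σ (Complex.exp (2 * Real.pi * Complex.I / n)) =
      Complex.exp (2 * Real.pi * Complex.I / n) → ∀ χ ∈ B, ∀ ψ ∈ B,
      (∀ g, ¬ p ∣ orderOf g → ψ.1 g = χ.1 g) → (∀ i ≠ 0, D ψ.1 i = σ (D χ.1 i)) →
      ψ.1 = fun g => σ (χ.1 g) := by
    intro σ h1 χ hχ ψ hψ h2 h3
    funext g
    by_cases hg : p ∣ orderOf g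
    swap
    · rw [h2 g hg]
      exact ((χ.2.isCharacter.galois_apply σ (hfix σ h1) g (hord g hg)).trans (by rw [pow_one])).symm
    obtain ⟨t, x, i, -, h4, h5⟩ := h.exists_expand hD hg
    rw [h5 _ (blockPart_irr_of_mem hχ), h5 _ (blockPart_irr_of_mem hψ), map_sum]
    refine Finset.sum_congr rfl fun f hf => ?_
    obtain ⟨h6, h7, h8⟩ := h4 f hf
    rw [h.zpowers_eq (ex ω _).2 (h.ex_ne_one h6)] at h8
    have h9 : pPart p (x f * g * (x f)⁻¹) = (ex ω (i f) : P) := by rw [pPart_conj, h7]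
    obtain ⟨w, hw⟩ : ∃ w : Subgroup.centralizer (P : Set G), (w : G) = x f * g * (x f)⁻¹ :=
      ⟨⟨_, h.mem_C' h6 h9⟩, rfl⟩
    rw [← hw, pPart_coe] at h9
    have h10 : ((pPart p w : Subgroup.centralizer (P : Set G)) : G) ∈ P := h9 ▸ (ex ω _).2
    rw [map_mul, h3 _ h6, h8.eq_of_eq, ← h.e_eq, ← hw, lpsi_sbar (eSet_mem_intAlg hM h.hc) hθ,
      ← pPart_mul_pReg p w, apply_center_mul θ.2 (h.mem_center h10), cen, hker _ h10,
      div_self (irr_one_ne_zero θ.2), one_mul]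
    congr 1
    refine ((θ.2.isCharacter.galois_apply σ (hfix σ h1) _ (Subtype.ext ?_)).trans
      (by rw [pow_one])).symm
    exact hord _ (by rw [Subgroup.orderOf_coe]; exact not_dvd_orderOf_pReg p w)
  have hY : ∀ (σ : ℂ ≃+* ℂ) (m : ℕ), σ (Complex.exp (2 * Real.pi * Complex.I / n)) =
      Complex.exp (2 * Real.pi * Complex.I / n) → (∀ z : ℂ, z ^ p = 1 → σ z = z ^ m) →
      ∀ j ≠ 0, (m : ZMod p) * j ≠ 0 → (y (m * j)).1 = fun g => σ ((y j).1 g) := by
    intro σ m h1 h2 j hj hj'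
    refine key σ h1 _ (s.memY j hj) _ (s.memY _ hj') (fun g hg => s.reg hj' hj hg) fun i hi => ?_
    rw [s.decY _ hj' i hi, s.decY _ hj i hi, map_mul, map_neg, map_intCast, rsum_eq, rsum_eq,
      map_sum]
    congr 1
    refine Finset.sum_congr rfl fun r _ => ?_
    rw [h2 _ (ech_pow _), ← ech_natCast_mul]
    congr 1; ring
  have hR := h.card_R_dvd
  refine ⟨y '' {j | j ≠ 0}, ?_, ⟨_, 1, s.one_ne, rfl⟩, ?_, fun χ hχ hχY ψ ⟨σ, h1, h2⟩ => ?_, ?_, ?_,
    fun χ => if χ ∈ X then δ χ else ε, fun χ _ => ?_, ?_⟩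
  · rintro _ ⟨j, hj, rfl⟩
    exact s.memY j hj
  · rintro _ ⟨j, hj, rfl⟩ ψ
    constructor
    · rintro ⟨σ, h1, h2⟩
      obtain ⟨m, h3, h4⟩ := exists_pow_of_ringHom (σ : ℂ →+* ℂ) hp.ne_zero
      have h5 : (m : ZMod p) * j ≠ 0 := unit_mul_ne_zero (ZMod.unitOfCoprime m h3) hj
      exact ⟨_, h5, Subtype.ext ((hY σ m h1 h4 j hj h5).trans h2.symm)⟩
    · rintro ⟨j', hj', rfl⟩
      obtain ⟨m, h1, h2⟩ := Nat.chineseRemainder hn (j' * j⁻¹).val 1
      have h3 : (m : ZMod p) * j = j' := by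
        rw [(ZMod.natCast_eq_natCast_iff _ _ _).2 h1, ZMod.natCast_zmod_val,
          inv_mul_cancel_right₀ hj]
      have h4 : m.Coprime (Nat.card G) := by
        rw [hG]
        refine Nat.Coprime.mul_right (Nat.Coprime.pow_right _ (Nat.Coprime.symm
          ((Nat.Prime.coprime_iff_not_dvd hp).2 fun h5 => hj' ?_))) ?_
        · rw [← h3, (ZMod.natCast_eq_zero_iff m p).2 h5, zero_mul]
        · exact Nat.coprime_iff_gcd_eq_one.2 (by rw [h2.gcd_eq, Nat.gcd_one_left])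
      obtain ⟨σ, h5⟩ := exists_ringEquiv_pow Nat.card_pos.ne' h4
      have h6 := (Complex.isPrimitiveRoot_exp n hn0).pow_eq_one
      have h7 : σ (Complex.exp (2 * Real.pi * Complex.I / n)) =
          Complex.exp (2 * Real.pi * Complex.I / n) := by
        rw [h5 _ (by rw [hG, mul_comm _ n, pow_mul, h6, one_pow]),
          pow_eq_pow_of_modEq h2 h6, pow_one]
      refine ⟨σ, h7, ?_⟩
      rw [← h3]
      exact hY σ m h7 (fun z hz => h5 z (by
        obtain ⟨k, hk⟩ := hdiv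
        rw [hk, pow_mul, hz, one_pow])) j hj (h3 ▸ hj')
  · have h3 : χ ∈ X := s.diff ▸ ⟨hχ, hχY⟩
    exact Subtype.ext (h2.trans (key σ h1 χ hχ χ hχ (fun _ _ => rfl) fun i hi => by
      rw [s.decX χ h3 i hi, map_intCast]).symm)
  · rw [s.cardY]
    exact Nat.div_dvd_of_dvd hR
  · rw [s.cardY, s.cardB, Nat.div_div_self hR (Nat.sub_ne_zero_of_lt hp.one_lt), add_comm]
  · simp only
    split_ifs with h1
    exacts [s.sgnX χ h1, s.sgn]
  · rintro g hg _ ⟨j, hj, rfl⟩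
    simp only [if_neg (s.notMem hj), s.diff]
    rw [finsum_mem_congr rfl fun χ hχ => by rw [if_pos hχ], add_comm]
    exact s.rel j hj g hg

end Cfsg.Agent.S4507
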