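import Cfsg.Statements.S4508
import Cfsg.Agent.Char.PrimeB0Ex
import Cfsg.Agent.Small.BlockTools

set_option autoImplicit false
open Cfsg

namespace Cfsg.Agent.S4508

open Subgroup Cfsg.Agent.Grp Cfsg.Agent.Grp.SelfCent Cfsg.Agent.Char Cfsg.Agent.Char.SelfC Cfsg.Agent.Block


/-- Let the finite group G contain an element x of prime order p with C_G(x) = ⟨x⟩, and let t be the number of conjugacy classes of elements of order p. If G has an irreducible character of degree p − 1, then t is even or the commutator subgroup has even index. -/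
theorem result {G : Type*} [Group G] [Finite G] (p : ℕ) (hp : p.Prime) (x : G) (hx : orderOf x = p) (hC : Subgroup.centralizer ({x} : Set G) = Subgroup.zpowers x) (t : ℕ) (ht : Nat.card {C : ConjClasses G // ∃ g ∈ C.carrier, orderOf g = p} = t) (χ : Cfsg.IrrCharacter G) (hχ : Cfsg.charDegree (χ : G → ℂ) + 1 = p) : Even t ∨ Even (commutator G).index := by
  classical
  haveI := Fact.mk hp
  have h1 := card_classes_mul hx hC
  rw [ht] at h1
  by_cases hp2 : p = 2
  · right
    rw [index_commutator_of_eq_one hx hC (Nat.eq_one_of_mul_eq_one_left (by rw [h1, hp2])), hp2]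
    exact even_two
  obtain ⟨P, hP⟩ := exists_sylow hx hC
  obtain ⟨D⟩ := exists_b0Data hp2 P hP hx
  have he := D.he
  rw [hC] at he
  have hd : (χ : G → ℂ) 1 = (p : ℂ) - 1 := by
    rw [← cast_charDegree χ.2.isCharacter, ← hχ]; simp
  have hdz : (charDegree (χ : G → ℂ) : ℤ) = p - 1 := by rw [← hχ]; simp
  have hp3 : 3 ≤ p := by have := hp.two_le; omega
  by_cases hX : χ ∈ D.X
  · refine even_or_even hx hC hp2 χ.2.isCharacter hd (fun z hz hz1 => ?_) h1
    rw [D.valX' hX hz hz1]
    have h2 := D.degX χ hX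
    rcases D.sign χ hX with h | h
    · rw [h, hdz, Int.modEq_iff_dvd] at h2
      have h3 : (p : ℤ) ∣ (2 : ℕ) := by
        have := dvd_add h2 (dvd_refl (p : ℤ))
        rwa [show (1 : ℤ) - (p - 1) + p = (2 : ℕ) by push_cast; ring] at this
      have := Nat.le_of_dvd two_pos (Int.natCast_dvd_natCast.1 h3)
      omega
    · rw [h]; simp
  by_cases hY : χ ∈ D.Y
  · have h2 : D.d = p - 1 := by
      have := D.degY χ hY
      rw [← cast_charDegree χ.2.isCharacter] at this
      have h3 : charDegree (χ : G → ℂ) = D.d := by exact_mod_cast this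
      omega
    have h3 := D.modY
    have h4 := D.cardY
    have h5 := D.e_pos
    have h6 : D.e ≤ p - 1 := h4 ▸ Nat.le_mul_of_pos_left _ D.card_Y_pos
    rw [h2, Nat.cast_sub hp.one_le, Int.modEq_iff_dvd] at h3
    rcases D.signY with h | h <;> rw [h] at h3
    · have h7 : (p : ℤ) ∣ (D.e + 1 : ℕ) := by
        have := dvd_add h3 (dvd_refl (p : ℤ))
        rwa [show (1 : ℤ) * D.e - (p - (1 : ℕ)) + p = (D.e + 1 : ℕ) by push_cast; ring] at this
      have h8 := Nat.le_of_dvd (by omega) (Int.natCast_dvd_natCast.1 h7)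
      have h9 : D.e = p - 1 := by omega
      have h10 : D.Y.card = 1 :=
        Nat.eq_of_mul_eq_mul_right h5 (by rw [h4, h9, one_mul])
      obtain ⟨θ, hθ⟩ := Finset.card_eq_one.1 h10
      refine even_or_even hx hC hp2 χ.2.isCharacter hd (fun z hz hz1 => ?_) h1
      have h11 := D.sumY' hz hz1
      rw [hθ, Finset.mem_singleton] at hY
      rw [hθ, Finset.sum_singleton, ← hY, h] at h11
      rw [h11]; simp
    · have h7 : (p : ℤ) ∣ (D.e - 1 : ℕ) := by
        have := (dvd_add h3 (dvd_refl (p : ℤ))).neg_right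
        rwa [show -((-1 : ℤ) * D.e - (p - (1 : ℕ)) + p) = (D.e - 1 : ℕ) by
          push_cast [Nat.cast_sub h5]; ring] at this
      have h8 := Nat.eq_zero_of_dvd_of_lt (Int.natCast_dvd_natCast.1 h7) (by omega)
      left
      rw [he, show D.e = 1 by omega, mul_one] at h1
      rw [h1]
      exact hp.even_sub_one hp2
  · exfalso
    have h2 := Small.card_dvd_of_vanish χ.2.isGen (zpowers x) (fun z hz hz1 =>
      D.out hC χ hX hY z (by rw [orderOf_of_mem_zp hx hz hz1])) (d := (p - 1 : ℕ))
      (by rw [hd, Int.cast_natCast, Nat.cast_sub hp.one_le]; simp)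
    rw [card_zp hx] at h2
    have := Nat.le_of_dvd (by omega) (Int.natCast_dvd_natCast.1 h2)
    omega

end Cfsg.Agent.S4508
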