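import Cfsg.Statements.S4509
import Cfsg.Agent.Grp.SelfCentPrime

set_option autoImplicit false
open Cfsg

namespace Cfsg.Agent.S4509

open Subgroup Cfsg.Agent.Grp Cfsg.Agent.Grp.SelfCent


/-- Let the finite group G contain an element x of prime order p with C_G(x) = ⟨x⟩; let t be the number of conjugacy classes of elements of order p and 1 + n·p the number of subgroups of order p. Then G has a normal subgroup of order 1 + n·p if and only if either t = p − 1, or t < p − 1 and G″ ≠ G′. Moreover, if t = p − 1 then G′ has order 1 + n·p and G/G′ is cyclic of order p; and if t < p − 1 and G″ ≠ G′ then G″ has order 1 + n·p and G′ has order p·(1 + n·p). -/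
theorem result {G : Type*} [Group G] [Finite G] (p : ℕ) (hp : p.Prime) (x : G) (hx : orderOf x = p) (hC : Subgroup.centralizer ({x} : Set G) = Subgroup.zpowers x) (t : ℕ) (ht : Nat.card {C : ConjClasses G // ∃ g ∈ C.carrier, orderOf g = p} = t) (n : ℕ) (hn : Nat.card {H : Subgroup G // Nat.card H = p} = 1 + n * p) : ((∃ S : Subgroup G, S.Normal ∧ Nat.card S = 1 + n * p) ↔ (t = p - 1 ∨ (t < p - 1 ∧ derivedSeries G 2 ≠ derivedSeries G 1))) ∧ (t = p - 1 → Nat.card (commutator G) = 1 + n * p ∧ IsCyclic (G ⧸ commutator G) ∧ (commutator G).index = p) ∧ (t < p - 1 → derivedSeries G 2 ≠ derivedSeries G 1 → Nat.card (derivedSeries G 2) = 1 + n * p ∧ Nat.card (commutator G) = p * (1 + n * p)) := by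
  haveI := Fact.mk hp
  have h1 := card_classes_mul hx hC
  rw [ht] at h1
  have hp1 : 0 < p - 1 := by have := hp.one_lt; omega
  rw [card_subgroups hx hC] at hn
  set N := normalizer ((zpowers x : Subgroup G) : Set G) with hN
  have hG : Nat.card G = p * (zpowers x).relIndex N * (1 + n * p) := by
    rw [← card_mul_index N, hn, card_normalizer hx]
  have d1 : derivedSeries G 1 = _root_.commutator G := derivedSeries_one G
  have d2 : derivedSeries G 2 = ⁅_root_.commutator G, _root_.commutator G⁆ := by
    rw [derivedSeries_succ, d1]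
  have hA : t = p - 1 → Nat.card (_root_.commutator G) = 1 + n * p ∧
      IsCyclic (G ⧸ _root_.commutator G) ∧ (_root_.commutator G).index = p := by
    intro h
    rw [h] at h1
    have he : (zpowers x).relIndex N = 1 :=
      Nat.eq_of_mul_eq_mul_left hp1 (by rw [h1, mul_one])
    have h2 := index_commutator_of_eq_one hx hC he
    refine ⟨?_, isCyclic_of_prime_card (p := p) h2, h2⟩
    have h3 := card_mul_index (_root_.commutator G)
    rw [h2, hG, he, mul_one, mul_comm] at h3
    exact Nat.eq_of_mul_eq_mul_left hp.pos h3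
  have hB : t < p - 1 → derivedSeries G 2 ≠ derivedSeries G 1 →
      Nat.card (derivedSeries G 2) = 1 + n * p ∧
        Nat.card (_root_.commutator G) = p * (1 + n * p) := by
    intro h hne
    have he : (zpowers x).relIndex N ≠ 1 := by
      intro he; rw [he, mul_one] at h1; omega
    have hxm := mem_commutator hx hC he
    rw [d1, d2] at hne
    rw [d2]
    have h5 : ¬ p ∣ Nat.card ↥(⁅_root_.commutator G, _root_.commutator G⁆ : Subgroup G) :=
      fun h5 => hne (le_antisymm (commutator_le_left _ _) (commutator_le_of_dvd hx hC _ h5))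
    have h6 : zpowers x ⊔ ⁅_root_.commutator G, _root_.commutator G⁆ = _root_.commutator G := by
      refine le_antisymm (sup_le (zpowers_le.2 hxm) (commutator_le_left _ _)) ?_
      intro g hg
      obtain ⟨s, hs, y, hy, rfl⟩ := exists_mul_of_mem_commutator hx hC hxm h5 hg
      exact mul_mem (mem_sup_right hs) (mem_sup_left hy)
    have h7 : N ⊔ ⁅_root_.commutator G, _root_.commutator G⁆ = ⊤ := by
      rw [eq_top_iff]
      intro g _
      obtain ⟨a, ha, s, hs, rfl⟩ := exists_mul_of_mem hx hC _ hxm g
      refine mul_mem (mem_sup_left ha) ?_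
      rw [← h6] at hs
      exact (sup_le_sup_right le_normalizer _) hs
    have h8 := card_sup_of_inf_eq_bot N _ (normalizer_inf_eq_bot hx hC _ h5)
    rw [h7, card_top, ← card_mul_index N, hn] at h8
    have h9 := (Nat.eq_of_mul_eq_mul_left Nat.card_pos h8).symm
    refine ⟨h9, ?_⟩
    have h10 := card_sup_of_inf_eq_bot _ _ (zp_inf_eq_bot hx h5)
    rw [h6, card_zp hx, h9] at h10
    exact h10
  refine ⟨⟨?_, ?_⟩, hA, hB⟩
  · rintro ⟨S, hSn, hS⟩
    by_cases h : t = p - 1
    · exact Or.inl h
    right
    have he : (zpowers x).relIndex N ≠ 1 := by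
      intro he; rw [he, mul_one] at h1; exact h h1
    have he0 : (zpowers x).relIndex N ≠ 0 := by
      intro h0; rw [h0] at h1; omega
    have hxm := mem_commutator hx hC he
    have hS' : ¬ p ∣ Nat.card S := by
      rw [hS]
      intro hd
      exact hp.one_lt.ne' (Nat.dvd_one.1 ((Nat.dvd_add_left (dvd_mul_left p n)).1 hd))
    refine ⟨lt_of_le_of_ne (by rw [← h1]; exact Nat.le_mul_of_pos_right _ (Nat.pos_of_ne_zero he0)) h, ?_⟩
    have h8 := card_sup_of_inf_eq_bot N _ (normalizer_inf_eq_bot hx hC _ hS')
    rw [hS, ← hn, card_mul_index] at h8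
    have h7 : N ⊔ S = ⊤ := eq_top_of_card_eq _ h8
    have key : ∀ g : G, ∃ a ∈ N, ∃ s ∈ S, g = a * s := by
      intro g
      have h2 : g ∈ ((N ⊔ S : Subgroup G) : Set G) := by rw [h7]; trivial
      rw [mul_normal] at h2
      obtain ⟨a, ha, s, hs, rfl⟩ := h2
      exact ⟨a, ha, s, hs, rfl⟩
    have k1 : _root_.commutator G ≤ (zpowers (QuotientGroup.mk x : G ⧸ S)).comap (QuotientGroup.mk' S) := by
      rw [_root_.commutator_def, commutator_le]
      intro g _ k _
      obtain ⟨a, ha, s, hs, rfl⟩ := key g
      obtain ⟨b, hb, u, hu, rfl⟩ := key k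
      obtain ⟨i, hi⟩ := commute_of_normalizer hC ha hb
      rw [← QuotientGroup.eq_one_iff] at hs hu
      refine ⟨i, ?_⟩
      simp only [commutatorElement_def, QuotientGroup.mk'_apply, QuotientGroup.mk_mul,
        QuotientGroup.mk_inv, hs, hu, mul_one]
      simp only at hi
      rw [← QuotientGroup.mk_zpow, hi]
      rfl
    have k2 : (⁅_root_.commutator G, _root_.commutator G⁆ : Subgroup G) ≤ S := by
      rw [commutator_le]
      intro g hg k hk
      obtain ⟨i, hi⟩ := k1 hg
      obtain ⟨j, hj⟩ := k1 hk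
      rw [← QuotientGroup.eq_one_iff]
      simp only [QuotientGroup.mk'_apply] at hi hj
      simp only [commutatorElement_def, QuotientGroup.mk_mul, QuotientGroup.mk_inv]
      rw [← hi, ← hj]
      group
    rw [d1, d2]
    intro h9
    rw [h9] at k2
    have : x ∈ zpowers x ⊓ S := ⟨mem_zpowers x, k2 hxm⟩
    rw [zp_inf_eq_bot hx hS', mem_bot] at this
    exact ne_one hx this
  · rintro (h | ⟨h, h'⟩)
    · exact ⟨_, inferInstance, (hA h).1⟩
    · exact ⟨_, derivedSeries_normal G 2, (hB h h').1⟩

end Cfsg.Agent.S4509
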