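import Cfsg.Statements.S4510
import Cfsg.Agent.Block.DefectNum
-- import your own Cfsg.Agent.* helpers here

set_option autoImplicit false
open Cfsg

namespace Cfsg.Agent.S4510

open Cfsg.Agent.Block Cfsg.Agent.Char
open scoped ComplexConjugate

/-- Let G be a finite group, p a prime, M a maximal ideal of the algebraic integers containing p, and call the defect of a conjugacy class the exponent of p in the order of the centralizer of its elements. Two irreducible characters lying in p-blocks of defect exactly d lie in the same block if and only if their central characters (class size times χ(x)/χ(1)) agree modulo the local ideal at M at every p-regular element x whose class has defect exactly d. -/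
theorem result {G : Type*} [Group G] [Finite G] (p : ℕ) [Fact p.Prime] (M : Ideal Cfsg.AlgInt) (hM : Cfsg.IsPModular p M) (d : ℕ) (χ ψ : Cfsg.IrrCharacter G) (hχ : Cfsg.blockDefect p (Cfsg.blockOf M (χ : G → ℂ)) = d) (hψ : Cfsg.blockDefect p (Cfsg.blockOf M (ψ : G → ℂ)) = d) : Cfsg.SameBlock M (χ : G → ℂ) (ψ : G → ℂ) ↔ ∀ x : G, ¬ p ∣ orderOf x → (Nat.card (Subgroup.centralizer ({x} : Set G))).factorization p = d → Cfsg.MemLocalIdeal M (Cfsg.centralChar (χ : G → ℂ) x - Cfsg.centralChar (ψ : G → ℂ) x) := by
  refine ⟨fun h x _ _ => h x, fun h => ?_⟩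
  have hB := isPBlock_blockOf (M := M) χ
  have hB' := isPBlock_blockOf (M := M) ψ
  have hχ' := self_mem_blockOf hM χ
  have hψ' := self_mem_blockOf hM ψ
  refine mem_block_of_val_om_eSet (M := M) (B := blockOf M (χ : G → ℂ)) ?_
  rw [← om_eSet_of_mem hχ', val_sub_comm]
  refine val_linear_lt_one' (om (χ : G → ℂ) - om (ψ : G → ℂ)) (eSet_mem_ZA _) fun g => ?_
  rw [LinearMap.sub_apply, om_classSum χ.2.isClassFunction, om_classSum ψ.2.isClassFunction,
    coeff_eSet]
  by_cases hv : val M (blockCoeff (blockOf M (χ : G → ℂ)) g) < 1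
  · exact val_mul_lt_one_left hv
      (val_sub_le_one (val_centralChar_le_one χ.2 g) (val_centralChar_le_one ψ.2 g))
  refine val_mul_lt_one_right (val_blockCoeff_le_one hM hB g) ?_
  have h1 := le_blockDefect_of_val_blockCoeff hM hB
    ((val_eq_one_iff_not_lt (val_blockCoeff_le_one hM hB g)).2 hv)
  rcases h1.eq_or_lt with h2 | h2
  · exact val_lt_one_of_memLocalIdeal hM
      (h g (not_dvd_orderOf_of_val_blockCoeff hM (eSet_mem_intAlg hM hB) hv) (h2.trans hχ))
  · refine val_sub_lt_one (lt_of_le_of_ne (val_centralChar_le_one χ.2 g) fun h3 => ?_)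
      (lt_of_le_of_ne (val_centralChar_le_one ψ.2 g) fun h3 => ?_)
    · have := blockDefect_le_of_val_centralChar hM hB hχ' h3
      omega
    · have := blockDefect_le_of_val_centralChar hM hB' hψ' h3
      omega

end Cfsg.Agent.S4510
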