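import Cfsg.Statements.S4512
import Cfsg.Agent.Block.RankQuot
import Cfsg.Agent.Block.Klein
-- import your own Cfsg.Agent.* helpers here

set_option autoImplicit false
open Cfsg

namespace Cfsg.Agent.S4512

open Cfsg.Agent.Block Cfsg.Agent.Char
open scoped ComplexConjugate

/-- If G is a finite group with a Sylow 2-subgroup that is a Klein four-group and a single conjugacy class of involutions, then its principal 2-block (relative to a maximal ideal M of the algebraic integers containing 2) has 2-regular rank 3: the restrictions of its irreducible characters to the elements of odd order span a space of dimension 3 (it has three irreducible Brauer characters). -/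
theorem result {G : Type*} [Group G] [Finite G] (M : Ideal Cfsg.AlgInt) (hM : Cfsg.IsPModular 2 M) (P : Sylow 2 G)
    (hP : Nat.card P = 4) (hexp : ∀ x : P, x * x = 1)
    (hone : ∀ s t : G, orderOf s = 2 → orderOf t = 2 → IsConj s t) :
    Cfsg.blockRank 2 (Cfsg.principalBlock M G) = 3 := by
  classical
  have hK : IsKleinFour (P : Subgroup G) := ⟨hP, by
    have : Nontrivial (P : Subgroup G) := Finite.one_lt_card_iff_nontrivial.1 (by
      change 1 < Nat.card P; omega)
    refine (Monoid.exponent_eq_prime_iff Nat.prime_two).2 fun g hg => ?_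
    exact orderOf_eq_prime (by rw [pow_two]; exact hexp g) hg⟩
  have := klein_isMulCommutative hK
  obtain ⟨a, b, c, n, ha, hb, hc, hab, hac, hbc, hB, -⟩ := klein_principal hM P hK hone
  have h4 : Nat.card (principalBlock M G) = 4 := by
    rw [hB, Nat.card_coe_set_eq, Set.ncard_insert_of_notMem (by simp [ha.symm, hb.symm, hc.symm]),
      Set.ncard_insert_of_notMem (by simp [hab, hac]), Set.ncard_pair hbc]
  obtain ⟨z, hz, hz1⟩ : ∃ z ∈ (P : Subgroup G), z ≠ 1 := by
    by_contra! h
    have : (P : Subgroup G) = ⊥ := (Subgroup.eq_bot_iff_forall _).2 h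
    have h2 : Nat.card (P : Subgroup G) = 4 := hP
    rw [this, Subgroup.card_bot] at h2
    omega
  have hz2 := Inv.Klein.orderOf_eq hK hz hz1
  have h := card_block_eq_sum_indSet hM (isPBlock_principal (M := M) (G := G)) (X := {1, z})
    (by
      intro x hx
      rcases Finset.mem_insert.1 hx with rfl | hx
      · exact ⟨0, by simp⟩
      · rw [Finset.mem_singleton.1 hx]; exact ⟨1, by simp [hz2]⟩)
    (by
      intro g hg
      by_cases h1 : g = 1
      · subst h1
        exact ⟨1, ⟨by simp, IsConj.refl _⟩, fun y hy => isConj_one_right.1 hy.2⟩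
      · refine ⟨z, ⟨by simp, hone _ _ ?_ hz2⟩, fun y hy => ?_⟩
        · obtain ⟨t, ht⟩ := exists_conj_mem_sylow P hg
          rw [← orderOf_conj_eq t g]
          exact Inv.Klein.orderOf_eq hK ht fun h => h1 (by simpa [mul_inv_eq_one] using h)
        · rcases Finset.mem_insert.1 hy.1 with rfl | hy'
          · exact absurd (isConj_one_left.1 hy.2) h1
          · exact Finset.mem_singleton.1 hy')
  rw [Finset.sum_pair hz1.symm, blockRank_indSet_one hM isPBlock_principal,
    indSet_principal hM ⟨1, by simp [hz2]⟩, blockRank_principal_of_index hM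
      (index_pPrimeCore_of_hasNormalPComplement
        (hasNormalPComplement_centralizer_of_three P (klein_ncard_le hK) hz hz1)), h4] at h
  omega

end Cfsg.Agent.S4512
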