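import Cfsg.Statements.S4513
import Cfsg.Agent.Block.CycAll
-- import your own Cfsg.Agent.* helpers here

set_option autoImplicit false
open Cfsg

namespace Cfsg.Agent.S4513

open Cfsg.Agent.Block Cfsg.Agent.Char
open scoped ComplexConjugate

/-- Blocks of defect one for p = 2. Let M be a maximal ideal of the algebraic integers containing 2, B a 2-block of the finite group G whose defect group is the subgroup generated by an involution x, C = C_G(x), b a block of C inducing B and θ a member of b taking the same value at x as at 1 (there is exactly one). Then B consists of exactly two irreducible characters, which agree on every element of odd order, and they can be labelled χ₁, χ₂ with signs ε₁, ε₂ = ±1, ε₁ε₂ = −1, such that χᵢ(x y) = εᵢ θ(y) for every element y of C of odd order. -/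
theorem result {G : Type*} [Group G] [Finite G] (M : Ideal Cfsg.AlgInt) (hM : Cfsg.IsPModular 2 M) (x : G) (hx : orderOf x = 2)
    (B : Set (Cfsg.IrrCharacter G)) (hB : Cfsg.IsPBlock M B) (hBD : Cfsg.IsDefectGroup 2 M B (Subgroup.zpowers x))
    (b : Set (Cfsg.IrrCharacter ↥(Subgroup.centralizer ({x} : Set G)))) (hb : Cfsg.IsInducedBlock M (Subgroup.centralizer ({x} : Set G)) b B)
    (θ : Cfsg.IrrCharacter ↥(Subgroup.centralizer ({x} : Set G))) (hθ : θ ∈ b)
    (hθx : ∀ z : ↥(Subgroup.centralizer ({x} : Set G)), (z : G) = x → (θ : ↥(Subgroup.centralizer ({x} : Set G)) → ℂ) z = (θ : ↥(Subgroup.centralizer ({x} : Set G)) → ℂ) 1) :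
    Nat.card B = 2 ∧ (∀ χ ∈ B, ∀ ψ ∈ B, ∀ g : G, ¬ 2 ∣ orderOf g → (χ : G → ℂ) g = (ψ : G → ℂ) g) ∧
      ∃ χ₁ ∈ B, ∃ χ₂ ∈ B, χ₁ ≠ χ₂ ∧ ∃ ε₁ ε₂ : ℤ, (ε₁ = 1 ∨ ε₁ = -1) ∧ (ε₂ = 1 ∨ ε₂ = -1) ∧ ε₁ * ε₂ = -1 ∧
        ∀ y : ↥(Subgroup.centralizer ({x} : Set G)), ¬ 2 ∣ orderOf y →
          (χ₁ : G → ℂ) (x * y) = (ε₁ : ℂ) * (θ : ↥(Subgroup.centralizer ({x} : Set G)) → ℂ) y ∧ (χ₂ : G → ℂ) (x * y) = (ε₂ : ℂ) * (θ : ↥(Subgroup.centralizer ({x} : Set G)) → ℂ) y := by
  have := charP_resField hM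
  have hP : Nat.card (Subgroup.zpowers x) = 2 := by rw [Nat.card_zpowers, hx]
  let ω : Multiplicative (ZMod 2) ≃* Subgroup.zpowers x :=
    mulEquivOfPrimeCardEq (p := 2) (by simp) hP
  have hx' : ∃ k, orderOf x = 2 ^ k := ⟨1, hx⟩
  have hx1 : x ≠ 1 := fun h => by simp [h] at hx
  have hm := ((isInducedBlock_iff_of_zpowers hM hx' rfl hb.1 hB).1 hb).maxBP_of_isDef
    ((isDef_top_iff hM hB).2 hBD)
  have h : CycSet 2 M B _ _ ω _ _ b :=
    ⟨hM, hB, hm, le_rfl, hP, centralizer_zpowers_eq x, hb.1, Alg.PLE.refl hm.of.pair⟩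
  have hmem : ∀ v ∈ Subgroup.zpowers x, v ≠ 1 → v = x := fun v hv h1 => by
    have h2 : ∀ i : ZMod 2, i ≠ 0 → i = 1 := by decide
    have h3 : ∀ w : Subgroup.zpowers x, (w : G) ≠ 1 → w = ex ω 1 := fun w hw => by
      rw [← h2 (lg ω w) fun h0 => hw (by rw [← ex_lg ω w, h0, ex_zero]; rfl), ex_lg]
    exact congrArg Subtype.val ((h3 ⟨v, hv⟩ h1).trans (h3 ⟨x, Subgroup.mem_zpowers x⟩ hx1).symm)
  have hker : ∀ v : Subgroup.centralizer ({x} : Set G), (v : G) ∈ Subgroup.zpowers x →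
      θ.1 v = θ.1 1 := fun v hv => by
    by_cases h1 : (v : G) = 1
    · rw [show v = 1 from Subtype.ext h1]
    · exact hθx v (hmem v hv h1)
  obtain ⟨D, hD, hstr⟩ := h.exists_cycStr hθ (h.stable_of_ker hθ hker)
  obtain ⟨X, y, δ, ε, s, -⟩ := hstr (irrOne G)
  have hR := Nat.dvd_one.1 h.card_R_dvd
  have h1 := s.one_ne
  obtain ⟨χ, hχ⟩ := s.X_nonempty
  have hX : X = {χ} := by
    have h2 := s.cardX.trans hR
    rw [Nat.card_coe_set_eq, Set.ncard_eq_one] at h2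
    obtain ⟨a, rfl⟩ := h2
    rw [hχ]
  have hrel := s.rel 1 h1
  simp only [hX, finsum_mem_singleton] at hrel
  have hsg : δ χ * ε = -1 := by
    have h2 := hrel 1 not_dvd_orderOf_one
    rw [← cast_charDegree χ.2.isCharacter, ← cast_charDegree (y 1).2.isCharacter] at h2
    have h3 : ε * charDegree (y 1).1 + δ χ * charDegree χ.1 = 0 := by exact_mod_cast h2
    have := charDegree_ne_zero χ.2
    have := charDegree_ne_zero (y 1).2
    rcases s.sgn with e1 | e1 <;> rcases s.sgnX χ hχ with e2 | e2 <;> rw [e1, e2] at h3 ⊢ <;> omega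
  have hreg : ∀ ψ ∈ B, ∀ g, ¬ 2 ∣ orderOf g → ψ.1 g = χ.1 g := fun ψ hψ g hg => by
    rcases s.mem_or hψ with h2 | ⟨j, hj, rfl⟩
    · rw [hX] at h2; rw [h2]
    · have h3 : (δ χ : ℂ) * ε = -1 := by exact_mod_cast hsg
      rw [s.reg hj h1 hg]
      linear_combination ε * hrel g hg - (y 1).1 g * s.eps_sq - χ.1 g * h3
  have hN : Subgroup.normalizer (Subgroup.zpowers x : Set G) ≤
      Subgroup.centralizer ({x} : Set G) := fun g hg => by
    rw [Subgroup.mem_centralizer_singleton_iff, ← mul_inv_eq_iff_eq_mul]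
    exact hmem _ ((Subgroup.mem_normalizer_iff.1 hg x).1 (Subgroup.mem_zpowers x))
      (by rwa [Ne, conj_eq_one_iff])
  have hval : ∀ z : Subgroup.centralizer ({x} : Set G), ¬ 2 ∣ orderOf z → ∀ ψ ∈ B,
      ψ.1 (x * z) = D ψ.1 1 * θ.1 z := fun z hz ψ hψ => by
    have h2 : pPart 2 (x * z) = x :=
      (pPart_mul_eq_iff hx' _).2 ⟨z.2, by rwa [Subgroup.orderOf_coe]⟩
    obtain ⟨t, w, i, h3, h4, h5⟩ := h.exists_expand_prime hθ hD
      (h2.symm ▸ Subgroup.mem_zpowers x) (pPart_ne_one_iff.1 (h2.symm ▸ hx1))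
    rw [Subgroup.relIndex_eq_one.2 (hN.trans ((centralizer_zpowers_eq x).ge.trans h.CPN)),
      Finset.card_eq_one] at h3
    obtain ⟨f, rfl⟩ := h3
    obtain ⟨h6, h7, -⟩ := h4 f (Finset.mem_singleton_self f)
    have h8 : ∀ i : ZMod 2, i ≠ 0 → i = 1 := by decide
    have hxC : x ∈ Subgroup.centralizer ({x} : Set G) := h.PC (Subgroup.mem_zpowers x)
    rw [h5 _ (blockPart_irr_of_mem hψ), Finset.sum_singleton, h8 _ h6]
    congr 1
    refine (extendByZero_coe _ _ (⟨w f, hN h7⟩ * (⟨x, hxC⟩ * z) * (⟨w f, hN h7⟩)⁻¹)).trans ?_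
    rw [θ.2.isClassFunction, apply_center_mul θ.2 (h.mem_center (Subgroup.mem_zpowers x)), cen,
      hθx _ rfl, div_self (irr_one_ne_zero θ.2), one_mul]
  refine ⟨by rw [s.cardB, hR], fun a ha b hb g hg => (hreg a ha g hg).trans (hreg b hb g hg).symm,
    χ, s.mem_of_memX hχ, y 1, s.memY 1 h1, fun h2 => s.notMem h1 (h2 ▸ hχ), δ χ, ε, s.sgnX χ hχ,
    s.sgn, hsg, fun z hz => ⟨?_, ?_⟩⟩
  · rw [hval z hz χ (s.mem_of_memX hχ), s.decX χ hχ 1 h1]
  · have := Fintype.ofFinite (inertR ω (Alg.nst ⊤ (Subgroup.zpowers x)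
      (sbar M (Subgroup.centralizer ({x} : Set G)) b)))
    have h2 : ech (1 : ZMod 2) = -1 := by
      have h3 := sum_erase_ech h1
      rwa [show (Finset.univ.erase 0 : Finset (ZMod 2)) = {1} by decide, Finset.sum_singleton,
        mul_one] at h3
    rw [hval z hz _ (s.memY 1 h1), s.decY 1 h1 1 h1, rsum_eq, Finset.sum_congr rfl fun r _ => by
      rw [Subsingleton.elim r.1 1, Units.val_one, mul_one, mul_one, h2], Finset.sum_const,
      Finset.card_univ, ← Nat.card_eq_fintype_card, hR]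
    simp

end Cfsg.Agent.S4513
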