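import Cfsg.Statements.S4634
import Cfsg.Agent.Block.SelfCent
-- import your own Cfsg.Agent.* helpers here

set_option autoImplicit false
open Cfsg

namespace Cfsg.Agent.S4634

open Cfsg.Agent.Block Cfsg.Agent.Char
open scoped ComplexConjugate

/-- Let B be a block of the finite group G relative to a maximal ideal M of the algebraic integers containing the prime p, with a nontrivial cyclic defect group P, let c be a block of C_G(P) inducing B, T the stabilizer of c in N_G(P) and e the index of C_G(P) in T. Let F be any finite group of order #P · e having a cyclic subgroup Q of order #P that is its own centralizer (F is then the semidirect product of Q by a cyclic group of order e acting faithfully). Then there is a perfect isometry from the set of all irreducible characters of F onto B whose signs agree on all the characters of F that do not contain Q in their kernel. -/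
theorem result {G : Type*} [Group G] [Finite G] (p : ℕ) [Fact p.Prime] (M : Ideal Cfsg.AlgInt) (hM : Cfsg.IsPModular p M) (B : Set (Cfsg.IrrCharacter G)) (hB : Cfsg.IsPBlock M B) (P : Subgroup G) (hPD : Cfsg.IsDefectGroup p M B P) (hP1 : P ≠ ⊥) (hcyc : IsCyclic P) (c : Set (Cfsg.IrrCharacter (Subgroup.centralizer (P : Set G)))) (hc : Cfsg.IsInducedBlock M (Subgroup.centralizer (P : Set G)) c B) (T : Subgroup G) (hT : ∀ g : G, g ∈ T ↔ (g ∈ Subgroup.normalizer (P : Set G) ∧ Cfsg.StabilizesBlock (Subgroup.centralizer (P : Set G)) c g)) (e : ℕ) (he : (Subgroup.centralizer (P : Set G)).relIndex T = e) (F : Type*) [Group F] [Finite F] (hF : Nat.card F = Nat.card P * e) (Q : Subgroup F) (hQ : IsCyclic Q) (hQcard : Nat.card Q = Nat.card P) (hQC : Subgroup.centralizer (Q : Set F) = Q) : ∃ (I : Cfsg.IrrCharacter F → Cfsg.IrrCharacter G) (ε : Cfsg.IrrCharacter F → ℤ), Cfsg.IsPerfectIsometry p M (Set.univ : Set (Cfsg.IrrCharacter F)) B I ε ∧ ∀ η η' : Cfsg.IrrCharacter F, (∃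 x ∈ Q, (η : F → ℂ) x ≠ (η : F → ℂ) 1) → (∃ x ∈ Q, (η' : F → ℂ) x ≠ (η' : F → ℂ) 1) → ε η = ε η' := by
  classical
  have hp : Fact p.Prime := inferInstance
  have := charP_resField hM
  have hm := maxBP_of_isInducedBlock hM hc hPD
  obtain rfl := eq_nst_of hM hc.1 hT
  obtain ⟨a, ha⟩ := IsPGroup.iff_card.1 hm.of.pair.pgroup
  have : NeZero (p ^ a) := ⟨pow_ne_zero _ hp.out.ne_zero⟩
  obtain ⟨Z, C, c', χ₁, D, X, y, δ, ε, h, hχ, hs, hD, s⟩ :=
    exists_cyc_all hM hB hm (ha ▸ zmodCyclicMulEquiv hcyc) hP1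
  have hR := h.card_R.trans he
  have hd := hR ▸ h.card_R_dvd
  have hidx : Q.index = e := by
    have := Q.card_mul_index
    rw [hF, hQcard] at this
    exact Nat.eq_of_mul_eq_mul_left Nat.card_pos this
  have hQp : IsPGroup p Q := IsPGroup.of_card (hQcard.trans ha)
  obtain ⟨S, rfl⟩ : ∃ S : Sylow p F, (S : Subgroup F) = Q :=
    ⟨hQp.toSylow (hidx ▸ hR ▸ h.not_dvd_card_R), rfl⟩
  have hN : (S : Subgroup F).Normal := by
    have h1 : Nat.card (Sylow p F) ∣ p - 1 := (S.card_dvd_index.trans (hidx ▸ dvd_rfl)).trans hd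
    have h2 := card_sylow_modEq_one p F
    have h3 := hp.out.two_le
    have h4 := Nat.le_of_dvd (by omega) h1
    have h5 : Nat.card (Sylow p F) = 1 := Nat.ModEq.eq_of_lt_of_lt h2 (by omega) (by omega)
    have := (Nat.card_eq_one_iff_unique.1 h5).1
    exact S.normal_of_subsingleton
  have hQ1 : (S : Subgroup F) ≠ ⊥ := fun h0 => hP1 (Subgroup.card_eq_one.1 (by rw [← hQcard, h0, Subgroup.card_bot]))
  let ω' : Multiplicative (ZMod (p ^ a)) ≃* (S : Subgroup F) := (hQcard.trans ha) ▸ zmodCyclicMulEquiv hQ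
  obtain ⟨D', X', y', δ', ε', s', t', hD'⟩ := exists_cyc_selfCent hM S hQC.le hQ1 ω'
  have hR' : Nat.card (inertR ω' ⊤) = e := by
    rw [card_inertR ω' (Subgroup.normalizer_eq_top _).ge, hQC, Subgroup.relIndex_top_right, hidx]
  have hRR := eq_of_card_eq_of_dvd (hR.trans hR'.symm) h.card_R_dvd
  have t := h.secSys hχ hs hD s
  rw [hRR] at s
  obtain ⟨I, σ, hI, hσ⟩ := s.exists_perfect hM s' t t'
  refine ⟨I, σ, hI, fun η η' h1 h2 => ?_⟩
  set K := {η : IrrCharacter F | ∀ x ∈ (S : Subgroup F), (η : F → ℂ) x = (η : F → ℂ) 1}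
  have hK : e ≤ K.ncard := hidx ▸ index_le_ncard_ker
    ((commutator_le_centralizer_of_ex ω').trans hQC.le)
  have h3 : η ∉ K := fun h => let ⟨x, hx, h'⟩ := h1; h' (h x hx)
  have h4 : η' ∉ K := fun h => let ⟨x, hx, h'⟩ := h2; h' (h x hx)
  by_cases h5 : K ⊆ X'
  · have h6 : K = X' := Set.eq_of_subset_of_ncard_le h5 (by
      rw [← Nat.card_coe_set_eq, s'.cardX]; exact hR'.le.trans hK)
    rw [h6] at h3 h4
    obtain ⟨j, hj, rfl⟩ := (s'.mem_or (Set.mem_univ η)).resolve_left h3
    obtain ⟨j', hj', rfl⟩ := (s'.mem_or (Set.mem_univ η')).resolve_left h4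
    rw [hσ j hj, hσ j' hj']
  · obtain ⟨ξ, hξ, h6⟩ := Set.not_subset.1 h5
    obtain ⟨j, hj, rfl⟩ := (s'.mem_or (Set.mem_univ ξ)).resolve_left h6
    have h7 : ∀ l ≠ 0, RRel (inertR ω' ⊤) j l := fun l hl =>
      s'.free.rrel_of_rsum_const hj (a := -ε' * (y' j : F → ℂ) 1) (fun i hi => by
        have h8 := s'.decY j hj i hi
        rw [hD' _ (y' j).2.isClassFunction i hi] at h8
        rw [(hξ _ (ex ω' i).2).symm.trans h8]
        linear_combination (-rsum (inertR ω' ⊤) (j * i)) * s'.eps_sq) hl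
    have h8 : Nat.card (y' '' {j | j ≠ 0}) = 1 := by
      rw [Nat.card_coe_set_eq, Set.ncard_eq_one]
      exact ⟨y' j, Set.eq_singleton_iff_unique_mem.2 ⟨⟨j, hj, rfl⟩, by
        rintro _ ⟨l, hl, rfl⟩
        exact ((s'.yeq j hj l hl).2 (h7 l hl)).symm⟩⟩
    have h9 := s'.cardB
    rw [← s'.cardY, h8, Nat.card_univ] at h9
    have h10 := Set.ncard_add_ncard_compl K
    have h11 : Kᶜ.ncard ≤ 1 := by omega
    rw [(Set.ncard_le_one_iff (Set.toFinite _)).1 h11 h3 h4]

end Cfsg.Agent.S4634
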