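import Cfsg.Statements.S4636
import Cfsg.Agent.Block.CycLoc
-- import your own Cfsg.Agent.* helpers here

set_option autoImplicit false
open scoped Pointwise
open Cfsg

namespace Cfsg.Agent.S4636

open Cfsg.Agent.Block Cfsg.Agent.Char
open scoped ComplexConjugate

/-- Let P be a nontrivial cyclic p-subgroup of the finite group G and Z its subgroup of order p. For every x outside N_G(Z), P meets its conjugate xPx⁻¹ trivially; consequently N_G(Q) ≤ N_G(Z) for every nontrivial subgroup Q of P. -/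
theorem result {G : Type*} [Group G] [Finite G] (p : ℕ) [Fact p.Prime] (P : Subgroup G) (hP : IsPGroup p P) (hP1 : P ≠ ⊥) (hcyc : IsCyclic P) (Z : Subgroup G) (hZ : Z ≤ P) (hZcard : Nat.card Z = p) : (∀ x : G, x ∉ Subgroup.normalizer (Z : Set G) → P ⊓ MulAut.conj x • P = ⊥) ∧ ∀ Q : Subgroup G, Q ≤ P → Q ≠ ⊥ → Subgroup.normalizer (Q : Set G) ≤ Subgroup.normalizer (Z : Set G) := by
  have key : ∀ x : G, ∀ Q : Subgroup G, Q ≠ ⊥ → Q ≤ P → Q ≤ MulAut.conj x • P →
      x ∈ Subgroup.normalizer (Z : Set G) := by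
    intro x Q h1 h2 h3
    have h4 := le_of_ne_bot_of_cyclic hP hcyc hZ hZcard h2 h1
    have h5 : Z.map (Alg.cm x⁻¹) ≤ P := by
      rw [← Alg.map_cm_inv_map P x]
      exact Subgroup.map_mono (h4.trans h3)
    have h6 : Nat.card (Z.map (Alg.cm x⁻¹)) = p := by rw [Alg.card_map_cm, hZcard]
    have h7 : Z ≤ Z.map (Alg.cm x⁻¹) := le_of_ne_bot_of_cyclic hP hcyc hZ hZcard h5 fun h => by
      rw [h, Subgroup.card_bot] at h6
      exact (Fact.out : p.Prime).one_lt.ne h6
    exact inv_mem_iff.1 (Alg.map_cm_eq_iff.1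
      (Subgroup.eq_of_le_of_card_ge h7 (by rw [h6, hZcard])).symm)
  refine ⟨fun x hx => by_contra fun h => hx (key x _ h inf_le_left inf_le_right),
    fun Q h1 h2 x hx => key x Q h2 h1 ?_⟩
  rw [← Alg.map_cm_eq_iff.2 hx]
  exact Subgroup.map_mono h1

end Cfsg.Agent.S4636
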