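import Cfsg.Statements.S4640
import Cfsg.Agent.Block.StarAct
import Cfsg.Agent.Block.CoverMore
import Cfsg.Agent.Char.GoingDown

set_option autoImplicit false
open Cfsg

namespace Cfsg.Agent.S4640

open Cfsg.Agent.Block Cfsg.Agent.Char Subgroup
open scoped ComplexConjugate

/-- Sums over `B` of functions of the restriction, when all fibres have the same size. -/
theorem sum_eq_of_fibre {X Y V : Type*} [Finite X] [Finite Y] [AddCommMonoid V] (r : X → Y) (n : ℕ)
    (h : ∀ y, Nat.card {x // r x = y} = n) (F : Y → V) :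
    ∑ᶠ x, F (r x) = n • ∑ᶠ y, F y := by
  classical
  have := Fintype.ofFinite X
  have := Fintype.ofFinite Y
  rw [finsum_eq_sum_of_fintype, finsum_eq_sum_of_fintype, ← Finset.sum_fiberwise Finset.univ r,
    Finset.smul_sum]
  refine Finset.sum_congr rfl fun y _ => ?_
  rw [Finset.sum_congr rfl (g := fun _ => F y) fun x hx => by rw [(Finset.mem_filter.1 hx).2],
    Finset.sum_const, ← h y, Nat.card_eq_fintype_card, Fintype.card_subtype]


/-- Let N be a normal subgroup of the finite group G of index a power of the prime p, M a maximal ideal of the algebraic integers containing p, b a block of N stabilized by every element of G, and B a block of G covering b (some member of B has a member of b as a constituent of its restriction to N). Suppose that B has a commutative defect group P. Then G = NP and P ∩ N is a defect group of b; every member of B restricts to a member of b; every member of b is the restriction of exactly [G : N] members of B; B contains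 exactly [G : N] times as many irreducible characters as b; and B and b have the same p-regular rank. -/
theorem result {G : Type*} [Group G] [Fintype G] (p : ℕ) [Fact p.Prime] (M : Ideal Cfsg.AlgInt) (hM : Cfsg.IsPModular p M) (N : Subgroup G) [N.Normal] [Fintype N] (hNi : ∃ k : ℕ, N.index = p ^ k) (b : Set (Cfsg.IrrCharacter N)) (hb : Cfsg.IsPBlock M b) (hstab : ∀ g : G, Cfsg.StabilizesBlock N b g) (B : Set (Cfsg.IrrCharacter G)) (hB : Cfsg.IsPBlock M B) (hcov : ∃ χ ∈ B, ∃ θ ∈ b, Cfsg.classInner (fun n : N => (χ : G → ℂ) n) (θ : N → ℂ) ≠ 0) (P : Subgroup G) (hPD : Cfsg.IsDefectGroup p M B P) (hPab : ∀ x ∈ P, ∀ y ∈ P, x * y = y * x) : N ⊔ P = ⊤ ∧ Cfsg.IsDefectGroup p M b ((P ⊓ N).subgroupOf N) ∧ (∀ χ ∈ B, ∃ θ ∈ b, ∀ n : N, (χ : G → ℂ) n = (θ : N → ℂ) n) ∧ (∀ θ ∈ b, Nat.card {χ : Cfsg.IrrCharacter G // χ ∈ B ∧ ∀ n : N, (χ : G → ℂ) n = (θ : N → ℂ) n} = N.index) ∧ Nat.card B = N.index * Nat.card b ∧ Cfsg.blockRank p B = Cfsg.blockRank p b := by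
  classical
  have := charP_resField hM
  have hst : IsStable N b := isStable_iff_blockStab.2 (eq_top_iff.2 fun g _ =>
    (stabilizesBlock_iff_mem_blockStab hM hb).1 (hstab g))
  have hBa : B = above N b := Covers.eq_above_of_index hM hNi hB hb hcov
  have hbar : gbar M B = sbar M N b := hBa ▸ gbar_above_of_isStable hst
  have hD : Alg.IsDef p ⊤ (gbar M B) P := (isDef_top_iff hM hB).2 hPD
  obtain ⟨h1, h2⟩ := Alg.IsDef.of_stable le_top (top_le_normalizer_of_normal N)
    (isPrim_bar_subtype hM hb) ((inv_sbar_iff hM hb).2 (isStable_iff_blockStab.1 hst).ge)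
    (hbar ▸ hD)
  have hNP : N ⊔ P = ⊤ := by
    obtain ⟨k, hk⟩ := hNi
    rw [relIndex_top_right] at h2
    obtain ⟨j, -, hj⟩ := (Nat.dvd_prime_pow Fact.out).1 (hk ▸ index_dvd_of_le (le_sup_left : N ≤ N ⊔ P))
    rcases j with _ | j
    · exact index_eq_one.1 (by simpa using hj)
    · exact (h2 (hj ▸ dvd_pow_self p j.succ_ne_zero)).elim
  have hcomm : commutator G ≤ N := by
    rw [← Normal.quotient_commutative_iff_commutator_le]
    have hs : ∀ q : G ⧸ N, ∃ x ∈ P, q = x := fun q => by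
      obtain ⟨g, rfl⟩ := QuotientGroup.mk_surjective q
      have hg : g ∈ ((N ⊔ P : Subgroup G) : Set G) := by rw [hNP]; trivial
      rw [normal_mul] at hg
      obtain ⟨n, hn, x, hx, rfl⟩ := hg
      exact ⟨x, hx, by rw [QuotientGroup.mk_mul, (QuotientGroup.eq_one_iff n).2 hn, one_mul]⟩
    refine ⟨⟨fun a c => ?_⟩⟩
    obtain ⟨x, hx, rfl⟩ := hs a
    obtain ⟨y, hy, rfl⟩ := hs c
    rw [← QuotientGroup.mk_mul, hPab x hx y hy, QuotientGroup.mk_mul]
  obtain ⟨e, hm⟩ := hD.exists_maxBP (isPrim_redAlg_eSet hM hB)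
  have hfree : ∀ χ ∈ B, ∀ μ : G →* ℂˣ, (∀ n ∈ N, μ n = 1) →
      (∀ g, (χ : G → ℂ) g * μ g = (χ : G → ℂ) g) → μ = 1 := by
    intro χ hχ μ hμ h
    have hP : P ≤ μ.ker := fun v hv => by
      obtain ⟨c, hc, hle⟩ := exists_block_ple hM hm.of.pair hv rfl
      have h0 := bcmp_ne_zero_of_major hM hB hm rfl
        (fun x hx y hy => by rw [hy]; exact hPab v hv x hx) hc hle hχ
      by_contra hne
      refine h0 ?_
      have : regPart p (sec (centralizer ({v} : Set G)) v (χ : G → ℂ)) = 0 := by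
        funext c
        by_cases hc : p ∣ orderOf c
        · exact regPart_of_dvd _ hc
        · rw [regPart_of_not_dvd _ hc, sec_apply]
          have h3 := h (v * c)
          rw [map_mul, hμ c (mem_of_not_dvd_orderOf_of_index N hNi (by rwa [orderOf_coe])),
            mul_one] at h3
          by_contra h4
          exact hne (Units.ext (mul_left_cancel₀ h4 (by rw [h3]; simp)))
      rw [bcmp, this, blockPart_zero]
    have : (⊤ : Subgroup G) ≤ μ.ker := hNP ▸ sup_le hμ hP
    exact MonoidHom.ext fun g => this (mem_top g)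
  have hirr : ∀ χ ∈ B, IsIrrCharacter N fun n : N => (χ : G → ℂ) n := fun χ hχ =>
    isIrr_restrict_of_forall_hom_mul_ne N hcomm χ.2 (hfree χ hχ)
  have hmem : ∀ χ (hχ : χ ∈ B), (⟨_, hirr χ hχ⟩ : IrrCharacter N) ∈ b := fun χ hχ =>
    hst.mem_of_above (hBa ▸ hχ) (by rw [(hirr χ hχ).inner_self]; exact one_ne_zero)
  have hfib : ∀ θ ∈ b, Nat.card {χ : IrrCharacter G //
      χ ∈ B ∧ ∀ n : N, (χ : G → ℂ) n = (θ : N → ℂ) n} = N.index := by
    intro θ hθ
    obtain ⟨χ, hχ, h⟩ := Covers.exists_over hM hB hb hcov hθ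
    have hχθ := (hirr χ hχ).eq_of_inner_ne_zero θ.2 h
    rw [← card_linAnn hcomm]
    have hres : ∀ l : linAnn N, ∀ n : N, (χ : G → ℂ) n * l.1 n = (θ : N → ℂ) n := fun l n => by
      rw [l.2 n n.2, Units.val_one, mul_one, ← hχθ]
    have hin : ∀ l : linAnn N, (⟨_, χ.2.mul_linear l.1⟩ : IrrCharacter G) ∈ B := fun l => by
      rw [hBa]
      refine ⟨θ, hθ, ?_⟩
      change classInner (fun n : N => (χ : G → ℂ) n * l.1 n) _ ≠ 0
      rw [show (fun n : N => (χ : G → ℂ) n * l.1 n) = θ from funext (hres l), θ.2.inner_self]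
      exact one_ne_zero
    refine (Nat.card_congr (Equiv.ofBijective (fun l : linAnn N =>
      ⟨⟨_, χ.2.mul_linear l.1⟩, hin l, hres l⟩) ⟨fun l m hlm => ?_, fun ψ => ?_⟩)).symm
    · have h3 : ∀ g, (χ : G → ℂ) g * l.1 g = (χ : G → ℂ) g * m.1 g :=
        congrFun (congrArg (fun x : {χ : IrrCharacter G //
          χ ∈ B ∧ ∀ n : N, (χ : G → ℂ) n = (θ : N → ℂ) n} => (x.1 : G → ℂ)) hlm)
      have h4 := hfree χ hχ (l * m⁻¹ : linAnn N).1 (l * m⁻¹).2 fun g => by
        simp only [coe_mul, MonoidHom.mul_apply, coe_inv, MonoidHom.inv_apply, Units.val_mul]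
        rw [← mul_assoc, h3, mul_assoc, ← Units.val_mul, mul_inv_cancel, Units.val_one, mul_one]
      exact mul_inv_eq_one.1 (Subtype.ext h4)
    · obtain ⟨μ, hμ, h3⟩ := exists_hom_mul_of_extends χ.2.isCharacter (hirr χ hχ)
        ψ.1.2.isCharacter (fun n => by rw [ψ.2.2 n, ← hχθ])
      exact ⟨⟨μ, hμ⟩, Subtype.ext (Subtype.ext (by rw [h3]; funext g; exact mul_comm _ _))⟩
  let r : B → b := fun χ => ⟨⟨_, hirr χ χ.2⟩, hmem χ χ.2⟩
  have hr : ∀ θ : b, Nat.card {χ // r χ = θ} = N.index := fun θ => by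
    rw [← hfib θ θ.2]
    exact Nat.card_congr ⟨fun χ => ⟨χ.1, χ.1.2, congrFun (congrArg (fun x : b => (x.1 : N → ℂ)) χ.2)⟩,
      fun χ => ⟨⟨χ.1, χ.2.1⟩, Subtype.ext (Subtype.ext (funext χ.2.2))⟩, fun _ => rfl, fun _ => rfl⟩
  refine ⟨hNP, isDefectGroup_of_isDef_sbar hM hb h1, fun χ hχ => ⟨_, hmem χ hχ, fun _ => rfl⟩, hfib,
    ?_, ?_⟩
  · simpa only [finsum_eq_sum_of_fintype, Finset.sum_const, smul_eq_mul, mul_one, Finset.card_univ,
      Nat.card_eq_fintype_card] using sum_eq_of_fibre r _ hr fun _ => (1 : ℕ)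
  · have h3 := card_mul_blockRank hM (eSet_mem_intAlg hM hB)
    have h4 := card_mul_blockRank hM (eSet_mem_intAlg hM hb)
    have h5 : ∑ g, regPart p (fun g => ∑ᶠ χ ∈ B, (χ : G → ℂ) g * conj ((χ : G → ℂ) g)) g =
        ∑ n : N, regPart p (fun g => ∑ᶠ χ ∈ B, (χ : G → ℂ) g * conj ((χ : G → ℂ) g)) n := by
      rw [← Finset.sum_subtype (Finset.univ.filter (· ∈ N)) (by simp), Finset.sum_filter]
      refine Finset.sum_congr rfl fun g _ => ?_
      split_ifs with hg
      · rfl
      · exact regPart_of_dvd _ (by_contra fun h => hg (mem_of_not_dvd_orderOf_of_index N hNi h))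
    have h6 : ∀ n : N, regPart p (fun g => ∑ᶠ χ ∈ B, (χ : G → ℂ) g * conj ((χ : G → ℂ) g)) n =
        N.index * regPart p (fun g => ∑ᶠ χ ∈ b, (χ : N → ℂ) g * conj ((χ : N → ℂ) g)) n := by
      intro n
      by_cases hn : p ∣ orderOf n
      · rw [regPart_of_dvd _ hn, regPart_of_dvd _ (by rwa [orderOf_coe]), mul_zero]
      · rw [regPart_of_not_dvd _ hn, regPart_of_not_dvd _ (by rwa [orderOf_coe]),
          ← finsum_set_coe_eq_finsum_mem, ← finsum_set_coe_eq_finsum_mem, ← nsmul_eq_mul]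
        exact sum_eq_of_fibre r _ hr fun θ => (θ.1 : N → ℂ) n * conj ((θ.1 : N → ℂ) n)
    rw [h5, Finset.sum_congr rfl fun n _ => h6 n, ← Finset.mul_sum, ← h4, ← mul_assoc,
      ← Nat.cast_mul N.index, index_mul_card] at h3
    exact_mod_cast mul_left_cancel₀ (card_ne_zero G) h3

end Cfsg.Agent.S4640
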