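import Cfsg.Statements.S4641
import Cfsg.Agent.Block.Contrib
import Cfsg.Agent.Char.Quot
-- import your own Cfsg.Agent.* helpers here

set_option autoImplicit false
open Cfsg

namespace Cfsg.Agent.S4641

open Cfsg.Agent.Block Cfsg.Agent.Char
open scoped ComplexConjugate

/-- Let B be a block of the finite group G relative to a maximal ideal M of the algebraic integers containing the prime p, let p^a be the p-part of the order of G and p^d the order of a defect group D of B, and let g be the greatest common divisor of the degrees of the members of B. Then the p-part of g is exactly p^(a−d), and writing g = p^(a−d)·u there is a positive integer v, prime to p and at least the p-regular rank of B (its number of irreducible Brauer characters), with Σ_{χ ∈ B} χ(1)² = p^(2a−d)·u²·v. -/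
theorem result {G : Type*} [Group G] [Finite G] (p : ℕ) [Fact p.Prime] (M : Ideal Cfsg.AlgInt) (hM : Cfsg.IsPModular p M) (B : Set (Cfsg.IrrCharacter G)) (hB : Cfsg.IsPBlock M B) (D : Subgroup G) (hD : Cfsg.IsDefectGroup p M B D) (a d : ℕ) (ha : (Nat.card G).factorization p = a) (hd : Nat.card D = p ^ d) (g : ℕ) (hg1 : ∀ χ ∈ B, g ∣ Cfsg.charDegree (χ : G → ℂ)) (hg2 : ∀ g' : ℕ, (∀ χ ∈ B, g' ∣ Cfsg.charDegree (χ : G → ℂ)) → g' ∣ g) : g.factorization p = a - d ∧ ∃ v : ℕ, 0 < v ∧ ¬ p ∣ v ∧ Cfsg.blockRank p B ≤ v ∧ ∑ᶠ χ ∈ B, Cfsg.charDegree (χ : G → ℂ) ^ 2 = p ^ (2 * a - d) * (g / p ^ (a - d)) ^ 2 * v := by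
  classical
  have hA := eSet_mem_intAlg hM hB
  have hd' : blockDefect p B = d :=
    Nat.pow_right_injective hM.1.two_le ((card_defectGroup hM hB hD).symm.trans hd)
  have hda : d ≤ a := by rw [← hd', ← ha]; exact blockDefect_le p B
  obtain ⟨ψ, hψ, h0⟩ := exists_blockHeight_eq_zero (p := p) (block_nonempty hM hB)
  have hg0 : g ≠ 0 := ne_zero_of_dvd_ne_zero (charDegree_ne_zero ψ.2) (hg1 ψ hψ)
  have hpg : p ^ (a - d) ∣ g := hg2 _ fun χ hχ => by
    rw [hM.1.pow_dvd_iff_le_factorization (charDegree_ne_zero χ.2), factorization_eq_of_mem hχ,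
      ha, hd']
    omega
  have hf : g.factorization p = a - d := by
    refine le_antisymm ?_ ((hM.1.pow_dvd_iff_le_factorization hg0).1 hpg)
    have := (Nat.factorization_le_iff_dvd hg0 (charDegree_ne_zero ψ.2)).2 (hg1 ψ hψ) p
    rwa [factorization_eq_of_mem hψ, h0, ha, hd', add_zero] at this
  refine ⟨hf, ?_⟩
  obtain ⟨u, hu⟩ := hpg
  have hpu : ¬ p ∣ u := by
    rintro ⟨w, rfl⟩
    have : p ^ (a - d + 1) ∣ g := ⟨w, by rw [hu]; ring⟩
    rw [hM.1.pow_dvd_iff_le_factorization hg0] at this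
    omega
  have hu0 : u ≠ 0 := by rintro rfl; exact hpu (dvd_zero p)
  rw [hu, Nat.mul_div_cancel_left _ (pow_pos hM.1.pos _)]
  have h1 : ∀ i ∈ ibrOf M B, g ∣ brDeg i := by
    intro i hi
    obtain ⟨c, hc0, -, hc⟩ := exists_int_brauer_of_mem hM hA hi
    have h2 := congrFun hc 1
    rw [brauer_one, Finset.sum_apply] at h2
    simp only [Pi.smul_apply, regPart_of_not_dvd _ (not_dvd_orderOf_one (p := p) (G := G)),
      smul_eq_mul, ← coe_charDegree_irr] at h2
    have h3 : (brDeg i : ℤ) = ∑ χ : IrrCharacter G, c χ * charDegree (χ : G → ℂ) := by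
      exact_mod_cast h2
    rw [← Int.natCast_dvd_natCast, h3]
    refine Finset.dvd_sum fun χ _ => ?_
    by_cases hχ : χ ∈ B
    · exact Dvd.dvd.mul_left (Int.natCast_dvd_natCast.2 (hg1 χ hχ)) _
    · simp [hc0 χ hχ]
  have h2 : ∀ i ∈ ibrOf M B, p ^ a * u ∣ charDegree (pim i) := by
    intro i hi
    refine Nat.Coprime.mul_dvd_of_dvd_of_dvd
      (Nat.Coprime.pow_left _ ((Nat.Prime.coprime_iff_not_dvd hM.1).2 hpu))
      (ha ▸ pow_dvd_charDegree_pim hM i) ?_
    refine (Dvd.intro_left _ hu.symm).trans ?_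
    rw [charDegree_pim]
    refine Finset.dvd_sum fun χ _ => ?_
    by_cases hχ : χ ∈ B
    · exact Dvd.dvd.mul_left (hg1 χ hχ) _
    · simp [dec_eq_zero_of_mem_ibrOf hA hi hχ]
  choose! s hs using h1
  choose! t ht using h2
  have h3 : ∑ᶠ χ ∈ B, Cfsg.charDegree (χ : G → ℂ) ^ 2 =
      p ^ (2 * a - d) * u ^ 2 * ∑ i ∈ ibrOf M B, s i * t i := by
    have h4 := sum_mul_conj_eq_sum_ibrOf hM hA (x := 1) not_dvd_orderOf_one 1
    have h5 : ((∑ᶠ χ ∈ B, Cfsg.charDegree (χ : G → ℂ) ^ 2 : ℕ) : ℂ) =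
        (∑ i ∈ ibrOf M B, brDeg i * charDegree (pim i) : ℕ) := by
      rw [finsum_mem_irr_filter] at h4 ⊢
      push_cast
      simp only [brauer_one, ← cast_charDegree (isCharacter_pim _), map_natCast] at h4
      rw [← h4]
      exact Finset.sum_congr rfl fun χ _ => by
        rw [coe_charDegree_irr, sq, χ.2.isCharacter.conj_one]
    rw [Nat.cast_injective h5, Finset.mul_sum]
    refine Finset.sum_congr rfl fun i hi => ?_
    rw [hs i hi, ht i hi, hu, show 2 * a - d = a - d + a by omega]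
    ring
  have h6 : blockRank p B ≤ ∑ i ∈ ibrOf M B, s i * t i := by
    rw [blockRank_eq_card hM hA, Finset.card_eq_sum_ones]
    refine Finset.sum_le_sum fun i hi => Nat.mul_pos (Nat.pos_of_ne_zero fun h => ?_)
      (Nat.pos_of_ne_zero fun h => ?_)
    · have := hs i hi
      rw [h, mul_zero] at this
      exact brDeg_ne_zero i this
    · have := ht i hi
      rw [h, mul_zero] at this
      obtain ⟨χ, hχ⟩ := exists_dec_ne_zero i
      exact charDegree_ne_zero χ.2 (Nat.le_zero.1 (this ▸ charDegree_le_pim hχ))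
  have h7 := (blockRank_pos hM hB).trans_le h6
  refine ⟨_, h7, fun hv => ?_, h6, h3⟩
  have h8 := factorization_sum_degree_sq hM hB
  rw [h3, ha, hd'] at h8
  have h9 : p ^ (2 * a - d + 1) ∣ p ^ (2 * a - d) * u ^ 2 * ∑ i ∈ ibrOf M B, s i * t i := by
    rw [pow_succ, mul_assoc]
    exact Nat.mul_dvd_mul_left _ (Dvd.dvd.mul_left hv _)
  rw [hM.1.pow_dvd_iff_le_factorization (by have := hM.1.pos; positivity)] at h9
  omega

end Cfsg.Agent.S4641
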