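import Cfsg.Statements.S4650
import Cfsg.Agent.Block.BrauerPair

set_option autoImplicit false
open Cfsg

namespace Cfsg.Agent.S4650

open Cfsg.Agent.Block Subgroup


/-- Let B be a block of the finite group G relative to a maximal ideal M of the algebraic integers containing the prime p, with a nontrivial commutative defect group P; let c be a block of C_G(P) inducing B and T the stabilizer of c in N_G(P). Then T/C_G(P) acts freely on the non-identity elements of P (an element of T fixing a non-identity element of P under conjugation lies in C_G(P)) if and only if, for every nontrivial subgroup Q of P, the block of C_G(Q) induced by c inside C_G(Q) is a nilpotent block of C_G(Q). -/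
theorem result {G : Type*} [Group G] [Finite G] (p : ℕ) [Fact p.Prime] (M : Ideal Cfsg.AlgInt) (hM : Cfsg.IsPModular p M) (B : Set (Cfsg.IrrCharacter G)) (hB : Cfsg.IsPBlock M B) (P : Subgroup G) (hPD : Cfsg.IsDefectGroup p M B P) (hPab : ∀ x ∈ P, ∀ y ∈ P, x * y = y * x) (hP1 : P ≠ ⊥) (c : Set (Cfsg.IrrCharacter (Subgroup.centralizer (P : Set G)))) (hc : Cfsg.IsInducedBlock M (Subgroup.centralizer (P : Set G)) c B) (T : Subgroup G) (hT : ∀ g : G, g ∈ T ↔ (g ∈ Subgroup.normalizer (P : Set G) ∧ Cfsg.StabilizesBlock (Subgroup.centralizer (P : Set G)) c g)) : (∀ g ∈ T, ∀ x ∈ P, x ≠ 1 → g * x * g⁻¹ = x → g ∈ Subgroup.centralizer (P : Set G)) ↔ ∀ Q : Subgroup G, Q ≤ P → Q ≠ ⊥ → ∀ f : Set (Cfsg.IrrCharacter (Subgroup.centralizer (Q : Set G))), Cfsg.IsInducedBlockIn M (Subgroup.centralizer (Q : Set G)) (Subgroup.centralizer (P : Set G)) c f → Cfsg.IsNilpotentBlock p M f := by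
  have := charP_resField hM
  have hm := maxBP_of_isInducedBlock hM hc hPD
  have hP : IsPGroup p P := hm.of.pair.pgroup
  have hT' := eq_nst_of hM hc.1 hT
  have hPC : P ≤ centralizer (P : Set G) := fun x hx y hy => hPab y hy x hx
  have key : ∀ Q ≤ P, ∀ f : Set (IrrCharacter (centralizer (Q : Set G))), IsPBlock M f →
      Alg.Of p (centralizer (Q : Set G)) (cbar M Q f) P (cbar M P c) →
      (IsNilpotentBlock p M f ↔ centralizer (Q : Set G) ⊓ T ≤ centralizer (P : Set G)) := by
    intro Q hQ f hf h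
    have hm' : Alg.MaxBP p (centralizer (Q : Set G)) (cbar M Q f) P (cbar M P c) :=
      ⟨h, fun R g hR => hm.max R g (hR.up le_top (inf_le_right.trans (Alg.centralizer_anti hQ))
        le_rfl)⟩
    rw [← nilB_sbar_iff hM hf, hm'.nilB_iff_of_comm hPC, hT']
    simp only [Alg.nst, top_inf_eq, inf_assoc]
  constructor
  · intro h Q hQ hQ1 f hf
    have hCQ := Alg.centralizer_anti hQ
    refine (key Q hQ f hf.2.1
      ((isInducedBlockIn_iff_of hM hP (hPC.trans hCQ) hCQ hf.1 hf.2.1).1 hf)).2 fun g hg => ?_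
    obtain ⟨⟨x, hx⟩, hx1⟩ := ne_bot_iff_exists_ne_one.1 hQ1
    refine h g hg.2 x (hQ hx) (fun e => hx1 (Subtype.ext e)) ?_
    rw [← hg.1 x hx, mul_inv_cancel_right]
  · intro h g hg x hx hx1 hgx
    have hQ : zpowers x ≤ P := zpowers_le.2 hx
    have hCQ := Alg.centralizer_anti hQ
    obtain ⟨b, hb⟩ := (hm.of.pair.down le_top (inf_le_right.trans hCQ) le_rfl
      (hPC.trans hCQ)).exists_of
    obtain ⟨f, hf, rfl⟩ := exists_block_of_isPrim_subtype hM hb.block
    refine (key _ hQ f hf hb).1 (h _ hQ (by simpa using hx1) f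
      ((isInducedBlockIn_iff_of hM hP (hPC.trans hCQ) hCQ hc.1 hf).2 hb)) ⟨?_, hg⟩
    rintro _ ⟨j, rfl⟩
    exact (Commute.zpow_left (mul_inv_eq_iff_eq_mul.1 hgx).symm j).eq

end Cfsg.Agent.S4650
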