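import Cfsg.Statements.S4645
import Cfsg.Agent.S4633
import Cfsg.Agent.S4650
import Cfsg.Agent.Block.Nilpotent

set_option autoImplicit false
open Cfsg

namespace Cfsg.Agent.S4645

open Cfsg.Agent.Block Subgroup


/-- Let B be a block of the finite group G relative to a maximal ideal M of the algebraic integers containing the prime p, with a nontrivial cyclic defect group P; let c be a block of C_G(P) inducing B and T the stabilizer of c in N_G(P). Let Q be a nontrivial subgroup of P (so C_G(P) ≤ C_G(Q)), f the block of C_G(Q) induced by c inside C_G(Q), and T' the stabilizer of f in N_G(Q). Then T' = T·C_G(Q), the index of C_G(Q) in T' equals the index of C_G(P) in T, f has p-regular rank 1, and f is a nilpotent block of C_G(Q). -/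
theorem result {G : Type*} [Group G] [Finite G] (p : ℕ) [Fact p.Prime] (M : Ideal Cfsg.AlgInt) (hM : Cfsg.IsPModular p M) (B : Set (Cfsg.IrrCharacter G)) (hB : Cfsg.IsPBlock M B) (P : Subgroup G) (hPD : Cfsg.IsDefectGroup p M B P) (hP1 : P ≠ ⊥) (hcyc : IsCyclic P) (c : Set (Cfsg.IrrCharacter (Subgroup.centralizer (P : Set G)))) (hc : Cfsg.IsInducedBlock M (Subgroup.centralizer (P : Set G)) c B) (T : Subgroup G) (hT : ∀ g : G, g ∈ T ↔ (g ∈ Subgroup.normalizer (P : Set G) ∧ Cfsg.StabilizesBlock (Subgroup.centralizer (P : Set G)) c g)) (Q : Subgroup G) (hQP : Q ≤ P) (hQ1 : Q ≠ ⊥) (f : Set (Cfsg.IrrCharacter (Subgroup.centralizer (Q : Set G)))) (hf : Cfsg.IsInducedBlockIn M (Subgroup.centralizer (Q : Set G)) (Subgroup.centralizer (P : Set G)) c f) (T' : Subgroup G) (hT' : ∀ g : G, g ∈ T' ↔ (g ∈ Subgroup.normalizer (Q : Set G) ∧ Cfsg.StabilizesBlock (Subgroup.centralizer (Q : Set G)) f g)) : T' = T ⊔ Subgroup.centralizer (Q : Set G) ∧ (Subgroup.centralizer (Q : Set G)).relIndex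 T' = (Subgroup.centralizer (P : Set G)).relIndex T ∧ Cfsg.blockRank p f = 1 ∧ Cfsg.IsNilpotentBlock p M f := by
  have := charP_resField hM
  have hm := maxBP_of_isInducedBlock hM hc hPD
  have hP : IsPGroup p P := hm.of.pair.pgroup
  have hTe := eq_nst_of hM hc.1 hT
  have hTe' := eq_nst_of hM hf.2.1 hT'
  have hab : ∀ x ∈ P, ∀ y ∈ P, x * y = y * x := fun x hx y hy =>
    congrArg Subtype.val (hcyc.commGroup.mul_comm ⟨x, hx⟩ ⟨y, hy⟩)
  have hPC : P ≤ centralizer (P : Set G) := fun x hx y hy => hab y hy x hx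
  have hCQ := Alg.centralizer_anti hQP
  have hPCQ : P ≤ centralizer (Q : Set G) := hPC.trans hCQ
  have hof := (isInducedBlockIn_iff_of hM hP hPCQ hCQ hf.1 hf.2.1).1 hf
  have hfQ : Alg.BP p ⊤ Q (cbar M Q f) :=
    ⟨le_top, hP.to_le hQP, by simpa only [top_inf_eq] using hof.block⟩
  have hle : Alg.PLE p ⊤ Q (cbar M Q f) P (cbar M P c) := by
    have h1 := (Alg.of_centralizer_iff (g := cbar M P c) hfQ (R := P)
      (le_inf le_top hPCQ)).1 (by simpa only [top_inf_eq] using hof)
    rw [sup_eq_right.2 hQP] at h1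
    exact h1.ple
  have hTN : T ≤ normalizer (P : Set G) := fun g hg => ((hT g).1 hg).1
  have hn : ((centralizer (P : Set G)).subgroupOf T).Normal :=
    (normal_subgroupOf_iff_le_normalizer_inf.2 (by
      intro g hg
      rw [mem_normalizer_iff]
      intro x
      have h1 := (mem_normalizer_iff.1 (Alg.normalizer_le_normalizer_centralizer P (hTN hg)) x)
      simp only [mem_inf]
      constructor
      · exact fun h => ⟨h1.1 h.1, T.mul_mem (T.mul_mem hg h.2) (T.inv_mem hg)⟩
      · refine fun h => ⟨h1.2 h.1, ?_⟩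
        have := T.mul_mem (T.mul_mem (T.inv_mem hg) h.2) hg
        simpa [mul_assoc] using this))
  have hfree := (S4633.result p M hM B hB P hPD hP1 hcyc c hc T hT).2.2
  have hnil := (S4650.result p M hM B hB P hPD hab hP1 c hc T hT).1 hfree Q hQP hQ1 f hf
  have hTQ : T ≤ normalizer (Q : Set G) := fun g hg => by
    obtain ⟨a, ha⟩ := S4633.exists_zpow hcyc (hTN hg)
    refine mem_normalizer_fintype fun y hy => ?_
    rw [ha y (hQP hy)]
    exact zpow_mem hy a
  have hTT' : T ≤ T' := fun g hg => by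
    rw [hTe', Alg.mem_nst]
    rw [hTe, Alg.mem_nst] at hg
    exact ⟨trivial, hTQ (by rw [hTe, Alg.mem_nst]; exact hg),
      hle.mem_stab trivial hg.2.1 hg.2.2 (hTQ (by rw [hTe, Alg.mem_nst]; exact hg))⟩
  have hCT' : centralizer (Q : Set G) ≤ T' := by
    rw [hTe']; simpa only [top_inf_eq] using hfQ.centralizer_le_nst
  have hCT : centralizer (P : Set G) ≤ T := by
    rw [hTe]; simpa only [top_inf_eq] using hm.of.pair.centralizer_le_nst
  have hdec : ∀ x ∈ T', ∃ z ∈ centralizer (Q : Set G), z * x ∈ T := fun x hx => by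
    obtain ⟨z, hz, h⟩ := hm.exists_mul_mem_nst hle hPCQ (hTe' ▸ hx)
    exact ⟨z, hz.2, hTe ▸ h⟩
  refine ⟨le_antisymm (fun x hx => ?_) (sup_le hTT' hCT'), ?_,
    blockRank_eq_one_of_nilpotent hM hnil, hnil⟩
  · obtain ⟨z, hz, h⟩ := hdec x hx
    have : x = z⁻¹ * (z * x) := by group
    rw [this]
    exact mul_mem (mem_sup_right (inv_mem hz)) (mem_sup_left h)
  · have h1 : (centralizer (Q : Set G)).relIndex T' = (centralizer (Q : Set G)).relIndex T := by
      refine Alg.relIndex_eq_of_mul hTT' fun b hb => ?_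
      obtain ⟨z, hz, h⟩ := hdec b⁻¹ (inv_mem hb)
      refine ⟨(z * b⁻¹)⁻¹, inv_mem h, ?_⟩
      simpa using hz
    have h2 : centralizer (Q : Set G) ⊓ T = centralizer (P : Set G) ⊓ T := by
      refine le_antisymm (fun g hg => ⟨?_, hg.2⟩) (inf_le_inf_right _ hCQ)
      obtain ⟨⟨x, hx⟩, hx1⟩ := ne_bot_iff_exists_ne_one.1 hQ1
      refine hfree g hg.2 x (hQP hx) (fun e => hx1 (Subtype.ext e)) ?_
      rw [← hg.1 x hx, mul_inv_cancel_right]
    rw [h1, ← inf_relIndex_right, h2, inf_relIndex_right]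

end Cfsg.Agent.S4645
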