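import Mathlib
import Cfsg.Statements.S4647
import Cfsg.Agent.Block.MinDim

set_option autoImplicit false
open Cfsg

namespace Cfsg.Agent.S4647

open Cfsg.Agent.Block Cfsg.Agent.Char Subgroup




/-- Let B be a block of the finite group G relative to a maximal ideal M of the algebraic integers containing the prime p, p^a the p-part of the order of G and p^d the order of a defect group D of B. If Σ_{χ ∈ B} χ(1)² = p^(2a−d) (the least possible value), then B is nilpotent. -/
theorem result {G : Type*} [Group G] [Finite G] (p : ℕ) [Fact p.Prime] (M : Ideal Cfsg.AlgInt) (hM : Cfsg.IsPModular p M) (B : Set (Cfsg.IrrCharacter G)) (hB : Cfsg.IsPBlock M B) (D : Subgroup G) (hD : Cfsg.IsDefectGroup p M B D) (a d : ℕ) (ha : (Nat.card G).factorization p = a) (hd : Nat.card D = p ^ d) (hmin : ∑ᶠ χ ∈ B, Cfsg.charDegree (χ : G → ℂ) ^ 2 = p ^ (2 * a - d)) : Cfsg.IsNilpotentBlock p M B := by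
  have := charP_resField hM
  refine ⟨hB, fun Q e he x hx _ hreg => ?_⟩
  have hof := of_of_isBrauerPairOf hM he
  have hD' := (isDef_top_iff hM hB).2 hD
  obtain ⟨E, hE, hQE⟩ := hD'.exists_ge hof.block.mem.2 le_top hof.pair.pgroup hof.br_ne_zero
  obtain ⟨S, hS⟩ := hE.pgroup.exists_le_sylow
  have h1 : Nat.card E ≤ Nat.card S := card_le_of_le hS
  rw [hE.card_eq hD', hd, S.card_eq_multiplicity, ha,
    Nat.pow_le_pow_iff_right (Fact.out : p.Prime).one_lt] at h1
  obtain ⟨s, hs, h⟩ := MinDim.exists_conj hof.block.mem hof.block.idem S.isPGroup' hS hE.ne_zero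
    (fun R hR h0 => hE.card_le le_top hR h0) (by
      rw [finrank_range_mulLeft_eSet (eSet_mem_intAlg hM hB), hmin, hE.card_eq hD', hd,
        S.card_eq_multiplicity, ha, ← pow_add, ← pow_add, show 2 * a - d + d = a + a by omega])
    hQE hx
  have h2 : ∀ m : ℕ, ∀ u ∈ Q, (x ^ m)⁻¹ * u * x ^ m = (s ^ m)⁻¹ * u * s ^ m := by
    intro m
    induction m with
    | zero => simp
    | succ m ih =>
      intro u hu
      have hu' : x⁻¹ * u * x ∈ Q := by simpa using (mem_normalizer_iff.1 (inv_mem hx) u).1 hu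
      calc (x ^ (m + 1))⁻¹ * u * x ^ (m + 1) = (x ^ m)⁻¹ * (x⁻¹ * u * x) * x ^ m := by group
        _ = _ := by rw [ih _ hu', h u hu]; group
  obtain ⟨n, hn⟩ := S.isPGroup' ⟨s, hs⟩
  have hn' : s ^ p ^ n = 1 := congrArg Subtype.val hn
  have h3 : x ^ p ^ n ∈ centralizer (Q : Set G) := mem_centralizer_iff.2 fun u hu => by
    have := h2 (p ^ n) u hu
    rw [hn', inv_one, one_mul, mul_one, mul_assoc, inv_mul_eq_iff_eq_mul] at this
    exact this
  exact zpowers_le.2 h3 (mem_zpowers_pow_iff.2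
    (((Nat.Prime.coprime_iff_not_dvd Fact.out).2 hreg).pow_left n))

end Cfsg.Agent.S4647
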