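import Cfsg.Statements.S4649
import Cfsg.Agent.Block.CycAll
-- import your own Cfsg.Agent.* helpers here

set_option autoImplicit false
open Cfsg

namespace Cfsg.Agent.S4649

open Cfsg.Agent.Block Cfsg.Agent.Char
open scoped ComplexConjugate

/-- A block with cyclic defect group, of a finite group relative to a maximal ideal M of the algebraic integers containing the prime p, is nilpotent if and only if its p-regular rank is 1 (it has a unique irreducible Brauer character). -/
theorem result {G : Type*} [Group G] [Finite G] (p : ℕ) [Fact p.Prime] (M : Ideal Cfsg.AlgInt) (hM : Cfsg.IsPModular p M) (B : Set (Cfsg.IrrCharacter G)) (hB : Cfsg.IsPBlock M B) (P : Subgroup G) (hPD : Cfsg.IsDefectGroup p M B P) (hcyc : IsCyclic P) : Cfsg.IsNilpotentBlock p M B ↔ Cfsg.blockRank p B = 1 := by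
  refine ⟨blockRank_eq_one_of_nilpotent hM, fun h => ?_⟩
  have := charP_resField hM
  obtain ⟨e, hm⟩ := ((isDef_top_iff hM hB).2 hPD).exists_maxBP (isPrim_redAlg_eSet hM hB)
  have hPC : P ≤ Subgroup.centralizer (P : Set G) := fun x hx y hy =>
    congrArg Subtype.val (hcyc.commGroup.mul_comm ⟨y, hy⟩ ⟨x, hx⟩)
  rw [← nilB_gbar_iff hM hB, hm.nilB_iff_of_comm hPC]
  by_cases h1 : P = ⊥
  · subst h1
    intro x _ y hy
    rw [SetLike.mem_coe, Subgroup.mem_bot] at hy
    simp [hy]
  · rwa [blockRank_eq_of_cyclic hM hB hm hcyc h1, Subgroup.relIndex_eq_one] at h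

end Cfsg.Agent.S4649
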