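import Cfsg.Statements.S4651
import Cfsg.Agent.Block.IndTrans

set_option autoImplicit false
open Cfsg

namespace Cfsg.Agent.S4651

open Cfsg.Agent.Block Subgroup

open Cfsg.Agent.Char
open scoped ComplexConjugate

section grp
variable {G : Type*} [Group G]

/-- normal closure of `A` under `U` -/
def ncl (A U : Subgroup G) : Subgroup G :=
  closure {g | ∃ u ∈ U, ∃ a ∈ A, g = u * a * u⁻¹}

theorem le_ncl (A U : Subgroup G) : A ≤ ncl A U := fun a ha =>
  subset_closure ⟨1, one_mem _, a, ha, by simp⟩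

theorem ncl_le {A U Q : Subgroup G} (hA : A ≤ Q) (hU : U ≤ normalizer (Q : Set G)) :
    ncl A U ≤ Q := (closure_le _).2 (by
  rintro _ ⟨u, hu, a, ha, rfl⟩
  exact (mem_normalizer_iff.1 (hU hu) a).1 (hA ha))

theorem mem_norm_of_conj [Finite G] {P : Subgroup G} {g : G}
    (h : ∀ x ∈ P, g * x * g⁻¹ ∈ P) : g ∈ normalizer (P : Set G) :=
  Subgroup.mem_normalizer_fintype (S := (P : Set G)) h

theorem mem_normalizer_closure [Finite G] {S : Set G} {g : G} (h : ∀ x ∈ S, g * x * g⁻¹ ∈ S) :
    g ∈ normalizer ((closure S : Subgroup G) : Set G) := by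
  refine mem_norm_of_conj fun x hx => ?_
  have : closure S ≤ (closure S).comap (MulAut.conj g).toMonoidHom :=
    (closure_le _).2 fun y hy => subset_closure (h y hy)
  exact this hx

theorem le_normalizer_ncl [Finite G] (A U : Subgroup G) :
    U ≤ normalizer (ncl A U : Set G) := fun v hv => mem_normalizer_closure (by
  rintro _ ⟨u, hu, a, ha, rfl⟩
  exact ⟨v * u, mul_mem hv hu, a, ha, by group⟩)

theorem mem_normalizer_ncl [Finite G] {A U : Subgroup G} {c : G}
    (hA : c ∈ normalizer (A : Set G)) (hU : c ∈ normalizer (U : Set G)) :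
    c ∈ normalizer (ncl A U : Set G) := mem_normalizer_closure (by
  rintro _ ⟨u, hu, a, ha, rfl⟩
  exact ⟨_, (mem_normalizer_iff.1 hU u).1 hu, _, (mem_normalizer_iff.1 hA a).1 ha, by group⟩)

theorem eq_of_ncl_eq [Finite G] {p : ℕ} [Fact p.Prime] {A P : Subgroup G} (hP : IsPGroup p P)
    (hA : A ≤ P) (h : P ≤ ncl A P) : A = P := by
  have := hP.isNilpotent
  rcases eq_top_or_exists_le_coatom (A.subgroupOf P) with h1 | ⟨m, hm, h1⟩
  · exact le_antisymm hA (subgroupOf_eq_top.1 h1)
  · have hn : m.Normal := NormalizerCondition.normal_of_coatom m Group.normalizerCondition_of_isNilpotent hm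
    have h2 : ncl A P ≤ m.map P.subtype := by
      refine ncl_le (fun a ha => ⟨⟨a, hA ha⟩, h1 ha, rfl⟩) fun u hu => mem_norm_of_conj ?_
      rintro _ ⟨y, hy, rfl⟩
      exact ⟨_, hn.conj_mem y hy ⟨u, hu⟩, rfl⟩
    refine absurd (eq_top_iff.2 fun y _ => ?_) hm.1
    obtain ⟨z, hz, e⟩ := h2 (h y.2)
    rwa [show y = z from Subtype.ext e.symm]

theorem mem_normalizer_sup [Finite G] {A B : Subgroup G} {c : G}
    (hA : c ∈ normalizer (A : Set G)) (hB : c ∈ normalizer (B : Set G)) :
    c ∈ normalizer ((A ⊔ B : Subgroup G) : Set G) := by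
  refine mem_norm_of_conj fun x hx => ?_
  have : A ⊔ B ≤ (A ⊔ B).comap (MulAut.conj c).toMonoidHom :=
    sup_le (fun y hy => mem_sup_left ((mem_normalizer_iff.1 hA y).1 hy))
      fun y hy => mem_sup_right ((mem_normalizer_iff.1 hB y).1 hy)
  exact this hx

theorem mem_normalizer_finsup [Finite G] {s : Finset (Subgroup G)} {c : G}
    (h : ∀ Q ∈ s, c ∈ normalizer (Q : Set G)) :
    c ∈ normalizer ((s.sup id : Subgroup G) : Set G) := by
  classical
  induction s using Finset.induction_on with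
  | empty =>
    refine mem_norm_of_conj fun x hx => ?_
    rw [Finset.sup_empty, mem_bot] at hx ⊢
    simp [hx]
  | insert Q s _ ih =>
    rw [Finset.sup_insert]
    exact mem_normalizer_sup (h Q (Finset.mem_insert_self _ _))
      (ih fun R hR => h R (Finset.mem_insert_of_mem hR))

/-- normal chains (possibly empty) normalised by `X` -/
structure NCh (p : ℕ) (X : Subgroup G) (s : Finset (Subgroup G)) : Prop where
  chain : ∀ Q ∈ s, ∀ R ∈ s, Q ≤ R ∨ R ≤ Q
  pgrp : ∀ Q ∈ s, Q ≠ ⊥ ∧ IsPGroup p Q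
  norm : ∀ Q ∈ s, s.sup id ⊔ X ≤ normalizer (Q : Set G)

theorem sup_mem_or {s : Finset (Subgroup G)} (h : ∀ Q ∈ s, ∀ R ∈ s, Q ≤ R ∨ R ≤ Q) :
    s.sup id ∈ s ∨ s.sup id = ⊥ := by
  rcases s.eq_empty_or_nonempty with rfl | hs
  · exact Or.inr rfl
  · obtain ⟨T, hT, hm⟩ := s.exists_maximal hs
    refine Or.inl ?_
    rwa [show s.sup id = T from le_antisymm (Finset.sup_le fun Q hQ =>
      (h Q hQ T hT).elim id fun h' => hm hQ h') (Finset.le_sup (f := id) hT)]

open Classical in
/-- the largest member not containing `X` -/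
noncomputable def low (X : Subgroup G) (s : Finset (Subgroup G)) : Subgroup G :=
  (s.filter fun Q => ¬ X ≤ Q).sup id

/-- the subgroup to be toggled -/
noncomputable def tog (X : Subgroup G) (s : Finset (Subgroup G)) : Subgroup G :=
  ncl (low X s ⊔ X) (s.sup id ⊔ X)

open Classical in
/-- the involution -/
noncomputable def flip (X : Subgroup G) (s : Finset (Subgroup G)) : Finset (Subgroup G) :=
  if tog X s ∈ s then s.erase (tog X s) else insert (tog X s) s

variable {p : ℕ} {X : Subgroup G} {s : Finset (Subgroup G)}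

theorem low_le_sup (X : Subgroup G) (s : Finset (Subgroup G)) : low X s ≤ s.sup id := by
  classical exact Finset.sup_mono (Finset.filter_subset _ _)

theorem le_low {Q : Subgroup G} (hQ : Q ∈ s) (h : ¬ X ≤ Q) : Q ≤ low X s := by
  classical exact Finset.le_sup (f := id) (Finset.mem_filter.2 ⟨hQ, h⟩)

theorem le_tog (X : Subgroup G) (s : Finset (Subgroup G)) : X ≤ tog X s :=
  le_sup_right.trans (le_ncl _ _)

theorem low_le_tog (X : Subgroup G) (s : Finset (Subgroup G)) : low X s ≤ tog X s :=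
  le_sup_left.trans (le_ncl _ _)

theorem tog_le_top (X : Subgroup G) (s : Finset (Subgroup G)) : tog X s ≤ s.sup id ⊔ X :=
  ncl_le (sup_le_sup_right (low_le_sup X s) X) le_normalizer

theorem NCh.tog_le (h : NCh p X s) {Q : Subgroup G} (hQ : Q ∈ s) (hX : X ≤ Q) : tog X s ≤ Q := by
  classical
  refine ncl_le (sup_le (Finset.sup_le fun R hR => ?_) hX) (h.norm Q hQ)
  rw [Finset.mem_filter] at hR
  exact (h.chain R hR.1 Q hQ).resolve_right fun h' => hR.2 (hX.trans h')

theorem NCh.isPGroup [Finite G] [Fact p.Prime] (h : NCh p X s) (hX : IsPGroup p X) :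
    IsPGroup p (s.sup id ⊔ X : Subgroup G) := by
  rcases sup_mem_or h.chain with h1 | h1
  · exact (h.pgrp _ h1).2.to_sup_of_normal_left' hX (le_sup_right.trans (h.norm _ h1))
  · rwa [h1, bot_sup_eq]

theorem mem_flip {Q : Subgroup G} (hQ : Q ∈ flip X s) : Q ∈ s ∨ Q = tog X s := by
  classical
  unfold flip at hQ
  split_ifs at hQ
  · exact Or.inl (Finset.mem_of_mem_erase hQ)
  · exact (Finset.mem_insert.1 hQ).symm

theorem mem_flip_of_ne {Q : Subgroup G} (hQ : Q ∈ s) (h : Q ≠ tog X s) : Q ∈ flip X s := by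
  classical
  unfold flip
  split_ifs
  · exact Finset.mem_erase.2 ⟨h, hQ⟩
  · exact Finset.mem_insert_of_mem hQ

theorem low_flip (X : Subgroup G) (s : Finset (Subgroup G)) : low X (flip X s) = low X s := by
  classical
  unfold low
  congr 1
  ext Q
  simp only [Finset.mem_filter]
  refine and_congr_left fun h => ⟨fun hQ => (mem_flip hQ).resolve_right ?_,
    fun hQ => mem_flip_of_ne hQ ?_⟩ <;>
  · rintro rfl
    exact h (le_tog X s)

theorem NCh.top_flip [Finite G] [Fact p.Prime] (h : NCh p X s) (hX : IsPGroup p X) :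
    (flip X s).sup id ⊔ X = s.sup id ⊔ X := by
  refine le_antisymm (sup_le (Finset.sup_le fun Q hQ => ?_) le_sup_right) (sup_le ?_ le_sup_right)
  · rcases mem_flip hQ with h1 | rfl
    · exact le_sup_of_le_left (Finset.le_sup (f := id) h1)
    · exact tog_le_top X s
  · rcases sup_mem_or h.chain with h1 | h1
    · by_cases h2 : s.sup id = tog X s
      · have h3 : s.sup id ⊔ X ≤ tog X s := sup_le h2.le (le_tog X s)
        have h4 := eq_of_ncl_eq (h.isPGroup hX) (sup_le_sup_right (low_le_sup X s) X) h3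
        refine le_sup_left.trans (h4.ge.trans (sup_le_sup_right ?_ X))
        rw [← low_flip]
        exact low_le_sup _ _
      · exact le_sup_of_le_left (Finset.le_sup (f := id) (mem_flip_of_ne h1 h2))
    · rw [h1]; exact bot_le

theorem NCh.tog_flip [Finite G] [Fact p.Prime] (h : NCh p X s) (hX : IsPGroup p X) :
    tog X (flip X s) = tog X s := by
  rw [tog, low_flip, h.top_flip hX, tog]

theorem NCh.flip_flip [Finite G] [Fact p.Prime] (h : NCh p X s) (hX : IsPGroup p X) :
    flip X (flip X s) = s := by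
  classical
  rw [flip, h.tog_flip hX, flip]
  split_ifs with h1 h2 h2
  · exact absurd h2 (Finset.notMem_erase _ _)
  · exact Finset.insert_erase h1
  · exact Finset.erase_insert h1
  · exact absurd (Finset.mem_insert_self _ _) h2

theorem NCh.flip [Finite G] [Fact p.Prime] (h : NCh p X s) (hX : IsPGroup p X) (h0 : X ≠ ⊥) :
    NCh p X (flip X s) := by
  have key : ∀ Q ∈ s, Q ≤ tog X s ∨ tog X s ≤ Q := fun Q hQ => by
    by_cases h1 : X ≤ Q
    · exact Or.inr (h.tog_le hQ h1)
    · exact Or.inl ((le_low hQ h1).trans (low_le_tog X s))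
  refine ⟨fun Q hQ R hR => ?_, fun Q hQ => ?_, fun Q hQ => ?_⟩
  · rcases mem_flip hQ with h1 | rfl <;> rcases mem_flip hR with h2 | rfl
    exacts [h.chain Q h1 R h2, key Q h1, (key R h2).symm, Or.inl le_rfl]
  · rcases mem_flip hQ with h1 | rfl
    · exact h.pgrp Q h1
    · exact ⟨fun h1 => h0 (le_bot_iff.1 (h1 ▸ le_tog X s)),
        (h.isPGroup hX).to_le (tog_le_top X s)⟩
  · rw [h.top_flip hX]
    rcases mem_flip hQ with h1 | rfl
    · exact h.norm Q h1
    · exact le_normalizer_ncl _ _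

theorem neg_one_pow_flip (X : Subgroup G) (s : Finset (Subgroup G)) :
    (-1 : ℂ) ^ (flip X s).card = - (-1) ^ s.card := by
  classical
  unfold flip
  split_ifs with h
  · rw [← Finset.card_erase_add_one h, pow_succ]; simp
  · rw [Finset.card_insert_of_notMem h, pow_succ]; simp

theorem mem_normalizer_flip [Finite G] {c : G} (hX : c ∈ normalizer (X : Set G))
    (h : ∀ Q ∈ s, c ∈ normalizer (Q : Set G)) : ∀ Q ∈ flip X s, c ∈ normalizer (Q : Set G) := by
  classical
  intro Q hQ
  rcases mem_flip hQ with h1 | rfl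
  · exact h Q h1
  · exact mem_normalizer_ncl (mem_normalizer_sup (mem_normalizer_finsup fun R hR =>
      h R (Finset.mem_filter.1 hR).1) hX) (mem_normalizer_sup (mem_normalizer_finsup h) hX)

/-- the stabiliser -/
abbrev stb (s : Finset (Subgroup G)) : Subgroup G := ⨅ Q ∈ s, normalizer ((Q : Subgroup G) : Set G)

theorem NCh.stb_flip [Finite G] [Fact p.Prime] (h : NCh p X s) (hX : IsPGroup p X)
    {C : Subgroup G} (hC : C ≤ normalizer (X : Set G)) : stb (S4651.flip X s) ⊓ C = stb s ⊓ C := by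
  ext c
  simp only [mem_inf, mem_iInf]
  refine and_congr_left fun hc => ⟨fun h1 => ?_, mem_normalizer_flip (hC hc)⟩
  rw [← h.flip_flip hX]
  exact mem_normalizer_flip (hC hc) h1

open Classical in
theorem alt_sum_eq_zero [Finite G] [Fact p.Prime] [Fintype (Subgroup G)] (hX : IsPGroup p X)
    (h0 : X ≠ ⊥) {C : Subgroup G} (hC : C ≤ normalizer (X : Set G)) (F : Subgroup G → ℂ) :
    ∑ s ∈ Finset.univ.filter (NCh p X), (-1 : ℂ) ^ s.card * F (stb s ⊓ C) = 0 := by
  refine Finset.sum_involution (fun s _ => flip X s) (fun s hs => ?_) (fun s hs _ h => ?_)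
    (fun s hs => ?_) fun s hs => ?_
  · rw [neg_one_pow_flip, (Finset.mem_filter.1 hs).2.stb_flip hX hC]; ring
  · have := neg_one_pow_flip X s
    rw [h, ← add_eq_zero_iff_eq_neg, ← two_mul] at this
    simp at this
  · exact Finset.mem_filter.2 ⟨Finset.mem_univ _, (Finset.mem_filter.1 hs).2.flip hX h0⟩
  · exact (Finset.mem_filter.1 hs).2.flip_flip hX

end grp

section blk
variable {G : Type*} [Group G] [Finite G] {M : Ideal AlgInt} {p : ℕ} [Fact p.Prime]

open Classical in
/-- the kernel of the blocks of `H` inducing `B` -/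
noncomputable def kerAt (M : Ideal AlgInt) (B : Set (IrrCharacter G)) (y : G) (H : Subgroup G) :
    ℂ :=
  if h : y ∈ H then ∑ᶠ ξ ∈ indSet M H B, (ξ : H → ℂ) ⟨y, h⟩ * conj ((ξ : H → ℂ) ⟨y, h⟩) else 0

open Classical in
theorem kerAt_eq (hM : IsPModular p M) (B : Set (IrrCharacter G)) (g : G) (H : Subgroup G) :
    kerAt M B g H = if pPart p g ∈ H then
      kerAt M B (pReg p g) (H ⊓ centralizer ({pPart p g} : Set G)) else 0 := by
  have hc : pReg p g ∈ centralizer ({pPart p g} : Set G) :=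
    mem_centralizer_singleton_iff.2 (commute_pPart_pReg p g).symm
  by_cases hg : g ∈ H
  · have h1 : pReg p g ∈ H ⊓ centralizer ({pPart p g} : Set G) := ⟨pReg_mem hg, hc⟩
    rw [if_pos (pPart_mem hg), kerAt, kerAt, dif_pos hg, dif_pos h1]
    have h2 : ¬ p ∣ orderOf (⟨pReg p g, h1⟩ : (H ⊓ centralizer ({pPart p g} : Set G) :
        Subgroup G)) := by
      rw [← orderOf_coe]; exact not_dvd_orderOf_pReg p g
    rw [← sum_indSet_section hM (x := ⟨pPart p g, pPart_mem hg⟩)
      (by rw [← orderOf_coe]; exact orderOf_pPart p g) B h2 h2,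
      show (⟨g, hg⟩ : H) = ⟨pPart p g, pPart_mem hg⟩ *
        (cenInEquiv (⟨pPart p g, pPart_mem hg⟩ : H) ⟨pReg p g, h1⟩ : H) from
        Subtype.ext (pPart_mul_pReg p g).symm]
  · rw [kerAt, dif_neg hg]
    split_ifs with h
    · rw [kerAt, dif_neg]
      intro h1
      exact hg (pPart_mul_pReg p g ▸ mul_mem h h1.1)
    · rfl

open Classical in
theorem card_mul_eq_sum [Fintype G] (hM : IsPModular p M) (B : Set (IrrCharacter G))
    (H : Subgroup G) : (Nat.card H : ℂ) * (Nat.card (indSet M H B) - blockRank p (indSet M H B)) =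
      ∑ g, if p ∣ orderOf g then kerAt M B g H else 0 := by
  rw [card_mul_card_sub_blockRank hM (eSet_indSet_mem_intAlg hM H B),
    ← Finset.sum_filter_add_sum_filter_not Finset.univ (· ∈ H), Finset.sum_eq_zero (s :=
      Finset.univ.filter (¬ · ∈ H)) (fun g hg => by
        rw [kerAt, dif_neg (Finset.mem_filter.1 hg).2, ite_self]), add_zero,
    Finset.sum_subtype (p := (· ∈ H)) (Finset.univ.filter (· ∈ H)) (by simp)]
  refine Finset.sum_congr rfl fun h _ => ?_
  rw [kerAt, dif_pos h.2, orderOf_coe]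

theorem kerAt_top (hM : IsPModular p M) {B : Set (IrrCharacter G)} (hB : IsPBlock M B) (g : G) :
    ∑ᶠ χ ∈ B, (χ : G → ℂ) g * conj ((χ : G → ℂ) g) =
      kerAt M B (pReg p g) (⊤ ⊓ centralizer ({pPart p g} : Set G)) := by
  have hc : pReg p g ∈ centralizer ({pPart p g} : Set G) :=
    mem_centralizer_singleton_iff.2 (commute_pPart_pReg p g).symm
  have h2 : ¬ p ∣ orderOf (⟨pReg p g, hc⟩ : centralizer ({pPart p g} : Set G)) := by
    rw [← orderOf_coe]; exact not_dvd_orderOf_pReg p g
  rw [top_inf_eq, kerAt, dif_pos hc, ← sum_block_section hM (orderOf_pPart p g) hB h2 h2,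
    pPart_mul_pReg]

end blk


/-- An alternating-sum identity over chains of p-subgroups (the character-count form behind the chain reformulation of Alperin's weight conjecture, which holds unconditionally for the difference k − l). Let b be a block of the finite group G relative to a maximal ideal M of the algebraic integers containing the prime p. Consider the nonempty chains s = {Q_0 < Q_1 < ⋯ < Q_m} of nontrivial p-subgroups of G in which every member is normal in the largest member; let N_G(s) be the intersection of the normalizers of the members (the stabilizer of the chain), and let b_s be the set of irreducible characters of N_G(s) lying in blocks of N_G(s) that induce b. Then #G · (k(b) − l(b)) equals the sum over all such chains s of (−1)^m · #N_G(s) · (k(b_s) − l(b_s)), where k counts irreducible characters and l is the p-regular rank; equivalently, k(b) − l(b) is the alternating sum of k(b_s) − l(b_s) over representatives of the conjugacy classes of such chains.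 -/
theorem result {G : Type*} [Group G] [Finite G] (p : ℕ) [Fact p.Prime] (M : Ideal Cfsg.AlgInt) (hM : Cfsg.IsPModular p M) (b : Set (Cfsg.IrrCharacter G)) (hb : Cfsg.IsPBlock M b) : (Nat.card G : ℤ) * ((Nat.card b : ℤ) - (Cfsg.blockRank p b : ℤ)) = ∑ᶠ s ∈ {s : Finset (Subgroup G) | s.Nonempty ∧ (∀ Q ∈ s, ∀ R ∈ s, Q ≤ R ∨ R ≤ Q) ∧ (∀ Q ∈ s, Q ≠ ⊥ ∧ IsPGroup p Q) ∧ ∃ T ∈ s, ∀ Q ∈ s, Q ≤ T ∧ T ≤ Subgroup.normalizer ((Q : Subgroup G) : Set G)}, (-1 : ℤ) ^ (s.card - 1) * (Nat.card (((⨅ Q ∈ s, Subgroup.normalizer ((Q : Subgroup G) : Set G) : Subgroup G))) : ℤ) * ((Nat.card {ψ : Cfsg.IrrCharacter (((⨅ Q ∈ s, Subgroup.normalizer ((Q : Subgroup G) : Set G) : Subgroup G))) | ∃ β : Set (Cfsg.IrrCharacter (((⨅ Q ∈ s, Subgroup.normalizer ((Q : Subgroup G) : Set G) : Subgroup G)))), ψ ∈ β ∧ Cfsg.IsInducedBlock M (((⨅ Q ∈ s, Subgroup.normalizer ((Q : Subgroup G) : Set G) : Subgroup G))) β b} : ℤ) - (Cfsg.blockRank p {ψ : Cfsg.IrrCharacter (((⨅ Q ∈ s, Subgroup.normalizer ((Q : Subgroup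 G) : Set G) : Subgroup G))) | ∃ β : Set (Cfsg.IrrCharacter (((⨅ Q ∈ s, Subgroup.normalizer ((Q : Subgroup G) : Set G) : Subgroup G)))), ψ ∈ β ∧ Cfsg.IsInducedBlock M (((⨅ Q ∈ s, Subgroup.normalizer ((Q : Subgroup G) : Set G) : Subgroup G))) β b} : ℤ)) := by
  classical
  have := Fintype.ofFinite G
  have := Fintype.ofFinite (Subgroup G)
  simp only [setOf_exists_induced_eq hM]
  have hset : {s : Finset (Subgroup G) | s.Nonempty ∧ (∀ Q ∈ s, ∀ R ∈ s, Q ≤ R ∨ R ≤ Q) ∧
      (∀ Q ∈ s, Q ≠ ⊥ ∧ IsPGroup p Q) ∧ ∃ T ∈ s, ∀ Q ∈ s, Q ≤ T ∧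
        T ≤ Subgroup.normalizer ((Q : Subgroup G) : Set G)} =
      ((Finset.univ.filter (NCh p (⊥ : Subgroup G))).erase ∅ : Finset _) := by
    ext s
    simp only [Set.mem_ofPred_eq, Finset.coe_erase, Finset.coe_filter, Finset.mem_univ, true_and,
      Set.mem_sdiff, Set.mem_singleton_iff, Finset.nonempty_iff_ne_empty]
    refine ⟨fun ⟨h0, h1, h2, T, hT, h3⟩ => ⟨⟨h1, h2, fun Q hQ => ?_⟩, h0⟩, fun ⟨h, h0⟩ =>
      ⟨h0, h.chain, h.pgrp, s.sup id, ?_, fun Q hQ =>
        ⟨Finset.le_sup (f := id) hQ, le_sup_left.trans (h.norm Q hQ)⟩⟩⟩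
    · rw [sup_bot_eq]
      exact (Finset.sup_le fun R hR => (h3 R hR).1).trans (h3 Q hQ).2
    · refine (sup_mem_or h.chain).resolve_right fun h1 => ?_
      obtain ⟨Q, hQ⟩ := Finset.nonempty_iff_ne_empty.2 h0
      exact (h.pgrp Q hQ).1 (le_bot_iff.1 (h1 ▸ Finset.le_sup (f := id) hQ))
  rw [hset, finsum_mem_coe_finset]
  apply Int.cast_injective (α := ℂ)
  push_cast
  simp only [mul_assoc]
  rw [Finset.sum_congr rfl fun s _ => by rw [card_mul_eq_sum hM, Finset.mul_sum],
    Finset.sum_comm, card_mul_card_sub_blockRank hM (eSet_mem_intAlg hM hb)]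
  refine Finset.sum_congr rfl fun g _ => ?_
  split_ifs with hg
  swap
  · simp
  have hX := isPGroup_zpowers_pPart p g
  have h0 : zpowers (pPart p g) ≠ ⊥ := by
    rw [Ne, zpowers_eq_bot]; exact pPart_ne_one_iff.2 hg
  have h := alt_sum_eq_zero hX h0 (C := centralizer ({pPart p g} : Set G))
    (by rw [← centralizer_zpowers_eq]; exact centralizer_le_normalizer _) (kerAt M b (pReg p g))
  have he : (∅ : Finset (Subgroup G)) ∈ Finset.univ.filter (NCh p (zpowers (pPart p g))) :=
    Finset.mem_filter.2 ⟨Finset.mem_univ _, by simp, by simp, by simp⟩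
  rw [← Finset.add_sum_erase _ _ he, add_eq_zero_iff_eq_neg, Finset.card_empty, pow_zero, one_mul,
    show stb (∅ : Finset (Subgroup G)) = ⊤ by simp [stb], ← Finset.sum_neg_distrib] at h
  rw [kerAt_top hM hb, h]
  simp only [kerAt_eq hM b g, mul_ite, mul_zero]
  rw [← Finset.sum_filter]
  refine Finset.sum_congr ?_ fun s hs => ?_
  · ext s
    simp only [Finset.mem_erase, Finset.mem_filter, Finset.mem_univ, true_and, mem_iInf, and_assoc]
    refine and_congr_right fun _ => ⟨fun h => ⟨⟨h.chain, h.pgrp, fun Q hQ => ?_⟩, fun Q hQ => ?_⟩,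
      fun ⟨h, h1⟩ => ⟨h.chain, h.pgrp, fun Q hQ => ?_⟩⟩
    · exact (sup_le_sup_left bot_le _).trans (h.norm Q hQ)
    · exact h.norm Q hQ (mem_sup_right (mem_zpowers _))
    · exact sup_le (le_sup_left.trans (h.norm Q hQ)) (zpowers_le.2 (h1 Q hQ))
  · have h1 : s.card - 1 + 1 = s.card := Nat.sub_add_cancel (Finset.card_pos.2
      (Finset.nonempty_iff_ne_empty.2 (Finset.mem_erase.1 (Finset.mem_filter.1 hs).1).1))
    conv_lhs => rw [← h1, pow_succ]
    ring

end Cfsg.Agent.S4651
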