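import Cfsg.Statements.S4654
import Cfsg.Agent.Block.ExactLift

set_option autoImplicit false
open Cfsg

namespace Cfsg.Agent.S4654

open Cfsg.Agent.Block Subgroup


/-- Fix a prime p and a maximal ideal M of the algebraic integers containing p. Let P be a normal p-subgroup of the finite group G, B a p-block of G and e a p-block of C_G(P) such that (P, e) is a Brauer pair of B (as P is normal, this says that e occurs in the idempotent of B, which is supported on C_G(P)). Let T be the stabilizer of e in G under conjugation. Then the idempotent of e is a block idempotent of T: some block E of T has, at every element of T, the same idempotent coefficient as e (zero off C_G(P)); and the idempotent of B is the sum of the distinct G-conjugates of the idempotent of e: its coefficient at g is the sum over all x in G of the coefficient of e at x⁻¹ g x, divided by the order of T. -/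
theorem result {G : Type*} [Group G] [Fintype G] (p : ℕ) [Fact p.Prime] (M : Ideal Cfsg.AlgInt) (hM : Cfsg.IsPModular p M) (P : Subgroup G) [P.Normal] (hP : IsPGroup p P) (B : Set (Cfsg.IrrCharacter G)) (e : Set (Cfsg.IrrCharacter (Subgroup.centralizer (P : Set G)))) (hBe : Cfsg.IsBrauerPairOf p M B P e) (T : Subgroup G) (hT : ∀ x : G, x ∈ T ↔ Cfsg.StabilizesBlock (Subgroup.centralizer (P : Set G)) e x) : (∃ E : Set (Cfsg.IrrCharacter T), Cfsg.IsPBlock M E ∧ ∀ t : T, Cfsg.blockCoeff E t = Cfsg.subgroupBlockCoeff (Subgroup.centralizer (P : Set G)) e (t : G)) ∧ ∀ g : G, Cfsg.blockCoeff B g = (Nat.card T : ℂ)⁻¹ * ∑ x : G, Cfsg.subgroupBlockCoeff (Subgroup.centralizer (P : Set G)) e (x⁻¹ * g * x) := by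
  classical
  have := charP_resField hM
  have hN : ∀ x : G, x ∈ normalizer (P : Set G) := fun x => (normalizer_eq_top P).ge (mem_top x)
  have hT' : T = Alg.nst ⊤ P (cbar M P e) :=
    eq_nst_of hM hBe.1.2 fun g => (hT g).trans (and_iff_right (hN g)).symm
  have h := of_of_isBrauerPairOf hM hBe
  have hCT : centralizer (P : Set G) ≤ T := by
    rw [hT']; simpa using h.pair.centralizer_le_nst
  constructor
  · obtain ⟨E, h1, -, h2⟩ := exists_block_coeff_eq hM hCT hBe.1.2 (hT' ▸ h.pair.isPrim_nst)
    exact ⟨E, h1, h2⟩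
  · intro g
    have hCN : (⊤ : Subgroup G) ≤ normalizer (centralizer (P : Set G) : Set G) :=
      fun x _ => Alg.normalizer_le_normalizer_centralizer P (hN x)
    have h1 : Alg.IsPrim (Alg.fix (resField M) (centralizer (P : Set G)) ⊤) (gbar M B) :=
      (Alg.isPrim_Z_iff_of_normal hP le_top (fun x _ => hN x) inf_le_right le_top).1 h.block
    have h2 := h.mul
    rw [Alg.br_eq_of_normal hP le_top (fun x _ => hN x) h.block.mem h.block.idem] at h2
    have h3 := eSet_eq_osum hM hCN (eSet_mem_intAlg hM hBe.2.1) hBe.1.2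
      (h1.eq_osum le_top hCN (isPrim_bar_subtype hM hBe.1.2) h2)
    have h4 : (⊤ ⊓ Alg.stab (incl ℂ (centralizer (P : Set G)) (eSet e)) : Subgroup G) = T := by
      ext x
      rw [top_inf_eq, mem_stab_iff_redAlg (M := M) (incl_eSet_mem_Z _ e)
        (incl_mem_intAlg _ (eSet_mem_intAlg hM hBe.1.2)) (by rw [← map_mul, eSet_mul_self])
        (hCN (mem_top x)), ← bar_subtype_eq, hT', Alg.mem_nst]
      exact ⟨fun h => ⟨mem_top x, hN x, h⟩, fun h => h.2.2⟩
    have h5 := congrArg (fun z : MonoidAlgebra ℂ G => z.coeff g)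
      (Alg.sum_cj_eq ⊤ (incl ℂ (centralizer (P : Set G)) (eSet e)))
    simp only [h4, ← h3, Alg.coeff_sum_apply, Alg.coeff_cj] at h5
    have h6 : (Nat.card T : ℂ) ≠ 0 := Nat.cast_ne_zero.2 Nat.card_pos.ne'
    rw [eq_inv_mul_iff_mul_eq₀ h6, subgroupBlockCoeff_eq,
      ← Fintype.sum_equiv (topEquiv (G := G)).toEquiv
        (fun t => (incl ℂ (centralizer (P : Set G)) (eSet e)).coeff ((t : G)⁻¹ * g * t)) _
        fun _ => rfl, h5]
    rw [MonoidAlgebra.coeff_smul, Finsupp.smul_apply, coeff_eSet, nsmul_eq_mul]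

end Cfsg.Agent.S4654
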