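import Cfsg.Statements.S4655
import Cfsg.Agent.Block.BrauerPair

set_option autoImplicit false
open Cfsg

namespace Cfsg.Agent.S4655

open Cfsg.Agent.Block Subgroup


/-- Fix a prime p and a maximal ideal M of the algebraic integers containing p. Let (P, e) be a Brauer pair of the finite group G (P a p-subgroup, e a p-block of C_G(P)) and Q a subgroup of P. Then there is exactly one p-block f of C_G(Q) such that the Brauer pair (Q, f) lies below (P, e). -/
theorem result {G : Type*} [Group G] [Fintype G] (p : ℕ) [Fact p.Prime] (M : Ideal Cfsg.AlgInt) (hM : Cfsg.IsPModular p M) (P Q : Subgroup G) (e : Set (Cfsg.IrrCharacter (Subgroup.centralizer (P : Set G)))) (hPe : Cfsg.IsBrauerPair p M P e) (hQP : Q ≤ P) : ∃! f : Set (Cfsg.IrrCharacter (Subgroup.centralizer (Q : Set G))), Cfsg.IsPBlock M f ∧ Cfsg.SubpairLE p M Q f P e := by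
  have := charP_resField hM
  obtain ⟨y, hy⟩ := Alg.exists_ple ((bp_bar_iff hM hPe.2).2 hPe) hQP
  obtain ⟨f, hf, rfl⟩ := exists_block_of_bp hM hy.left
  refine ⟨f, ⟨hf.2, subpairLE_of_ple hM hf.2 hPe.2 hy⟩, fun g hg => ?_⟩
  exact bar_inj_of_block hM (subtype_injective _) hg.1 hf.2
    ((ple_of_subpairLE hM hg.2 hPe).unique hy)

end Cfsg.Agent.S4655
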