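import Cfsg.Statements.S4656
import Cfsg.Agent.Block.BrauerPair

set_option autoImplicit false
open Cfsg

namespace Cfsg.Agent.S4656

open Cfsg.Agent.Block Subgroup


/-- Fix a prime p and a maximal ideal M of the algebraic integers containing p. Let (P, e) be a Brauer pair of the finite group G and Q a normal subgroup of P. Then there is exactly one p-block f of C_G(Q) that is stable under conjugation by P and such that e occurs in the Brauer-map image at P of the idempotent of f; that is, exactly one f with (Q, f) normally below (P, e). -/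
theorem result {G : Type*} [Group G] [Fintype G] (p : ℕ) [Fact p.Prime] (M : Ideal Cfsg.AlgInt) (hM : Cfsg.IsPModular p M) (P Q : Subgroup G) (e : Set (Cfsg.IrrCharacter (Subgroup.centralizer (P : Set G)))) (hPe : Cfsg.IsBrauerPair p M P e) (hQP : Q ≤ P) (hPN : P ≤ Subgroup.normalizer (Q : Set G)) : ∃! f : Set (Cfsg.IrrCharacter (Subgroup.centralizer (Q : Set G))), Cfsg.IsNormalSubpair p M Q f P e := by
  have := charP_resField hM
  obtain ⟨y, hy⟩ := Alg.exists_nle ((bp_bar_iff hM hPe.2).2 hPe) hQP hPN
  obtain ⟨f, hf, rfl⟩ := exists_block_of_bp hM hy.left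
  refine ⟨f, (nle_cbar_iff hM hf.2 hPe.2).1 hy, fun g hg => ?_⟩
  exact bar_inj_of_block hM (subtype_injective _) hg.1.2 hf.2
    (((nle_cbar_iff hM hg.1.2 hPe.2).2 hg).unique hy)

end Cfsg.Agent.S4656
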