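import Cfsg.Statements.S4657
import Cfsg.Agent.Block.BrauerPair

set_option autoImplicit false
open Cfsg

namespace Cfsg.Agent.S4657

open Cfsg.Agent.Block Subgroup


/-- Fix a prime p and a maximal ideal M of the algebraic integers containing p. Every Brauer pair (P, e) of the finite group G is a Brauer pair of exactly one p-block B of G. -/
theorem result {G : Type*} [Group G] [Fintype G] (p : ℕ) [Fact p.Prime] (M : Ideal Cfsg.AlgInt) (hM : Cfsg.IsPModular p M) (P : Subgroup G) (e : Set (Cfsg.IrrCharacter (Subgroup.centralizer (P : Set G)))) (hPe : Cfsg.IsBrauerPair p M P e) : ∃! B : Set (Cfsg.IrrCharacter G), Cfsg.IsBrauerPairOf p M B P e := by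
  have := charP_resField hM
  obtain ⟨y, hy⟩ := ((bp_bar_iff hM hPe.2).2 hPe).exists_of
  obtain ⟨B, hB, rfl⟩ := exists_block_of_isPrim_top hM hy.block
  refine ⟨B, (of_bar_iff hM hB hPe.2).1 hy, fun C hC => ?_⟩
  exact redAlg_eSet_inj (eSet_mem_intAlg hM hC.2.1) (eSet_mem_intAlg hM hB)
    ((of_of_isBrauerPairOf hM hC).unique hy)

end Cfsg.Agent.S4657
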