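import Cfsg.Statements.S4662
import Cfsg.Agent.Block.PairFus

set_option autoImplicit false
open Cfsg

namespace Cfsg.Agent.S4662

open Cfsg.Agent.Block Subgroup


/-- Fix a prime p and a maximal ideal M of the algebraic integers containing p. Let (P, e) be a maximal Brauer pair of the p-block B of the finite group G, Q ≤ P, and f the p-block of C_G(Q) with (Q, f) ≤ (P, e). Let T be the stabilizer of f in N_G(Q). Then the idempotent of f is a block idempotent of T, and N_P(Q) is contained in a defect group of that block of T; moreover for some x in G the conjugate pair (x Q x⁻¹, conjugate of f) again lies below (P, e) and, with T' the stabilizer of the conjugate of f in N_G(x Q x⁻¹), N_P(x Q x⁻¹) is a defect group of the block of T' whose idempotent is that of the conjugate of f. -/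
theorem result {G : Type*} [Group G] [Fintype G] (p : ℕ) [Fact p.Prime] (M : Ideal Cfsg.AlgInt) (hM : Cfsg.IsPModular p M) (B : Set (Cfsg.IrrCharacter G)) (P Q : Subgroup G) (e : Set (Cfsg.IrrCharacter (Subgroup.centralizer (P : Set G)))) (f : Set (Cfsg.IrrCharacter (Subgroup.centralizer (Q : Set G)))) (hmax : Cfsg.IsMaximalBrauerPair p M B P e) (hQP : Q ≤ P) (hf : Cfsg.IsPBlock M f) (hle : Cfsg.SubpairLE p M Q f P e) (T : Subgroup G) (hT : ∀ y : G, y ∈ T ↔ y ∈ Subgroup.normalizer (Q : Set G) ∧ Cfsg.StabilizesBlock (Subgroup.centralizer (Q : Set G)) f y) : (∃ F : Set (Cfsg.IrrCharacter T), Cfsg.IsPBlock M F ∧ (∀ t : T, Cfsg.blockCoeff F t = Cfsg.subgroupBlockCoeff (Subgroup.centralizer (Q : Set G)) f (t : G)) ∧ ∃ D : Subgroup T, Cfsg.IsDefectGroup p M F D ∧ (P ⊓ Subgroup.normalizer (Q : Set G)).subgroupOf T ≤ D) ∧ ∃ x : G, Cfsg.SubpairLE p M (Q.map (MulAut.conj x).toMonoidHom) (Cfsg.conjBlock Q x f) P e ∧ ∀ (T' : Subgroup G), (∀ y : G, y ∈ T' ↔ y ∈ Subgroup.normalizer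 ((Q.map (MulAut.conj x).toMonoidHom) : Set G) ∧ Cfsg.StabilizesBlock (Subgroup.centralizer ((Q.map (MulAut.conj x).toMonoidHom) : Set G)) (Cfsg.conjBlock Q x f) y) → ∃ F' : Set (Cfsg.IrrCharacter T'), Cfsg.IsPBlock M F' ∧ (∀ t : T', Cfsg.blockCoeff F' t = Cfsg.subgroupBlockCoeff (Subgroup.centralizer ((Q.map (MulAut.conj x).toMonoidHom) : Set G)) (Cfsg.conjBlock Q x f) (t : G)) ∧ Cfsg.IsDefectGroup p M F' ((P ⊓ Subgroup.normalizer ((Q.map (MulAut.conj x).toMonoidHom) : Set G)).subgroupOf T') := by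
  have := charP_resField hM
  have hm := maxBP_of_isMaximal hM hmax
  have h := ple_of_subpairLE hM hle hmax.1.1
  obtain rfl := eq_nst_of hM hf hT
  constructor
  · obtain ⟨F, hF, h1, h2⟩ := exists_block_coeff_eq hM h.left.centralizer_le_nst_top
      hf h.left.isPrim_nst
    obtain ⟨D, hD, h3⟩ := h.exists_isDef_ge h.left.centralizer_le_nst le_rfl
    rw [h.inf_nst] at h3
    exact ⟨F, hF, h2, _, ((isDefectGroup_of_sbar_eq hM hF h1).1 hD).2, subgroupOf_mono _ h3⟩
  · obtain ⟨x, hx, h1, h2⟩ := hm.exists_conj_isDef_inf (hm.of.down h) h.left.centralizer_le_nst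
      le_rfl
    refine ⟨x, (ple_conj_iff hM hf hmax.1.1 x).1 h1, fun T' hT' => ?_⟩
    rw [Alg.map_cm_nst Q _ hx, h1.inf_nst] at h2
    rw [← cbar_conjBlock hM hf] at h1 h2
    obtain rfl := eq_nst_of hM (isPBlock_conjBlock hf x) hT'
    obtain ⟨F, hF, h3, h4⟩ := exists_block_coeff_eq hM h1.left.centralizer_le_nst_top
      (isPBlock_conjBlock hf x) h1.left.isPrim_nst
    exact ⟨F, hF, h4, ((isDefectGroup_of_sbar_eq hM hF h3).1 h2).2⟩

end Cfsg.Agent.S4662
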