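import Cfsg.Statements.S4664
import Cfsg.Agent.Block.Contrib
-- import your own Cfsg.Agent.* helpers here

set_option autoImplicit false
open Cfsg

namespace Cfsg.Agent.S4664

open Cfsg.Agent.Block Cfsg.Agent.Char
open scoped ComplexConjugate

/-- Fix a prime p and a maximal ideal M of the algebraic integers containing p, and let B be a p-block of the finite group G. Let m be the p'-part of the order of G and η = exp(2πi/m). Then every coefficient of the idempotent of B lies in the cyclotomic field ℚ(η). -/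
theorem result {G : Type*} [Group G] [Fintype G] (p : ℕ) [Fact p.Prime] (M : Ideal Cfsg.AlgInt) (hM : Cfsg.IsPModular p M) (B : Set (Cfsg.IrrCharacter G)) (hB : Cfsg.IsPBlock M B) (g : G) : Cfsg.blockCoeff B g ∈ IntermediateField.adjoin ℚ ({Complex.exp (2 * Real.pi * Complex.I / ((Nat.card G / p ^ (Nat.card G).factorization p : ℕ) : ℂ))} : Set ℂ) := by
  classical
  set F := IntermediateField.adjoin ℚ ({Complex.exp (2 * Real.pi * Complex.I /
    ((Nat.card G / p ^ (Nat.card G).factorization p : ℕ) : ℂ))} : Set ℂ) with hF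
  have hA := eSet_mem_intAlg hM hB
  by_cases hg : p ∣ orderOf g
  · rw [blockCoeff_eq_zero_of_val hM hA hg]; exact zero_mem _
  set m := Nat.card G / p ^ (Nat.card G).factorization p with hm
  have hm0 : m ≠ 0 := (Nat.ordCompl_pos p Nat.card_pos.ne').ne'
  have hprim := Complex.isPrimitiveRoot_exp m hm0
  have hval : ∀ χ : IrrCharacter G, (χ : G → ℂ) g⁻¹ ∈ F := by
    intro χ
    obtain ⟨l, -, h1, h2⟩ := χ.2.isCharacter.exists_eigenvalues g⁻¹
    have h3 := h2 1
    simp only [zpow_one, Multiset.map_id'] at h3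
    rw [h3]
    refine multiset_sum_mem _ fun μ hμ => ?_
    have h4 : orderOf g⁻¹ ∣ m := by
      rw [orderOf_inv]
      exact Nat.Coprime.dvd_of_dvd_mul_left
        (Nat.Coprime.pow_right _ (((Nat.Prime.coprime_iff_not_dvd hM.1).2 hg).symm))
        (by rw [hm, Nat.ordProj_mul_ordCompl_eq_self]; exact orderOf_dvd_natCard g)
    have h5 : μ ^ m = 1 := by
      obtain ⟨k, hk⟩ := h4
      rw [hk, pow_mul, h1 μ hμ, one_pow]
    have : NeZero m := ⟨hm0⟩
    obtain ⟨i, -, hi⟩ := hprim.eq_pow_of_pow_eq_one h5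
    rw [← hi]
    exact pow_mem (IntermediateField.mem_adjoin_simple_self ℚ _) i
  have h4 := sum_mul_conj_eq_sum_ibrOf hM hA (x := g⁻¹) (by rwa [orderOf_inv]) 1
  have h5 : blockCoeff B g = (Nat.card G : ℂ)⁻¹ *
      ∑ i ∈ ibrOf M B, brauer i g⁻¹ * conj (pim i 1) := by
    rw [← h4, blockCoeff]
    congr 1
    refine finsum_mem_congr rfl fun χ _ => ?_
    rw [χ.2.map_inv, χ.2.isCharacter.conj_one, mul_comm]
  rw [h5]
  refine mul_mem (inv_mem (natCast_mem _ _)) (sum_mem fun i hi => mul_mem ?_ ?_)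
  · obtain ⟨c, -, -, hc⟩ := exists_int_brauer_of_mem hM hA hi
    rw [hc, Finset.sum_apply]
    refine sum_mem fun χ _ => ?_
    rw [Pi.smul_apply, regPart_of_not_dvd _ (by rwa [orderOf_inv]), smul_eq_mul]
    exact mul_mem (intCast_mem _ _) (hval χ)
  · rw [← cast_charDegree (isCharacter_pim i), map_natCast]
    exact natCast_mem _ _

end Cfsg.Agent.S4664
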