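import Cfsg.Statements.S4666
import Cfsg.Agent.Block.Contrib
-- import your own Cfsg.Agent.* helpers here

set_option autoImplicit false
open Cfsg

namespace Cfsg.Agent.S4666

open Cfsg.Agent.Block Cfsg.Agent.Char
open scoped ComplexConjugate

/-- Fix a prime p and a maximal ideal M of the algebraic integers containing p, and a p-block B of the finite group G of defect d. For every integer combination χ of the irreducible characters in B, p^d times the function that agrees with χ on p-regular elements and vanishes elsewhere is again an integer combination of the irreducible characters in B. -/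
theorem result {G : Type*} [Group G] [Fintype G] (p : ℕ) [Fact p.Prime] (M : Ideal Cfsg.AlgInt) (hM : Cfsg.IsPModular p M) (B : Set (Cfsg.IrrCharacter G)) (hB : Cfsg.IsPBlock M B) (χ : G → ℂ) (hχ : (∃ n : Cfsg.IrrCharacter G → ℤ, ∀ g : G, χ g = ∑ᶠ ψ ∈ B, (n ψ : ℂ) * (ψ : G → ℂ) g)) : (∃ n : Cfsg.IrrCharacter G → ℤ, ∀ g : G, (p ^ Cfsg.blockDefect p B : ℂ) * Cfsg.pRegularPart p χ g = ∑ᶠ ψ ∈ B, (n ψ : ℂ) * (ψ : G → ℂ) g) := by
  classical
  obtain ⟨n, hn⟩ := hχ
  refine ⟨fun η => ∑ ψ ∈ Finset.univ.filter (· ∈ B), n ψ * contr p B (ψ : G → ℂ) (η : G → ℂ),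
    fun g => ?_⟩
  have h1 : pRegularPart p χ g =
      ∑ ψ ∈ Finset.univ.filter (· ∈ B), (n ψ : ℂ) * regPart p (ψ : G → ℂ) g := by
    rw [pRegularPart_eq_regPart]
    by_cases hg : p ∣ orderOf g
    · simp [regPart_of_dvd _ hg]
    · simp only [regPart_of_not_dvd _ hg]
      rw [hn, finsum_mem_irr_filter]
  rw [h1, finsum_mem_irr_filter, Finset.mul_sum]
  simp only [Int.cast_sum, Finset.sum_mul]
  rw [Finset.sum_comm]
  refine Finset.sum_congr rfl fun ψ hψ => ?_
  have hψB := (Finset.mem_filter.1 hψ).2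
  have h2 := congrFun (pow_smul_regPart_eq_sum hM hψB) g
  rw [Pi.smul_apply, smul_eq_mul, Finset.sum_apply] at h2
  rw [mul_left_comm, h2, Finset.mul_sum, eq_comm]
  refine (Finset.sum_subset (Finset.filter_subset _ _) fun η _ hη => ?_).trans
    (Finset.sum_congr rfl fun η _ => ?_)
  · rw [contr_eq_zero hM hB hψB (by simpa using hη)]; simp
  · simp [mul_assoc]

end Cfsg.Agent.S4666
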