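import Cfsg.Statements.S4668
import Cfsg.Agent.Block.ExactLift
import Cfsg.Agent.Block.Cover

set_option autoImplicit false
open Cfsg

namespace Cfsg.Agent.S4668

open Cfsg.Agent.Block Subgroup

theorem pq {G : Type*} [Group G] [Finite G] {p : ℕ} [Fact p.Prime] {P : Subgroup G}
    (hP : IsPGroup p P) {x : G} (hx : ¬ p ∣ orderOf x) (hN : x ∈ normalizer (P : Set G))
    (h : P ⊓ centralizer ((P ⊓ centralizer ({x} : Set G) : Subgroup G) : Set G) ≤
      centralizer ({x} : Set G)) : x ∈ centralizer (P : Set G) := by
  set C := P ⊓ centralizer ({x} : Set G) with hC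
  have hxC : x ∈ centralizer (C : Set G) := Alg.le_centralizer_singleton_iff.1 inf_le_right
  have hxN : x ∈ normalizer ((P ⊓ normalizer (C : Set G) : Subgroup G) : Set G) :=
    inf_normalizer_le_normalizer_inf
      ⟨hN, (normalizer (C : Set G)).le_normalizer (centralizer_le_normalizer _ hxC)⟩
  have h1 : x ∈ centralizer ((P ⊓ normalizer (C : Set G) : Subgroup G) : Set G) := by
    refine Alg.mem_centralizer_of_comm (hP.to_le inf_le_left) hx hxN fun q hq => ?_
    have h2 : x * q * x⁻¹ * q⁻¹ ∈ centralizer ({x} : Set G) := by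
      refine h ⟨P.mul_mem ((mem_normalizer_iff.1 hN q).1 hq.1) (P.inv_mem hq.1), ?_⟩
      have := mul_mem hxC (Alg.conj_mem_centralizer hq.2 (inv_mem hxC))
      simpa [mul_assoc] using this
    exact h2 x rfl
  have h3 : C = P := PLocal.Amb.eq_of_inf_normalizer_le hP inf_le_left
    (le_inf inf_le_left (Alg.le_centralizer_singleton_iff.2 h1))
  exact h3 ▸ hxC


/-- Fix a prime p and a maximal ideal M of the algebraic integers containing p. Let Q₀ < Q₁ < ⋯ < Q_m be a strictly increasing chain of p-subgroups of the finite group G and N the intersection of their normalizers. Then every block idempotent of N is supported on C_G(Q_m): for every p-block E of N, the idempotent coefficient of E vanishes at every element of N outside C_G(Q_m). -/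
theorem result {G : Type*} [Group G] [Fintype G] (p : ℕ) [Fact p.Prime] (M : Ideal Cfsg.AlgInt) (hM : Cfsg.IsPModular p M) (m : ℕ) (Q : Fin (m + 1) → Subgroup G) (hQ : StrictMono Q) (hQp : ∀ i, IsPGroup p (Q i)) (N : Subgroup G) (hN : ∀ g : G, g ∈ N ↔ ∀ i, g ∈ Subgroup.normalizer (Q i : Set G)) (E : Set (Cfsg.IrrCharacter N)) (hE : Cfsg.IsPBlock M E) (n : N) (hn : (n : G) ∉ Subgroup.centralizer (Q (Fin.last m) : Set G)) : Cfsg.blockCoeff E n = 0 := by
  by_contra h0
  have hp : ¬ p ∣ orderOf (n : G) := fun h =>
    h0 (blockCoeff_eq_zero_of_dvd hM hE (by rwa [Subgroup.orderOf_coe] at h))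
  have hR : ((Q (Fin.last m)).subgroupOf N).Normal := by
    rw [normal_subgroupOf_iff_le_normalizer_inf]
    intro g hg
    exact inf_normalizer_le_normalizer_inf ⟨(hN g).1 hg _, N.le_normalizer hg⟩
  have hc : ∀ y ∈ N, y ∈ Q (Fin.last m) → y ∈ centralizer ({(n : G)} : Set G) := by
    intro y hy hyQ
    by_contra h1
    refine h0 (blockCoeff_eq_zero_of_normal hM (P := (Q (Fin.last m)).subgroupOf N)
      ((hQp _).comap_of_injective _ N.subtype_injective) hE fun h2 => h1 ?_)
    rintro _ rfl
    exact (congrArg Subtype.val (h2 ⟨y, hy⟩ hyQ)).symm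
  have key : ∀ i, (n : G) ∈ centralizer (Q i : Set G) := by
    intro i
    induction i using Fin.induction with
    | zero =>
      refine Alg.le_centralizer_singleton_iff.1 fun y hy => hc y ((hN y).2 fun i => ?_) ?_
      · exact le_normalizer (hQ.monotone (Fin.zero_le i) hy)
      · exact hQ.monotone (Fin.zero_le _) hy
    | succ i ih =>
      refine pq (hQp _) hp ((hN n).1 n.2 _) fun y hy => hc y ((hN y).2 fun j => ?_) ?_
      · rcases le_or_gt i.succ j with h | h
        · exact le_normalizer (hQ.monotone h hy.1)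
        · refine centralizer_le_normalizer _ (Alg.centralizer_anti ?_ hy.2)
          have hj : j ≤ i.castSucc := Fin.le_castSucc_iff.2 h
          exact le_inf (hQ.monotone h.le)
            ((hQ.monotone hj).trans (Alg.le_centralizer_singleton_iff.2 ih))
      · exact hQ.monotone (Fin.le_last _) hy.1
  exact hn (key _)

end Cfsg.Agent.S4668
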