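import Cfsg.Statements.S4670
import Cfsg.Agent.Block.BrauerPair

set_option autoImplicit false
open Cfsg

namespace Cfsg.Agent.S4670

open Cfsg.Agent.Block Subgroup

open Alg in
theorem corr {k : Type*} [Field k] {G : Type*} [Group G] [Finite G] {p : ℕ} [Fact p.Prime]
    [CharP k p] {P H L : Subgroup G} (hP : IsPGroup p P) (hH : normalizer (P : Set G) ≤ H)
    (hL : normalizer (P : Set G) ≤ L) {b : MonoidAlgebra k G} (hb : IsPrim (Z k H) b)
    (hD : IsDef p H b P) : ∃ c, IsPrim (Z k L) c ∧ IsDef p L c P ∧ br P b = br P c := by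
  have e1 : ∀ {K : Subgroup G}, normalizer (P : Set G) ≤ K →
      K ⊓ normalizer (P : Set G) = normalizer (P : Set G) := fun h => inf_eq_right.2 h
  have e2 : ∀ {K : Subgroup G}, normalizer (P : Set G) ≤ K →
      K ⊓ centralizer (P : Set G) = centralizer (P : Set G) := fun h =>
    inf_eq_right.2 ((centralizer_le_normalizer _).trans h)
  have h1 := hD.isPrim_br le_rfl le_normalizer hb
  rw [e1 hH, e2 hH, ← e1 hL, ← e2 hL] at h1
  have h2 : MaxAt p L P (br P b) := fun R hR => hD.maxAt.br R (by rwa [e1 hH, ← e1 hL])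
  obtain ⟨c, hc, hcD, h⟩ := exists_isDef_br_eq le_rfl le_normalizer (le_normalizer.trans hL) hP h1 h2
  exact ⟨c, hc, hcD, h.symm⟩

open Alg in
theorem uniq {k : Type*} [Field k] {G : Type*} [Group G] [Finite G] {p : ℕ} [Fact p.Prime]
    [CharP k p] {P H : Subgroup G} {b c : MonoidAlgebra k G} (hb : IsPrim (Z k H) b)
    (hc : IsPrim (Z k H) c) (hD : IsDef p H b P) (h : br P b = br P c) : b = c :=
  hb.eq_of_br_mul_ne_zero le_rfl hc hD.le hD.pgroup (by
    rw [← h, br_idem hD.pgroup (hb.mem.2.mono hD.le) hb.idem]; exact hD.ne_zero)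


/-- Fix a prime p and a maximal ideal M of the algebraic integers containing p. Let P be a p-subgroup of the finite group G and H a subgroup containing N_G(P). For every p-block B of G with defect group P there is exactly one p-block c of H with defect group P whose idempotent agrees with that of B, modulo the local ideal at M, at every element of C_G(P) (their Brauer-map images at P coincide); and every p-block c of H with defect group P arises in this way from exactly one such B. This is the Brauer correspondence over H. -/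
theorem result {G : Type*} [Group G] [Fintype G] (p : ℕ) [Fact p.Prime] (M : Ideal Cfsg.AlgInt) (hM : Cfsg.IsPModular p M) (P H : Subgroup G) (hP : IsPGroup p P) (hH : Subgroup.normalizer (P : Set G) ≤ H) : (∀ B : Set (Cfsg.IrrCharacter G), Cfsg.IsPBlock M B → Cfsg.IsDefectGroup p M B P → ∃! c : Set (Cfsg.IrrCharacter H), Cfsg.IsPBlock M c ∧ Cfsg.IsDefectGroup p M c (P.subgroupOf H) ∧ ∀ x : G, x ∈ Subgroup.centralizer (P : Set G) → Cfsg.MemLocalIdeal M (Cfsg.blockCoeff B x - Cfsg.subgroupBlockCoeff H c x)) ∧ (∀ c : Set (Cfsg.IrrCharacter H), Cfsg.IsPBlock M c → Cfsg.IsDefectGroup p M c (P.subgroupOf H) → ∃! B : Set (Cfsg.IrrCharacter G), Cfsg.IsPBlock M B ∧ Cfsg.IsDefectGroup p M B P ∧ ∀ x : G, x ∈ Subgroup.centralizer (P : Set G) → Cfsg.MemLocalIdeal M (Cfsg.blockCoeff B x - Cfsg.subgroupBlockCoeff H c x)) := by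
  have := charP_resField hM
  have hPH : P ≤ H := le_normalizer.trans hH
  have key : ∀ {B : Set (IrrCharacter G)} {c : Set (IrrCharacter H)}, IsPBlock M B → IsPBlock M c →
      ((∀ x : G, x ∈ centralizer (P : Set G) →
        MemLocalIdeal M (blockCoeff B x - subgroupBlockCoeff H c x)) ↔
        Alg.br P (gbar M B) = Alg.br P (sbar M H c)) := by
    intro B c hB hc
    simp only [memLocalIdeal_sub_iff_coeff hM hc hB]
    constructor
    · intro h
      classical
      refine Alg.ext_coeff fun g => ?_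
      rw [Alg.coeff_br, Alg.coeff_br]
      split_ifs with hg
      · exact h g hg
      · rfl
    · intro h g hg
      rw [← Alg.coeff_br_of_mem _ hg, h, Alg.coeff_br_of_mem _ hg]
  constructor
  · intro B hB hD
    obtain ⟨c, hc, hcD, h⟩ := corr hP le_top hH (isPrim_redAlg_eSet hM hB)
      ((isDef_top_iff hM hB).2 hD)
    obtain ⟨c, hc', rfl⟩ := exists_block_of_isPrim_subtype hM hc
    refine ⟨c, ⟨hc', ((isDef_bar_subtype_iff' hM hc').1 hcD).2, (key hB hc').2 h⟩, ?_⟩
    rintro d ⟨hd, -, hd2⟩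
    exact (bar_inj_of_block hM H.subtype_injective hc' hd
      (uniq hc (isPrim_bar_subtype hM hd) hcD (h.symm.trans ((key hB hd).1 hd2)))).symm
  · intro c hc hD
    obtain ⟨b, hb, hbD, h⟩ := corr hP hH le_top (isPrim_bar_subtype hM hc)
      ((isDef_bar_subtype_iff' hM hc).2 ⟨hPH, hD⟩)
    obtain ⟨B, hB, rfl⟩ := exists_block_of_isPrim_top hM hb
    refine ⟨B, ⟨hB, (isDef_top_iff hM hB).1 hbD, (key hB hc).2 h.symm⟩, ?_⟩
    rintro A ⟨hA, -, hA2⟩
    exact (redAlg_eSet_inj (eSet_mem_intAlg hM hB) (eSet_mem_intAlg hM hA)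
      (uniq hb (isPrim_redAlg_eSet hM hA) hbD (h.symm.trans ((key hA hc).1 hA2).symm))).symm

end Cfsg.Agent.S4670
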