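import Cfsg.Statements.S4671
import Mathlib
import Cfsg.Agent.Block.CoverBridge

set_option autoImplicit false
open Cfsg

set_option linter.style.haveILetI false
set_option linter.unusedVariables false

namespace Cfsg.Agent.S4671

open Block Cfsg.Agent.Char

/-- Fix a prime p and a maximal ideal M of the algebraic integers containing p. Let N be a normal subgroup of the finite group G, B a p-block of G and P a defect group of B. Then there is a p-block c of N, stable under conjugation by P and covered by B (some member of B has a constituent in c on restriction to N), such that P ∩ N is a defect group of c. -/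
theorem result {G : Type*} [Group G] [Fintype G] (p : ℕ) [Fact p.Prime] (M : Ideal Cfsg.AlgInt) (hM : Cfsg.IsPModular p M) (N : Subgroup G) [N.Normal] [Fintype N] (B : Set (Cfsg.IrrCharacter G)) (hB : Cfsg.IsPBlock M B) (P : Subgroup G) (hP : Cfsg.IsDefectGroup p M B P) : ∃ c : Set (Cfsg.IrrCharacter N), Cfsg.IsPBlock M c ∧ (∀ x ∈ P, Cfsg.StabilizesBlock N c x) ∧ (∃ χ ∈ B, ∃ θ ∈ c, Cfsg.classInner (fun n : N => (χ : G → ℂ) n) (θ : N → ℂ) ≠ 0) ∧ Cfsg.IsDefectGroup p M c ((P ⊓ N).subgroupOf N) := by
  haveI := charP_resField hM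
  have h1 := isPrim_redAlg_eSet hM hB
  obtain ⟨c, hc, hi, -, hBc, hD⟩ := ((isDef_top_iff hM hB).2 hP).exists_stable_isDef_inf le_top
    (top_le_normalizer_of_normal N) h1.mem h1.idem
  obtain ⟨c, hc', rfl⟩ := exists_block_of_isPrim_subtype hM hc
  refine ⟨c, hc', fun x hx => ?_, (gbar_mul_sbar_ne_zero_iff hM N hB hc').1 hBc,
    isDefectGroup_of_isDef_sbar hM hc' hD⟩
  exact (stabilizesBlock_iff_mem_blockStab hM hc').2 ((inv_sbar_iff hM hc').1 hi hx)

end Cfsg.Agent.S4671
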