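import Cfsg.Statements.S4672
import Mathlib
import Cfsg.Agent.Block.CoverBridge

set_option autoImplicit false
open Cfsg

set_option linter.style.haveILetI false
set_option linter.unusedVariables false

namespace Cfsg.Agent.S4672

open Block Cfsg.Agent.Char

/-- Fix a prime p and a maximal ideal M of the algebraic integers containing p. Let N be a normal subgroup of the finite group G of p-power index and c a p-block of N stable under conjugation by G. Then the idempotent of c is a block idempotent of G: there is a p-block B of G whose idempotent coefficients agree with those of c on N and vanish off N; and for every defect group P of such a block B, G = NP and P ∩ N is a defect group of c. -/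
theorem result {G : Type*} [Group G] [Fintype G] (p : ℕ) [Fact p.Prime] (M : Ideal Cfsg.AlgInt) (hM : Cfsg.IsPModular p M) (N : Subgroup G) [N.Normal] (hN : ∃ k : ℕ, N.index = p ^ k) (c : Set (Cfsg.IrrCharacter N)) (hc : Cfsg.IsPBlock M c) (hst : ∀ x : G, Cfsg.StabilizesBlock N c x) : (∃ B : Set (Cfsg.IrrCharacter G), Cfsg.IsPBlock M B ∧ ∀ g : G, Cfsg.blockCoeff B g = Cfsg.subgroupBlockCoeff N c g) ∧ ∀ B : Set (Cfsg.IrrCharacter G), Cfsg.IsPBlock M B → (∀ g : G, Cfsg.blockCoeff B g = Cfsg.subgroupBlockCoeff N c g) → ∀ P : Subgroup G, Cfsg.IsDefectGroup p M B P → N ⊔ P = ⊤ ∧ Cfsg.IsDefectGroup p M c ((P ⊓ N).subgroupOf N) := by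
  classical
  haveI := charP_resField hM
  haveI : Fintype N := Fintype.ofFinite N
  have hT : blockStab N c = ⊤ :=
    eq_top_iff.2 fun x _ => (stabilizesBlock_iff_mem_blockStab hM hc).1 (hst x)
  have hS : IsStable N c := isStable_iff_blockStab.2 hT
  refine ⟨⟨above N c, isPBlock_above_of_index hM hN hc, ?_⟩, fun B hB h P hP => ?_⟩
  · exact (gbar_eq_iff hM hc (isPBlock_above_of_index hM hN hc)).1 (gbar_above_of_isStable hS)
  · have h1 : gbar M B = sbar M N c := (gbar_eq_iff hM hc hB).2 h
    have h2 := (isDef_top_iff hM hB).2 hP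
    change Alg.IsDef p ⊤ (gbar M B) P at h2
    rw [h1] at h2
    obtain ⟨h3, h4⟩ := h2.of_stable le_top (top_le_normalizer_of_normal N)
      (isPrim_bar_subtype hM hc) ((inv_sbar_iff hM hc).2 hT.ge)
    refine ⟨?_, isDefectGroup_of_isDef_sbar hM hc h3⟩
    rw [Subgroup.relIndex_top_right] at h4
    obtain ⟨k, hk⟩ := hN
    have h5 : (N ⊔ P).index ∣ p ^ k := hk ▸ Subgroup.index_dvd_of_le le_sup_left
    obtain ⟨j, -, hj⟩ := (Nat.dvd_prime_pow (Fact.out : p.Prime)).1 h5
    rw [← Subgroup.index_eq_one, hj]
    rcases j with _ | j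
    · rfl
    · exact absurd (hj ▸ dvd_pow_self p j.succ_ne_zero) h4

end Cfsg.Agent.S4672
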