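import Cfsg.Statements.S4673
import Mathlib
import Cfsg.Agent.Block.CoverBridge

set_option autoImplicit false
open Cfsg

set_option linter.style.haveILetI false
set_option linter.unusedVariables false

namespace Cfsg.Agent.S4673

open Block Cfsg.Agent.Char

/-- Fix a prime p and a maximal ideal M of the algebraic integers containing p. Let N ≤ L be normal subgroups of the finite group G with L/N a p-group, let B be a p-block of G covering the p-block c of N (some member of B has a constituent in c on restriction to N), and suppose that N contains a defect group of B. Then the stabilizer T of c in G satisfies T ∩ L = N. -/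
theorem result {G : Type*} [Group G] [Fintype G] (p : ℕ) [Fact p.Prime] (M : Ideal Cfsg.AlgInt) (hM : Cfsg.IsPModular p M) (N L : Subgroup G) [N.Normal] [L.Normal] [Fintype N] (hNL : N ≤ L) (hLN : ∃ k : ℕ, (N.subgroupOf L).index = p ^ k) (B : Set (Cfsg.IrrCharacter G)) (hB : Cfsg.IsPBlock M B) (c : Set (Cfsg.IrrCharacter N)) (hc : Cfsg.IsPBlock M c) (hcov : (∃ χ ∈ B, ∃ θ ∈ c, Cfsg.classInner (fun n : N => (χ : G → ℂ) n) (θ : N → ℂ) ≠ 0)) (hD : ∃ D : Subgroup G, Cfsg.IsDefectGroup p M B D ∧ D ≤ N) (T : Subgroup G) (hT : ∀ x : G, x ∈ T ↔ Cfsg.StabilizesBlock N c x) : T ⊓ L = N := by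
  classical
  haveI := charP_resField hM
  have hp : p.Prime := Fact.out
  have hT' : T = blockStab N c := by
    ext x
    rw [hT, stabilizesBlock_iff_mem_blockStab hM hc]
  have he : Alg.IsPrim (Alg.Z (resField M) N) (sbar M N c) := isPrim_bar_subtype hM hc
  have hB1 := isPrim_redAlg_eSet hM hB
  have hBe := (gbar_mul_sbar_ne_zero_iff hM N hB hc).2 hcov
  have hNS : N ≤ T ⊓ L := le_inf (hT' ▸ le_blockStab c) hNL
  have hi : Alg.Inv (T ⊓ L) (sbar M N c) := (inv_sbar_iff hM hc).2 (hT' ▸ inf_le_left)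
  have hreg : ∀ x ∈ L, ¬ p ∣ orderOf x → x ∈ N := by
    intro x hx h
    obtain ⟨k, hk⟩ := hLN
    refine Alg.mem_of_pow_pow_mem h (n := k) ?_
    have := Subgroup.pow_index_mem (N.subgroupOf L) ⟨x, hx⟩
    rw [hk] at this
    exact this
  obtain ⟨D', hD'⟩ := Alg.exists_isDef p hNS (le_normalizer_of_normal' N _) (he.isPrim_fix hNS hi)
  obtain ⟨-, h1⟩ := hD'.of_stable hNS (le_normalizer_of_normal' N _) he hi
  have h2 : T ⊓ L ≤ N ⊔ D' :=
    Alg.le_of_reg_mem (le_normalizer_of_normal' N _) (fun x hx => hreg x hx.2) le_sup_left h1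
  have hf := he.isPrim_osum hNL (le_normalizer_of_normal' N L)
  have hfe := he.osum_mul_self (le_normalizer_of_normal' N L)
  have hfZ : Alg.osum L (sbar M N c) ∈ Alg.Z (resField M) L := Alg.fix_mono hNL le_rfl hf.mem
  obtain ⟨g, hg, hfg⟩ := Alg.exists_isPrim_le (Alg.isComm_Z L) hfZ hf.idem hf.ne_zero
  have hg' := (regSupp hM).isPrim_fix hreg hg
  rw [inf_eq_left.2 hNL] at hg'
  have hfg' : Alg.osum L (sbar M N c) = g :=
    hf.eq_of_mul_ne_zero (Alg.isComm_fix hNL) hg' (by rw [hfg]; exact hg.ne_zero)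
  have hDL : D' ≤ L := hD'.le.trans inf_le_right
  have h3 : Alg.br D' g ≠ 0 := by
    intro h0
    apply hD'.ne_zero
    rw [hfg'] at hfe
    rw [← hfe, Alg.br_mul hD'.pgroup (hg.mem.2.mono hDL) (hi.mono hD'.le), h0, zero_mul]
  have h4 : gbar M B * g ≠ 0 := by
    intro h0
    apply hBe
    rw [hfg'] at hfe
    rw [← hfe, ← mul_assoc, h0, zero_mul]
  have h5 := Alg.br_ne_zero_of_cover le_top (top_le_normalizer_of_normal L) hB1.mem hB1.idem hg h4
    hDL hD'.pgroup h3
  obtain ⟨D, hD, hDN⟩ := hD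
  obtain ⟨t, -, ht⟩ := ((isDef_top_iff hM hB).2 hD).low D' le_top hD'.pgroup h5
  have h6 : D' ≤ N := by
    intro x hx
    have := hDN (Alg.map_cm_le_iff_forall.1 ht x hx)
    simpa [mul_assoc] using (inferInstance : N.Normal).conj_mem _ this t⁻¹
  exact le_antisymm (h2.trans (sup_le le_rfl h6)) hNS

end Cfsg.Agent.S4673
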