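import Cfsg.Statements.S4674
import Mathlib
import Cfsg.Agent.Block.CoverBridge

set_option autoImplicit false
open Cfsg

set_option linter.style.haveILetI false
set_option linter.unusedVariables false

namespace Cfsg.Agent.S4674

open Block Cfsg.Agent.Char Subgroup

/-- Fix a prime p and a maximal ideal M of the algebraic integers containing p. Let N be a normal subgroup of the finite group G, Q a p-subgroup of N, H = N_G(Q) and L = H ∩ N = N_N(Q). Let d be a p-block of N with defect group Q and e the p-block of L with defect group Q that induces d inside N (its Brauer correspondent). Then block induction from H to G is a bijection from the p-blocks of H covering e onto the p-blocks of G covering d: every block of H covering e induces exactly one block of G, and that block covers d; and every block of G covering d is induced by exactly one block of H covering e. -/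
theorem result {G : Type*} [Group G] [Fintype G] (p : ℕ) [Fact p.Prime] (M : Ideal Cfsg.AlgInt) (hM : Cfsg.IsPModular p M) (N : Subgroup G) [N.Normal] [Fintype N] (Q : Subgroup G) (hQ : IsPGroup p Q) (hQN : Q ≤ N) [Fintype ↥(Subgroup.normalizer (Q : Set G) ⊓ N)] (d : Set (Cfsg.IrrCharacter N)) (hd : Cfsg.IsPBlock M d) (hdQ : Cfsg.IsDefectGroup p M d (Q.subgroupOf N)) (e : Set (Cfsg.IrrCharacter ↥(Subgroup.normalizer (Q : Set G) ⊓ N))) (he : Cfsg.IsPBlock M e) (heQ : Cfsg.IsDefectGroup p M e (Q.subgroupOf (Subgroup.normalizer (Q : Set G) ⊓ N))) (hed : Cfsg.IsInducedBlockIn M N (Subgroup.normalizer (Q : Set G) ⊓ N) e d) : (∀ c : Set (Cfsg.IrrCharacter ↥(Subgroup.normalizer (Q : Set G))), Cfsg.IsPBlock M c → (∃ ψ ∈ c, ∃ ξ ∈ e, Cfsg.classInner (fun l : ↥(Subgroup.normalizer (Q : Set G) ⊓ N) => (ψ : ↥(Subgroup.normalizer (Q : Set G)) → ℂ) (Subgroup.inclusion inf_le_left l)) (ξ : ↥(Subgroup.normalizer (Q : Set G) ⊓ N) → ℂ) ≠ 0) → ∃! B : Set (Cfsg.IrrCharacter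 G), Cfsg.IsInducedBlock M (Subgroup.normalizer (Q : Set G)) c B ∧ (∃ χ ∈ B, ∃ θ ∈ d, Cfsg.classInner (fun n : N => (χ : G → ℂ) n) (θ : N → ℂ) ≠ 0)) ∧ (∀ B : Set (Cfsg.IrrCharacter G), Cfsg.IsPBlock M B → (∃ χ ∈ B, ∃ θ ∈ d, Cfsg.classInner (fun n : N => (χ : G → ℂ) n) (θ : N → ℂ) ≠ 0) → ∃! c : Set (Cfsg.IrrCharacter ↥(Subgroup.normalizer (Q : Set G))), (Cfsg.IsPBlock M c ∧ ∃ ψ ∈ c, ∃ ξ ∈ e, Cfsg.classInner (fun l : ↥(Subgroup.normalizer (Q : Set G) ⊓ N) => (ψ : ↥(Subgroup.normalizer (Q : Set G)) → ℂ) (Subgroup.inclusion inf_le_left l)) (ξ : ↥(Subgroup.normalizer (Q : Set G) ⊓ N) → ℂ) ≠ 0) ∧ Cfsg.IsInducedBlock M (Subgroup.normalizer (Q : Set G)) c B) := by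
  classical
  haveI := charP_resField hM
  have hd1 : Alg.IsPrim (Alg.Z (resField M) N) (sbar M N d) := isPrim_bar_subtype hM hd
  have he1 : Alg.IsPrim (Alg.Z (resField M) (normalizer (Q : Set G) ⊓ N))
      (sbar M (normalizer (Q : Set G) ⊓ N) e) := isPrim_bar_subtype hM he
  have hdQ1 := isDef_sbar_of_isDefectGroup hM hd hQN hdQ
  have hQK : Q ≤ normalizer (Q : Set G) ⊓ N := le_inf le_normalizer hQN
  have hcK := Alg.isComm_Z (k := resField M) (normalizer (Q : Set G) ⊓ N)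
  have hbrK : Alg.br Q (sbar M N d) ∈ Alg.Z (resField M) (normalizer (Q : Set G) ⊓ N) := by
    rw [inf_comm]
    exact Alg.br_mem_Z_normalizer hd1.mem
  have hkey : Alg.br Q (sbar M N d) = sbar M (normalizer (Q : Set G) ⊓ N) e := by
    have h1 := (isInducedBlockIn_iff_lam hM inf_le_right he hd).1 hed _ hd1.mem
    rw [hd1.lam_self (Alg.isComm_Z N)] at h1
    have htr : Alg.trunc (normalizer (Q : Set G) ⊓ N) (sbar M N d) ∈
        Alg.Z (resField M) (normalizer (Q : Set G) ⊓ N) :=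
      Alg.mem_fix.2 ⟨Alg.supp_trunc _ _, (hd1.mem.2.mono inf_le_right).trunc le_normalizer⟩
    have hsub := Subalgebra.sub_mem _ htr hbrK
    have hnil : IsNilpotent (Alg.trunc (normalizer (Q : Set G) ⊓ N) (sbar M N d) -
        Alg.br Q (sbar M N d)) := by
      refine Alg.isNilpotent_of_br_eq_zero hQ (hsub.1.mono inf_le_left) (hsub.2.mono hQK) ?_
      rw [map_sub, Alg.br_br_of_le le_rfl, Alg.br_trunc, hbrK.1.trunc_eq, sub_self]
    have h2 := (he1.lam_eq_zero_iff hcK hsub).2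
      ((show Commute _ _ from hcK _ hsub _ he1.mem).isNilpotent_mul_right hnil)
    rw [he1.lam_sub hcK htr hbrK, h1, sub_eq_zero] at h2
    have h3 := (he1.lam_eq_one_iff hcK hbrK (Alg.br_idem hQ (hd1.mem.2.mono hQN) hd1.idem)).1
      h2.symm
    have h4 := hdQ1.isPrim_br le_rfl le_normalizer hd1
    rw [← Alg.isPrim_Z_iff_of_normal hQ (le_inf hQN le_normalizer) inf_le_right
      (inf_le_inf_right _ inf_le_left) (Alg.inf_centralizer_le_inf_normalizer le_rfl),
      inf_comm] at h4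
    exact h4.eq_of_mul_ne_zero hcK he1 (by rw [h3]; exact he1.ne_zero)
  have hind : ∀ (c : Set (IrrCharacter (normalizer (Q : Set G)))) (B : Set (IrrCharacter G)),
      IsPBlock M c → IsPBlock M B → (IsInducedBlock M _ c B ↔
        Alg.br Q (gbar M B) * sbar M _ c = sbar M _ c) := fun c B hc hB =>
    isInducedBlock_iff_br hM hQ le_normalizer (centralizer_le_normalizer _) le_rfl hc hB
  have hcH := Alg.isComm_Z (k := resField M) (normalizer (Q : Set G))
  have hbrB : ∀ B : Set (IrrCharacter G),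
      Alg.br Q (gbar M B) ∈ Alg.Z (resField M) (normalizer (Q : Set G)) := fun B => by
    have := Alg.br_mem_Z_normalizer (P := Q) (gbar_mem_Z (M := M) B)
    rwa [top_inf_eq] at this
  refine ⟨fun c hc hce => ?_, fun B hB hBd => ?_⟩
  · have h1 := (sbar_mul_sbar_ne_zero_iff hM inf_le_left hc he).2 hce
    obtain ⟨B, hB⟩ := inducedBlockDefined_normalizer hM hQ hc
    refine ⟨B, ⟨hB, (gbar_mul_sbar_ne_zero_iff hM N hB.2.1 hd).1 fun h0 => h1 ?_⟩,
      fun B' hB' => induced_unique hM hB'.1 hB⟩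
    have h2 := (hind c B hc hB.2.1).1 hB
    have h3 := congrArg (Alg.br Q) h0
    rw [Alg.br_mul hQ ((gbar_mem_Z B).2.mono le_top) (hd1.mem.2.mono hQN), map_zero] at h3
    rw [← hkey, ← h2, hcH _ (hbrB B) _ (bar_mem_Z _ c), mul_assoc, h3, mul_zero]
  · have hB1 := isPrim_redAlg_eSet hM hB
    have h1 := Alg.br_mul_ne_zero_of_cover le_top (top_le_normalizer_of_normal N) hB1.mem hB1.idem
      hd1 ((gbar_mul_sbar_ne_zero_iff hM N hB hd).2 hBd) hQN hQ hdQ1.ne_zero
    obtain ⟨c, hc, h2⟩ := Alg.exists_isPrim_mul_ne_zero hcH h1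
    have h3 : Alg.br Q (gbar M B) * c = c := by
      refine hc.mul_eq_of_ne_zero (hbrB B) (Alg.br_idem hQ (hB1.mem.2.mono le_top) hB1.idem)
        fun h0 => h2 ?_
      rw [← mul_assoc, hcH _ hc.mem _ (hbrB B), h0, zero_mul]
    have h4 : c * Alg.br Q (sbar M N d) ≠ 0 := by
      intro h0
      apply h2
      rw [← mul_assoc, hcH _ hc.mem _ (hbrB B), mul_assoc, h0, mul_zero]
    obtain ⟨c, hc', rfl⟩ := exists_block_of_isPrim_subtype hM hc
    refine ⟨c, ⟨⟨hc', (sbar_mul_sbar_ne_zero_iff hM inf_le_left hc' he).1 (hkey ▸ h4)⟩,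
      (hind c B hc' hB).2 h3⟩, ?_⟩
    rintro c' ⟨⟨hc'', -⟩, h5⟩
    refine bar_inj_of_block hM (subtype_injective _) hc'' hc' ?_
    refine (Alg.eq_of_br_mul_eq_of_cover le_top (top_le_normalizer_of_normal N) hd1 hdQ1 hB1
      ?_ ?_ h4 h3 ((hind c' B hc'' hB).1 h5)).symm
    · rwa [top_inf_eq]
    · rw [top_inf_eq]
      exact isPrim_bar_subtype hM hc''

end Cfsg.Agent.S4674
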