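import Cfsg.Statements.S4675
import Cfsg.Agent.Block.Contrib
-- import your own Cfsg.Agent.* helpers here

set_option autoImplicit false
open Cfsg

namespace Cfsg.Agent.S4675

open Cfsg.Agent.Block Cfsg.Agent.Char
open scoped ComplexConjugate

/-- Fix a prime p and a maximal ideal M of the algebraic integers containing p. Let B be a p-block of the finite group G with defect group P and p-regular rank one (a single irreducible Brauer character). Then there are a function φ on G that is, on the p-regular elements, an integer combination of the members of B, and natural numbers d_χ (χ ∈ B), such that every χ ∈ B agrees with d_χ·φ on the p-regular elements and Σ_{χ ∈ B} d_χ² equals the order of P (the single Cartan invariant of B is the order of P). -/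
theorem result {G : Type*} [Group G] [Fintype G] (p : ℕ) [Fact p.Prime] (M : Ideal Cfsg.AlgInt) (hM : Cfsg.IsPModular p M) (B : Set (Cfsg.IrrCharacter G)) (hB : Cfsg.IsPBlock M B) (P : Subgroup G) (hP : Cfsg.IsDefectGroup p M B P) (hl : Cfsg.blockRank p B = 1) : ∃ φ : G → ℂ, ∃ d : Cfsg.IrrCharacter G → ℕ, (∃ n : Cfsg.IrrCharacter G → ℤ, ∀ x : G, Cfsg.IsPRegular p x → φ x = ∑ᶠ ψ ∈ B, (n ψ : ℂ) * (ψ : G → ℂ) x) ∧ (∀ χ ∈ B, ∀ x : G, Cfsg.IsPRegular p x → (χ : G → ℂ) x = (d χ : ℂ) * φ x) ∧ ∑ᶠ χ ∈ B, d χ ^ 2 = Nat.card P := by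
  classical
  have hA := eSet_mem_intAlg hM hB
  rw [blockRank_block_eq_card hM hB, Finset.card_eq_one] at hl
  obtain ⟨i, hi⟩ := hl
  have hiB : i ∈ ibrOf M B := by rw [hi]; exact Finset.mem_singleton_self i
  obtain ⟨a, ha0, ha1, ha2⟩ := exists_int_brauer_of_mem hM hA hiB
  have hreg : ∀ χ ∈ B, regPart p (χ : G → ℂ) = (dec (χ : G → ℂ) i : ℂ) • brauer i := by
    intro χ hχ
    rw [regPart_eq_sum_ibrOf hM hχ, hi, Finset.sum_singleton]
  refine ⟨brauer i, fun χ => dec (χ : G → ℂ) i, ⟨a, fun x hx => ?_⟩, fun χ hχ x hx => ?_, ?_⟩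
  · rw [ha2, finsum_mem_irr, Finset.sum_apply]
    refine Finset.sum_congr rfl fun χ _ => ?_
    split_ifs with h
    · rw [Pi.smul_apply, regPart_of_not_dvd _ hx, smul_eq_mul]
    · simp [ha0 χ h]
  · have := congrFun (hreg χ hχ) x
    rwa [regPart_of_not_dvd _ hx] at this
  have hc : ∑ᶠ χ ∈ B, dec (χ : G → ℂ) i ^ 2 = cartan i i := by
    rw [finsum_mem_irr, cartan]
    refine Finset.sum_congr rfl fun χ _ => ?_
    split_ifs with h
    · rw [sq]
    · rw [dec_eq_zero_of_mem_ibrOf hA hiB h, mul_zero]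
  rw [hc, card_defectGroup hM hB hP]
  have h1 : (cartan i i : ℂ) * classInner (brauer i) (brauer i) = 1 := by
    have h := sum_cartan_mul_classInner hM i i
    rw [if_pos rfl, Finset.sum_eq_single i] at h
    · exact h
    · intro j _ hj
      rw [cartan_eq_zero hA hiB (by rw [hi]; simpa using hj)]; simp
    · simp
  have h2 : ∀ χ ∈ B, ∀ ψ ∈ B, (cartan i i : ℤ) * contr p B (χ : G → ℂ) (ψ : G → ℂ) =
      p ^ blockDefect p B * (dec (χ : G → ℂ) i * dec (ψ : G → ℂ) i) := by
    intro χ hχ ψ hψ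
    have h := cast_contr hM hχ ψ.2.isGen
    rw [← regPart_regPart, classInner_regPart_left, hreg χ hχ, hreg ψ hψ, classInner_smul_left,
      classInner_smul_right, map_natCast] at h
    have h' : (cartan i i : ℂ) * contr p B (χ : G → ℂ) (ψ : G → ℂ) =
        p ^ blockDefect p B * (dec (χ : G → ℂ) i * dec (ψ : G → ℂ) i) := by
      rw [h]; linear_combination (p ^ blockDefect p B * (dec (χ : G → ℂ) i * dec (ψ : G → ℂ) i)) * h1
    exact_mod_cast h'
  have h3 : (cartan i i : ℤ) ∣ p ^ blockDefect p B := by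
    have h4 := ha1 i
    rw [if_pos rfl] at h4
    have h5 : (p : ℤ) ^ blockDefect p B = ∑ χ : IrrCharacter G, ∑ ψ : IrrCharacter G,
        a χ * a ψ * (p ^ blockDefect p B * (dec (χ : G → ℂ) i * dec (ψ : G → ℂ) i)) := by
      have : ∀ χ ψ : IrrCharacter G,
          a χ * a ψ * (p ^ blockDefect p B * (dec (χ : G → ℂ) i * dec (ψ : G → ℂ) i)) =
          p ^ blockDefect p B * ((a χ * dec (χ : G → ℂ) i) * (a ψ * dec (ψ : G → ℂ) i)) :=
        fun _ _ => by ring
      simp only [this, ← Finset.mul_sum, ← Finset.sum_mul, h4, mul_one]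
    rw [h5]
    refine Finset.dvd_sum fun χ _ => Finset.dvd_sum fun ψ _ => ?_
    by_cases hχ : χ ∈ B
    · by_cases hψ : ψ ∈ B
      · rw [← h2 χ hχ ψ hψ]; exact Dvd.dvd.mul_left (dvd_mul_right _ _) _
      · simp [ha0 ψ hψ]
    · simp [ha0 χ hχ]
  obtain ⟨e, he, hce⟩ := (Nat.dvd_prime_pow hM.1).1 (by exact_mod_cast h3 :
    cartan i i ∣ p ^ blockDefect p B)
  rw [hce]
  congr 1
  by_contra hne
  obtain ⟨χ, hχ, h0⟩ := exists_blockHeight_eq_zero (p := p) (block_nonempty hM hB)
  apply not_pow_succ_dvd_contr hM hB hχ hχ h0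
  have h6 := h2 χ hχ χ hχ
  obtain ⟨f, hf⟩ : ∃ f, blockDefect p B = e + (f + 1) := ⟨blockDefect p B - e - 1, by omega⟩
  rw [hce, hf, pow_add, Nat.cast_pow, mul_assoc] at h6
  rw [h0, mul_left_cancel₀ (pow_ne_zero e (by exact_mod_cast hM.1.ne_zero)) h6]
  exact Dvd.dvd.mul_right (pow_dvd_pow _ (by omega)) _

end Cfsg.Agent.S4675
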