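import Cfsg.Statements.S4681
import Cfsg.Agent.Block.PairFus

set_option autoImplicit false
open Cfsg

namespace Cfsg.Agent.S4681

open Cfsg.Agent.Block Subgroup


/-- Fix a prime p and a maximal ideal M of the algebraic integers containing p. Let B₀ be the principal p-block of the finite group G, P a Sylow p-subgroup and e₀ the principal p-block of C_G(P). Then (P, e₀) is a maximal Brauer pair of B₀, and the fusion system of B₀ on (P, e₀) is the fusion system of G on P: its maps from each subgroup of P are exactly the conjugation maps into P by elements of G. -/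
theorem result {G : Type*} [Group G] [Fintype G] (p : ℕ) [Fact p.Prime] (M : Ideal Cfsg.AlgInt) (hM : Cfsg.IsPModular p M) (S : Sylow p G) : Cfsg.IsMaximalBrauerPair p M (Cfsg.principalBlock M G) (S : Subgroup G) (Cfsg.principalBlock M (Subgroup.centralizer ((S : Subgroup G) : Set G))) ∧ ∀ F : Cfsg.FusionSystem (S : Subgroup G), Cfsg.IsBlockFusionSystemOn p M (Cfsg.principalBlock M G) (S : Subgroup G) (Cfsg.principalBlock M (Subgroup.centralizer ((S : Subgroup G) : Set G))) F → ∀ Q : Subgroup G, F.Hom Q = (Cfsg.groupFusionSystem (S : Subgroup G)).Hom Q := by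
  have := charP_resField hM
  have hB := isPBlock_principalBlock M G
  have he := isPBlock_principalBlock M (centralizer ((S : Subgroup G) : Set G))
  have hb := isPrim_redAlg_eSet hM hB
  have h1 := (bp_bar_iff hM he).2 ⟨S.isPGroup', he⟩
  refine ⟨(maxBP_cbar_iff hM hB he).1 ((Alg.of_of_aug hb (aug_gbar_principal hM) h1
    (aug_bar_principal hM _)).maxBP_of_isDef ((Alg.isDef_iff_of_aug hb.mem.2
      (aug_gbar_principal hM)).2 ⟨le_top, Fus.sylIn_top S⟩)), fun F hF Q => ?_⟩
  ext φ
  rw [(isPairFus_of hM hF).mem_iff_of_aug h1 (aug_bar_principal hM _), Fus.mem_hom_group]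
  simp

end Cfsg.Agent.S4681
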