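import Cfsg.Statements.S4682
import Cfsg.Agent.Block.PairFus

set_option autoImplicit false
open Cfsg

namespace Cfsg.Agent.S4682

open Cfsg.Agent.Block Subgroup


/-- Fix a prime p and a maximal ideal M of the algebraic integers containing p, a p-block B of the finite group G with maximal Brauer pair (P, e), P abelian, and a Brauer pair (Q, f) ≤ (P, e). Let T_Q be the stabilizer of f in N_G(Q) and T_P the stabilizer of e in N_G(P). Then every element of T_Q is a product of an element of T_P and an element of C_G(Q); and the index of C_G(Q) in T_Q equals the index of T_P ∩ C_G(Q) in T_P ∩ N_G(Q). -/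
theorem result {G : Type*} [Group G] [Fintype G] (p : ℕ) [Fact p.Prime] (M : Ideal Cfsg.AlgInt) (hM : Cfsg.IsPModular p M) (B : Set (Cfsg.IrrCharacter G)) (P : Subgroup G) (e : Set (Cfsg.IrrCharacter (Subgroup.centralizer (P : Set G)))) (hmax : Cfsg.IsMaximalBrauerPair p M B P e) (hab : ∀ x ∈ P, ∀ y ∈ P, x * y = y * x) (Q : Subgroup G) (f : Set (Cfsg.IrrCharacter (Subgroup.centralizer (Q : Set G)))) (hQP : Q ≤ P) (hf : Cfsg.IsPBlock M f) (hle : Cfsg.SubpairLE p M Q f P e) (TQ : Subgroup G) (hTQ : ∀ y : G, y ∈ TQ ↔ y ∈ Subgroup.normalizer (Q : Set G) ∧ Cfsg.StabilizesBlock (Subgroup.centralizer (Q : Set G)) f y) (TP : Subgroup G) (hTP : ∀ y : G, y ∈ TP ↔ y ∈ Subgroup.normalizer (P : Set G) ∧ Cfsg.StabilizesBlock (Subgroup.centralizer (P : Set G)) e y) : (∀ x ∈ TQ, ∃ y ∈ TP, ∃ c ∈ Subgroup.centralizer (Q : Set G), x = y * c) ∧ ((Subgroup.centralizer (Q : Set G)).subgroupOf TQ).index = ((TP ⊓ Subgroup.centralizer (Q : Set G)).subgroupOf (TP ⊓ Subgroup.normalizer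 (Q : Set G))).index := by
  have := charP_resField hM
  have hm := maxBP_of_isMaximal hM hmax
  have h := ple_of_subpairLE hM hle hmax.1.1
  obtain rfl := eq_nst_of hM hf hTQ
  obtain rfl := eq_nst_of hM hmax.1.1.2 hTP
  have hPQ : P ≤ centralizer (Q : Set G) :=
    fun x hx => mem_centralizer_iff.2 fun y hy => hab y (hQP hy) x hx
  have key : ∀ x ∈ Alg.nst ⊤ Q (cbar M Q f), ∃ y ∈ Alg.nst ⊤ P (cbar M P e) ⊓ normalizer (Q : Set G),
      y⁻¹ * x ∈ centralizer (Q : Set G) := fun x hx => by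
    obtain ⟨c, hc, h1⟩ := hm.exists_mul_mem_nst h hPQ hx
    have h2 := Alg.nst_le_normalizer _ _ _ hx
    refine ⟨c * x, ⟨h1, Subgroup.mul_mem _ (centralizer_le_normalizer _ hc.2) h2⟩, ?_⟩
    simpa [mul_assoc] using Alg.conj_mem_centralizer (inv_mem h2) (Subgroup.inv_mem _ hc.2)
  refine ⟨fun x hx => ?_, ?_⟩
  · obtain ⟨y, hy, h1⟩ := key x hx
    exact ⟨y, hy.1, _, h1, by simp⟩
  · change (centralizer (Q : Set G)).relIndex _ = relIndex _ _
    rw [Alg.relIndex_eq_of_mul (C := Alg.nst ⊤ P (cbar M P e) ⊓ normalizer (Q : Set G)) ?_ key,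
      ← inf_relIndex_right (centralizer (Q : Set G)), inf_left_comm,
      inf_of_le_left (centralizer_le_normalizer (Q : Set G))]
    intro y hy
    obtain ⟨h1, h2, h3⟩ := Alg.mem_nst.1 hy.1
    exact Alg.mem_nst.2 ⟨h1, hy.2, h.mem_stab h1 h2 h3 hy.2⟩

end Cfsg.Agent.S4682
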