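import Cfsg.Statements.S4694
import Cfsg.Agent.Block.CoverBridge
import Cfsg.Agent.Block.NormalDefect
import Cfsg.Agent.Char.Triple

set_option autoImplicit false
open Cfsg

namespace Cfsg.Agent.S4694

open Cfsg.Agent.Block Subgroup


/-- Fix a prime p and a maximal ideal M of the algebraic integers containing p, a p-block B of the finite group G and a Brauer pair (Q, e) of B. Let T be the stabilizer of e in N_G(Q) and suppose that (Q, e) carries a weight: the block of T whose idempotent is that of e contains an irreducible character χ that is constant on the cosets of Q and whose degree has p-part equal to the p-part of the index of Q in T. Then Z(Q) is a defect group of e as a block of C_G(Q), and Q is the largest normal p-subgroup of T: every p-subgroup of T normalized by T lies in Q. -/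
theorem result {G : Type*} [Group G] [Fintype G] (p : ℕ) [Fact p.Prime] (M : Ideal Cfsg.AlgInt) (hM : Cfsg.IsPModular p M) (B : Set (Cfsg.IrrCharacter G)) (Q : Subgroup G) (e : Set (Cfsg.IrrCharacter (Subgroup.centralizer (Q : Set G)))) (hQe : Cfsg.IsBrauerPairOf p M B Q e) (T : Subgroup G) (hT : ∀ y : G, y ∈ T ↔ y ∈ Subgroup.normalizer (Q : Set G) ∧ Cfsg.StabilizesBlock (Subgroup.centralizer (Q : Set G)) e y) (F' : Set (Cfsg.IrrCharacter T)) (hF' : Cfsg.IsPBlock M F') (hF'e : ∀ t : T, Cfsg.blockCoeff F' t = Cfsg.subgroupBlockCoeff (Subgroup.centralizer (Q : Set G)) e (t : G)) (χ : Cfsg.IrrCharacter T) (hχ : χ ∈ F') (hχQ : ∀ q : G, q ∈ Q → ∀ t : T, ∀ t' : T, (t' : G) = q * (t : G) → (χ : T → ℂ) t' = (χ : T → ℂ) t) (hdeg : (Cfsg.charDegree (χ : T → ℂ)).factorization p + (Nat.card Q).factorization p = (Nat.card T).factorization p) : Cfsg.IsDefectGroup p M e ((Q ⊓ Subgroup.centralizer (Q : Set G)).subgroupOf (Subgroup.centralizer (Q : Set G))) ∧ ∀ R : Subgroup G, R ≤ T → IsPGroup p R → (∀ t ∈ T, t ∈ Subgroup.normalizer (R : Set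 G)) → R ≤ Q := by
  have := charP_resField hM
  have hp : p.Prime := Fact.out
  have he : IsPBlock M e := hQe.1.2
  have hQ : IsPGroup p Q := hQe.1.1
  have hbp := (of_of_isBrauerPairOf hM hQe).pair
  have hT' := eq_nst_of hM he hT
  have hQT : Q ≤ T := hT' ▸ hbp.le_nst
  have hCT : centralizer (Q : Set G) ≤ T := hT' ▸ (le_inf le_top le_rfl).trans hbp.centralizer_le_nst
  have hTN : T ≤ normalizer (Q : Set G) := fun y hy => ((hT y).1 hy).1
  have : (Q.subgroupOf T).Normal := normal_subgroupOf_of_le_normalizer hTN
  obtain ⟨ψ, hψ⟩ := Char.exists_irr_deflation (Q.subgroupOf T) χ.2 fun n hn =>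
    hχQ n hn 1 n (by simp)
  have hψd : (charDegree (ψ : T ⧸ Q.subgroupOf T → ℂ)).factorization p =
      (Nat.card (T ⧸ Q.subgroupOf T)).factorization p := by
    have h1 : charDegree (ψ : T ⧸ Q.subgroupOf T → ℂ) = charDegree (χ : T → ℂ) :=
      Char.charDegree_congr_one (hψ 1)
    rw [← (Q.subgroupOf T).index_mul_card,
      Nat.factorization_mul FiniteIndex.index_ne_zero Nat.card_pos.ne',
      Nat.card_congr (subgroupOfEquivOfLe hQT).toEquiv] at hdeg
    rw [h1, ← index_eq_card]
    simpa using hdeg
  constructor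
  · let κ : centralizer (Q : Set G) →* T ⧸ Q.subgroupOf T :=
      (QuotientGroup.mk' _).comp (inclusion hCT)
    have hker : κ.ker = (Q ⊓ centralizer (Q : Set G)).subgroupOf (centralizer (Q : Set G)) := by
      ext x
      simp [κ, MonoidHom.mem_ker, mem_subgroupOf]
    have : κ.range.Normal := by
      have : ((centralizer (Q : Set G)).subgroupOf T).Normal := normal_subgroupOf_of_le_normalizer
        (hTN.trans (Alg.normalizer_le_normalizer_centralizer Q))
      rw [MonoidHom.range_comp, inclusion_range]
      exact this.map _ (QuotientGroup.mk'_surjective _)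
    have := Fintype.ofFinite κ.range
    have := Fintype.ofFinite (centralizer (Q : Set G))
    obtain ⟨η, hη⟩ := exists_irr_under κ.range ψ
    obtain ⟨d, hd1, hd2⟩ := Char.exists_deg_eq_mul_dvd_index κ.range η.2 ψ.2 hη
    have hd : charDegree (ψ : T ⧸ Q.subgroupOf T → ℂ) = d * charDegree (η : κ.range → ℂ) :=
      Char.charDegree_eq_of_one_eq (by rw [hd1, Nat.cast_mul, Char.coe_charDegree_irr])
    have hd0 : d ≠ 0 := by rintro rfl; exact Char.charDegree_irr_ne_zero ψ (by simpa using hd)
    have h1 := factorization_charDegree_le η.2 p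
    have h2 := (Nat.factorization_le_iff_dvd hd0 FiniteIndex.index_ne_zero).2 hd2 p
    rw [hd, ← κ.range.index_mul_card, Nat.factorization_mul hd0 (Char.charDegree_irr_ne_zero η),
      Nat.factorization_mul FiniteIndex.index_ne_zero Nat.card_pos.ne'] at hψd
    simp only [Finsupp.add_apply] at hψd
    let θ := Char.inflateIrr κ.rangeRestrict κ.rangeRestrict_surjective η
    have hD := isDefectGroup_of_central hM (D := κ.ker)
      (hker ▸ (hQ.to_le inf_le_left).comap_of_injective _ (subtype_injective _))
      (hker ▸ fun z hz => mem_center_iff.2 fun g => Subtype.ext (g.2 z hz.1).symm) θ (by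
        rw [Char.charDegree_inflateIrr, index_ker]; omega)
    have h3 := (sbar_mul_sbar_ne_zero_iff hM hCT hF' (isPBlock_blockOf θ)).2
      ⟨χ, hχ, θ, self_mem_blockOf hM θ, by
        rw [← Char.classInner_comp_surjective κ.rangeRestrict κ.rangeRestrict_surjective] at hη
        convert hη using 2
        · exact funext fun x => (hψ _).symm
        · rfl⟩
    rw [(sbar_eq_iff hM hCT he hF').2 hF'e] at h3
    rw [bar_inj_of_block hM (subtype_injective _) he (isPBlock_blockOf θ)
      ((isPrim_bar_subtype hM he).eq_of_mul_ne_zero (Alg.isComm_Z _)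
        (isPrim_bar_subtype hM (isPBlock_blockOf θ)) h3), ← hker]
    exact hD
  · intro R hRT hR hn r hr
    have : (R.subgroupOf T).Normal := normal_subgroupOf_of_le_normalizer hn
    have : ((R.subgroupOf T).map (QuotientGroup.mk' (Q.subgroupOf T))).Normal :=
      this.map _ (QuotientGroup.mk'_surjective _)
    have h1 := le_defectGroup_of_normal hM (isPBlock_blockOf ψ)
      ((isDefectGroup_bot_iff hM (isPBlock_blockOf ψ)).2
        ((blockDefect_blockOf_eq_zero_iff hM).2 hψd))
      ((R.subgroupOf T).map (QuotientGroup.mk' (Q.subgroupOf T)))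
      ((hR.comap_of_injective _ T.subtype_injective).map (QuotientGroup.mk' (Q.subgroupOf T)))
    exact (QuotientGroup.eq_one_iff (N := Q.subgroupOf T) ⟨r, hRT hr⟩).1
      (mem_bot.1 (h1 ⟨⟨r, hRT hr⟩, hr, rfl⟩))

end Cfsg.Agent.S4694
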