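import Cfsg.Statements.S4699
import Mathlib

set_option autoImplicit false
open Cfsg

set_option linter.style.haveILetI false
set_option linter.unusedVariables false

namespace Cfsg.Agent.S4699

open Finset

theorem geom_eq {S : Type*} [Ring S] (F : Type*) [Field F] [Algebra F S] (p n : ℕ) [Fact p.Prime]
    [CharP F p] (y : S) : ∑ i ∈ range (p ^ n), y ^ i = (y - 1) ^ (p ^ n - 1) := by
  have h : ∑ i ∈ range (p ^ n), (Polynomial.X : Polynomial F) ^ i =
      (Polynomial.X - 1) ^ (p ^ n - 1) := by
    have h0 : (Polynomial.X - 1 : Polynomial F) ≠ 0 := Polynomial.X_sub_C_ne_zero 1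
    apply mul_right_cancel₀ h0
    rw [geom_sum_mul, ← pow_succ, Nat.sub_add_cancel (Nat.one_le_pow _ _ (Fact.out : p.Prime).pos),
      sub_pow_char_pow, one_pow]
  simpa using congrArg (Polynomial.aeval y) h

theorem trace_zero {S : Type*} [Ring S] (F : Type*) [Field F] [Algebra F S] (p n m : ℕ)
    [Fact p.Prime] [CharP F p] (a b s : S) (ha : (a - 1) ^ m = 0) (hb : (b - 1) ^ m = 0)
    (hpm : p ≤ m) (hm : m + p ≤ p ^ n) :
    (a - 1) ^ (m - p) * ∑ i ∈ range (p ^ n), a ^ i * s * b ^ i = 0 := by
  let A : Module.End F S := LinearMap.mulLeft F (a - 1) * LinearMap.mulRight F b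
  let B : Module.End F S := LinearMap.mulRight F (b - 1)
  have h1 : LinearMap.mulLeft F a * LinearMap.mulRight F b - 1 = A + B := by
    ext t
    simp [A, B, sub_mul, mul_sub]
  have h2 : ∑ i ∈ range (p ^ n), a ^ i * s * b ^ i =
      (∑ i ∈ range (p ^ n), (LinearMap.mulLeft F a * LinearMap.mulRight F b) ^ i) s := by
    rw [LinearMap.sum_apply]
    refine sum_congr rfl fun i _ => ?_
    rw [(LinearMap.commute_mulLeft_right a b).mul_pow, LinearMap.pow_mulLeft,
      LinearMap.pow_mulRight]
    simp [mul_assoc]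
  have hc : Commute A B := by
    ext t
    simp [A, B, mul_sub, sub_mul, mul_assoc]
  rw [h2, geom_eq F p n, h1, hc.add_pow, LinearMap.sum_apply, mul_sum]
  refine sum_eq_zero fun i hi => ?_
  by_cases h : p ≤ i
  · rw [(LinearMap.commute_mulLeft_right (a - 1) b).mul_pow, LinearMap.pow_mulLeft, mul_assoc,
      mul_assoc, Module.End.mul_apply, LinearMap.mulLeft_apply, ← mul_assoc, ← pow_add,
      pow_eq_zero_of_le (by omega) ha, zero_mul]
  · have : B ^ (p ^ n - 1 - i) = 0 := by
      rw [LinearMap.pow_mulRight, pow_eq_zero_of_le (by omega) hb]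
      ext t
      simp
    rw [this]
    simp

theorem mul_geom {S : Type*} [Ring S] (a : S) (m k : ℕ) (ha : (a - 1) ^ (m + 1) = 0) :
    (a - 1) ^ m * ∑ i ∈ range k, a ^ i = (a - 1) ^ m * k := by
  have h : ∀ i : ℕ, (a - 1) ^ m * a ^ i = (a - 1) ^ m := by
    intro i
    induction i with
    | zero => simp
    | succ i ih =>
      rw [pow_succ', ← mul_assoc, show (a - 1) ^ m * a = (a - 1) ^ m by
        rw [← sub_eq_zero, ← mul_sub_one, ← pow_succ, ha], ih]
  simp [mul_sum, h, (Nat.cast_commute k _).eq]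

theorem mul_pow_sub {S : Type*} [Ring S] (a : S) (m k j : ℕ) (ha : (a - 1) ^ (m + j + 1) = 0) :
    (a - 1) ^ m * (a ^ k - 1) ^ j = (a - 1) ^ (m + j) * (k : S) ^ j := by
  have hc : Commute (a - 1) (∑ i ∈ range k, a ^ i) :=
    Commute.sum_right _ _ _ fun i _ => ((Commute.refl a).sub_left (Commute.one_left a)).pow_right i
  rw [← mul_geom_sum, hc.mul_pow, ← mul_assoc, ← pow_add]
  generalize m + j = r at ha ⊢
  induction j with
  | zero => simp
  | succ j ih =>
    rw [pow_succ, ← mul_assoc, ih, mul_assoc, ((Nat.cast_commute k _).pow_left j).eq, ← mul_assoc,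
      mul_geom a r k ha, mul_assoc, ← pow_succ', pow_succ]

theorem sum_free {H X A : Type*} [Group H] [Fintype H] [MulAction H X] [Fintype X]
    [AddCommMonoid A] (I : AddSubmonoid A) (f : X → A) (Q : X → Prop) [DecidablePred Q]
    (hQ : ∀ (u : H) x, Q x → Q (u • x)) (hfree : ∀ x, Q x → ∀ u : H, u • x = x → u = 1)
    (h : ∀ x, Q x → ∑ u : H, f (u • x) ∈ I) : ∑ x with Q x, f x ∈ I := by
  classical
  rw [← sum_fiberwise (univ.filter Q)
    (fun x => (Quotient.mk _ x : MulAction.orbitRel.Quotient H X))]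
  refine I.sum_mem fun w _ => ?_
  induction w using Quotient.inductionOn with | h x => ?_
  by_cases hx : Q x
  · convert h x hx using 1
    symm
    refine sum_bij (fun u _ => u • x) (fun u _ => ?_) (fun u _ v _ huv => ?_) (fun y hy => ?_)
      (fun _ _ => rfl)
    · simp only [mem_filter, mem_univ, true_and]
      exact ⟨hQ u x hx, Quotient.sound (MulAction.mem_orbit x u)⟩
    · have := hfree x hx (v⁻¹ * u) (by rw [mul_smul, huv, inv_smul_smul])
      rw [inv_mul_eq_one] at this
      exact this.symm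
    · simp only [mem_filter, mem_univ, true_and] at hy
      obtain ⟨u, hu⟩ := Quotient.exact hy.2
      exact ⟨u, mem_univ _, hu⟩
  · rw [sum_eq_zero]
    · exact I.zero_mem
    intro y hy
    simp only [mem_filter, mem_univ, true_and] at hy
    obtain ⟨u, hu⟩ := Quotient.exact hy.2
    have := hQ u⁻¹ y hy.1
    rw [← hu, inv_smul_smul] at this
    exact absurd this hx

/-- Let p be a prime and G a finite group whose Sylow p-subgroup P is cyclic of order p^n with n ≥ 2 and meets every other Sylow p-subgroup trivially. Then every faithful irreducible representation of G on a finite-dimensional space over a finite field of characteristic p has dimension at least p^n − (p − 1). -/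
theorem result {G : Type*} [Group G] [Finite G] (p : ℕ) [Fact p.Prime] (P : Sylow p G) (hcyc : IsCyclic P) (n : ℕ) (hn : 2 ≤ n) (hPn : Nat.card P = p ^ n) (hTI : ∀ Q : Sylow p G, Q ≠ P → (P : Subgroup G) ⊓ (Q : Subgroup G) = ⊥) (F : Type*) [Field F] [Finite F] [CharP F p] (V : Type*) [AddCommGroup V] [Module F V] [FiniteDimensional F V] (ρ : Representation F G V) (hfaith : Function.Injective ρ) (hirr : ρ.IsIrreducible) : p ^ n - (p - 1) ≤ Module.finrank F V := by
  classical
  have hp : p.Prime := Fact.out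
  by_contra hlt
  push Not at hlt
  have := Fintype.ofFinite G
  obtain ⟨g, hg⟩ := IsCyclic.exists_generator (α := P)
  have hog : orderOf g = p ^ n := by rw [orderOf_eq_card_of_forall_mem_zpowers hg, hPn]
  have hV : Nontrivial V := by
    by_contra h
    rw [not_nontrivial_iff_subsingleton] at h
    have := hirr
    refine (bot_ne_top (α := Subrepresentation ρ)) ?_
    ext v
    rw [Subsingleton.elim v 0]
    exact ⟨fun _ => Submodule.zero_mem _, fun _ => Submodule.zero_mem _⟩
  have hch : CharP (Module.End F V) p := charP_of_injective_algebraMap (algebraMap F _).injective p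
  set a : Module.End F V := ρ g with ha
  set b : Module.End F V := ρ (g⁻¹ : P) with hb
  have hpow : ∀ k, (a - 1) ^ p ^ k = ρ ((g ^ p ^ k : P) : G) - 1 := fun k => by
    rw [sub_pow_char_pow_of_commute _ _ (Commute.one_right a), one_pow, ha, ← map_pow]
    rfl
  have hnil : IsNilpotent (a - 1) := ⟨p ^ n, by rw [hpow, ← hog, pow_orderOf_eq_one]; simp⟩
  have hfin : (a - 1) ^ Module.finrank F V = 0 := by
    have := LinearMap.aeval_self_charpoly (a - 1)
    rwa [hnil.charpoly_eq_X_pow_finrank, map_pow, Polynomial.aeval_X] at this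
  have hex : ∃ m, (a - 1) ^ m = 0 := hnil
  set m := Nat.find hex with hm
  have hm0 : (a - 1) ^ m = 0 := Nat.find_spec hex
  have hm1 : m ≤ Module.finrank F V := Nat.find_min' hex hfin
  have hm2 : p < m := by
    by_contra h
    have h1 := pow_eq_zero_of_le (not_lt.1 h) hm0
    have h2 := hpow 1
    rw [pow_one, h1, eq_comm, sub_eq_zero, ← map_one ρ] at h2
    have h3 : g ^ p = 1 := Subtype.ext (hfaith h2)
    have h4 := Nat.le_of_dvd hp.pos (orderOf_dvd_of_pow_eq_one h3)
    rw [hog] at h4
    have := Nat.pow_lt_pow_right hp.one_lt (show 1 < n by omega)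
    rw [pow_one] at this
    omega
  have hm3 : (a - 1) ^ (m - 1) ≠ 0 := Nat.find_min hex (by omega)
  have hab : a * b = 1 := by rw [ha, hb, ← map_mul]; simp
  have hba : b * a = 1 := by rw [ha, hb, ← map_mul]; simp
  have hb0 : (b - 1) ^ m = 0 := by
    have hc : Commute (a - 1) (-b) :=
      (Commute.sub_left (hab.trans hba.symm) (Commute.one_left b)).neg_right
    rw [show b - 1 = (a - 1) * (-b) by rw [mul_neg, sub_mul, hab]; simp, hc.mul_pow, hm0, zero_mul]
  have hPc : ∀ u : P, ∃ k : ℕ, u = g ^ k := fun u => by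
    obtain ⟨k, hk⟩ := (mem_powers_iff_mem_zpowers).2 (hg u)
    exact ⟨k, hk.symm⟩
  let f : G ⧸ (P : Subgroup G) → Module.End F V := fun x =>
    Quotient.liftOn' x (fun h => ρ h * (a - 1) ^ (p - 1) * ρ h⁻¹) fun h k hk => by
      obtain ⟨j, hj⟩ := hPc ⟨_, QuotientGroup.leftRel_apply.1 hk⟩
      have h1 : k = h * (g : G) ^ j := by
        rw [← Subgroup.coe_pow, ← hj]; simp
      have h2 : Commute (ρ ((g : G) ^ j)) ((a - 1) ^ (p - 1)) := by
        rw [map_pow]
        exact ((Commute.refl a).sub_right (Commute.one_right a)).pow_pow _ _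
      simp only [h1, map_mul, mul_inv_rev]
      rw [mul_assoc (ρ h) (ρ _), h2.eq, mul_assoc, mul_assoc (ρ h), mul_assoc, ← mul_assoc (ρ (_ ^ j)), ← map_mul, mul_inv_cancel, map_one, one_mul]
  have hf : ∀ (u : G) x, f (u • x) = ρ u * f x * ρ u⁻¹ := fun u x => by
    induction x using QuotientGroup.induction_on with | H h => ?_
    change ρ (u * h) * _ * ρ (u * h)⁻¹ = ρ u * (ρ h * _ * ρ h⁻¹) * _
    simp only [map_mul, mul_inv_rev, mul_assoc]
  set t := ∑ x, f x with ht
  have htc : ∀ u : G, t * ρ u = ρ u * t := fun u => by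
    have : t = ρ u * t * ρ u⁻¹ := by
      rw [ht, mul_sum, sum_mul, ← Equiv.sum_comp (MulAction.toPerm u)]
      exact sum_congr rfl fun x _ => hf u x
    conv_lhs => rw [this]
    rw [mul_assoc, ← map_mul, inv_mul_cancel, map_one, mul_one]
  have key : (a - 1) ^ (m - p) * t = (a - 1) ^ (m - 1) *
      (Nat.card (MulAction.fixedPoints P (G ⧸ (P : Subgroup G))) : Module.End F V) := by
    rw [ht, ← sum_filter_add_sum_filter_not univ
      (· ∈ MulAction.fixedPoints P (G ⧸ (P : Subgroup G))), mul_add]
    have h1 : (a - 1) ^ (m - p) * ∑ x with x ∉ MulAction.fixedPoints P (G ⧸ (P : Subgroup G)),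
        f x = 0 := by
      refine sum_free (H := P) (LinearMap.ker (LinearMap.mulLeft F ((a - 1) ^ (m - p)))).toAddSubmonoid
        f _ (fun u x hx hu => hx fun v => ?_) (fun x hx u hu => ?_) (fun x hx => ?_)
      · have := hu (u * v * u⁻¹)
        rwa [mul_smul, mul_smul, inv_smul_smul, smul_left_cancel_iff] at this
      · induction x using QuotientGroup.induction_on with | H h => ?_
        by_cases hQ : h • P = P
        · refine absurd (fun v => ?_) hx
          refine QuotientGroup.eq.2 ?_
          have := (Sylow.smul_eq_iff_mem_normalizer.1 hQ)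
          have h2 := (Subgroup.mem_normalizer_iff''.1 this (v⁻¹ : P)).1 (v⁻¹).2
          simpa [Subgroup.smul_def, mul_assoc] using h2
        · have h2 : (u : G) ∈ (P : Subgroup G) ⊓ (h • P : Sylow p G) := by
            refine Subgroup.mem_inf.2 ⟨u.2, ?_⟩
            have h3 : ((u : G) * h)⁻¹ * h ∈ (P : Subgroup G) := QuotientGroup.eq.1 hu
            rw [Sylow.coe_subgroup_smul, Subgroup.mem_pointwise_smul_iff_inv_smul_mem]
            simpa [mul_assoc] using inv_mem h3
          rw [hTI _ hQ] at h2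
          exact Subtype.ext h2
      · change (a - 1) ^ (m - p) * _ = 0
        rw [← trace_zero F p n m a b (f x) hm0 hb0 hm2.le (by omega)]
        congr 1
        symm
        refine sum_bij (fun i _ => g ^ i) (fun _ _ => mem_univ _) (fun i hi j hj hij => ?_)
          (fun u _ => ?_) (fun i _ => ?_)
        · exact pow_injOn_Iio_orderOf (by simpa [hog] using hi) (by simpa [hog] using hj) hij
        · obtain ⟨k, rfl⟩ := hPc u
          exact ⟨k % orderOf g, mem_range.2 (hog ▸ Nat.mod_lt _ (orderOf_pos g)),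
            pow_mod_orderOf g k⟩
        · have := hf (g ^ i : P) x
          refine Eq.trans ?_ this.symm
          rw [ha, hb, ← map_pow, ← map_pow]
          simp
    rw [h1, add_zero, mul_sum, sum_congr rfl (g := fun _ => (a - 1) ^ (m - 1))]
    · rw [sum_const, nsmul_eq_mul, Nat.card_eq_fintype_card, Fintype.card_subtype,
        (Nat.cast_commute _ _).eq]
    intro x hx
    induction x using QuotientGroup.induction_on with | H h => ?_
    have h2 : h * g * h⁻¹ ∈ (P : Subgroup G) := by
      have h3 : ∀ v ∈ (P : Subgroup G), h⁻¹ * v * h⁻¹⁻¹ ∈ (P : Subgroup G) := fun v hv => by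
        have h4 := QuotientGroup.eq.1 ((mem_filter.1 hx).2 ⟨v⁻¹, inv_mem hv⟩)
        simpa [Subgroup.smul_def, mul_assoc] using h4
      have h4 : h ∈ Subgroup.normalizer ((P : Subgroup G) : Set G) := by
        simpa using inv_mem (Subgroup.mem_normalizer_fintype h3)
      exact (Subgroup.mem_normalizer_iff.1 h4 g).1 g.2
    obtain ⟨k, hk⟩ := hPc ⟨_, h2⟩
    have hk' : h * g * h⁻¹ = (g : G) ^ k := congrArg Subtype.val hk
    have hpk : ¬ p ∣ k := by
      rintro ⟨j, rfl⟩
      have h5 : orderOf (h * g * h⁻¹) = p ^ n := by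
        rw [← MulAut.conj_apply, MulEquiv.orderOf_eq, Subgroup.orderOf_coe, hog]
      have h6 : (h * g * h⁻¹) ^ p ^ (n - 1) = 1 := by
        rw [hk', ← pow_mul, mul_comm p j, mul_assoc, ← pow_succ', Nat.sub_add_cancel (by omega),
          mul_comm, pow_mul, ← hog, ← Subgroup.coe_pow, pow_orderOf_eq_one]
        simp
      have := Nat.le_of_dvd (Nat.pow_pos hp.pos) (orderOf_dvd_of_pow_eq_one h6)
      rw [h5, Nat.pow_le_pow_iff_right hp.one_lt] at this
      omega
    have h7 : f (h : G ⧸ (P : Subgroup G)) = (a ^ k - 1) ^ (p - 1) := by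
      change ρ h * (a - 1) ^ (p - 1) * ρ h⁻¹ = _
      have h8 : ρ h * (a - 1) * ρ h⁻¹ = a ^ k - 1 := by
        rw [mul_sub, sub_mul, mul_one, ha, ← map_mul, ← map_mul, ← map_mul, hk', mul_inv_cancel,
          map_one, map_pow]
      rw [← h8]
      exact (Units.conj_pow (ρ.asGroupHom h) (a - 1) (p - 1)).symm
    have h10 : m - p + (p - 1) = m - 1 := by have := hp.pos; omega
    rw [h7, mul_pow_sub a _ k _ (by rw [h10, Nat.sub_add_cancel (by omega), hm0]), h10,
      ← Nat.cast_pow, (CharP.natCast_eq_natCast' _ p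
        (Nat.ModEq.pow_totient ((Nat.Prime.coprime_iff_not_dvd hp).2 hpk).symm |>
          (Nat.totient_prime hp ▸ ·))), Nat.cast_one, mul_one]
  have hc : ¬ p ∣ Nat.card (MulAction.fixedPoints P (G ⧸ (P : Subgroup G))) := fun h =>
    P.not_dvd_index ((Nat.modEq_zero_iff_dvd.1 ((P.2.card_modEq_card_fixedPoints
      (G ⧸ (P : Subgroup G))).trans (Nat.modEq_zero_iff_dvd.2 h))))
  have := hirr
  rcases Representation.IsIrreducible.bijective_or_eq_zero
    (⟨t, fun u => htc u⟩ : ρ.IntertwiningMap ρ) with h | h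
  · apply hm3
    have h1 : (a - 1) ^ (m - 1) * t = 0 := by
      rw [show m - 1 = (p - 1) + (m - p) by have := hp.pos; omega, pow_add, mul_assoc, key,
        ← mul_assoc, ← pow_add, pow_eq_zero_of_le (by have := hp.two_le; omega) hm0, zero_mul]
    exact ((Module.End.isUnit_iff t).2 h).mul_left_eq_zero.1 h1
  · have h1 : t = 0 := congrArg Representation.IntertwiningMap.toLinearMap h
    rw [h1, mul_zero, ← map_natCast (algebraMap F (Module.End F V)), eq_comm,
      ← Algebra.commutes, ← Algebra.smul_def, smul_eq_zero] at key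
    exact key.elim (fun h => hc ((CharP.cast_eq_zero_iff F p _).1 h)) hm3

end Cfsg.Agent.S4699
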