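import Cfsg.Statements.S4700
import Cfsg.Agent.Char.PrimeB0Ex
import Cfsg.Agent.Char.BrauerReynoldsMain

set_option autoImplicit false
open Cfsg

namespace Cfsg.Agent.S4700

open Subgroup Cfsg.Agent.Grp Cfsg.Agent.Grp.SelfCent Cfsg.Agent.Char Cfsg.Agent.Char.SelfC Cfsg.Agent.Small


/-- Let G be a finite perfect group and p a prime such that a Sylow p-subgroup of G has order p, and write the number of Sylow p-subgroups as 1 + np. Let H = O_p'(G). Then either p > 3 and G/H is isomorphic to PSL(2, p); or p = 2^m + 1 > 3 and G/H is isomorphic to SL(2, 2^m); or n = (hup + u^2 + u + h)/(u + 1) for some positive integers h and u. -/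
theorem result {G : Type*} [Group G] [Finite G] (hperf : commutator G = ⊤) (p : ℕ) [Fact p.Prime] (P : Sylow p G) (hP : Nat.card P = p) (n : ℕ) (hn : Nat.card (Sylow p G) = 1 + n * p) : (∃ (F : Type) (_ : Field F) (_ : Fintype F), Fintype.card F = p ∧ 3 < p ∧ Nonempty (G ⧸ Cfsg.pPrimeCore p G ≃* Matrix.ProjectiveSpecialLinearGroup (Fin 2) F)) ∨ (∃ (m : ℕ) (F : Type) (_ : Field F) (_ : Fintype F), Fintype.card F = 2 ^ m ∧ p = 2 ^ m + 1 ∧ 3 < p ∧ Nonempty (G ⧸ Cfsg.pPrimeCore p G ≃* Matrix.SpecialLinearGroup (Fin 2) F)) ∨ (∃ h u : ℕ, 0 < h ∧ 0 < u ∧ n * (u + 1) = h * u * p + u ^ 2 + u + h) := by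
  by_cases hT : Third p n
  · exact Or.inr (Or.inr hT)
  obtain ⟨x, hx, hxP⟩ := exists_zpowers_eq_sylow P hP
  have hN : (normalizer ((zpowers x : Subgroup G) : Set G)).index = n * p + 1 := by
    rw [hxP, add_comm, ← hn]; exact P.card_eq_index_normalizer.symm
  obtain ⟨h1, h2, ⟨Q, hQ⟩, h3⟩ := exists_quotient_data hperf P hxP.symm hx (Cfsg.pPrimeCore p G)
    (not_dvd_card_pPrimeCore p G) hN hT
  obtain ⟨D⟩ := exists_b0Data (ne_two_of_perfect h1 Q hQ h2) Q hQ h2
  rcases brauerReynolds_core D h1 (pPrimeCore_quotient_pPrimeCore p G) Q hQ h2 h3 hT with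
    h | ⟨m, F, _, _, hF, hpm, h3p, ⟨e⟩⟩
  · exact Or.inl h
  · refine Or.inr (Or.inl ⟨m, F, inferInstance, inferInstance, hF, hpm, h3p,
      ⟨e.trans (Perm.ZassPSL.slEquivPsl ?_).symm⟩⟩)
    rw [Nat.card_eq_fintype_card, hF]
    refine even_two.pow_of_ne_zero ?_
    rintro rfl
    omega

end Cfsg.Agent.S4700
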