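import Cfsg.Statements.S4704
import Cfsg.Agent.Blau.Main

set_option autoImplicit false
open Cfsg

namespace Cfsg.Agent.S4704

/-- Let G be a finite group with centre Z, p > 7 a prime, and suppose a Sylow p-subgroup of G has order p and is not normal. Let ζ be a faithful irreducible character of G and t the number of conjugacy classes of G consisting of elements of order p. Then one of the following holds: G/Z is isomorphic to PSL(2, p), ζ has degree (p + 1)/2 or (p − 1)/2 and t = 2; or ζ has degree at least p − 1; or ζ has degree at least p + 3/2 − √(p + 5/4) and p ≤ t^2 − 3t + 1. -/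
theorem result {G : Type*} [Group G] [Finite G] (p : ℕ) [Fact p.Prime] (hp : 7 < p) (P : Sylow p G) (hP : Nat.card P = p) (hnn : ¬ (P : Subgroup G).Normal) (ζ : G → ℂ) (hζ : Cfsg.IsIrrCharacter G ζ) (hfaith : ∀ g : G, ζ g = ζ 1 → g = 1) (t : ℕ) (ht : Nat.card {c : ConjClasses G // ∃ g : G, ConjClasses.mk g = c ∧ orderOf g = p} = t) : ((∃ (F : Type) (_ : Field F) (_ : Fintype F), Fintype.card F = p ∧ Nonempty (G ⧸ Subgroup.center G ≃* Matrix.ProjectiveSpecialLinearGroup (Fin 2) F)) ∧ (2 * Cfsg.charDegree ζ = p + 1 ∨ 2 * Cfsg.charDegree ζ = p - 1) ∧ t = 2) ∨ p - 1 ≤ Cfsg.charDegree ζ ∨ ((p : ℝ) + 3 / 2 - Real.sqrt ((p : ℝ) + 5 / 4) ≤ (Cfsg.charDegree ζ : ℝ) ∧ (p : ℤ) ≤ (t : ℤ) ^ 2 - 3 * t + 1) := by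
  obtain ⟨x, hx, hG, hn⟩ := Blau.exists_of_sylow P hP hnn
  obtain ⟨y, a, e, t', S⟩ := Blau.exists_gs hx hG (by omega)
  obtain rfl : t' = t := S.card_classes.symm.trans ht
  by_cases h : p - 1 ≤ charDegree ζ
  · exact Or.inr (Or.inl h)
  rcases S.main hp hn hζ hfaith (by omega) with ⟨h1, h2⟩ | ⟨h1, h2, -⟩
  · exact Or.inl ⟨⟨ZMod p, inferInstance, inferInstance, ZMod.card p, h1⟩, h2⟩
  have h3 : (e : ℝ) * t' + 1 = p := by exact_mod_cast S.het
  have h4 : (e : ℝ) + 3 ≤ t' := by exact_mod_cast h2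
  have h5 : (charDegree ζ : ℝ) + e = p := by exact_mod_cast h1
  have h6 : (e : ℝ) + 3 / 2 ≤ Real.sqrt ((p : ℝ) + 5 / 4) :=
    Real.le_sqrt_of_sq_le (by nlinarith [(Nat.cast_nonneg e : (0 : ℝ) ≤ e)])
  have h7 : (e : ℤ) * t' + 1 = p := by exact_mod_cast S.het
  have h8 : (e : ℤ) + 3 ≤ t' := by exact_mod_cast h2
  exact Or.inr (Or.inr ⟨by linarith, by nlinarith [(Nat.cast_nonneg t' : (0 : ℤ) ≤ t')]⟩)

end Cfsg.Agent.S4704
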