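import Cfsg.Statements.S4708
import Cfsg.Agent.Block.CoverMore

set_option autoImplicit false
open Cfsg

namespace Cfsg.Agent.S4708

open Cfsg.Agent.Block Subgroup

open Cfsg.Agent.Char in
theorem sum_sq_le {G : Type*} [Group G] {H : Subgroup G} [Fintype H] (χ : IrrCharacter G)
    [DecidablePred fun θ : IrrCharacter H => classInner (fun n : H => (χ : G → ℂ) n) θ ≠ 0] :
    ∑ θ : IrrCharacter H, (if classInner (fun n : H => (χ : G → ℂ) n) θ ≠ 0 then
      charDegree (θ : H → ℂ) ^ 2 else 0) ≤ charDegree (χ : G → ℂ) ^ 2 := by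
  obtain ⟨c, hc, h⟩ := (χ.2.isCharacter.restrict H).exists_coeff
  have h1 : charDegree (χ : G → ℂ) = ∑ θ : IrrCharacter H, c θ * charDegree (θ : H → ℂ) := by
    refine charDegree_eq_of_one_eq ?_
    have := congrFun h 1
    simp only [Finset.sum_apply, Pi.smul_apply, smul_eq_mul, OneMemClass.coe_one] at this
    rw [this]
    simp [coe_charDegree_irr]
  rw [h1]
  refine le_trans (Finset.sum_le_sum fun θ _ => ?_) (Finset.sum_sq_le_sq_sum_of_nonneg
    fun _ _ => Nat.zero_le _)
  split_ifs with h2
  · rw [hc, Nat.cast_ne_zero] at h2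
    exact Nat.pow_le_pow_left (Nat.le_mul_of_pos_left _ (Nat.pos_of_ne_zero h2)) 2
  · exact Nat.zero_le _


/-- Let p be a prime, M a maximal ideal of the algebraic integers containing p, G a finite group and H a normal subgroup. Write λ(X) for the sum of the squares of the degrees of the irreducible characters in the principal p-block of a group X. Then λ(H) ≤ λ(G) ≤ [G : H]·λ(H). -/
theorem result {G : Type*} [Group G] [Finite G] (p : ℕ) [Fact p.Prime] (M : Ideal Cfsg.AlgInt) (hM : Cfsg.IsPModular p M) (H : Subgroup G) [H.Normal] : (∑ᶠ θ ∈ Cfsg.principalBlock M H, Cfsg.charDegree (θ : H → ℂ) ^ 2) ≤ (∑ᶠ χ ∈ Cfsg.principalBlock M G, Cfsg.charDegree (χ : G → ℂ) ^ 2) ∧ (∑ᶠ χ ∈ Cfsg.principalBlock M G, Cfsg.charDegree (χ : G → ℂ) ^ 2) ≤ H.index * ∑ᶠ θ ∈ Cfsg.principalBlock M H, Cfsg.charDegree (θ : H → ℂ) ^ 2 := by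
  classical
  have := Fintype.ofFinite G
  have := Fintype.ofFinite H
  have hB := isPBlock_principalBlock M G
  have hb := isPBlock_principalBlock M H
  have hc := covers_principal (N := H) hM
  constructor
  · rw [finsum_mem_irr, finsum_mem_irr]
    calc _ ≤ ∑ θ : IrrCharacter H, ∑ χ : IrrCharacter G, if χ ∈ principalBlock M G then
          (if classInner (fun n : H => (χ : G → ℂ) n) θ ≠ 0 then charDegree (θ : H → ℂ) ^ 2
            else 0) else 0 := by
          refine Finset.sum_le_sum fun θ _ => ?_
          split_ifs with hθ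
          · obtain ⟨χ, hχ, h⟩ := hc.exists_over hM hB hb hθ
            refine le_trans ?_ (Finset.single_le_sum (fun _ _ => Nat.zero_le _) (Finset.mem_univ χ))
            rw [if_pos hχ, if_pos h]
          · exact Nat.zero_le _
      _ ≤ _ := by
          rw [Finset.sum_comm]
          refine Finset.sum_le_sum fun χ _ => ?_
          split_ifs
          · exact sum_sq_le χ
          · simp
  · have hs : IsStable H (principalBlock M H) := fun g θ hθ => by
      have := conjSet_eq_of_mem hM hb (g := g) (self_mem_blockOf hM (Char.irrOne H))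
        (self_mem_blockOf hM (Char.irrOne H))
      rw [← this]
      exact conjIrr_mem_conjSet.2 hθ
    have h1 := blockCoeff_above_coe (principalBlock M H) (1 : H)
    rw [hs.orbitSet_eq, OneMemClass.coe_one, blockCoeff_one, blockCoeff_one,
      ← H.index_mul_card] at h1
    have h2 : ∑ᶠ χ ∈ above H (principalBlock M H), charDegree (χ : G → ℂ) ^ 2 =
        H.index * ∑ᶠ θ ∈ principalBlock M H, charDegree (θ : H → ℂ) ^ 2 := by
      apply Nat.cast_injective (R := ℂ)
      simp only [finsum_mem_irr] at h1 ⊢
      push_cast at h1 ⊢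
      have := Char.card_ne_zero H
      have : (H.index : ℂ) ≠ 0 := Nat.cast_ne_zero.2 FiniteIndex.index_ne_zero
      field_simp at h1
      exact h1
    rw [← h2, finsum_mem_irr, finsum_mem_irr]
    refine Finset.sum_le_sum fun χ _ => ?_
    split_ifs with h3 h4
    · rfl
    · exact absurd (hc.subset_above hM hB hb h3) h4
    · exact Nat.zero_le _
    · rfl

end Cfsg.Agent.S4708
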