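import Cfsg.Statements.S4709
import Cfsg.Agent.Block.FrobSylow

set_option autoImplicit false
open Cfsg

namespace Cfsg.Agent.S4709

open Cfsg.Agent.Char Cfsg.Agent.Block Subgroup

/-- Let p be a prime, M a maximal ideal of the algebraic integers containing p, and G a finite group with a nontrivial abelian Sylow p-subgroup P; put N = N_G(P), C = C_G(P). Suppose N/C is cyclic of order m with 1 < m < #P − 1 (C has index m in N and N is generated by C and one element), and C_G(y) ∩ N = C for every non-identity y ∈ P. Put r = (#P − 1)/m. Then there is s ≤ m such that the principal p-block is the disjoint union of a set X of s characters containing the principal character and a set Y of r characters, with integers a_χ ≠ 0 (χ ∈ X), d and a sign δ = ±1, such that: every χ ∈ X takes the value a_χ at every element whose p-part is a non-identity element of P; there is a map ζ from the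 non-principal linear characters ψ of P onto Y, constant on N-conjugacy classes, with ζ_ψ(z) = d + δ·Σ ψ'(y) for every z whose p-part y is a non-identity element of P, the sum running over the N-conjugates ψ' of ψ; (d − δ)^2 + (r − 1) d^2 + Σ_{χ ∈ X} a_χ^2 = m + 1; all members of Y agree on p-regular elements; and (r d − δ) η(g) + Σ_{χ ∈ X} a_χ χ(g) = 0 for every η ∈ Y and every p-regular g. -/
theorem result {G : Type*} [Group G] [Finite G] (p : ℕ) [Fact p.Prime] (M : Ideal Cfsg.AlgInt) (hM : Cfsg.IsPModular p M) (P : Sylow p G) (hab : IsMulCommutative P) (hP1 : Nat.card P ≠ 1) (m : ℕ) (hm1 : 1 < m) (hm2 : m + 1 < Nat.card P) (hCN : (Subgroup.centralizer ((P : Subgroup G) : Set G)).relIndex (Subgroup.normalizer ((P : Subgroup G) : Set G)) = m) (hcyc : ∃ g : G, g ∈ Subgroup.normalizer ((P : Subgroup G) : Set G) ∧ Subgroup.centralizer ((P : Subgroup G) : Set G) ⊔ Subgroup.zpowers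 g = Subgroup.normalizer ((P : Subgroup G) : Set G)) (hfrob : ∀ y : G, y ∈ (P : Subgroup G) → y ≠ 1 → Subgroup.centralizer ({y} : Set G) ⊓ Subgroup.normalizer ((P : Subgroup G) : Set G) = Subgroup.centralizer ((P : Subgroup G) : Set G)) : ∃ (s : ℕ) (X Y : Set (Cfsg.IrrCharacter G)), s ≤ m ∧ Cfsg.principalBlock M G = X ∪ Y ∧ Disjoint X Y ∧ Nat.card X = s ∧ Nat.card Y = (Nat.card P - 1) / m ∧ (∃ χ₁ ∈ X, (χ₁ : G → ℂ) = fun _ => 1) ∧ ∃ (a : Cfsg.IrrCharacter G → ℤ) (d δ : ℤ) (ζ : (↥(P : Subgroup G) →* ℂˣ) → Cfsg.IrrCharacter G), (δ = 1 ∨ δ = -1) ∧ (∀ χ ∈ X, a χ ≠ 0 ∧ ∀ z y : G, Cfsg.IsPPart p z y → y ∈ (P : Subgroup G) → y ≠ 1 → (χ : G → ℂ) z = (a χ : ℂ)) ∧ (∀ ψ : ↥(P : Subgroup G) →* ℂˣ, ψ ≠ 1 → ζ ψ ∈ Y) ∧ (∀ η ∈ Y, ∃ ψ : ↥(P : Subgroup G) →* ℂˣ, ψ ≠ 1 ∧ ζ ψ = η) ∧ (∀ ψ ψ' : ↥(P : Subgroup G) →* ℂˣ, ψ ≠ 1 → (∃ n : G, n ∈ Subgroup.normalizer ((P : Subgroup G) : Set G) ∧ ∀ w w' :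 ↥(P : Subgroup G), (w' : G) = n * w * n⁻¹ → ψ' w' = ψ w) → ζ ψ' = ζ ψ) ∧ (∀ ψ : ↥(P : Subgroup G) →* ℂˣ, ψ ≠ 1 → ∀ (z : G) (y : ↥(P : Subgroup G)), Cfsg.IsPPart p z (y : G) → (y : G) ≠ 1 → (ζ ψ : G → ℂ) z = (d : ℂ) + (δ : ℂ) * ∑ᶠ ψ' ∈ {ψ' : ↥(P : Subgroup G) →* ℂˣ | ∃ n : G, n ∈ Subgroup.normalizer ((P : Subgroup G) : Set G) ∧ ∀ w w' : ↥(P : Subgroup G), (w' : G) = n * w * n⁻¹ → ψ' w' = ψ w}, ((ψ' y : ℂˣ) : ℂ)) ∧ ((d - δ) ^ 2 + ((Nat.card P - 1) / m - 1 : ℤ) * d ^ 2 + ∑ᶠ χ ∈ X, a χ ^ 2 = (m : ℤ) + 1) ∧ (∀ η ∈ Y, ∀ η' ∈ Y, ∀ g : G, ¬ p ∣ orderOf g → (η : G → ℂ) g = (η' : G → ℂ) g) ∧ (∀ η ∈ Y, ∀ g : G, ¬ p ∣ orderOf g → ((((Nat.card P - 1) / m : ℕ) : ℂ) * d - δ) * (η : G → ℂ) g + ∑ᶠ χ ∈ X, (a χ : ℂ) * (χ : G → ℂ) g = 0) := by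
  classical
  have := Fintype.ofFinite G
  have h : FrobHyp (P : Subgroup G) := hfrob
  have hm2' : m + 1 < Nat.card (P : Subgroup G) := hm2
  obtain ⟨hr, hnt⟩ := h.card_orbs hCN hm2'
  obtain ⟨D⟩ := h.nonempty_frobData hM
  obtain ⟨⟨_, ψ, hψ, rfl⟩⟩ : Nonempty (Orbs (P : Subgroup G)) := inferInstance
  have hn := D.norm_eq h hM hψ
  have hr2 : (2 : ℤ) ≤ Nat.card (Orbs (P : Subgroup G)) := by
    exact_mod_cast Finite.one_lt_card_iff_nontrivial.2 hnt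
  rw [hCN] at hn
  refine ⟨_, principalBlock M G \ Set.range D.μ, Set.range D.μ, ?_, D.union_eq,
    Set.disjoint_sdiff_left, rfl, D.card_range.trans hr, ⟨_, D.irrOne_mem hM, rfl⟩, D.a, D.d, D.δ,
    D.zeta, D.sign, fun χ hχ => ⟨D.a_ne_zero hM hψ hχ, D.valX' h hM hχ⟩, fun _ => D.zeta_mem,
    fun _ => D.exists_zeta, fun _ _ => D.zeta_congr, fun _ => D.valY' h hM, ?_, ?_, ?_⟩
  · have h1 := D.card_le_finsum hM hψ
    have h2 : 1 ≤ (D.d - D.δ) ^ 2 + ((Nat.card (Orbs (P : Subgroup G)) : ℤ) - 1) * D.d ^ 2 := by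
      by_cases hd : D.d = 0
      · rcases D.sign with h | h <;> simp [hd, h]
      · have : 0 < D.d ^ 2 := by positivity
        nlinarith [sq_nonneg (D.d - D.δ)]
    omega
  · rw [← hn, hr]
    have : 1 ≤ Nat.card (P : Subgroup G) := Nat.card_pos
    push_cast [this]
    rfl
  · rintro _ ⟨i, rfl⟩ _ ⟨j, rfl⟩
    exact D.agree i j
  · rintro _ ⟨i, rfl⟩ g hg
    rw [← D.rel_regular hM i hg, hr]

end Cfsg.Agent.S4709
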