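import Cfsg.Statements.S4711
import Cfsg.Agent.Block.Principal
import Cfsg.Agent.Block.Orth
import Cfsg.Agent.Char.SchurBound
import Cfsg.Agent.Char.Garrison
import Cfsg.Agent.FT.PLength
-- import your own Cfsg.Agent.* helpers here

set_option autoImplicit false
open Cfsg

namespace Cfsg.Agent.S4711

open Cfsg.Agent.Block Cfsg.Agent.Char
open scoped ComplexConjugate

open Subgroup

theorem key {G : Type*} [Group G] [Finite G] {p : ℕ} [hp : Fact p.Prime] {M : Ideal AlgInt}
    (hM : IsPModular p M) (P : Sylow p G)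
    (h : ∀ χ ∈ principalBlock M G, IsIrrCharacter (normalizer ((P : Subgroup G) : Set G))
      (fun n : normalizer ((P : Subgroup G) : Set G) => (χ : G → ℂ) n))
    {χ : IrrCharacter G} (hχ : χ ∈ principalBlock M G) {y : G}
    (hy : y ∈ normalClosure ((P : Subgroup G) : Set G)) (hy' : ¬ p ∣ orderOf y) :
    (χ : G → ℂ) y = (χ : G → ℂ) 1 := by
  classical
  set N := normalizer ((P : Subgroup G) : Set G) with hN
  letI := Fintype.ofFinite N
  set B := Finset.univ.filter (· ∈ principalBlock M G) with hB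
  have mB : ∀ {ψ : IrrCharacter G}, ψ ∈ B ↔ ψ ∈ principalBlock M G := by simp [hB]
  let Q : Subgroup N := (P : Subgroup G).subgroupOf N
  haveI : Q.Normal := normal_in_normalizer
  letI := Fintype.ofFinite Q
  have hQ : IsPGroup p Q := P.2.comap_subtype
  have hQi : ¬ p ∣ Q.index := fun e => P.not_dvd_index (e.trans
    (Dvd.intro _ (relIndex_mul_index (le_normalizer (H := (P : Subgroup G))))))
  let f : N → ℂ := fun n => (χ : G → ℂ) (pReg p n : N)
  have hf : ∀ (n : N) (u : Q), f (n * u) = f n := by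
    intro n u
    have hc : ∀ a : N, (orderOf (pReg p a)).Coprime (Nat.card Q) := fun a => by
      obtain ⟨k, hk⟩ := hQ.exists_card_eq
      rw [hk]
      exact Nat.Coprime.pow_right _ (not_dvd_iff_coprime.1 (not_dvd_orderOf_pReg p a))
    have hm : ∀ a : N, ((pReg p a : N) : N ⧸ Q) = a := fun a => by
      rw [QuotientGroup.eq, pReg, mul_inv_rev, inv_inv]
      simpa [mul_assoc] using (‹Q.Normal›.conj_mem _
        (mem_of_orderOf_eq_pow_of_index Q hQi (orderOf_pPart p a)) a⁻¹)
    refine χ.2.isClassFunction.eq_of_isConj (N.subtype.map_isConj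
      (isConj_of_mk_eq_of_coprime Q (hc _) (hc _) ?_))
    rw [hm, hm, QuotientGroup.mk_mul_of_mem _ u.2]
  have e2 : ∀ g : G, ¬ p ∣ orderOf g →
      ∑ ψ ∈ B, classInner (fun n : N => (χ : G → ℂ) n) (fun n : N => (ψ : G → ℂ) n) * (ψ : G → ℂ) g =
      ∑ ψ ∈ B, classInner f (fun n : N => (ψ : G → ℂ) n) * (ψ : G → ℂ) g := by
    intro g hg
    have : ∀ φ : N → ℂ, ∑ ψ ∈ B, classInner φ (fun n : N => (ψ : G → ℂ) n) * (ψ : G → ℂ) g =
        (Nat.card N : ℂ)⁻¹ * ∑ n : N, φ n * ∑ ψ ∈ B, (ψ : G → ℂ) g * conj ((ψ : G → ℂ) n) := by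
      intro φ
      simp only [classInner, Finset.mul_sum, Finset.sum_mul]
      rw [Finset.sum_comm]
      exact Finset.sum_congr rfl fun _ _ => Finset.sum_congr rfl fun _ _ => by ring
    rw [this, this]
    congr 1
    refine Finset.sum_congr rfl fun n _ => ?_
    by_cases hn : p ∣ orderOf n
    · have := sum_mul_conj_eq_zero_of_regular_singular hM (val_blockCoeff_principal_le_one hM) hg
        (y := (n : G)) (by rwa [orderOf_coe])
      rw [finsum_mem_irr_eq_sum] at this
      have e : ∑ ψ ∈ B, (ψ : G → ℂ) g * conj ((ψ : G → ℂ) n) = 0 := by convert this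
      rw [e, mul_zero, mul_zero]
    · simp only [f, pReg_eq_self_iff.2 hn]
  have e3 : ∀ ψ ∈ B, classInner f (fun n : N => (ψ : G → ℂ) n) * (ψ : G → ℂ) y =
      classInner f (fun n : N => (ψ : G → ℂ) n) * (ψ : G → ℂ) 1 := by
    intro ψ hψ
    by_cases hk : ∃ u ∈ Q, (ψ : G → ℂ) (u : N) ≠ (ψ : G → ℂ) (1 : N)
    · have h0 : (Nat.card Q : ℂ) * ∑ n : N, f n * conj ((ψ : G → ℂ) n) = 0 := by
        have h1 : ∀ u : Q, ∑ n : N, f n * conj ((ψ : G → ℂ) n) =
            ∑ n : N, f n * conj ((ψ : G → ℂ) ((n * u : N) : G)) := fun u => by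
          rw [← Equiv.sum_comp (Equiv.mulRight (u : N))]
          exact Finset.sum_congr rfl fun n _ => by simp [hf]
        rw [Nat.card_eq_fintype_card, ← nsmul_eq_mul, ← Finset.card_univ, ← Finset.sum_const,
          Finset.sum_congr rfl fun u _ => h1 u, Finset.sum_comm]
        refine Finset.sum_eq_zero fun n _ => ?_
        rw [← Finset.mul_sum, ← map_sum, sum_coset_eq_zero (h ψ (mB.1 hψ)) Q hk n, map_zero,
          mul_zero]
      rw [classInner, (mul_eq_zero.1 h0).resolve_left (Nat.cast_ne_zero.2 Nat.card_pos.ne'),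
        mul_zero, zero_mul, zero_mul]
    · push Not at hk
      haveI := charKer_normal ψ.2.isClassFunction
      have : normalClosure ((P : Subgroup G) : Set G) ≤ charKer (ψ : G → ℂ) :=
        normalClosure_le_normal fun u hu => (mem_charKer_irr ψ).2 (hk ⟨u, le_normalizer hu⟩ hu)
      rw [(mem_charKer_irr ψ).1 (this hy)]
  have e4 := ((e2 y hy').trans (Finset.sum_congr rfl e3)).trans (e2 1 not_dvd_orderOf_one).symm
  have e5 : ∑ ψ ∈ B, (classInner (fun n : N => (χ : G → ℂ) n) (fun n : N => (ψ : G → ℂ) n)).re *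
      (((ψ : G → ℂ) 1).re - ((ψ : G → ℂ) y).re) = 0 := by
    have := congrArg Complex.re (sub_eq_zero.2 e4.symm)
    rw [← Finset.sum_sub_distrib, Complex.re_sum, Complex.zero_re] at this
    rw [← this]
    refine Finset.sum_congr rfl fun ψ hψ => ?_
    obtain ⟨k, hk⟩ := (h χ hχ).isCharacter.exists_nat_inner (h ψ (mB.1 hψ)).isCharacter
    rw [hk, ← mul_sub]
    simp
  have hle : ∀ ψ : IrrCharacter G, ((ψ : G → ℂ) y).re ≤ ((ψ : G → ℂ) 1).re := fun ψ => by
    refine (Complex.re_le_norm _).trans ((norm_le_charDegree ψ.2.isCharacter y).trans ?_)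
    rw [← coe_charDegree_irr]; simp
  have e6 := (Finset.sum_eq_zero_iff_of_nonneg fun ψ hψ => mul_nonneg (by
    obtain ⟨k, hk⟩ := (h χ hχ).isCharacter.exists_nat_inner (h ψ (mB.1 hψ)).isCharacter
    rw [hk]; simp) (sub_nonneg.2 (hle ψ))).1 e5 χ (mB.2 hχ)
  rw [(h χ hχ).inner_self, Complex.one_re, one_mul, sub_eq_zero] at e6
  have h7 := norm_le_charDegree χ.2.isCharacter y
  rw [← coe_charDegree_irr] at e6 ⊢
  rw [Complex.natCast_re] at e6
  refine Complex.ext e6.symm ?_
  have h8 := Complex.sq_norm_sub_sq_re ((χ : G → ℂ) y)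
  rw [← e6] at h8
  have h9 := norm_nonneg ((χ : G → ℂ) y)
  rw [Complex.natCast_im]
  nlinarith [sq_nonneg ((χ : G → ℂ) y).im]

/-- Let p be a prime, M a maximal ideal of the algebraic integers containing p, G a finite group, P a Sylow p-subgroup and N = N_G(P). Then G has p-length 1 (G = O_{p',p,p'}(G)) if and only if every irreducible character in the principal p-block of G restricts to an irreducible character of N. -/
theorem result {G : Type*} [Group G] [Finite G] (p : ℕ) [Fact p.Prime] (M : Ideal Cfsg.AlgInt) (hM : Cfsg.IsPModular p M) (P : Sylow p G) : Cfsg.PLengthLE p 1 G ↔ ∀ χ ∈ Cfsg.principalBlock M G, Cfsg.IsIrrCharacter ↥(Subgroup.normalizer ((P : Subgroup G) : Set G)) (fun n : ↥(Subgroup.normalizer ((P : Subgroup G) : Set G)) => (χ : G → ℂ) n) := by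
  classical
  constructor
  · intro h χ hχ
    exact isIrr_restrict_of_sup_eq_top χ.2 (pPrimeCore p G) _
      (fun k hk => apply_eq_of_mem_principal hM hχ _
        (Grp.not_dvd_card_pPrimeCore p G) hk)
      (FT.pPrimeCore_sup_normalizer_of_pLengthOne h P)
  · intro h
    let K : Subgroup G := ⨅ χ : principalBlock M G, charKer (χ.1 : G → ℂ)
    have mK : ∀ {x : G}, x ∈ K ↔ ∀ χ ∈ principalBlock M G, (χ : G → ℂ) x = (χ : G → ℂ) 1 := by
      simp [K, mem_iInf, mem_charKer_irr]
    refine FT.pLengthOne_iff_exists.2 ⟨K, normalClosure ((P : Subgroup G) : Set G),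
      normal_iInf_normal fun χ => charKer_normal χ.1.2.isClassFunction, inferInstance,
      fun x hx => not_dvd_iff_coprime.1 fun hd => ?_, fun x hx => ?_, fun x =>
      ⟨_, not_dvd_iff_coprime.1 fun hd => P.not_dvd_index (hd.trans (index_dvd_of_le
        le_normalClosure)), pow_index_mem _ x⟩⟩
    · have := sum_mul_conj_eq_zero_of_regular_singular hM (val_blockCoeff_principal_le_one hM)
        (not_dvd_orderOf_one (G := G)) hd
      rw [finsum_mem_irr_eq_sum, Finset.sum_congr rfl fun (χ : IrrCharacter G) hχ =>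
        show (χ : G → ℂ) 1 * (starRingEnd ℂ) ((χ : G → ℂ) x) =
          ((charDegree (χ : G → ℂ) ^ 2 : ℕ) : ℂ) by
          rw [mK.1 hx χ (by simpa using hχ), ← coe_charDegree_irr]; simp [sq], ← Nat.cast_sum,
        Nat.cast_eq_zero, Finset.sum_eq_zero_iff] at this
      exact charDegree_irr_ne_zero _ (pow_eq_zero_iff two_ne_zero |>.1
        (this _ (by simpa using irrOne_mem_principal hM)))
    · obtain ⟨k, hk⟩ := pow_pow_eq_one_of_orderOf (orderOf_pPart p x)
      refine ⟨k, ?_⟩
      rw [← pPart_mul_pReg p x, (commute_pPart_pReg p x).mul_pow, hk, one_mul]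
      exact pow_mem (mK.2 fun χ hχ => key hM P h hχ (pReg_mem hx) (not_dvd_orderOf_pReg p x)) _

end Cfsg.Agent.S4711
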