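import Cfsg.Statements.S4712
import Cfsg.Agent.Block.GenDec
import Cfsg.Agent.Char.Galois
-- import your own Cfsg.Agent.* helpers here

set_option autoImplicit false
open Cfsg

namespace Cfsg.Agent.S4712

open Cfsg.Agent.Block Cfsg.Agent.Char
open scoped ComplexConjugate

section
variable {G : Type*} [Group G] [Finite G] {M : Ideal AlgInt} {p : ℕ} [hp : Fact p.Prime]

theorem pow_eq_self_of_reg {k : ℕ}
    (hk : k ≡ 1 [MOD Nat.card G / p ^ (Nat.card G).factorization p]) {y : G}
    (hy : ¬ p ∣ orderOf y) : y ^ k = y := by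
  have h1 : orderOf y ∣ Nat.card G / p ^ (Nat.card G).factorization p := by
    have h2 : orderOf y ∣ p ^ (Nat.card G).factorization p *
        (Nat.card G / p ^ (Nat.card G).factorization p) := by
      rw [Nat.ordProj_mul_ordCompl_eq_self]; exact orderOf_dvd_natCard y
    exact (Nat.Coprime.pow_right _ ((Nat.Prime.coprime_iff_not_dvd hp.out).2 hy).symm).dvd_of_dvd_mul_left h2
  conv_rhs => rw [← pow_one y]
  exact pow_eq_pow_iff_modEq.2 (hk.of_dvd h1)

theorem exists_nat_section (hM : IsPModular p M) {B : Set (IrrCharacter G)} (hB : IsPBlock M B)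
    {k : ℕ} (hk : k ≡ 1 [MOD Nat.card G / p ^ (Nat.card G).factorization p]) {x : G}
    (hx : ∃ j, orderOf x = p ^ j) {C : Subgroup G} (hC : Subgroup.centralizer ({x} : Set G) = C)
    [Fintype C] : ∃ n : ℕ, ∑ᶠ χ ∈ B, classInner (regPart p (sec C x fun g => (χ : G → ℂ) (g ^ k)))
      (sec C x (χ : G → ℂ)) = n := by
  classical
  have hcomm : ∀ y : C, Commute x y := fun y => by
    have : (y : G) ∈ Subgroup.centralizer ({x} : Set G) := hC.symm ▸ y.2
    exact (Subgroup.mem_centralizer_singleton_iff.1 this).symm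
  have hpow : ∀ y : C, ¬ p ∣ orderOf y → (x * y) ^ k = x ^ k * y := fun y hy => by
    rw [(hcomm y).mul_pow, pow_eq_self_of_reg (y := (y : G)) hk (by rwa [Subgroup.orderOf_coe])]
  have hxk : ∃ j, orderOf (x ^ k) = p ^ j := by
    obtain ⟨j, hj⟩ := hx
    obtain ⟨i, -, hi⟩ := (Nat.dvd_prime_pow hp.out).1 (hj ▸ orderOf_pow_dvd k)
    exact ⟨i, hi⟩
  by_cases h : IsConj x (x ^ k)
  · obtain ⟨g, hg⟩ := isConj_iff.1 h
    have hmem : ∀ y : C, g⁻¹ * y * g ∈ C := fun y => by
      refine hC.le (Subgroup.mem_centralizer_singleton_iff.2 ?_)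
      have h1 : (y : G) * (g * x * g⁻¹) = g * x * g⁻¹ * y := by
        rw [hg]; exact ((hcomm y).pow_left k).symm
      calc g⁻¹ * y * g * x = g⁻¹ * (y * (g * x * g⁻¹)) * g := by group
        _ = x * (g⁻¹ * y * g) := by rw [h1]; group
    let f : C →* C := MonoidHom.mk' (fun y => ⟨g⁻¹ * y * g, hmem y⟩) fun a b => by
      ext; simp only [Subgroup.coe_mul]; group
    have hf : ∀ y : C, (f y : G) = g⁻¹ * y * g := fun _ => rfl
    choose a ha using fun i : IBr M C => brauer_comp hM f i
    have h1 : ∀ χ : IrrCharacter G, regPart p (sec C x fun g => (χ : G → ℂ) (g ^ k)) =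
        ∑ i : IBr M C, ∑ j : IBr M C, ((a i j : ℂ) *
          classInner (regPart p (sec C x χ)) (pim i)) • brauer j := fun χ => by
      funext y
      simp only [Finset.sum_apply, Pi.smul_apply, smul_eq_mul]
      by_cases hy : p ∣ orderOf y
      · simp [regPart_of_dvd _ hy, brauer_eq_zero hM _ hy]
      have hfy : ¬ p ∣ orderOf (f y) := fun h' => hy (h'.trans (orderOf_map_dvd f y))
      have hcl := isClassFunction_sec' hC χ.2.isClassFunction
      rw [regPart_of_not_dvd _ hy, sec_apply, hpow y hy, ← hg]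
      have h2 : (χ : G → ℂ) (g * x * g⁻¹ * y) = sec C x (χ : G → ℂ) (f y) := by
        rw [sec_apply, hf, ← χ.2.isClassFunction (x * (g⁻¹ * y * g)) g]
        congr 1; group
      rw [h2, eq_sum_brauer hM hcl hfy]
      refine Finset.sum_congr rfl fun i _ => ?_
      rw [ha i y hy, Finset.mul_sum, classInner_regPart_left, regPart_pim hM,
        classInner_pim hcl]
      exact Finset.sum_congr rfl fun j _ => by ring
    have hA := eSet_indSet_mem_intAlg hM C B
    refine ⟨∑ i ∈ ibrOf M (indSet M C B), a i i, ?_⟩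
    simp only [h1, classInner_sum_left, classInner_smul_left]
    rw [finsum_mem_irr_filter, Finset.sum_comm, Nat.cast_sum,
      ← Finset.sum_filter_add_sum_filter_not Finset.univ (· ∈ ibrOf M (indSet M C B))]
    have h3 : ∀ i : IBr M C, ∑ χ ∈ Finset.univ.filter (· ∈ B), ∑ j : IBr M C,
        (a i j : ℂ) * classInner (regPart p (sec C x (χ : G → ℂ))) (pim i) *
          classInner (brauer j) (sec C x (χ : G → ℂ)) =
        if i ∈ ibrOf M (indSet M C B) then (a i i : ℂ) else 0 := fun i => by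
      rw [Finset.sum_comm]
      have h4 : ∀ j : IBr M C, ∑ χ ∈ Finset.univ.filter (· ∈ B),
          (a i j : ℂ) * classInner (regPart p (sec C x (χ : G → ℂ))) (pim i) *
            classInner (brauer j) (sec C x (χ : G → ℂ)) =
          (a i j : ℂ) * if i ∈ ibrOf M (indSet M C B) then (if j = i then 1 else 0) else 0 :=
        fun j => by
        have h5 := finsum_inner_sec_mul hM hx hC hB (pim i) (brauer j)
        rw [regPart_pim hM, regPart_brauer hM, classInner_pim (isClassFunction_blockPart _ _),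
          ev_blockPart_pimIdem hA (isClassFunction_brauer j), ev_brauer_pimIdem hM,
          finsum_mem_irr_filter] at h5
        rw [← h5, Finset.mul_sum]
        refine Finset.sum_congr rfl fun χ _ => ?_
        rw [classInner_conj_symm, ← classInner_regPart_left (brauer j), regPart_brauer hM,
          mul_assoc]
      simp only [h4]
      split_ifs with hi
      · simp
      · simp
    simp only [h3]
    rw [Finset.sum_eq_zero (s := Finset.univ.filter fun i => ¬ i ∈ _) fun i hi =>
      if_neg (Finset.mem_filter.1 hi).2, add_zero, Finset.filter_mem_eq_inter, Finset.univ_inter]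
    exact Finset.sum_congr rfl fun i hi => if_pos hi
  · refine ⟨0, ?_⟩
    rw [finsum_mem_irr_filter, Nat.cast_zero]
    simp only [classInner_def, Finset.mul_sum]
    rw [Finset.sum_comm]
    refine Finset.sum_eq_zero fun y _ => ?_
    by_cases hy : p ∣ orderOf y
    · simp [regPart_of_dvd _ hy]
    have hy' : ¬ p ∣ orderOf (y : G) := by rwa [Subgroup.orderOf_coe]
    have h1 := sum_mul_conj_eq_zero_of_val hM (A := B) (val_blockCoeff_le_one hM hB)
      (g := x ^ k * y) (h := x * y) (by
        rw [(pPart_mul_eq_iff hxk _).2 ⟨Subgroup.mem_centralizer_singleton_iff.2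
          ((hcomm y).pow_left k).symm, hy'⟩, (pPart_mul_eq_iff hx _).2 ⟨hC ▸ y.2, hy'⟩]
        exact fun h' => h h'.symm)
    rw [finsum_mem_irr_filter] at h1
    rw [← Finset.mul_sum]
    simp only [regPart_of_not_dvd _ hy, sec_apply, hpow y hy]
    rw [h1, mul_zero]

theorem rank_le_card_fixed (hM : IsPModular p M) {B : Set (IrrCharacter G)} (hB : IsPBlock M B)
    {k : ℕ} (hk' : k.Coprime (Nat.card G))
    (hk : k ≡ 1 [MOD Nat.card G / p ^ (Nat.card G).factorization p]) :
    blockRank p B ≤ Nat.card {χ : IrrCharacter G // χ ∈ B ∧ ∀ g, (χ : G → ℂ) (g ^ k) = (χ : G → ℂ) g} := by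
  classical
  have := Fintype.ofFinite G
  obtain ⟨X, hX, hXrep⟩ := exists_section_reps p G
  have h1 : ∀ χ ∈ Finset.univ.filter (· ∈ B),
      (if ∀ g, (χ : G → ℂ) (g ^ k) = (χ : G → ℂ) g then (1 : ℂ) else 0) = ∑ x ∈ X,
      classInner (regPart p (sec (Subgroup.centralizer ({x} : Set G)) x
        fun g => (χ : G → ℂ) (g ^ k))) (sec (Subgroup.centralizer ({x} : Set G)) x (χ : G → ℂ)) :=
    fun χ _ => by
    have hi := χ.2.comp_pow hk'
    rw [← classInner_eq_sum_sections hX hXrep hi.isClassFunction χ.2.isClassFunction,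
      hi.inner_eq_ite χ.2]
    simp only [funext_iff]
  have h2 := Finset.sum_congr rfl h1
  rw [Finset.sum_comm, ← Finset.add_sum_erase _ _ (one_mem_of_reps hXrep)] at h2
  have h3 : ∑ χ ∈ Finset.univ.filter (· ∈ B),
      classInner (regPart p (sec (Subgroup.centralizer ({1} : Set G)) 1
        fun g => (χ : G → ℂ) (g ^ k))) (sec (Subgroup.centralizer ({1} : Set G)) 1 (χ : G → ℂ)) =
      blockRank p B := by
    rw [← finsum_inner_regPart_self hM (eSet_mem_intAlg hM hB), finsum_mem_irr_filter]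
    refine Finset.sum_congr rfl fun χ _ => ?_
    rw [classInner_regPart_sec_one rfl, regPart_congr fun g hg => by rw [pow_eq_self_of_reg hk hg]]
  choose n hn using fun x : X => exists_nat_section hM hB hk (hX x x.2) rfl
  have h4 : ∑ x ∈ X.erase 1, ∑ χ ∈ Finset.univ.filter (· ∈ B),
      classInner (regPart p (sec (Subgroup.centralizer ({x} : Set G)) x
        fun g => (χ : G → ℂ) (g ^ k))) (sec (Subgroup.centralizer ({x} : Set G)) x (χ : G → ℂ)) =
      ((∑ x ∈ X.erase 1, if h : x ∈ X then n ⟨x, h⟩ else 0 : ℕ) : ℂ) := by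
    rw [Nat.cast_sum]
    refine Finset.sum_congr rfl fun x hx => ?_
    rw [dif_pos (Finset.mem_of_mem_erase hx), ← hn, finsum_mem_irr_filter]
  rw [h3, h4, Finset.sum_boole, Finset.filter_filter] at h2
  rw [Nat.card_eq_fintype_card, Fintype.card_subtype]
  have h5 : (Finset.univ.filter fun χ : IrrCharacter G => χ ∈ B ∧
      ∀ g, (χ : G → ℂ) (g ^ k) = (χ : G → ℂ) g).card = blockRank p B +
        ∑ x ∈ X.erase 1, if h : x ∈ X then n ⟨x, h⟩ else 0 := by exact_mod_cast h2
  omega

theorem exists_gen_exp (hodd : p ≠ 2) {n : ℕ} (hn : n ≠ 0) : ∃ k₀ : ℕ, k₀.Coprime n ∧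
    k₀ ≡ 1 [MOD n / p ^ n.factorization p] ∧ ∀ k : ℕ, k.Coprime n →
      k ≡ 1 [MOD n / p ^ n.factorization p] → ∃ m : ℕ, k ≡ k₀ ^ m [MOD n] := by
  set a := n.factorization p
  have hc : (p ^ a).Coprime (n / p ^ a) := (Nat.coprime_ordCompl hp.out hn).pow_left a
  have hna : p ^ a * (n / p ^ a) = n := Nat.ordProj_mul_ordCompl_eq_self n p
  have := ZMod.isCyclic_units_of_prime_pow p hp.out hodd a
  obtain ⟨u, hu⟩ := IsCyclic.exists_monoid_generator (α := (ZMod (p ^ a))ˣ)
  obtain ⟨k₀, h1, h2⟩ := Nat.chineseRemainder hc (u : ZMod (p ^ a)).val 1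
  have : NeZero (p ^ a) := ⟨pow_ne_zero _ hp.out.ne_zero⟩
  have h3 : (k₀ : ZMod (p ^ a)) = u := by
    rw [(ZMod.natCast_eq_natCast_iff _ _ _).2 h1, ZMod.natCast_zmod_val]
  refine ⟨k₀, ?_, h2, fun k hk hk1 => ?_⟩
  · rw [← hna]
    refine Nat.Coprime.mul_right ?_ ?_
    · rw [← ZMod.isUnit_iff_coprime, h3]; exact u.isUnit
    · rw [Nat.Coprime, h2.gcd_eq, Nat.gcd_one_left]
  · have hk2 : k.Coprime (p ^ a) := hk.coprime_dvd_right ⟨_, hna.symm⟩
    obtain ⟨m, hm⟩ := hu (ZMod.unitOfCoprime k hk2)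
    refine ⟨m, ?_⟩
    rw [← hna, ← Nat.modEq_and_modEq_iff_modEq_mul hc]
    refine ⟨(ZMod.natCast_eq_natCast_iff _ _ _).1 ?_, ?_⟩
    · rw [Nat.cast_pow, h3, ← Units.val_pow_eq_pow_val]
      simp only at hm
      rw [hm, ZMod.coe_unitOfCoprime]
    · have := h2.pow m
      rw [one_pow] at this
      exact hk1.trans this.symm

end

/-- Let p be an odd prime, M a maximal ideal of the algebraic integers containing p, G a finite group of order n with p-part p^a, and B a p-block of G. Call an irreducible character χ p-rational when χ(g^k) = χ(g) for every g and every k coprime to n with k ≡ 1 modulo n/p^a (χ is fixed by the Galois automorphisms fixing the roots of unity of order prime to p). Then the number of p-rational irreducible characters in B is at least the p-regular rank of B (the number of irreducible Brauer characters in B). -/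
theorem result {G : Type*} [Group G] [Finite G] (p : ℕ) [Fact p.Prime] (hodd : p ≠ 2) (M : Ideal Cfsg.AlgInt) (hM : Cfsg.IsPModular p M) (B : Set (Cfsg.IrrCharacter G)) (hB : Cfsg.IsPBlock M B) : Cfsg.blockRank p B ≤ Nat.card {χ : Cfsg.IrrCharacter G // χ ∈ B ∧ ∀ k : ℕ, Nat.Coprime k (Nat.card G) → k ≡ 1 [MOD Nat.card G / p ^ (Nat.card G).factorization p] → ∀ g : G, (χ : G → ℂ) (g ^ k) = (χ : G → ℂ) g} := by
  obtain ⟨k₀, h1, h2, h3⟩ := exists_gen_exp (p := p) hodd (Nat.card_pos (α := G)).ne'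
  refine (rank_le_card_fixed hM hB h1 h2).trans (Nat.card_le_card_of_injective
    (fun χ => ⟨χ.1, χ.2.1, fun k hk hk1 g => ?_⟩) fun a b h => Subtype.ext (by simpa using h))
  obtain ⟨m, hm⟩ := h3 k hk hk1
  rw [pow_eq_pow_iff_modEq.2 (hm.of_dvd (orderOf_dvd_natCard g))]
  clear hm
  induction m with
  | zero => simp
  | succ m ih => rw [pow_succ, pow_mul, χ.2.2, ih]

end Cfsg.Agent.S4712
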