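import Cfsg.Statements.S4714
import Cfsg.Agent.Block.NormalDefect
import Cfsg.Agent.Char.Restrict

set_option autoImplicit false
open Cfsg

namespace Cfsg.Agent.S4714

open Cfsg.Agent.Block Subgroup

open Cfsg.Agent.Char
open scoped ComplexConjugate

variable {G : Type*} [Group G] [Finite G] {p : ℕ} [Fact p.Prime] {M : Ideal AlgInt}
  {D : Subgroup G} {B : Set (IrrCharacter G)} {χ : IrrCharacter G}

theorem exists_irr (hM : IsPModular p M) (hG : D ⊔ centralizer (D : Set G) = ⊤)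
    (hB : IsPBlock M B) (hBD : IsDefectGroup p M B D) (hχ : χ ∈ B)
    (hχD : ∀ y ∈ D, (χ : G → ℂ) y = (χ : G → ℂ) 1) {θ : IrrCharacter G} (hθ : θ ∈ B) :
    ∃ ζ : IrrCharacter D, ∀ u : D, (θ : G → ℂ) u = (χ : G → ℂ) 1 * (ζ : D → ℂ) u := by
  classical
  have := normal_of_sup_centralizer hG
  have := Fintype.ofFinite G
  have := Fintype.ofFinite D
  have hD := isPGroup_of_isDefectGroup hBD
  obtain ⟨ζ, hζ⟩ := exists_irr_under D θ
  have h1 := clifford_invariant D θ.2 ζ.2 hζ fun g => funext fun n =>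
    (ζ.2.isClassFunction.eq_of_isConj ((isConj_coe_iff_of_sup_centralizer hG).1
      (isConj_iff.2 ⟨g, rfl⟩))).symm
  obtain ⟨e, he⟩ := (θ.2.isCharacter.restrict D).exists_nat_inner ζ.2.isCharacter
  rw [he] at h1
  have h2 := classInner_self_of_eq_smul ζ.2 h1
  set S : ℂ := ∑ y : G, if p ∣ orderOf y then 0 else (χ : G → ℂ) y * conj ((χ : G → ℂ) y) with hS
  have key : ∀ η ∈ B, (χ : G → ℂ) 1 * conj ((χ : G → ℂ) 1) * Nat.card G =
      (∑ u : D, (η : G → ℂ) u * conj ((η : G → ℂ) u)) * S := fun η hη => by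
    have h3 := sum_eq_sum_mul_regular hD (fun u hu y hy => commute_of_sup_centralizer hD hG hu hy)
      (fun g => (η : G → ℂ) g * conj ((η : G → ℂ) g))
    rw [Finset.sum_congr rfl (g := fun g => (η : G → ℂ) g * conj ((η : G → ℂ) g)) fun g _ => by
      split_ifs with hg
      · rfl
      · rw [apply_eq_zero_of_pPart_notMem hM hB hBD hη hg, zero_mul],
      sum_mul_conj_eq, η.2.inner_self, mul_one] at h3
    rw [h3, Finset.mul_sum, Finset.sum_mul]
    refine Finset.sum_congr rfl fun u _ => ?_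
    rw [hS, Finset.mul_sum, Finset.mul_sum]
    refine Finset.sum_congr rfl fun y _ => ?_
    split_ifs with hy
    · simp
    · have h4 := apply_mul_of_sup_centralizer hM hG hB hBD hχ hχD hη u.2 hy
      have h5 := congrArg conj h4
      rw [map_mul, map_mul] at h5
      linear_combination (conj ((χ : G → ℂ) 1) * conj ((η : G → ℂ) (u * y))) * h4 +
        ((η : G → ℂ) u * (χ : G → ℂ) y) * h5
  have h3 := key θ hθ
  have h4 := key χ hχ
  rw [sum_mul_conj_eq, h2] at h3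
  simp only [hχD _ (Subtype.prop _), Finset.sum_const, Finset.card_univ, nsmul_eq_mul,
    ← Nat.card_eq_fintype_card] at h4
  rw [← coe_charDegree_irr, map_natCast] at h3 h4
  have h5 : S ≠ 0 := by
    rintro h
    rw [h, mul_zero] at h4
    exact mul_ne_zero (mul_self_ne_zero.2 (Nat.cast_ne_zero.2 (charDegree_irr_ne_zero χ)))
      (card_ne_zero G) h4
  have h6 : ((charDegree (χ : G → ℂ) : ℂ)) ^ 2 = (e : ℂ) ^ 2 := by
    apply mul_left_cancel₀ (mul_ne_zero h5 (card_ne_zero D))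
    linear_combination h3 - h4
  have h7 : charDegree (χ : G → ℂ) = e :=
    Nat.pow_left_injective two_ne_zero (by exact_mod_cast h6)
  exact ⟨ζ, fun u => by rw [← coe_charDegree_irr, h7]; exact congrFun h1 u⟩

theorem ext_of {θ η : G → ℂ} {f : D → ℂ}
    (h1 : ∀ (y : D) (x : G), ¬ p ∣ orderOf x → Commute (y : G) x → θ (y * x) = f y * χ.1 x)
    (h2 : ∀ z : G, (∀ y : G, IsPPart p z y → y ∉ D) → θ z = 0)
    (h3 : ∀ (y : D) (x : G), ¬ p ∣ orderOf x → Commute (y : G) x → η (y * x) = f y * χ.1 x)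
    (h4 : ∀ z : G, (∀ y : G, IsPPart p z y → y ∉ D) → η z = 0) : θ = η := by
  funext g
  by_cases hg : pPart p g ∈ D
  · have e1 := h1 ⟨_, hg⟩ _ (not_dvd_orderOf_pReg p g) (commute_pPart_pReg p g)
    have e2 := h3 ⟨_, hg⟩ _ (not_dvd_orderOf_pReg p g) (commute_pPart_pReg p g)
    rw [pPart_mul_pReg] at e1 e2
    rw [e1, e2]
  · rw [h2 g fun y hy => isPPart_iff.1 hy ▸ hg, h4 g fun y hy => isPPart_iff.1 hy ▸ hg]


/-- Let p be a prime, M a maximal ideal of the algebraic integers containing p, D a p-subgroup of the finite group G with G = D·C_G(D), and B a p-block with defect group D. Let χ be a member of B having D in its kernel (there is exactly one, the canonical character of B). Then the irreducible characters in B are exactly the functions θ on G for which there is an irreducible character ζ of D such that θ(yx) = ζ(y)χ(x) whenever y ∈ D, x has order prime to p and x commutes with y, and θ(z) = 0 whenever the p-part of z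 does not lie in D. -/
theorem result {G : Type*} [Group G] [Finite G] (p : ℕ) [Fact p.Prime] (M : Ideal Cfsg.AlgInt) (hM : Cfsg.IsPModular p M) (D : Subgroup G) (hD : IsPGroup p D) (hG : D ⊔ Subgroup.centralizer (D : Set G) = ⊤) (B : Set (Cfsg.IrrCharacter G)) (hB : Cfsg.IsPBlock M B) (hBD : Cfsg.IsDefectGroup p M B D) (χ : Cfsg.IrrCharacter G) (hχ : χ ∈ B) (hχD : ∀ y ∈ D, (χ : G → ℂ) y = (χ : G → ℂ) 1) : (∀ θ : Cfsg.IrrCharacter G, θ ∈ B ↔ ∃ ζ : Cfsg.IrrCharacter D, (∀ (y : D) (x : G), ¬ p ∣ orderOf x → Commute (y : G) x → (θ : G → ℂ) ((y : G) * x) = (ζ : D → ℂ) y * (χ : G → ℂ) x) ∧ (∀ z : G, (∀ y : G, Cfsg.IsPPart p z y → y ∉ D) → (θ : G → ℂ) z = 0)) ∧ ∀ ζ : Cfsg.IrrCharacter D, ∃ θ ∈ B, (∀ (y : D) (x : G), ¬ p ∣ orderOf x → Commute (y : G) x → (θ : G → ℂ) ((y : G) * x) = (ζ : D → ℂ) y * (χ : G → ℂ) x) ∧ (∀ z : G, (∀ y : G, Cfsg.IsPPart p z y → y ∉ D) → (θ : G → ℂ) z = 0) := by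
  have := normal_of_sup_centralizer hG
  have key : ∀ θ : B, ∃ ζ : IrrCharacter D, (∀ (y : D) (x : G), ¬ p ∣ orderOf x →
      Commute (y : G) x → (θ.1 : G → ℂ) ((y : G) * x) = (ζ : D → ℂ) y * (χ : G → ℂ) x) ∧
      (∀ z : G, (∀ y : G, IsPPart p z y → y ∉ D) → (θ.1 : G → ℂ) z = 0) := fun θ => by
    obtain ⟨ζ, hζ⟩ := exists_irr hM hG hB hBD hχ hχD θ.2
    refine ⟨ζ, fun y x hx _ => ?_, fun z hz =>
      apply_eq_zero_of_pPart_notMem hM hB hBD θ.2 (hz _ (isPPart_pPart p z))⟩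
    apply mul_left_cancel₀ χ.2.one_ne_zero
    rw [apply_mul_of_sup_centralizer hM hG hB hBD hχ hχD θ.2 y.2 hx, hζ, mul_assoc]
  choose Φ hΦ using key
  have hinj : Function.Injective Φ := fun θ η h => Subtype.ext (Subtype.ext
    (ext_of (hΦ θ).1 (hΦ θ).2 (h ▸ (hΦ η).1) (hΦ η).2))
  have hsurj : Function.Surjective Φ := ((Nat.bijective_iff_injective_and_card Φ).2
    ⟨hinj, by rw [card_block_of_sup_centralizer hM hG hB hBD, card_irr]⟩).2
  refine ⟨fun θ => ⟨fun h => ⟨_, hΦ ⟨θ, h⟩⟩, ?_⟩, fun ζ => ?_⟩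
  · rintro ⟨ζ, h1, h2⟩
    obtain ⟨η, rfl⟩ := hsurj ζ
    rw [show θ = η from Subtype.ext (ext_of h1 h2 (hΦ η).1 (hΦ η).2)]
    exact η.2
  · obtain ⟨η, rfl⟩ := hsurj ζ
    exact ⟨η, η.2, hΦ η⟩

end Cfsg.Agent.S4714
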