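import Cfsg.Statements.S4715
import Cfsg.Agent.Block.HtBound
-- import your own Cfsg.Agent.* helpers here

set_option autoImplicit false
open Cfsg

namespace Cfsg.Agent.S4715

open Cfsg.Agent.Block Cfsg.Agent.Char
open scoped ComplexConjugate

/-- Let p be a prime, M a maximal ideal of the algebraic integers containing p, B a p-block of the finite group G with defect group D of order p^d, H = D·C_G(D), b a block of H inducing B, T the stabilizer of b in N_G(D) and e = [T : H] the inertial index of B; let n be the integer with p^n ≤ e < p^(n+1) and p^c the order of the centre of D. Then every irreducible character in B has height h with h + c ≤ n + d. -/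
theorem result {G : Type*} [Group G] [Finite G] (p : ℕ) [Fact p.Prime] (M : Ideal Cfsg.AlgInt) (hM : Cfsg.IsPModular p M) (B : Set (Cfsg.IrrCharacter G)) (hB : Cfsg.IsPBlock M B) (D : Subgroup G) (hBD : Cfsg.IsDefectGroup p M B D) (d : ℕ) (hDd : Nat.card D = p ^ d) (H : Subgroup G) (hH : H = D ⊔ Subgroup.centralizer (D : Set G)) (b : Set (Cfsg.IrrCharacter H)) (hind : Cfsg.IsInducedBlock M H b B) (T : Subgroup G) (hT : ∀ g : G, g ∈ T ↔ (g ∈ Subgroup.normalizer (D : Set G) ∧ ∀ θ ∈ b, ∀ θ' : Cfsg.IrrCharacter H, (∀ h h' : H, (h' : G) = g * h * g⁻¹ → (θ' : H → ℂ) h' = (θ : H → ℂ) h) → θ' ∈ b)) (e : ℕ) (he : H.relIndex T = e) (n : ℕ) (hn : p ^ n ≤ e ∧ e < p ^ (n + 1)) (c : ℕ) (hc : Nat.card (Subgroup.center D) = p ^ c) : ∀ χ ∈ B, Cfsg.blockHeight p B (χ : G → ℂ) + c ≤ n + d := by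
  intro χ hχ
  have h := mp_of_sup hM hBD hH hind
  have h1 : Alg.nst ⊤ D (sbar M H b) ≤ T := fun g hg => (hT g).2 ⟨Alg.nst_le_normalizer _ _ _ hg,
    fun θ hθ θ' h2 => by
      have h3 : H.map (Alg.cm g) = H := by
        rw [hH, Subgroup.map_sup, Alg.map_cm_centralizer,
          Alg.map_cm_eq_iff.2 (Alg.nst_le_normalizer _ _ _ hg)]
      have h4 := sbar_trSet_conjEquiv h3 (eSet_mem_intAlg hM hind.1)
      rw [Alg.mem_stab.1 (Alg.nst_le_stab _ _ _ hg)] at h4
      rw [← bar_inj_of_block hM H.subtype_injective (isPBlock_trSet _ hind.1) hind.1 h4]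
      exact (mem_trSet_conjEquiv h3).2 ⟨θ, hθ, h2⟩⟩
  have h5 := Subgroup.relIndex_le_of_le_right (H := H) h1 Subgroup.index_ne_zero_of_finite
  have h6 := h.card_center_mul_pow_le hχ
  rw [← hH] at h6
  have h2 := h6.trans (Nat.mul_le_mul_right _ (h5.trans_eq he))
  have hp : p.Prime := Fact.out
  have h3 := h2.trans_lt (Nat.mul_lt_mul_of_pos_right hn.2 Nat.card_pos)
  rw [hc, hDd, ← pow_add, ← pow_add, Nat.pow_lt_pow_iff_right hp.one_lt] at h3
  omega

end Cfsg.Agent.S4715
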