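import Cfsg.Statements.S4722
import Cfsg.Agent.Block.Columns

set_option autoImplicit false
open Cfsg

namespace Cfsg.Agent.S4722

open Cfsg.Agent.Char Cfsg.Agent.Block Subgroup

/-- Let M be a maximal ideal of the algebraic integers containing 2, P a 2-subgroup of the finite group G, U a subset of P, and t an involution of G such that no element of U is inverted by any conjugate of t. Let θ be a generalized character of P vanishing outside U, and for χ in the principal 2-block B₀ put a_χ = #P⁻¹ Σ_{y ∈ P} χ(y) θ(y⁻¹). Then Σ_{χ ∈ B₀} a_χ χ(t)^2/χ(1) = 0, Σ_{χ ∈ B₀} a_χ χ(1) = 0 and Σ_{χ ∈ B₀} a_χ χ(t) = 0. If moreover #P⁻¹ Σ_{y ∈ P} θ(y) ≠ 0, then either at least two of the a_χ have positive real part and at least two have negative real part, or G has a proper normal subgroup containing O_2'(G) and t. -/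
theorem result {G : Type*} [Group G] [Finite G] (M : Ideal Cfsg.AlgInt) (hM : Cfsg.IsPModular 2 M) (P : Subgroup G) (hP : IsPGroup 2 P) (U : Set G) (hUP : U ⊆ (P : Set G)) (t : G) (ht : orderOf t = 2) (hinv : ∀ u ∈ U, ∀ g : G, (g * t * g⁻¹) * u * (g * t * g⁻¹)⁻¹ ≠ u⁻¹) (θ : ↥P → ℂ) (hθ : Cfsg.IsGeneralizedCharacter ↥P θ) (hθU : ∀ y : ↥P, (y : G) ∉ U → θ y = 0) : (∑ᶠ χ ∈ Cfsg.principalBlock M G, ((Nat.card ↥P : ℂ)⁻¹ * ∑ᶠ y : ↥P, (χ : G → ℂ) (y : G) * θ y⁻¹) * (χ : G → ℂ) t ^ 2 / (χ : G → ℂ) 1 = 0) ∧ (∑ᶠ χ ∈ Cfsg.principalBlock M G, ((Nat.card ↥P : ℂ)⁻¹ * ∑ᶠ y : ↥P, (χ : G → ℂ) (y : G) * θ y⁻¹) * (χ : G → ℂ) 1 = 0) ∧ (∑ᶠ χ ∈ Cfsg.principalBlock M G, ((Nat.card ↥P : ℂ)⁻¹ * ∑ᶠ y : ↥P, (χ : G → ℂ) (y : G) * θ y⁻¹) * (χ : G → ℂ) t = 0) ∧ ((Nat.card ↥P : ℂ)⁻¹ * ∑ᶠ y : ↥P, θ y ≠ 0 → (2 ≤ Nat.card {χ : Cfsg.IrrCharacter G // χ ∈ Cfsg.principalBlock M G ∧ 0 < (((Nat.card ↥P : ℂ)⁻¹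 * ∑ᶠ y : ↥P, (χ : G → ℂ) (y : G) * θ y⁻¹)).re} ∧ 2 ≤ Nat.card {χ : Cfsg.IrrCharacter G // χ ∈ Cfsg.principalBlock M G ∧ (((Nat.card ↥P : ℂ)⁻¹ * ∑ᶠ y : ↥P, (χ : G → ℂ) (y : G) * θ y⁻¹)).re < 0}) ∨ ∃ K : Subgroup G, K.Normal ∧ K ≠ ⊤ ∧ Cfsg.pPrimeCore 2 G ≤ K ∧ t ∈ K) := by
  classical
  have := Fintype.ofFinite G
  simp only [inv_card_mul_finsum_eq P hθ]
  obtain ⟨a, ha, -⟩ := (isGeneralizedCharacter_indFun P hθ).exists_coeff
  choose s hs _ using fun ζ : IrrCharacter G => S0944.result ζ t ht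
  have ht2 := Inv.mul_self_of_orderOf_two ht
  have key : ∀ g : G, (∃ c : G, (c * t * c⁻¹) * pPart 2 g * (c * t * c⁻¹)⁻¹ = (pPart 2 g)⁻¹) →
      ∑ χ ∈ Finset.univ.filter (· ∈ principalBlock M G), (a χ : ℂ) * (χ : G → ℂ) g = 0 := by
    rintro g ⟨c, hc⟩
    have h := blockPart_indFun_eq_zero hM hP (θ := θ) (g := g) fun w hw => hθU w fun hU => by
      obtain ⟨b, hb⟩ := isConj_iff.1 hw
      refine hinv w hU (b * c) ?_
      rw [← hb, show (b * pPart 2 g * b⁻¹)⁻¹ = b * (pPart 2 g)⁻¹ * b⁻¹ by group, ← hc]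
      group
    rw [blockPart_apply, finsum_mem_irr_eq_sum] at h
    simpa only [ha] using h
  have h1 := sum_mul_sq_div_eq_zero' t _ _ fun c => key (t * (c * t * c⁻¹)) ⟨1, by
    rw [one_mul, inv_one, mul_one, ← pPart_conj, ← pPart_inv,
      Inv.conj_mul_eq_inv_left ht2 (Inv.conj_mul_self ht2 c)]⟩
  have h2 := key 1 ⟨1, by simp [pPart_one]⟩
  have h3 := key t ⟨1, by
    rw [pPart_eq_self_iff.2 ⟨1, by rw [ht]; rfl⟩, Inv.inv_of_orderOf_two ht]; simp⟩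
  simp only [finsum_mem_irr_eq_sum, ha, mul_div_assoc]
  refine ⟨h1, h2, h3, fun h0 => ?_⟩
  set S := Finset.univ.filter (· ∈ principalBlock M G) with hS
  have hoS : irrOne G ∈ S := by simpa [hS] using irrOne_mem_principal hM
  have hao : a (irrOne G) ≠ 0 := fun h => h0 (by
    have := ha (irrOne G)
    rw [h, classInner_indFun_left _ _ (irrOne G).2.isClassFunction, classInner_def] at this
    rw [finsum_eq_sum_of_fintype]
    simpa using this)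
  simp only [hs, ← coe_charDegree_irr] at h1 h2 h3
  have h1' : ∑ χ ∈ S, (a χ : ℚ) * ((s χ : ℚ) ^ 2 / charDegree (χ : G → ℂ)) = 0 :=
    Rat.cast_injective (α := ℂ) (by push_cast; exact h1)
  have h2' : ∑ χ ∈ S, (a χ : ℚ) * charDegree (χ : G → ℂ) = 0 :=
    Rat.cast_injective (α := ℂ) (by push_cast; exact h2)
  have h3' : ∑ χ ∈ S, (a χ : ℚ) * s χ = 0 :=
    Rat.cast_injective (α := ℂ) (by push_cast; exact h3)
  have hd : ∀ χ : IrrCharacter G, (0 : ℚ) < charDegree (χ : G → ℂ) := fun χ => by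
    exact_mod_cast charDegree_irr_pos χ
  have hso : (s (irrOne G) : ℚ) = 1 := by exact_mod_cast (hs (irrOne G)).symm.trans (irrOne_apply t)
  have hdo : (charDegree (irrOne G : G → ℂ) : ℚ) = 1 := by exact_mod_cast charDegree_const_one
  have fin : (∃ χ ∈ S, χ ≠ irrOne G ∧ (s χ : ℚ) = charDegree (χ : G → ℂ)) →
      ∃ K : Subgroup G, K.Normal ∧ K ≠ ⊤ ∧ pPrimeCore 2 G ≤ K ∧ t ∈ K := by
    rintro ⟨χ, hχ, h4, h5⟩
    refine ⟨charKer (χ : G → ℂ), inferInstance,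
      fun h => h4 (Subtype.ext (eq_one_of_charKer_eq_top χ.2 h)),
      mem_charKer_of_mem_principal hM (by simpa [hS] using hχ) _ (Grp.not_dvd_card_pPrimeCore 2 G),
      (mem_charKer_irr χ).2 ?_⟩
    rw [hs, ← coe_charDegree_irr]
    exact_mod_cast h5
  have cnt : ∀ Q : IrrCharacter G → Prop, ¬ 2 ≤ Nat.card {χ // χ ∈ principalBlock M G ∧ Q χ} →
      ∀ i ∈ S, ∀ j ∈ S, Q i → Q j → i = j := fun Q h i hi j hj h4 h5 => by
    have := Finite.card_le_one_iff_subsingleton.1 (Nat.lt_succ_iff.1 (not_le.1 h))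
    exact congrArg Subtype.val (this.elim ⟨i, by simpa [hS] using hi, h4⟩
      ⟨j, by simpa [hS] using hj, h5⟩)
  simp only [Complex.intCast_re]
  by_cases k1 : 2 ≤ Nat.card {χ // χ ∈ principalBlock M G ∧ (0 : ℝ) < a χ}
  swap
  · obtain ⟨χ, hχ, h4, -, h5⟩ := exists_eq_of_card_pos_le_one hoS hd hso hdo
      (by exact_mod_cast hao) h1' h2' h3' fun i hi j hj h4 h5 =>
        cnt _ k1 i hi j hj (by exact_mod_cast h4) (by exact_mod_cast h5)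
    exact Or.inr (fin ⟨χ, hχ, h4, h5⟩)
  by_cases k2 : 2 ≤ Nat.card {χ // χ ∈ principalBlock M G ∧ (a χ : ℝ) < 0}
  · exact Or.inl ⟨k1, k2⟩
  obtain ⟨χ, hχ, h4, -, h5⟩ := exists_eq_of_card_pos_le_one (a := fun χ => -(a χ : ℚ))
    (s := fun χ => (s χ : ℚ)) hoS hd hso
    hdo (by simpa using hao) (by simp [h1']) (by simp [h2']) (by simp [h3'])
    fun i hi j hj h4 h5 =>
      cnt _ k2 i hi j hj (by exact_mod_cast neg_pos.1 h4) (by exact_mod_cast neg_pos.1 h5)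
  exact Or.inr (fin ⟨χ, hχ, h4, h5⟩)

end Cfsg.Agent.S4722
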