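import Cfsg.Statements.S4723
import Mathlib
import Cfsg.Agent.Block.CoverMore

set_option autoImplicit false
open Cfsg

set_option linter.style.haveILetI false
set_option linter.unusedVariables false

namespace Cfsg.Agent.S4723

open Block Cfsg.Agent.Char Subgroup

/-- Let p be a prime, M a maximal ideal of the algebraic integers containing p, H a normal subgroup of the finite group G and b a p-block of H. Let T be the stabilizer of b in G. Then b contains a character θ of height zero whose own stabilizer in G (the elements g with θ(g h g⁻¹) = θ(h) for all h ∈ H) has index prime to p in T, i.e. contains a Sylow p-subgroup of T. -/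
theorem result {G : Type*} [Group G] [Finite G] (p : ℕ) [Fact p.Prime] (M : Ideal Cfsg.AlgInt) (hM : Cfsg.IsPModular p M) (H : Subgroup G) [H.Normal] (b : Set (Cfsg.IrrCharacter ↥H)) (hb : Cfsg.IsPBlock M b) (T : Subgroup G) (hT : (∀ g : G, g ∈ T ↔ ∀ θ ∈ b, ∀ θ' : Cfsg.IrrCharacter ↥H, (∀ h h' : ↥H, (h' : G) = g * h * g⁻¹ → (θ' : ↥H → ℂ) h' = (θ : ↥H → ℂ) h) → θ' ∈ b)) : ∃ θ ∈ b, Cfsg.blockHeight p b (θ : ↥H → ℂ) = 0 ∧ ∃ S : Subgroup G, S ≤ T ∧ (∀ g : G, g ∈ S ↔ (g ∈ T ∧ ∀ h h' : ↥H, (h' : G) = g * h * g⁻¹ → (θ : ↥H → ℂ) h' = (θ : ↥H → ℂ) h)) ∧ ¬ p ∣ S.relIndex T := by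
  haveI := Fintype.ofFinite G
  haveI := Fintype.ofFinite H
  have hT' : T = blockStab H b := by
    ext g
    rw [hT, mem_blockStab_iff'' hM hb]
  obtain ⟨θ, hθ, h1, h2⟩ := exists_height_zero_not_dvd_relIndex hM hb (T := T)
    (hT' ▸ le_blockStab b) hT'.le
  refine ⟨θ, hθ, h1, inertia H (θ : H → ℂ) ⊓ T, inf_le_right, fun g => ?_, ?_⟩
  · rw [mem_inf, and_comm]
    refine and_congr_right fun _ => ?_
    rw [← eq_conjIrr_inv_iff H, ← Subgroup.inv_mem_iff, mem_inertia, eq_comm, Subtype.ext_iff]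
    rfl
  · rwa [inf_relIndex_right]

end Cfsg.Agent.S4723
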