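import Cfsg.Statements.S4725
import Cfsg.Agent.Block.Contrib
import Cfsg.Agent.Char.InducedRep
-- import your own Cfsg.Agent.* helpers here

set_option autoImplicit false
open Cfsg

namespace Cfsg.Agent.S4725

open Cfsg.Agent.Block Cfsg.Agent.Char
open scoped ComplexConjugate

/-- Let p be a prime, M a maximal ideal of the algebraic integers containing p, H a subgroup of the finite group G, and b a p-block of H inducing the p-block B of G, with b and B of the same defect. Then for every height-zero ζ ∈ b there is a height-zero χ ∈ B whose multiplicity in the character induced from ζ is not divisible by p. -/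
theorem result {G : Type*} [Group G] [Fintype G] (p : ℕ) [Fact p.Prime] (M : Ideal Cfsg.AlgInt) (hM : Cfsg.IsPModular p M) (H : Subgroup G) (b : Set (Cfsg.IrrCharacter ↥H)) (B : Set (Cfsg.IrrCharacter G)) (hind : Cfsg.IsInducedBlock M H b B) (hdef : Cfsg.blockDefect p b = Cfsg.blockDefect p B) (ζ : Cfsg.IrrCharacter ↥H) (hζ : ζ ∈ b) (hζ0 : Cfsg.blockHeight p b (ζ : ↥H → ℂ) = 0) : ∃ χ ∈ B, Cfsg.blockHeight p B (χ : G → ℂ) = 0 ∧ ∃ a : ℕ, Cfsg.classInner (Cfsg.indFun H (ζ : ↥H → ℂ)) (χ : G → ℂ) = (a : ℂ) ∧ ¬ p ∣ a := by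
  classical
  have hind' : IsCharacter G (indFun H (ζ : H → ℂ)) := isCharacter_indFun H ζ.2.isCharacter
  obtain ⟨c, hc, -⟩ := hind'.exists_coeff
  have hv : val M (blockPart B (indFun H (ζ : H → ℂ)) 1) =
      val M (p : ℂ) ^ ((Nat.card G).factorization p - blockDefect p B) := by
    rw [blockPart_indFun_one, map_mul, val_om_res_eSet_eq_one hM hind hζ, one_mul, indFun_one,
      map_mul, val_irr_one_of_mem hM hζ, hζ0, add_zero,
      val_natCast_eq_pow hM Subgroup.index_ne_zero_of_finite, ← pow_add, ← H.card_mul_index,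
      Nat.factorization_mul Nat.card_pos.ne' Subgroup.index_ne_zero_of_finite, ← hdef]
    have := blockDefect_le p b
    simp only [Finsupp.add_apply]
    congr 1
    omega
  by_contra hcon
  push Not at hcon
  refine absurd hv (ne_of_lt ?_)
  rw [blockPart_apply, finsum_mem_irr_filter]
  refine (val M).map_sum_lt (val_prime_pow_ne_zero hM _) fun χ hχ => ?_
  have hχB := (Finset.mem_filter.1 hχ).2
  rw [hc, map_mul]
  by_cases h0 : blockHeight p B (χ : G → ℂ) = 0
  · refine (mul_le_mul_right (val_irr_one_le_of_mem hM hχB) _).trans_lt ?_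
    exact mul_lt_of_lt_one_left (val_prime_pow_pos hM _)
      ((val_natCast_lt_one_iff hM _).2 (hcon χ hχB h0 _ (hc χ)))
  · refine (mul_le_of_le_one_left' (val_natCast_le_one _)).trans_lt ?_
    exact lt_of_le_of_ne (val_irr_one_le_of_mem hM hχB) fun h =>
      h0 ((val_irr_one_eq_iff hM hχB).1 h)

end Cfsg.Agent.S4725
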