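import Cfsg.Statements.S4726
import Cfsg.Agent.Block.KerPi

set_option autoImplicit false
open Cfsg

namespace Cfsg.Agent.S4726

/-- Let p be a prime, M a maximal ideal of the algebraic integers containing p, H a subgroup of the finite group G and b a p-block of H with defect group D₀ such that C_G(D₀) ≤ H. Then b induces a block of G, and for every block B of G induced by b there is a defect group D of B with Z(D) ≤ Z(D₀) ≤ D₀ ≤ D (as subgroups of G). In particular, if the defect groups of B are abelian then D₀ is a defect group of B. -/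
theorem result {G : Type*} [Group G] [Finite G] (p : ℕ) [Fact p.Prime] (M : Ideal Cfsg.AlgInt) (hM : Cfsg.IsPModular p M) (H : Subgroup G) (b : Set (Cfsg.IrrCharacter ↥H)) (hb : Cfsg.IsPBlock M b) (D₀ : Subgroup ↥H) (hD₀ : Cfsg.IsDefectGroup p M b D₀) (hC : Subgroup.centralizer ((D₀.map H.subtype : Subgroup G) : Set G) ≤ H) : Cfsg.InducedBlockDefined M H b ∧ ∀ B : Set (Cfsg.IrrCharacter G), Cfsg.IsInducedBlock M H b B → (∃ D : Subgroup G, Cfsg.IsDefectGroup p M B D ∧ (Subgroup.center ↥D).map D.subtype ≤ ((Subgroup.center ↥D₀).map D₀.subtype).map H.subtype ∧ ((Subgroup.center ↥D₀).map D₀.subtype).map H.subtype ≤ D₀.map H.subtype ∧ D₀.map H.subtype ≤ D) ∧ (∀ D : Subgroup G, Cfsg.IsDefectGroup p M B D → IsMulCommutative ↥D → Cfsg.IsDefectGroup p M B (D₀.map H.subtype)) := by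
  open Cfsg.Agent.Block in
  have := charP_resField hM
  have hd0 := (isDef_bar_subtype_iff hM hb).2 hD₀
  obtain ⟨f, hf⟩ := hd0.exists_maxBP (isPrim_bar_subtype hM hb)
  refine ⟨inducedBlockDefined_of_of hM hb hf.of hC, fun B hB => ?_⟩
  have h2 := (isInducedBlock_iff_of hM hb hf.of hC hB.2.1).1 hB
  obtain ⟨P, e, hm, hle⟩ := h2.exists_maxBP
  have hP := (isDef_top_iff hM hB.2.1).1 hm.isDef
  set D := D₀.map H.subtype with hD
  have h3 := hf.isDef_center
  rw [inf_eq_right.2 hC] at h3
  have h4 : P ⊓ Subgroup.centralizer (D : Set G) ≤ D := by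
    have h5 := hle.br_inf_ne_zero (L := Subgroup.centralizer (D : Set G))
      (le_trans (le_inf le_top le_rfl) hle.left.centralizer_le_nst)
    obtain ⟨t, ht, h6⟩ := h3.low _ inf_le_right (hm.of.pair.pgroup.to_le inf_le_left) h5
    intro x hx
    have h7 := (h6 ⟨x, hx, rfl⟩).1
    have h8 := (Subgroup.mem_centralizer_iff.1 ht) _ h7
    have h9 : t * x * t⁻¹ = x := by
      rw [Alg.cm_apply] at h8
      have : t * x = t * (t * x * t⁻¹) := by rw [← h8]; group
      exact (mul_left_cancel this).symm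
    rwa [Alg.cm_apply, h9] at h7
  refine ⟨⟨P, hP, ?_, ?_, hle.le⟩, fun E hE hab => ?_⟩
  · rintro _ ⟨x, hx, rfl⟩
    have hxc : (x : G) ∈ Subgroup.centralizer (D : Set G) := by
      rw [Subgroup.mem_centralizer_iff]
      intro d hd
      exact congrArg Subtype.val (Subgroup.mem_center_iff.1 hx ⟨d, hle.le hd⟩)
    obtain ⟨y, hy, hyx⟩ := h4 ⟨x.2, hxc⟩
    refine ⟨y, ⟨⟨y, hy⟩, Subgroup.mem_center_iff.2 fun z => ?_, rfl⟩, hyx⟩
    apply Subtype.ext
    apply Subtype.ext
    have := Subgroup.mem_centralizer_iff.1 hxc _ ⟨z, z.2, rfl⟩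
    simp only [Subgroup.coe_subtype] at this hyx
    simp only [Subgroup.coe_mul, hyx]
    exact this
  · exact Subgroup.map_mono (Subgroup.map_subtype_le _)
  · obtain ⟨y, hy⟩ := exists_conj_eq_defectGroup hM hB.2.1 hE hP
    have hPab : P ≤ Subgroup.centralizer (D : Set G) := by
      intro x hx
      rw [Subgroup.mem_centralizer_iff]
      intro d hd
      have hd' := hle.le hd
      rw [← hy] at hx hd'
      obtain ⟨a, ha, rfl⟩ := hx
      obtain ⟨c, hc, rfl⟩ := hd'
      rw [← map_mul, ← map_mul]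
      congr 1
      exact congrArg Subtype.val (hab.is_comm.comm (⟨c, hc⟩ : E) ⟨a, ha⟩)
    have : P = D := le_antisymm (le_trans (le_inf le_rfl hPab) h4) hle.le
    rwa [this] at hP

end Cfsg.Agent.S4726
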