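import Cfsg.Statements.S4727
import Cfsg.Agent.Block.KerPi

set_option autoImplicit false
open Cfsg

namespace Cfsg.Agent.S4727

open Cfsg.Agent.Block in
theorem aux {G : Type*} [Group G] [Finite G] {p : ℕ} [Fact p.Prime] {M : Ideal Cfsg.AlgInt}
    (hM : Cfsg.IsPModular p M) {π : Set ℕ} (hpπ : p ∈ π) {B : Set (Cfsg.IrrCharacter G)}
    (hB : Cfsg.IsPBlock M B) {D : Subgroup G} {e : MonoidAlgebra (resField M) G}
    (he : Alg.MaxBP p ⊤ (gbar M B) D e) (h1 : Alg.Kl (Alg.oc π D) e) {y : G}
    (hy : ∃ k : ℕ, orderOf y = p ^ k)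
    {b : Set (Cfsg.IrrCharacter (Subgroup.centralizer ({y} : Set G)))}
    (hb : IsInducedBlock M _ b B) :
    ∀ x : Subgroup.centralizer ({y} : Set G),
      x ∈ piCore {q | q ∉ π} (Subgroup.centralizer ({y} : Set G)) → x ∈ blockKer b := by
  have := charP_resField hM
  have hQ : IsPGroup p (Subgroup.zpowers y) := by
    obtain ⟨n, hn⟩ := hy
    exact IsPGroup.of_card (by rw [Nat.card_zpowers, hn])
  have hc := centralizer_zpowers_eq y
  have h0 : Subgroup.centralizer ({y} : Set G) ≤
      Subgroup.normalizer (Subgroup.zpowers y : Set G) := by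
    rw [← hc]
    exact Subgroup.centralizer_le_normalizer _
  have h2 := (isInducedBlock_iff_br hM hQ (H := Subgroup.centralizer ({y} : Set G))
    (by rw [Subgroup.zpowers_le]; exact Subgroup.mem_centralizer_singleton_iff.2 rfl) hc.le
    h0 hb.1 hB).1 hb
  have h3 : Alg.Of p ⊤ (gbar M B) (Subgroup.zpowers y) (sbar M _ b) :=
    ⟨isPrim_redAlg_eSet hM hB, ⟨le_top, hQ, by
      rw [top_inf_eq, hc]; exact isPrim_bar_subtype hM hb.1⟩, h2⟩
  have h4 := he.kl_oc hpπ h1 h3
  rwa [Alg.oc, hc, kl_piCoreOf_iff hM hpπ hb.1] at h4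


/-- Let p be a prime, π a set of primes containing p, M a maximal ideal of the algebraic integers containing p, and B a p-block of the finite group G with defect group D; let B₁ be the block of N_G(D) with defect group D that induces B (the Brauer correspondent of B). Suppose every element of O_π'(N_G(D)), the largest normal subgroup of N_G(D) whose order has no prime divisor in π, lies in the kernel of every member of B₁. If y is a p-element whose centralizer C has a normal Hall π'-subgroup (every element of C whose order has no prime divisor in π lies in O_π'(C)), then χ(y x) = χ(y) for every χ ∈ B and every x ∈ C whose order has no prime divisor in π. -/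
theorem result {G : Type*} [Group G] [Finite G] (p : ℕ) [Fact p.Prime] (M : Ideal Cfsg.AlgInt) (hM : Cfsg.IsPModular p M) (π : Set ℕ) (hpπ : p ∈ π) (B : Set (Cfsg.IrrCharacter G)) (hB : Cfsg.IsPBlock M B) (D : Subgroup G) (hBD : Cfsg.IsDefectGroup p M B D) (B₁ : Set (Cfsg.IrrCharacter ↥(Subgroup.normalizer (D : Set G)))) (hB₁ : Cfsg.IsInducedBlock M (Subgroup.normalizer (D : Set G)) B₁ B) (hB₁D : Cfsg.IsDefectGroup p M B₁ (D.subgroupOf (Subgroup.normalizer (D : Set G)))) (hker : ∀ n : ↥(Subgroup.normalizer (D : Set G)), n ∈ Cfsg.piCore {q | q ∉ π} ↥(Subgroup.normalizer (D : Set G)) → n ∈ Cfsg.blockKer B₁) (y : G) (hy : ∃ k : ℕ, orderOf y = p ^ k) (hC : ∀ x : ↥(Subgroup.centralizer ({y} : Set G)), (∀ q : ℕ, q.Prime → q ∣ orderOf x → q ∉ π) → x ∈ Cfsg.piCore {q | q ∉ π} ↥(Subgroup.centralizer ({y} : Set G))) : ∀ χ ∈ B, ∀ x : G, x ∈ Subgroup.centralizer ({y} : Set G) → (∀ q : ℕ, q.Prime → q ∣ orderOf x → q ∉ π) → (χ : G → ℂ) (y * x) = (χ : G → ℂ) y := by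
  open Cfsg.Agent.Block in
  classical
  have := charP_resField hM
  have := Fintype.ofFinite G
  have hdef : Alg.IsDef p ⊤ (gbar M B) D := (isDef_top_iff hM hB).2 hBD
  obtain ⟨e, he⟩ := hdef.exists_maxBP (isPrim_redAlg_eSet hM hB)
  have h1 := (kl_correspondent_iff hM hpπ hBD hB₁ he.of).2 hker
  intro χ hχ x hx hπ
  have hxp : ¬ p ∣ orderOf (⟨x, hx⟩ : Subgroup.centralizer ({y} : Set G)) := fun hd =>
    hπ p Fact.out (by rwa [← Subgroup.orderOf_coe] at hd) hpπ
  have h1p : ¬ p ∣ orderOf (1 : Subgroup.centralizer ({y} : Set G)) := by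
    rw [orderOf_one]
    exact (Fact.out : p.Prime).not_dvd_one
  have e1 := blockPart_indSet_section_of_mem hM hy hB hχ hxp
  have e2 := blockPart_indSet_section_of_mem hM hy hB hχ h1p
  rw [Subgroup.coe_one, mul_one] at e2
  refine e1.symm.trans (Eq.trans ?_ e2)
  rw [blockPart_apply, blockPart_apply]
  refine finsum_mem_congr rfl fun ξ hξ => ?_
  rw [aux hM hpπ hB he h1 hy hξ ⟨x, hx⟩
    (hC _ fun q hq hd => hπ q hq (by rwa [← Subgroup.orderOf_coe] at hd)) ξ
    (self_mem_blockOf hM ξ)]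

end Cfsg.Agent.S4727
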