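import Cfsg.Statements.S4728
import Cfsg.Agent.Block.KerPi
import Cfsg.Agent.Block.ExtMain

set_option autoImplicit false
open Cfsg

namespace Cfsg.Agent.S4728

/-- Let p be a prime, π a set of primes containing p, M a maximal ideal of the algebraic integers containing p, B a p-block of the finite group G with defect group D, and B₁ the block of N_G(D) with defect group D inducing B. Let D₀ be a p-subgroup, H₀ = D₀·C_G(D₀), and b a block of H₀ inducing B. Write O_π'(X) for the largest normal subgroup of X whose order has no prime divisor in π. Suppose that O_π'(C_G(D₀)) is a normal Hall π'-subgroup of C_G(D₀) (it contains every element of C_G(D₀) whose order has no prime divisor in π) and that every element of it lies in the kernel of every member of b. Then every element of O_π'(N_G(D)) lies in the kernel of every member of B₁. -/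
theorem result {G : Type*} [Group G] [Finite G] (p : ℕ) [Fact p.Prime] (M : Ideal Cfsg.AlgInt) (hM : Cfsg.IsPModular p M) (π : Set ℕ) (hpπ : p ∈ π) (B : Set (Cfsg.IrrCharacter G)) (hB : Cfsg.IsPBlock M B) (D : Subgroup G) (hBD : Cfsg.IsDefectGroup p M B D) (B₁ : Set (Cfsg.IrrCharacter ↥(Subgroup.normalizer (D : Set G)))) (hB₁ : Cfsg.IsInducedBlock M (Subgroup.normalizer (D : Set G)) B₁ B) (hB₁D : Cfsg.IsDefectGroup p M B₁ (D.subgroupOf (Subgroup.normalizer (D : Set G)))) (D₀ : Subgroup G) (hD₀ : IsPGroup p D₀) (H₀ : Subgroup G) (hH₀ : H₀ = D₀ ⊔ Subgroup.centralizer (D₀ : Set G)) (b : Set (Cfsg.IrrCharacter ↥H₀)) (hb : Cfsg.IsInducedBlock M H₀ b B) (hcompl : ∀ x : ↥(Subgroup.centralizer (D₀ : Set G)), (∀ q : ℕ, q.Prime → q ∣ orderOf x → q ∉ π) → x ∈ Cfsg.piCore {q | q ∉ π} ↥(Subgroup.centralizer (D₀ : Set G))) (hkerb : ∀ x : ↥(Subgroup.centralizer (D₀ : Set G)), x ∈ Cfsg.piCore {q | q ∉ π} ↥(Subgroup.centralizer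 (D₀ : Set G)) → ∀ θ ∈ b, ∀ h : ↥H₀, (h : G) = (x : G) → (θ : ↥H₀ → ℂ) h = (θ : ↥H₀ → ℂ) 1) : ∀ n : ↥(Subgroup.normalizer (D : Set G)), n ∈ Cfsg.piCore {q | q ∉ π} ↥(Subgroup.normalizer (D : Set G)) → n ∈ Cfsg.blockKer B₁ := by
  open Cfsg.Agent.Block in
  have := charP_resField hM
  have hdef : Alg.IsDef p ⊤ (gbar M B) D := (isDef_top_iff hM hB).2 hBD
  obtain ⟨e, he⟩ := hdef.exists_maxBP (isPrim_redAlg_eSet hM hB)
  rw [← kl_correspondent_iff hM hpπ hBD hB₁ he.of]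
  have h1 : D₀ ≤ H₀ := hH₀ ▸ le_sup_left
  have h2 : Subgroup.centralizer (D₀ : Set G) ≤ H₀ := hH₀ ▸ le_sup_right
  have h3 : H₀ ≤ Subgroup.normalizer (D₀ : Set G) := hH₀ ▸ sup_centralizer_le_normalizer D₀
  have h4 := (isInducedBlock_iff_br hM hD₀ h1 h2 h3 hb.1 hB).1 hb
  have h5 := (Alg.isPrim_Z_iff_of_normal (N := Subgroup.centralizer (D₀ : Set G)) hD₀ h1 h3
    inf_le_right h2).1 (isPrim_bar_subtype hM hb.1)
  obtain ⟨f, hf, hbf⟩ := h5.exists_block_le h2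
  have h6 : Alg.Of p ⊤ (gbar M B) D₀ f :=
    ⟨isPrim_redAlg_eSet hM hB, ⟨le_top, hD₀, by rwa [top_inf_eq]⟩,
      by rw [← hbf, ← mul_assoc, h4]⟩
  have h7 : Alg.Kl (Alg.oc π D₀) (sbar M H₀ b) := by
    rw [kl_sbar_iff hM ((Cfsg.Agent.FT.B7.piCoreOf_le _ _).trans h2)
      (h3.trans (Alg.normalizer_le_normalizer_oc D₀)) (Alg.not_dvd_card_piCoreOf hpπ _) hb.1]
    rintro x ⟨y, hy, e⟩ θ hθ
    exact hkerb y hy θ hθ x e.symm
  refine he.kl_oc_of_hall hpπ h6 (fun x hx hπ => ?_) ?_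
  · exact (mem_piCoreOf_iff ⟨x, hx⟩).2 (hcompl ⟨x, hx⟩ fun q hq hd =>
      hπ q hq (by rwa [← Subgroup.orderOf_coe] at hd))
  · rw [Alg.Kl, ← hbf, ← mul_assoc, h7, smul_mul_assoc]

end Cfsg.Agent.S4728
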