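import Cfsg.Statements.S4729
import Cfsg.Agent.Char.ActIrr
import Cfsg.Agent.Char.Det
import Cfsg.Agent.Char.Quot
import Cfsg.Agent.Block.IntAlg

set_option autoImplicit false
open Cfsg

namespace Cfsg.Agent.S4729

open Cfsg.Agent.Char Cfsg.Agent.Block

/-- Let p be a prime, M a maximal ideal of the algebraic integers containing p, G a finite perfect group and P a Sylow p-subgroup. If the principal p-block of G contains a faithful irreducible character of degree less than 2p, then the centralizer of P is a p-group. -/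
theorem result {G : Type*} [Group G] [Finite G] (p : ℕ) [Fact p.Prime] (M : Ideal Cfsg.AlgInt) (hM : Cfsg.IsPModular p M) (hperf : commutator G = ⊤) (P : Sylow p G) (χ : Cfsg.IrrCharacter G) (hχ : χ ∈ Cfsg.principalBlock M G) (hfaith : ∀ g : G, (χ : G → ℂ) g = (χ : G → ℂ) 1 → g = 1) (hdeg : Cfsg.charDegree (χ : G → ℂ) < 2 * p) : IsPGroup p ↥(Subgroup.centralizer ((P : Subgroup G) : Set G)) := by
  classical
  have hp : p.Prime := Fact.out
  by_contra hcon
  obtain ⟨q, hq, hqp, hqd⟩ : ∃ q : ℕ, q.Prime ∧ q ≠ p ∧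
      q ∣ Nat.card (Subgroup.centralizer ((P : Subgroup G) : Set G)) := by
    by_contra h
    push Not at h
    exact hcon (IsPGroup.of_card (Nat.eq_prime_pow_of_unique_prime_dvd Nat.card_pos.ne'
      (fun {d} hd hdd => by_contra fun hne => h d hd hne hdd)))
  have := Fact.mk hq
  obtain ⟨y, hy⟩ := exists_prime_orderOf_dvd_card' q hqd
  rw [← Subgroup.orderOf_coe] at hy
  let Y : Subgroup G := Subgroup.zpowers (y : G)
  have hYC : Y ≤ Subgroup.centralizer ((P : Subgroup G) : Set G) := Subgroup.zpowers_le.mpr y.2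
  have hYc : Nat.card Y = q := by rw [Nat.card_zpowers, hy]
  have := Fintype.ofFinite Y
  have hcomm : ∀ a b : Y, a * b = b * a := fun a b => (inferInstance : IsMulCommutative Y).1.1 a b
  have h1 : ∀ z : Y, val M ((χ : G → ℂ) z - (χ : G → ℂ) 1) < 1 := by
    intro z
    have hle : (P : Subgroup G) ≤ Subgroup.centralizer ({(z : G)} : Set G) := fun x hx =>
      Subgroup.mem_centralizer_singleton_iff.mpr (hYC z.2 x hx)
    have hnd : ¬ p ∣ (Subgroup.centralizer ({(z : G)} : Set G)).index := fun h =>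
      P.not_dvd_index (h.trans (Subgroup.index_dvd_of_le hle))
    have h2 := val_lt_one_of_memLocalIdeal hM (hχ z)
    rw [centralChar, centralChar, mul_div_assoc, mul_div_assoc, ← mul_sub,
      map_mul, (val_natCast_eq_one_iff hM _).mpr hnd, one_mul, val_sub_comm] at h2
    have h3 := val_mul_lt_one_left h2 (val_le_one_of_isIntegral (χ.2.isCharacter.isIntegral 1))
    rwa [sub_mul, div_mul_cancel₀ _ χ.2.one_ne_zero, div_one, one_mul] at h3
  obtain ⟨m, hm, hsum⟩ := (χ.2.isCharacter.restrict Y).exists_coeff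
  have hdvd : ∀ ξ : IrrCharacter Y, ξ ≠ irrOne Y → p ∣ m ξ := by
    intro ξ hξ
    rw [← val_natCast_lt_one_iff hM, ← hm]
    have h4 : classInner (fun _ : Y => (χ : G → ℂ) 1) ξ = 0 := by
      have := classInner_smul_left ((χ : G → ℂ) 1) (fun _ : Y => 1) ξ
      rw [isIrrCharacter_one.inner_eq_zero ξ.2 (fun h => hξ (Subtype.ext h.symm)), mul_zero] at this
      rw [← this]
      congr 1
      ext; simp
    rw [← sub_zero (classInner _ _), ← h4, ← classInner_sub_left, classInner_def]
    refine val_mul_lt_one_right (val_inv_of_eq_one ((val_natCast_eq_one_iff hM _).mpr ?_)).le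
      (val_sum_lt_one fun z _ => val_mul_lt_one_left (h1 z)
        (val_le_one_of_isIntegral (ξ.2.isCharacter.conj.isIntegral z)))
    rw [hYc]
    exact fun h => hqp ((Nat.prime_dvd_prime_iff_eq hp hq).mp h).symm
  have hξ1 : ∀ ξ : IrrCharacter Y, (ξ : Y → ℂ) 1 = 1 := fun ξ => ξ.2.one_eq_one_of_comm hcomm
  have hdeg' : charDegree (χ : G → ℂ) = ∑ ξ, m ξ := by
    refine charDegree_eq_of_one_eq ?_
    have := congrFun hsum 1
    simpa [hξ1] using this
  have hy1 : (y : G) ≠ 1 := by
    intro h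
    rw [h, orderOf_one] at hy
    exact hq.ne_one hy.symm
  obtain ⟨ξ₀, hξ₀, hm₀⟩ : ∃ ξ₀, ξ₀ ≠ irrOne Y ∧ m ξ₀ ≠ 0 := by
    by_contra h
    push Not at h
    refine hy1 (hfaith _ ?_)
    have h5 := congrFun hsum ⟨y, Subgroup.mem_zpowers _⟩
    have h6 := congrFun hsum 1
    rw [Finset.sum_eq_single (irrOne Y) (fun ξ _ hξ => by simp [h ξ hξ]) (by simp)] at h5 h6
    exact h5.trans h6.symm
  have h7 : ∀ ξ, ξ ≠ irrOne Y → ξ ≠ ξ₀ → m ξ = 0 := by
    intro ξ hξ hne
    by_contra h
    have h8 := Nat.le_of_dvd (Nat.pos_of_ne_zero h) (hdvd ξ hξ)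
    have h9 := Nat.le_of_dvd (Nat.pos_of_ne_zero hm₀) (hdvd ξ₀ hξ₀)
    have h10 := Finset.add_le_sum (f := m) (fun _ _ => Nat.zero_le _) (Finset.mem_univ ξ)
      (Finset.mem_univ ξ₀) hne
    omega
  have h11 : m ξ₀ = p := by
    obtain ⟨c, hc⟩ := hdvd ξ₀ hξ₀
    have h12 := Finset.single_le_sum (f := m) (fun _ _ => Nat.zero_le _) (Finset.mem_univ ξ₀)
    have : c = 1 := by
      rcases c with _ | _ | c
      · simp [hc] at hm₀
      · rfl
      · nlinarith
    rw [hc, this, mul_one]
  have hdet : detHom (χ : G → ℂ) = 1 := by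
    ext1 g
    have hg : g ∈ commutator G := hperf ▸ Subgroup.mem_top g
    exact Abelianization.commutator_subset_ker _ hg
  have h13 := detChar_restrict χ.2.isCharacter Y
  rw [hsum, detChar_sum _ _ (fun ξ _ => ξ.2.isCharacter.natCast_smul _)] at h13
  simp only [detChar_natCast_smul (Subtype.property (_ : IrrCharacter Y)).isCharacter,
    detChar_of_one (Subtype.property (_ : IrrCharacter Y)).isCharacter (hξ1 _)] at h13
  rw [Finset.prod_eq_single ξ₀ (fun ξ _ hne => by
    by_cases h : ξ = irrOne Y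
    · subst h; ext; simp
    · simp [h7 ξ h hne]) (by simp), h11, detChar_eq_detHom, hdet] at h13
  obtain ⟨lam, hlam⟩ := ξ₀.2.exists_linear_of_comm hcomm
  refine hξ₀ (Subtype.ext (funext fun z => ?_))
  have h14 : lam z ^ p = 1 := by
    have := congrFun h13 z
    rw [hlam] at this
    exact Units.ext (by simpa using this)
  have h15 : lam z ^ q = 1 := by rw [← map_pow, ← hYc, pow_card_eq_one', map_one]
  have h16 := (pow_eq_one_iff_of_coprime ((Nat.coprime_primes hp hq).mpr hqp.symm)).mp ⟨h14, h15⟩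
  change (ξ₀ : Y → ℂ) z = 1
  rw [hlam]
  simp [h16]

end Cfsg.Agent.S4729
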