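import Cfsg.Statements.S4730
import Cfsg.Agent.Char.Ito
import Cfsg.Agent.Char.Quot
import Cfsg.Agent.Block.IntAlg

set_option autoImplicit false
open Cfsg

namespace Cfsg.Agent.S4730

open Cfsg.Agent.Char Cfsg.Agent.Block

/-- Let p be a prime, M a maximal ideal of the algebraic integers containing p, and G a finite group with trivial centre, Sylow p-subgroup P of order p^a and centre Z(P) of order p^b. If χ is a faithful irreducible character of G whose degree is a power of p, then the p-block of χ has defect at most a − b; in particular, if P is abelian then χ lies in a block of defect zero. -/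
theorem result {G : Type*} [Group G] [Finite G] (p : ℕ) [Fact p.Prime] (M : Ideal Cfsg.AlgInt) (hM : Cfsg.IsPModular p M) (hZ : Subgroup.center G = ⊥) (P : Sylow p G) (a b : ℕ) (ha : Nat.card P = p ^ a) (hb : Nat.card (Subgroup.center ↥(P : Subgroup G)) = p ^ b) (χ : Cfsg.IrrCharacter G) (hfaith : ∀ g : G, (χ : G → ℂ) g = (χ : G → ℂ) 1 → g = 1) (n : ℕ) (hdeg : Cfsg.charDegree (χ : G → ℂ) = p ^ n) : Cfsg.blockDefect p (Cfsg.blockOf M (χ : G → ℂ)) ≤ a - b ∧ (IsMulCommutative ↥(P : Subgroup G) → Cfsg.blockDefect p (Cfsg.blockOf M (χ : G → ℂ)) = 0) := by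
  classical
  have hp : p.Prime := Fact.out
  have key : ∀ ψ ∈ Cfsg.blockOf M (χ : G → ℂ), b ≤ (charDegree (ψ : G → ℂ)).factorization p := by
    intro ψ hψ
    have := Fintype.ofFinite (Subgroup.center ↥(P : Subgroup G))
    let f : Subgroup.center ↥(P : Subgroup G) →* G :=
      (P : Subgroup G).subtype.comp (Subgroup.subtype _)
    have h1 : ∀ z, z ≠ 1 → val M ((ψ : G → ℂ) (f z) / (ψ : G → ℂ) 1) < 1 := by
      intro z hz
      have hle : (P : Subgroup G) ≤ Subgroup.centralizer ({f z} : Set G) := fun x hx =>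
        Subgroup.mem_centralizer_singleton_iff.mpr
          (congrArg Subtype.val (Subgroup.mem_center_iff.mp z.2 ⟨x, hx⟩))
      have hnd : ¬ p ∣ (Subgroup.centralizer ({f z} : Set G)).index := fun h =>
        P.not_dvd_index (h.trans (Subgroup.index_dvd_of_le hle))
      have h0 : (χ : G → ℂ) (f z) = 0 := by
        refine (χ.2.eq_zero_or_norm_eq (coe_charDegree_irr χ).symm (f z) ?_).resolve_right
          fun h => hz ?_
        · rw [hdeg]
          exact ((Nat.Prime.coprime_iff_not_dvd hp).mpr hnd).pow_left n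
        · have h2 := mem_center_of_norm_eq χ.2.isCharacter hfaith h
          rw [hZ, Subgroup.mem_bot] at h2
          exact Subtype.ext (Subtype.ext h2)
      have h2 := val_lt_one_of_memLocalIdeal hM (hψ (f z))
      rw [centralChar, centralChar, h0, mul_zero, zero_div, zero_sub, Valuation.map_neg,
        mul_div_assoc, map_mul, (val_natCast_eq_one_iff hM _).mpr hnd, one_mul] at h2
      exact h2
    obtain ⟨m, hm⟩ := (ψ.2.isCharacter.comp f).exists_nat_inner isCharacter_one
    rw [classInner_one_right, hb] at hm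
    have hp0 : ((p ^ b : ℕ) : ℂ) ≠ 0 := Nat.cast_ne_zero.mpr (pow_ne_zero _ hp.ne_zero)
    have h3 : val M (((p ^ b * m : ℕ) : ℂ) / (ψ : G → ℂ) 1) = 1 := by
      refine val_eq_one_of_sub_lt (b := 1) (map_one _) ?_
      rw [Nat.cast_mul, ← hm, mul_inv_cancel_left₀ hp0, Finset.sum_div,
        ← Finset.add_sum_erase _ _ (Finset.mem_univ 1), map_one, div_self ψ.2.one_ne_zero,
        add_sub_cancel_left]
      exact val_sum_lt_one fun z hz => h1 z (Finset.ne_of_mem_erase hz)
    have hm0 : m ≠ 0 := by
      rintro rfl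
      simp at h3
    rw [map_div₀, div_eq_one_iff_eq ((Valuation.ne_zero_iff _).mpr ψ.2.one_ne_zero),
      ← coe_charDegree_irr, val_natCast_eq_iff hM (mul_ne_zero (pow_ne_zero _ hp.ne_zero) hm0)
      (charDegree_irr_ne_zero ψ), Nat.factorization_mul (pow_ne_zero _ hp.ne_zero) hm0] at h3
    rw [← h3]
    simp [hp.factorization_self]
  have hG : (Nat.card G).factorization p = a := by
    have := P.card_eq_multiplicity
    rw [ha] at this
    exact (Nat.pow_right_injective hp.two_le this).symm
  have h4 : Cfsg.blockDefect p (Cfsg.blockOf M (χ : G → ℂ)) ≤ a - b := by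
    rw [blockDefect, hG]
    refine Nat.sub_le_sub_left (le_csInf (Set.Nonempty.image _ ⟨χ, self_mem_blockOf hM χ⟩) ?_) a
    rintro _ ⟨ψ, hψ, rfl⟩
    exact key ψ hψ
  refine ⟨h4, fun hc => ?_⟩
  have h5 : Subgroup.center ↥(P : Subgroup G) = ⊤ :=
    eq_top_iff.mpr fun x _ => Subgroup.mem_center_iff.mpr fun y => hc.1.1 y x
  rw [h5, Subgroup.card_top, ha] at hb
  rw [Nat.pow_right_injective hp.two_le hb] at h4
  omega

end Cfsg.Agent.S4730
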