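import Cfsg.Statements.S4734
import Cfsg.Agent.Block.KerPi

set_option autoImplicit false
open Cfsg

namespace Cfsg.Agent.S4734

/-- Let p be a prime, π a set of primes containing p, M a maximal ideal of the algebraic integers containing p, B a p-block of the finite group G with defect group D, and B₁ the block of N_G(D) with defect group D inducing B. Write O_π'(X) for the largest normal subgroup of X whose order has no prime divisor in π, and suppose every element of O_π'(N_G(D)) lies in the kernel of every member of B₁. Let G₀ be a subgroup and B₀ a block of G₀ with defect group D₀ such that C_G(D₀) ≤ G₀ and B₀ induces B. Then every element of O_π'(G₀) lies in the kernel of every member of B₀. -/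
theorem result {G : Type*} [Group G] [Finite G] (p : ℕ) [Fact p.Prime] (M : Ideal Cfsg.AlgInt) (hM : Cfsg.IsPModular p M) (π : Set ℕ) (hpπ : p ∈ π) (B : Set (Cfsg.IrrCharacter G)) (hB : Cfsg.IsPBlock M B) (D : Subgroup G) (hBD : Cfsg.IsDefectGroup p M B D) (B₁ : Set (Cfsg.IrrCharacter ↥(Subgroup.normalizer (D : Set G)))) (hB₁ : Cfsg.IsInducedBlock M (Subgroup.normalizer (D : Set G)) B₁ B) (hB₁D : Cfsg.IsDefectGroup p M B₁ (D.subgroupOf (Subgroup.normalizer (D : Set G)))) (hker : ∀ n : ↥(Subgroup.normalizer (D : Set G)), n ∈ Cfsg.piCore {q | q ∉ π} ↥(Subgroup.normalizer (D : Set G)) → n ∈ Cfsg.blockKer B₁) (G₀ : Subgroup G) (B₀ : Set (Cfsg.IrrCharacter ↥G₀)) (hB₀ : Cfsg.IsInducedBlock M G₀ B₀ B) (D₀ : Subgroup ↥G₀) (hD₀ : Cfsg.IsDefectGroup p M B₀ D₀) (hC : Subgroup.centralizer ((D₀.map G₀.subtype : Subgroup G) : Set G) ≤ G₀) : ∀ x : ↥G₀, x ∈ Cfsg.piCore {q | q ∉ π} ↥G₀ → x ∈ Cfsg.blockKer B₀ := by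
  open Cfsg.Agent.Block in
  have := charP_resField hM
  have hdef : Alg.IsDef p ⊤ (gbar M B) D := (isDef_top_iff hM hB).2 hBD
  obtain ⟨e, he⟩ := hdef.exists_maxBP (isPrim_redAlg_eSet hM hB)
  have h1 := (kl_correspondent_iff hM hpπ hBD hB₁ he.of).2 hker
  have hd0 := (isDef_bar_subtype_iff hM hB₀.1).2 hD₀
  obtain ⟨f, hf⟩ := hd0.exists_maxBP (isPrim_bar_subtype hM hB₀.1)
  have h2 := (isInducedBlock_iff_of hM hB₀.1 hf.of hC hB).1 hB₀
  have h3 := he.kl_oc hpπ h1 h2
  rw [← kl_piCoreOf_iff hM hpπ hB₀.1]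
  exact Alg.kl_of_kl_oc hpπ hf.of.block h2.pair (Cfsg.Agent.FT.B7.piCoreOf_le _ _)
    (Cfsg.Agent.FT.B7.le_normalizer_piCoreOf _ _) (Cfsg.Agent.FT.B7.piCoreOf_pi _ _)
    (hd0.le.trans (Cfsg.Agent.FT.B7.le_normalizer_piCoreOf _ _)) hC
    (hf.of.block.mem.2.mono hd0.le) hf.of.mul h3

end Cfsg.Agent.S4734
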