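import Cfsg.Statements.S4735
import Cfsg.Agent.Block.GalBlock
import Cfsg.Agent.Block.Dominate
import Cfsg.Agent.Block.BrauerPair
import Cfsg.Agent.Grp.Cores

set_option autoImplicit false
open Cfsg

namespace Cfsg.Agent.S4735

open Cfsg.Agent.Block Subgroup Cfsg.Agent.Char

open Cfsg.Agent.Char in
theorem sum_quot {G : Type*} [Group G] [Finite G] {p : ℕ} [Fact p.Prime] {M : Ideal AlgInt}
    (hM : IsPModular p M) {β : Type*} [AddCommMonoid β] (F : IrrCharacter G → β) :
    ∑ᶠ χ ∈ principalBlock M G, F χ = ∑ᶠ ψ ∈ principalBlock M (G ⧸ pPrimeCore p G),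
      F (inflateIrr _ (QuotientGroup.mk'_surjective _) ψ) := by
  rw [principalBlock_eq_image_of_not_dvd hM _ (QuotientGroup.mk'_surjective (pPrimeCore p G))
    (by rw [QuotientGroup.ker_mk']; exact Grp.not_dvd_card_pPrimeCore p G),
    finsum_mem_image (inflateIrr_injective _ _).injOn]


theorem le_card {G : Type*} [Group G] [Finite G] (B : Set (IrrCharacter G)) (x : G) :
    ∑ᶠ χ ∈ B, Complex.normSq ((χ : G → ℂ) x) ≤ Nat.card (centralizer ({x} : Set G)) := by
  classical
  rw [← Char.sum_irr_norm_sq, finsum_mem_irr]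
  refine Finset.sum_le_sum fun ψ _ => ?_
  split_ifs
  · exact (Complex.normSq_eq_norm_sq _).le
  · exact sq_nonneg _

theorem eq_card_iff {G : Type*} [Group G] [Finite G] {p : ℕ} [Fact p.Prime] {M : Ideal AlgInt}
    (hM : IsPModular p M) : ∑ᶠ χ ∈ principalBlock M G, charDegree (χ : G → ℂ) ^ 2 = Nat.card G ↔
      ∀ B : Set (IrrCharacter G), IsPBlock M B → B = principalBlock M G := by
  classical
  have h3 : ∑ ψ : IrrCharacter G, charDegree (ψ : G → ℂ) ^ 2 = Nat.card G := by
    apply Nat.cast_injective (R := ℂ)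
    rw [← Char.sum_irr_one_sq]
    simp [Char.coe_charDegree_irr]
  rw [finsum_mem_irr, ← h3, Finset.sum_eq_sum_iff_of_le fun ψ _ => by
    split_ifs
    exacts [le_rfl, Nat.zero_le _]]
  constructor
  · intro h B hB
    obtain ⟨ψ, hψ⟩ := block_nonempty hM hB
    refine block_eq_of_mem hM hB (isPBlock_principalBlock M _) hψ ?_
    by_contra h4
    have := h ψ (Finset.mem_univ _)
    rw [if_neg h4] at this
    exact pow_ne_zero 2 (Char.charDegree_irr_ne_zero ψ) this.symm
  · intro h ψ _
    rw [if_pos (h _ (isPBlock_blockOf ψ) ▸ self_mem_blockOf hM ψ)]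

/-- Let p be a prime, M a maximal ideal of the algebraic integers containing p, G a finite group, H = O_p'(G) and Ḡ = G/H. For x ∈ G write λ(G, x) for the sum of |χ(x)|^2 over the irreducible characters χ in the principal p-block of G. Then λ(G, x) is a positive integer, λ(G, x) = λ(Ḡ, x̄) where x̄ is the image of x, and λ(G, x) ≤ #C_Ḡ(x̄). Moreover λ(G, 1) = [G : H] if and only if the principal block is the only p-block of Ḡ. -/
theorem result {G : Type*} [Group G] [Finite G] (p : ℕ) [Fact p.Prime] (M : Ideal Cfsg.AlgInt) (hM : Cfsg.IsPModular p M) (x : G) : (∃ n : ℕ, 0 < n ∧ ∑ᶠ χ ∈ Cfsg.principalBlock M G, Complex.normSq ((χ : G → ℂ) x) = n) ∧ ∑ᶠ χ ∈ Cfsg.principalBlock M G, Complex.normSq ((χ : G → ℂ) x) = ∑ᶠ ψ ∈ Cfsg.principalBlock M (G ⧸ Cfsg.pPrimeCore p G), Complex.normSq ((ψ : G ⧸ Cfsg.pPrimeCore p G → ℂ) (QuotientGroup.mk x)) ∧ ∑ᶠ χ ∈ Cfsg.principalBlock M G, Complex.normSq ((χ : G → ℂ) x) ≤ (Nat.card ↥(Subgroup.centralizer ({(QuotientGroup.mk x : G ⧸ Cfsg.pPrimeCore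 p G)} : Set (G ⧸ Cfsg.pPrimeCore p G))) : ℝ) ∧ ((∑ᶠ χ ∈ Cfsg.principalBlock M G, Cfsg.charDegree (χ : G → ℂ) ^ 2) = (Cfsg.pPrimeCore p G).index ↔ ∀ B : Set (Cfsg.IrrCharacter (G ⧸ Cfsg.pPrimeCore p G)), Cfsg.IsPBlock M B → B = Cfsg.principalBlock M (G ⧸ Cfsg.pPrimeCore p G)) := by
  classical
  have h2 := sum_quot hM fun χ : IrrCharacter G => Complex.normSq ((χ : G → ℂ) x)
  refine ⟨?_, h2, ?_, ?_⟩
  · obtain ⟨z, hz⟩ := Char.exists_int_of_forall_ringEquiv
      (x := ∑ χ : IrrCharacter G, if χ ∈ principalBlock M G then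
        (χ : G → ℂ) x * starRingEnd ℂ ((χ : G → ℂ) x) else 0)
      (IsIntegral.sum _ fun χ _ => by
        split_ifs
        · exact (χ.2.isGen.isIntegral x).mul (isIntegral_conj (χ.2.isGen.isIntegral x))
        · exact isIntegral_zero) fun σ => by
        rw [map_sum]
        conv_rhs => rw [← (Char.galIrr σ).sum_comp]
        refine Finset.sum_congr rfl fun χ _ => ?_
        rw [galIrr_mem_principal_iff hM]
        split_ifs
        · rw [map_mul, Char.galIrr_apply]
          exact congrArg _ (χ.2.isGen.galois_conj σ.toRingHom x)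
        · exact map_zero _
    have h3 : ∑ᶠ χ ∈ principalBlock M G, Complex.normSq ((χ : G → ℂ) x) = z := by
      apply Complex.ofReal_injective
      rw [Complex.ofReal_intCast, ← hz, finsum_mem_irr, Complex.ofReal_sum]
      refine Finset.sum_congr rfl fun χ _ => ?_
      split_ifs
      · exact (Complex.mul_conj _).symm
      · rfl
    have h4 : (0 : ℝ) < z := by
      rw [← h3, finsum_mem_irr]
      refine Finset.sum_pos' (fun χ _ => ?_) ⟨Char.irrOne G, Finset.mem_univ _, ?_⟩
      · split_ifs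
        · exact Complex.normSq_nonneg _
        · rfl
      · rw [if_pos (show Char.irrOne G ∈ principalBlock M G from
          self_mem_blockOf hM (Char.irrOne G))]
        simp
    have h5 : 0 < z := by exact_mod_cast h4
    refine ⟨z.toNat, by omega, ?_⟩
    rw [h3, ← Int.cast_natCast, Int.toNat_of_nonneg h5.le]
  · rw [h2]
    exact le_card _ _
  · rw [sum_quot hM, index_eq_card, ← eq_card_iff hM]
    simp only [charDegree_inflateIrr]

end Cfsg.Agent.S4735
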