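import Cfsg.Statements.S4955
import Cfsg.Agent.Char.Zeros
import Cfsg.Agent.Char.Ito
import Cfsg.Agent.Char.Quot

set_option autoImplicit false
open Cfsg

namespace Cfsg.Agent.S4955

open Cfsg.Agent.Char

/-- Let X be a finite group with an abelian normal Sylow p-subgroup V (a normal p-subgroup of index prime to p in which any two elements commute), and let G be a complement to V in X. Then for every v in V, writing C for the centralizer of v in G, the number k(X) of conjugacy classes of X satisfies k(X) ≤ (order of C)·(order of V) − ((order of G) − k(G)); the statement is written with the subtracted term moved to the left. In particular, if some v in V is centralized by no nonidentity element of G, then k(X) is at most the order of V. -/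
theorem result {X : Type*} [Group X] [Finite X] (p : ℕ) [Fact p.Prime] (V : Subgroup X) [V.Normal] (hVp : IsPGroup p V) (hidx : ¬ p ∣ V.index) (hab : ∀ a ∈ V, ∀ b ∈ V, a * b = b * a) (G : Subgroup X) (hGV : Subgroup.IsComplement' V G) (v : X) (hv : v ∈ V) : Nat.card (ConjClasses X) + Nat.card G ≤ Nat.card ↥(G ⊓ Subgroup.centralizer ({v} : Set X)) * Nat.card V + Nat.card (ConjClasses G) := by
  classical
  have hp : p.Prime := Fact.out
  let f : X →* G := hGV.symm.QuotientMulEquiv.toMonoidHom.comp (QuotientGroup.mk' V)
  have hf : Function.Surjective f :=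
    hGV.symm.QuotientMulEquiv.surjective.comp (QuotientGroup.mk'_surjective V)
  have hker : f.ker = V := by
    ext x
    simp [f]
  let P : IrrCharacter X → Prop := fun χ => ∀ n ∈ f.ker, (χ : X → ℂ) n = (χ : X → ℂ) 1
  have h1 : ∑ χ ∈ Finset.univ.filter P, ‖(χ : X → ℂ) v‖ ^ 2 = Nat.card G := by
    have h2 := sum_irr_norm_sq (1 : G)
    rw [show Subgroup.centralizer ({1} : Set G) = ⊤ by
      ext x; simp [Subgroup.mem_centralizer_singleton_iff], Subgroup.card_top] at h2
    rw [← h2, Finset.sum_subtype (p := P) _ (by simp), ← (inflateEquiv f hf).sum_comp]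
    refine Finset.sum_congr rfl fun ψ _ => ?_
    have h3 : f v = 1 := by rw [← MonoidHom.mem_ker, hker]; exact hv
    rw [← h3]
    rfl
  have h4 : (Finset.univ.filter P).card = Nat.card (ConjClasses G) := by
    rw [← card_irr, Nat.card_congr (inflateEquiv f hf), Nat.card_eq_fintype_card,
      Fintype.card_subtype]
  have h5 := card_le_sum_irr_norm_sq (Finset.univ.filter fun χ => ¬ P χ) (fun σ χ hχ => by
    simp only [Finset.mem_filter, Finset.mem_univ, true_and, P, galIrr_apply] at hχ ⊢
    exact fun h => hχ fun n hn => σ.injective (h n hn)) v (fun χ _ => by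
    obtain ⟨k, hk⟩ := hVp ⟨v, hv⟩
    exact χ.2.isCharacter.ne_zero_of_not_dvd hp (coe_charDegree_irr χ).symm (fun h => hidx
      (h.trans (χ.2.deg_dvd_index_of_comm (coe_charDegree_irr χ).symm V hab)))
      (congrArg Subtype.val hk))
  have h6 := sum_irr_norm_sq v
  rw [← Finset.sum_filter_add_sum_filter_not Finset.univ P, h1] at h6
  have h7 := Finset.card_filter_add_card_filter_not (s := Finset.univ) P
  rw [h4, Finset.card_univ, ← Nat.card_eq_fintype_card, card_irr] at h7
  have h8 : Nat.card (Subgroup.centralizer ({v} : Set X)) ≤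
      Nat.card ↥(G ⊓ Subgroup.centralizer ({v} : Set X)) * Nat.card V := by
    rw [← Nat.card_prod]
    have hVC : V ≤ Subgroup.centralizer ({v} : Set X) := fun a ha =>
      Subgroup.mem_centralizer_singleton_iff.mpr (hab a ha v hv)
    refine Nat.card_le_card_of_surjective
      (fun x : ↥(G ⊓ Subgroup.centralizer ({v} : Set X)) × V =>
        (⟨(x.2 : X) * x.1, mul_mem (hVC x.2.2) x.1.2.2⟩ : Subgroup.centralizer ({v} : Set X))) ?_
    intro c
    obtain ⟨⟨a, b⟩, hab'⟩ := hGV.2 (c : X)
    refine ⟨(⟨b, b.2, ?_⟩, ⟨a, a.2⟩), Subtype.ext hab'⟩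
    have : (b : X) = (a : X)⁻¹ * c := by rw [← hab']; simp
    rw [this]
    exact Subgroup.mul_mem _ (Subgroup.inv_mem _ (hVC a.2)) c.2
  have h9 : ((Finset.univ.filter fun χ => ¬ P χ).card : ℝ) + Nat.card G ≤
      Nat.card (Subgroup.centralizer ({v} : Set X)) := by linarith
  have h10 : (Finset.univ.filter fun χ => ¬ P χ).card + Nat.card G ≤
      Nat.card (Subgroup.centralizer ({v} : Set X)) := by exact_mod_cast h9
  omega

end Cfsg.Agent.S4955
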