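import Cfsg.Statements.S4956
import Mathlib
import Cfsg.Agent.Solv.Glauberman

set_option autoImplicit false
open Cfsg

namespace Cfsg.Agent.S4956

/-- Let X be a finite group, V an abelian normal subgroup of X (any two elements of V commute) and G a complement to V in X whose order is coprime to that of V. Let S be a set of representatives of the orbits of G on V under conjugation: S lies in V and every element of V is conjugate under G to exactly one member of S. Then the number of conjugacy classes of X equals the sum, over s in S, of the number of conjugacy classes of the centralizer of s in G. -/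
theorem result {X : Type*} [Group X] [Finite X] (V : Subgroup X) [V.Normal] (hab : ∀ a ∈ V, ∀ b ∈ V, a * b = b * a) (G : Subgroup X) (hGV : Subgroup.IsComplement' V G) (hcop : (Nat.card V).Coprime (Nat.card G)) (S : Finset X) (hSV : ∀ s ∈ S, s ∈ V) (hrep : ∀ v ∈ V, ∃! s, s ∈ S ∧ ∃ g ∈ G, g * v * g⁻¹ = s) : Nat.card (ConjClasses X) = ∑ s ∈ S, Nat.card (ConjClasses ↥(G ⊓ Subgroup.centralizer ({s} : Set X))) := by
  classical
  let C : X → Subgroup X := fun s => G ⊓ Subgroup.centralizer ({s} : Set X)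
  have hCc : ∀ s c, c ∈ C s → s * c = c * s := fun s c hc =>
    Subgroup.mem_centralizer_iff.mp hc.2 s rfl
  -- an exponent killing `V` and fixing `G`
  obtain ⟨m, hmV, hmG⟩ := Nat.chineseRemainder hcop 0 1
  have hV : ∀ v ∈ V, v ^ m = 1 := fun v hv => by
    have h1 : v ^ Nat.card V = 1 := by
      have := pow_card_eq_one' (x := (⟨v, hv⟩ : V))
      exact congrArg Subtype.val this
    obtain ⟨k, hk⟩ := (Nat.modEq_zero_iff_dvd.mp hmV)
    rw [hk, pow_mul, h1, one_pow]
  have hpowG : ∀ x : X, x ^ Nat.card G = 1 → x ^ m = x := fun x hx => by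
    conv_rhs => rw [← pow_one x]
    exact pow_eq_pow_iff_modEq.mpr (hmG.of_dvd (orderOf_dvd_of_pow_eq_one hx))
  have hG : ∀ g ∈ G, g ^ m = g := fun g hg => hpowG g (by
    have := pow_card_eq_one' (x := (⟨g, hg⟩ : G))
    exact congrArg Subtype.val this)
  have hdec : ∀ x : X, ∃ v ∈ V, ∃ g ∈ G, x = v * g := fun x => by
    obtain ⟨⟨n, h⟩, e⟩ := hGV.surjective x
    exact ⟨n, n.2, h, h.2, e.symm⟩
  have hdisj : ∀ x, x ∈ V → x ∈ G → x = 1 := fun x h1 h2 =>
    Subgroup.disjoint_def.mp hGV.disjoint h1 h2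
  let Ψ : (Σ s : S, ConjClasses (C s)) → ConjClasses X := fun a =>
    Quotient.liftOn' a.2 (fun c : C a.1 => ConjClasses.mk ((a.1 : X) * c)) (by
      intro c d hcd
      obtain ⟨u, hu⟩ := isConj_iff.mp hcd
      rw [ConjClasses.mk_eq_mk_iff_isConj, isConj_iff]
      refine ⟨u, ?_⟩
      rw [← hu]
      have := hCc _ _ u.2
      simp only [Subgroup.coe_mul, Subgroup.coe_inv]
      rw [← mul_assoc, ← this]
      group)
  have hΨ : ∀ (s : S) (c : C s), Ψ ⟨s, ConjClasses.mk c⟩ = ConjClasses.mk ((s : X) * c) :=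
    fun _ _ => rfl
  have hinj : Function.Injective Ψ := by
    rintro ⟨s, a⟩ ⟨t, b⟩ h
    obtain ⟨c, rfl⟩ := ConjClasses.exists_rep a
    obtain ⟨d, rfl⟩ := ConjClasses.exists_rep b
    rw [hΨ, hΨ, ConjClasses.mk_eq_mk_iff_isConj, isConj_iff] at h
    obtain ⟨x, hx⟩ := h
    have h1 : x * c * x⁻¹ = d := by
      have h2 := congrArg (· ^ m) hx
      simp only [conj_pow] at h2
      rwa [Commute.mul_pow (hCc _ _ c.2), Commute.mul_pow (hCc _ _ d.2), hV _ (hSV _ s.2),
        hV _ (hSV _ t.2), hG _ c.2.1, hG _ d.2.1, one_mul, one_mul] at h2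
    have h2 : x * s * x⁻¹ = t := by
      have : x * s * x⁻¹ * (x * c * x⁻¹) = t * d := by rw [← hx]; group
      rw [h1] at this
      exact mul_right_cancel this
    obtain ⟨w, hw, g, hg, rfl⟩ := hdec x
    have h3 : g * s * g⁻¹ = t := by
      have h4 : g * s * g⁻¹ ∈ V := (inferInstance : V.Normal).conj_mem _ (hSV _ s.2) g
      have h5 := hab w hw _ h4
      rw [← h2]
      calc g * s * g⁻¹ = (g * s * g⁻¹) * w * w⁻¹ := by group
        _ = w * (g * s * g⁻¹) * w⁻¹ := by rw [h5]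
        _ = _ := by group
    have hst : s = t := by
      obtain ⟨r, -, hr⟩ := hrep s (hSV _ s.2)
      apply Subtype.ext
      rw [hr s ⟨s.2, 1, G.one_mem, by simp⟩, hr t ⟨t.2, g, hg, h3⟩]
    subst hst
    have h6 : g * c * g⁻¹ = d := by
      have h7 : (d : X) * (g * c * g⁻¹)⁻¹ = 1 := by
        apply hdisj
        · have h8 : (d : X) * (g * c * g⁻¹)⁻¹ = w * ((g * c * g⁻¹) * w⁻¹ * (g * c * g⁻¹)⁻¹) := by
            rw [← h1]; group
          rw [h8]
          exact V.mul_mem hw ((inferInstance : V.Normal).conj_mem _ (V.inv_mem hw) _)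
        · exact G.mul_mem d.2.1 (G.inv_mem (G.mul_mem (G.mul_mem hg c.2.1) (G.inv_mem hg)))
      exact (mul_inv_eq_one.mp h7).symm
    have hgC : g ∈ C s := ⟨hg, Subgroup.mem_centralizer_iff.mpr (by
      rintro _ rfl
      rw [mul_inv_eq_iff_eq_mul] at h3
      exact h3.symm)⟩
    congr 1
    rw [ConjClasses.mk_eq_mk_iff_isConj, isConj_iff]
    exact ⟨⟨g, hgC⟩, Subtype.ext h6⟩
  have hsurj : Function.Surjective Ψ := by
    intro a
    obtain ⟨x, rfl⟩ := ConjClasses.exists_rep a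
    have hidx : V.index = Nat.card G := hGV.symm.index_eq_card
    have hxG : x ^ Nat.card G ∈ V := hidx ▸ V.pow_index_mem x
    have hy : (x ^ m) ^ Nat.card G = 1 := by
      rw [← pow_mul, mul_comm, pow_mul]; exact hV _ hxG
    have hyV : (x ^ m)⁻¹ * x ∈ V := by
      rw [← QuotientGroup.eq, QuotientGroup.mk_pow]
      conv_rhs => rw [← pow_one (QuotientGroup.mk x : X ⧸ V)]
      refine pow_eq_pow_iff_modEq.mpr (hmG.of_dvd (orderOf_dvd_of_pow_eq_one ?_))
      rw [← QuotientGroup.mk_pow, QuotientGroup.eq_one_iff]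
      exact hxG
    obtain ⟨k, hk, hkG⟩ := Solv.exists_conj_mem_of_coprime (Subgroup.zpowers (x ^ m)) V G
      Subgroup.le_normalizer_of_normal (by
        rw [Nat.card_zpowers]
        exact Nat.Coprime.coprime_dvd_left (orderOf_dvd_of_pow_eq_one hy) hcop.symm)
      (Or.inl inferInstance) (fun a _ => by
        obtain ⟨v, hv, g, hg, rfl⟩ := hdec a
        exact ⟨v, hv, by simpa using hg⟩)
    have hg := hkG _ (Subgroup.mem_zpowers _)
    have hv : k⁻¹ * ((x ^ m)⁻¹ * x) * k ∈ V := V.mul_mem (V.mul_mem (V.inv_mem hk) hyV) hk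
    obtain ⟨s, ⟨hs, h, hh, hhs⟩, -⟩ := hrep _ hv
    have hcx : Commute (x ^ m) x := Commute.pow_self x m
    refine ⟨⟨⟨s, hs⟩, ConjClasses.mk ⟨h * (k⁻¹ * x ^ m * k) * h⁻¹,
      G.mul_mem (G.mul_mem hh hg) (G.inv_mem hh), Subgroup.mem_centralizer_iff.mpr ?_⟩⟩, ?_⟩
    · intro r hr
      rw [Set.mem_singleton_iff.mp hr]
      change s * (h * (k⁻¹ * x ^ m * k) * h⁻¹) = (h * (k⁻¹ * x ^ m * k) * h⁻¹) * s
      rw [← hhs]
      calc _ = h * k⁻¹ * ((x ^ m)⁻¹ * (x * x ^ m)) * k * h⁻¹ := by group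
        _ = h * k⁻¹ * ((x ^ m)⁻¹ * (x ^ m * x)) * k * h⁻¹ := by rw [hcx.eq]
        _ = _ := by group
    · rw [hΨ, ConjClasses.mk_eq_mk_iff_isConj, isConj_iff]
      refine ⟨(h * k⁻¹)⁻¹, ?_⟩
      simp only []
      rw [← hhs]
      calc _ = (x ^ m)⁻¹ * (x * x ^ m) := by group
        _ = (x ^ m)⁻¹ * (x ^ m * x) := by rw [hcx.eq]
        _ = _ := by group
  rw [← Nat.card_congr (Equiv.ofBijective Ψ ⟨hinj, hsurj⟩), Nat.card_sigma,
    Finset.sum_coe_sort S (fun s => Nat.card (ConjClasses (C s)))]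

end Cfsg.Agent.S4956
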