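import Cfsg.Statements.S4957
import Cfsg.Agent.CTL.Four
import Cfsg.Agent.S0205
import Cfsg.Agent.S4956
import Cfsg.Agent.Pyr.Lin

set_option autoImplicit false
open Cfsg

namespace Cfsg.Agent.S4957

open Module Subgroup Cfsg.Agent.Perm.SemiLin Cfsg.Agent.CTL

theorem semi_or {G : Type*} [Group G] [Finite G] {p : ℕ} [hp : Fact p.Prime] {V : Type*}
    [AddCommGroup V] [Module (ZMod p) V] [Finite V] {ρ : G →* End (ZMod p) V} (ht : Trans ρ)
    (hρ : Function.Injective ρ) (hG : ¬ p ∣ Nat.card G) {n : ℕ} (hn0 : 0 < n)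
    (hn : Nat.card V = p ^ n) {h : ℕ} (hh : Nat.card G = (p ^ n - 1) * h) :
    IsSemiLin ρ n ∨ Nat.card (ConjClasses G) + h < p ^ n := by
  by_cases h1 : n = 1
  · subst h1
    exact Or.inl (semilinear_of_dim_one ρ hn)
  by_cases hp2 : p = 2
  · subst hp2
    have := S0205.result (G := G) (Nat.odd_iff.2 (by omega))
    by_cases h6 : n = 6
    · subst h6
      exact Or.inl (ht.two_six hρ hn)
    obtain ⟨r, hr⟩ := Misc.Zsig.zsigmondy one_lt_two (show 1 < n by omega) (fun h => h6 h.2) (by
      rintro ⟨-, m, hm⟩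
      exact absurd (Nat.prime_three.dvd_of_dvd_pow (hm ▸ dvd_rfl : 3 ∣ 2 ^ m)) (by norm_num))
    exact Or.inl (semilinear_of_ppd_dvd hρ hn0 hn hr (hr.2.1.trans ⟨h, hh⟩) fun h => absurd rfl h)
  by_cases h2 : n = 2
  · subst h2
    exact dim_two ht hρ hG hp2 hn hh
  by_cases h3 : p = 3 ∧ n = 4
  · obtain ⟨rfl, rfl⟩ := h3
    exact dim_four ht hρ hG hn hh
  exact Or.inl (semi_generic ht hρ hG hp2 (by omega) hn h3)

/-- Let X be a finite group and V a normal subgroup of X in which every element has order dividing the prime p, whose index in X is prime to p and which is its own centralizer in X; so V is an elementary abelian normal Sylow p-subgroup, and any complement G to V in X is a group of order prime to p acting faithfully on the vector space V by conjugation (the coprime linear setting of the k(GV) problem). Suppose a complement G to V in X is transitive by conjugation on the nonidentity elements of V. Then X has at most (order of V) conjugacy classes, and if equality holds then G is cyclic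 (hence, being transitive, a Singer cycle), or V has order 8 and G has order 21 (the nonabelian group of order 21 inside the simple group of order 168), or V has order 9 and G has order 16 (a semidihedral Sylow 2-subgroup of the 2-dimensional general linear group over the field with 3 elements). -/
theorem result {X : Type*} [Group X] [Finite X] (p : ℕ) [Fact p.Prime] (V : Subgroup X) [V.Normal] (hVexp : ∀ v ∈ V, v ^ p = 1) (hidx : ¬ p ∣ V.index) (hself : Subgroup.centralizer (V : Set X) = V) (G : Subgroup X) (hGV : Subgroup.IsComplement' V G) (htrans : ∀ v ∈ V, ∀ w ∈ V, v ≠ 1 → w ≠ 1 → ∃ g ∈ G, g * v * g⁻¹ = w) : Nat.card (ConjClasses X) ≤ Nat.card V ∧ (Nat.card (ConjClasses X) = Nat.card V → (IsCyclic G ∨ (Nat.card V = 8 ∧ Nat.card G = 21) ∨ (Nat.card V = 9 ∧ Nat.card G = 16))) := by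
  classical
  have hab : ∀ a ∈ V, ∀ b ∈ V, a * b = b * a := fun a ha b hb => (hself.ge hb) a ha
  have hG : ¬ p ∣ Nat.card G := by rwa [← hGV.symm.index_eq_card]
  have hbot : ∀ g ∈ G, g ∈ centralizer (V : Set X) → g = 1 := fun g hg h =>
    disjoint_def.1 hGV.disjoint (hself.le h) hg
  by_cases hV : V = ⊥
  · subst hV
    have : Subsingleton X := ⟨fun a b => by
      have h : ∀ c : X, c = 1 := fun c => hself.le (fun _ h => by rw [mem_bot.1 h, one_mul, mul_one])
      rw [h a, h b]⟩
    exact ⟨(card_conj_le X).trans (by simp), fun _ => Or.inl inferInstance⟩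
  obtain ⟨v, hv, hv1⟩ := (bot_or_exists_ne_one V).resolve_left hV
  obtain ⟨A, _, _, ι, σ, hι, hadd, hmem, hσ⟩ := Pyr.exists_lin G.subtype (V := V)
    (fun g x hx => Normal.conj_mem inferInstance x hx _) p hab hVexp
  have h0 : ι 0 = 1 := by simpa using hadd 0 0
  have hA : Nat.card A = Nat.card V := Nat.card_congr (Equiv.ofBijective
    (fun a => ⟨ι a, (hmem _).2 ⟨a, rfl⟩⟩) ⟨fun a b e => hι (Subtype.mk.inj e), fun x => by
      obtain ⟨a, ha⟩ := (hmem _).1 x.2
      exact ⟨a, Subtype.ext ha⟩⟩)
  have : Finite A := Finite.of_injective _ hι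
  let ρ : G →* End (ZMod p) A :=
    { toFun := fun g => (σ g : A →ₗ[ZMod p] A), map_one' := by simp; rfl
      map_mul' := fun a b => by simp }
  have hρ : Function.Injective ρ := (injective_iff_map_eq_one ρ).2 fun g hg =>
    Subtype.ext (hbot g g.2 fun x hx => by
      obtain ⟨a, rfl⟩ := (hmem _).1 hx
      have h1 := hσ g a
      rw [show σ g a = a from LinearMap.congr_fun hg a, eq_mul_inv_iff_mul_eq] at h1
      exact h1)
  have ht : Trans ρ := fun a b ha hb => by
    obtain ⟨g, hg, h1⟩ := htrans _ ((hmem _).2 ⟨a, rfl⟩) _ ((hmem _).2 ⟨b, rfl⟩)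
      (fun e => ha (hι (e.trans h0.symm))) fun e => hb (hι (e.trans h0.symm))
    exact ⟨⟨g, hg⟩, hι ((hσ ⟨g, hg⟩ a).trans h1)⟩
  obtain ⟨n, hn⟩ : ∃ n, Nat.card A = p ^ n :=
    ⟨_, by rw [Module.natCard_eq_pow_finrank (K := ZMod p), Nat.card_zmod]⟩
  have hn0 : 0 < n := Nat.pos_of_ne_zero (by
    rintro rfl
    exact hV (card_eq_one.1 (hA ▸ hn)))
  have h1 := S4956.result V hab G hGV (by
    rw [← hA, hn]
    exact ((Nat.Prime.coprime_iff_not_dvd Fact.out).2 hG).pow_left n) {1, v} (by simp [hv])
    fun w hw => by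
      by_cases h : w = 1
      · exact ⟨1, by simp [h, show ∃ g, g ∈ G from ⟨1, G.one_mem⟩],
          fun s ⟨_, g, _, hs⟩ => by simp [← hs, h]⟩
      · refine ⟨v, ⟨by simp, htrans w hw v hv h hv1⟩, fun s ⟨hs, g, _, h2⟩ => ?_⟩
        refine (Finset.mem_insert.1 hs).elim (fun e => absurd ?_ h) Finset.mem_singleton.1
        rwa [e, conj_eq_one_iff] at h2
  rw [Finset.sum_pair hv1.symm, centralizer_eq_top_iff_subset.2 (by simp), inf_top_eq] at h1
  have h2 : Nat.card G = (p ^ n - 1) * Nat.card ↥(G ⊓ centralizer ({v} : Set X)) := by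
    let _ : MulAction G X := MulAction.compHom X (MulAut.conj.comp G.subtype)
    have h3 : MulAction.orbit G v = (V : Set X) \ {1} := by
      ext w
      refine ⟨?_, fun hw => ?_⟩
      · rintro ⟨g, rfl⟩
        exact ⟨Normal.conj_mem inferInstance v hv _, fun e => hv1 (conj_eq_one_iff.1 e)⟩
      · obtain ⟨g, hg, h⟩ := htrans v hv w hw.1 hv1 hw.2
        exact ⟨⟨g, hg⟩, h⟩
    have h4 : MulAction.stabilizer G v = (G ⊓ centralizer ({v} : Set X)).subgroupOf G := by
      ext g
      rw [mem_subgroupOf, mem_inf, mem_centralizer_singleton_iff, ← mul_inv_eq_iff_eq_mul]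
      exact ⟨fun h => ⟨g.2, h⟩, fun h => h.2⟩
    rw [← (MulAction.stabilizer G v).index_mul_card, MulAction.index_stabilizer, h3, h4,
      Nat.card_congr (subgroupOfEquivOfLe inf_le_left).toEquiv,
      Set.ncard_sdiff_singleton_of_mem V.one_mem, ← hn, hA]
    rfl
  have h3 := card_conj_le ↥(G ⊓ centralizer ({v} : Set X))
  rw [← hA, hn, h1]
  rcases semi_or ht hρ hG hn0 hn h2 with h | h
  · have h4 := count_semi hρ hG hn0 h h2
    exact ⟨by omega, fun e => h4.2 (by omega)⟩
  · exact ⟨by omega, fun e => by omega⟩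

end Cfsg.Agent.S4957
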