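import Cfsg.Statements.S4959
import Cfsg.Agent.KRV.Sub
import Cfsg.Agent.Block.Knorr
import Cfsg.Agent.Char.Ito
-- import your own Cfsg.Agent.* helpers here

set_option autoImplicit false
open Cfsg

namespace Cfsg.Agent.S4959

open Cfsg.Agent.Block Cfsg.Agent.Char Subgroup

open Cfsg.Agent.Block Cfsg.Agent.Char
open scoped ComplexConjugate

/-- Let X be a finite group and V a normal subgroup of X in which every element has order dividing the prime p, whose index in X is prime to p and which is its own centralizer in X; so V is an elementary abelian normal Sylow p-subgroup, and any complement G to V in X is a group of order prime to p acting faithfully on the vector space V by conjugation (the coprime linear setting of the k(GV) problem). Let G be a complement to V in X, let v be in V and let H be the centralizer of v in G. Suppose there is a subgroup U of V normalized by H, on which H acts faithfully, and carrying an H-invariant bi-additive pairing β with values in the integers modulo p that is nondegenerate on U (equivalently: the restriction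 of the module V to H has a faithful self-dual submodule; such a v is called a real vector for G). Then the number of conjugacy classes of X is at most the order of V (the real-vector criterion for the k(GV) problem). The pairing is given as a function on X whose relevant values are those on pairs from U. -/
theorem result {X : Type*} [Group X] [Finite X] (p : ℕ) [Fact p.Prime] (V : Subgroup X) [V.Normal] (hVexp : ∀ v ∈ V, v ^ p = 1) (hidx : ¬ p ∣ V.index) (hself : Subgroup.centralizer (V : Set X) = V) (G : Subgroup X) (hGV : Subgroup.IsComplement' V G) (v : X) (hv : v ∈ V) (U : Subgroup X) (hUV : U ≤ V) (hUinv : ∀ h ∈ G, h * v * h⁻¹ = v → ∀ u ∈ U, h * u * h⁻¹ ∈ U) (hUfaith : ∀ h ∈ G, h * v * h⁻¹ = v → (∀ u ∈ U, h * u * h⁻¹ = u) → h = 1) (β : X → X → ZMod p) (hβl : ∀ u ∈ U, ∀ u' ∈ U, ∀ w ∈ U, β (u * u') w = β u w + β u' w) (hβr : ∀ u ∈ U, ∀ w ∈ U, ∀ w' ∈ U, β u (w * w') = β u w + β u w') (hβinv : ∀ h ∈ G, h * v * h⁻¹ = v → ∀ u ∈ U, ∀ w ∈ U, β (h * u * h⁻¹) (h * w * h⁻¹) = β u w) (hβnd : ∀ u ∈ U, (∀ w ∈ U, β u w = 0) → u = 1) : Nat.card (ConjClasses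 X) ≤ Nat.card V := by
  classical
  have hp : p.Prime := Fact.out
  have hVc : ∀ a ∈ V, ∀ b ∈ V, a * b = b * a := fun a ha b hb => (hself.ge hb) a ha
  have hG : ¬ p ∣ Nat.card G := hGV.symm.index_eq_card ▸ hidx
  set H := G ⊓ centralizer ({v} : Set X) with hH
  have hHv : ∀ h ∈ H, h * v * h⁻¹ = v := fun h hh => by
    rw [mem_centralizer_singleton_iff.1 hh.2, mul_inv_cancel_right]
  have hHp : ¬ p ∣ Nat.card H := fun h => hG (h.trans (card_dvd_of_le inf_le_left))
  letI := Fintype.ofFinite H
  let e : Multiplicative (ZMod p) →* X := MonoidHom.mk' (fun i => v ^ (Multiplicative.toAdd i).val)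
    fun a b => by rw [toAdd_mul, ZMod.val_add, ← pow_eq_pow_mod _ (hVexp v hv), pow_add]
  let g : H × Multiplicative (ZMod p) →* X := H.subtype.noncommCoprod e fun h i =>
    Commute.pow_right (mem_centralizer_singleton_iff.1 h.2.2) _
  have h1 := KRV.good_sub H U hHp (fun a ha b hb => hVc a (hUV ha) b (hUV hb))
    (fun a ha => hVexp a (hUV ha)) (fun h hh => hUinv h hh.1 (hHv h hh)) β hβl hβr
    (fun h hh => hβinv h hh.1 (hHv h hh)) hβnd
  have hUp : IsPGroup p U := fun u => ⟨1, Subtype.ext (by simpa using hVexp _ (hUV u.2))⟩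
  have h1' : (centralizer {((1 : H) : X)}).relIndex U = 1 :=
    relIndex_eq_one.2 fun u _ => by simp [mem_centralizer_singleton_iff]
  have h2 : ∀ h : H, h ≠ 1 → p ∣ (centralizer {(h : X)}).relIndex U := fun h hh => by
    obtain ⟨k, hk⟩ := hUp.index ((centralizer {(h : X)}).subgroupOf U)
    rw [relIndex, hk]
    refine dvd_pow_self _ fun h0 => hh (Subtype.ext (hUfaith h h.2.1 (hHv h h.2) fun u hu => ?_))
    rw [h0, pow_zero] at hk
    rw [← mem_centralizer_singleton_iff.1 (relIndex_eq_one.1 hk hu), mul_inv_cancel_right]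
  have h3 : ∀ χ : IrrCharacter X, ((p : ℝ) - 1) * (Nat.card H * Fintype.card (IrrCharacter H)) ≤
      ∑ i ∈ Finset.univ.erase (1 : Multiplicative (ZMod p)), ∑ h : H,
        ((centralizer {(h : X)}).relIndex U : ℝ) * ‖χ.1 (h * e i)‖ ^ 2 := fun χ => by
    have := KRV.knorr_lower hHp h1 h1' h2 (χ.2.isCharacter.comp g)
      (d := charDegree χ.1) (by rw [map_one]; exact (coe_charDegree_irr χ).symm)
      fun h => hidx (h.trans (χ.2.deg_dvd_index_of_comm (coe_charDegree_irr χ).symm V hVc))
    exact this
  have h4 := Finset.sum_le_sum fun (χ : IrrCharacter X) (_ : χ ∈ Finset.univ) => h3 χ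
  rw [Finset.sum_comm] at h4
  replace h4 := h4.trans (Finset.sum_le_card_nsmul _ _
    (Nat.card V * (Nat.card H * Fintype.card (IrrCharacter H)) : ℝ)
    fun i hi => knorr_sum hVexp hG hVc hGV (pow_mem hv _) (fun x => and_congr_right fun _ =>
      ⟨fun h => Commute.pow_right (mem_centralizer_singleton_iff.1 h) _, fun h =>
        mem_centralizer_singleton_iff.2 (mem_centralizer_singleton_iff.1 (mem_of_pow_coprime
          (K := centralizer {x}) (Nat.coprime_of_lt_prime (by
            simpa using Finset.ne_of_mem_erase hi) (ZMod.val_lt _) hp)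
          (by rw [hVexp v hv]; exact one_mem _)
          (mem_centralizer_singleton_iff.2 h.symm))).symm⟩) hUV)
  have hk : (0 : ℝ) < Fintype.card (IrrCharacter H) := by
    rw [← Nat.card_eq_fintype_card, card_irr]; exact_mod_cast Nat.card_pos
  rw [Finset.sum_const, Finset.card_univ, ← Nat.card_eq_fintype_card, card_irr,
    Finset.card_erase_of_mem (Finset.mem_univ _), Finset.card_univ, Fintype.card_multiplicative,
    ZMod.card, nsmul_eq_mul, nsmul_eq_mul, Nat.cast_pred hp.pos, mul_left_comm _ (Nat.card V : ℝ),
    mul_le_mul_iff_left₀ (mul_pos (sub_pos.2 (by exact_mod_cast hp.one_lt))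
      (by have := Nat.card_pos (α := H); positivity))] at h4
  exact_mod_cast h4

end Cfsg.Agent.S4959
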