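import Cfsg.Statements.S4964
import Mathlib
import Cfsg.Agent.Block.Dominate
import Cfsg.Agent.Solv.Coprime2
import Cfsg.Agent.Grp.PFrattini

set_option autoImplicit false
open Cfsg

set_option linter.style.haveILetI false
set_option linter.unusedVariables false

namespace Cfsg.Agent.S4964

open Block Cfsg.Agent.Char

/-- Let D be a normal p-subgroup of the finite group G, let D′ be its commutator subgroup (normal in G), and fix a maximal ideal M of the algebraic integers containing p. Then (i) two irreducible characters of G ⧸ D′ lie in the same p-block if and only if their inflations to G do, and (ii) every p-block of G contains the inflation of some irreducible character of G ⧸ D′; so inflation induces a bijection between the p-blocks of G ⧸ D′ and the p-blocks of G. -/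
theorem result {G : Type*} [Group G] [Finite G] (p : ℕ) [Fact p.Prime] (M : Ideal Cfsg.AlgInt) (hM : Cfsg.IsPModular p M) (D : Subgroup G) [D.Normal] (hD : IsPGroup p D) : (∀ χ ψ : Cfsg.IrrCharacter (G ⧸ ⁅D, D⁆), Cfsg.SameBlock M (χ : G ⧸ ⁅D, D⁆ → ℂ) (ψ : G ⧸ ⁅D, D⁆ → ℂ) ↔ Cfsg.SameBlock M ((χ : G ⧸ ⁅D, D⁆ → ℂ) ∘ QuotientGroup.mk) ((ψ : G ⧸ ⁅D, D⁆ → ℂ) ∘ QuotientGroup.mk)) ∧ ∀ B : Set (Cfsg.IrrCharacter G), Cfsg.IsPBlock M B → ∃ χ : Cfsg.IrrCharacter (G ⧸ ⁅D, D⁆), ∃ θ ∈ B, (θ : G → ℂ) = (χ : G ⧸ ⁅D, D⁆ → ℂ) ∘ QuotientGroup.mk := by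
  have hf := QuotientGroup.mk'_surjective ⁅D, D⁆
  have hle : ⁅D, D⁆ ≤ D := Subgroup.commutator_le_left D D
  refine ⟨fun χ ψ => ⟨sameBlock_inflateIrr hM _ hf, sameBlock_of_inflateIrr_of_pGroup hM hD hle
    fun g hg h => ?_⟩, fun B hB => ?_⟩
  · have hA : Subgroup.zpowers g ≤ Subgroup.normalizer (D : Set G) := by
      rw [Subgroup.normalizer_eq_top]; exact le_top
    have hcop : (Nat.card (Subgroup.zpowers g)).Coprime (Nat.card D) :=
      Solv.coprime_card_of_isPGroup hD (by rw [Nat.card_zpowers]; exact not_dvd_iff_coprime.1 hg)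
    refine Solv.le_centralizer_of_frattini (Subgroup.zpowers g) D
      (hcop.coprime_dvd_right (Subgroup.card_subgroup_dvd_card _)) (fun a ha k hk => ?_)
      (Subgroup.mem_zpowers g)
    have h1 : ⁅D, D⁆ ≤ (frattini D).map D.subtype := by
      rw [← Subgroup.map_subtype_commutator]
      exact Subgroup.map_mono (Grp.PFrattini.commutator_le_frattini hD)
    refine h1 ?_
    have h2 : Subgroup.zpowers g ≤ (Subgroup.centralizer
        (D.map (QuotientGroup.mk' ⁅D, D⁆) : Set (G ⧸ ⁅D, D⁆))).comap (QuotientGroup.mk' ⁅D, D⁆) := by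
      rw [Subgroup.zpowers_le]
      rintro _ ⟨d, hd, rfl⟩
      have := (QuotientGroup.eq_one_iff _).2 (h d hd)
      simp only [QuotientGroup.mk_mul, QuotientGroup.mk_inv] at this
      simp only [QuotientGroup.mk'_apply]
      rw [mul_inv_eq_one, mul_inv_eq_iff_eq_mul] at this
      exact this.symm
    have := h2 ha _ ⟨k, hk, rfl⟩
    simp only [QuotientGroup.mk'_apply] at this
    rw [← QuotientGroup.eq_one_iff]
    simp [← this]
  · obtain ⟨χ, hχ⟩ := domSet_nonempty hM _ (hD.to_le hle) hB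
    exact ⟨χ, _, hχ, rfl⟩

end Cfsg.Agent.S4964
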