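import Cfsg.Statements.S4965
import Mathlib

set_option autoImplicit false
open Cfsg

namespace Cfsg.Agent.S4965

/-- Let X be a finite group with an abelian normal subgroup V (any two elements of V commute), and let φ be the action of X ⧸ V on V induced by conjugation (well defined because V is abelian; the hypothesis hφ says that the class of x acts as conjugation by x). Then X has at most as many conjugacy classes as the semidirect product of V by X ⧸ V formed with this action: the split extension has the largest class number among extensions with the given action. -/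
theorem result {X : Type*} [Group X] [Finite X] (V : Subgroup X) [V.Normal] (hab : ∀ a ∈ V, ∀ b ∈ V, a * b = b * a) (φ : X ⧸ V →* MulAut ↥V) (hφ : ∀ (x : X) (v : ↥V), ((φ (QuotientGroup.mk x) v : ↥V) : X) = x * v * x⁻¹) : Nat.card (ConjClasses X) ≤ Nat.card (ConjClasses (SemidirectProduct ↥V (X ⧸ V) φ)) := by
  classical
  let Y := SemidirectProduct ↥V (X ⧸ V) φ
  have hYfin : Finite Y := Finite.of_equiv _ SemidirectProduct.equivProd.symm
  have hcard : Nat.card Y = Nat.card X := by
    rw [SemidirectProduct.card, mul_comm, ← Subgroup.card_eq_card_quotient_mul_card_subgroup]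
  let S := {p : X × X // Commute p.1 p.2}
  have : Nonempty S := ⟨⟨(1, 1), Commute.refl _⟩⟩
  let π : S → (X ⧸ V) × (X ⧸ V) := fun s => (QuotientGroup.mk s.1.1, QuotientGroup.mk s.1.2)
  let b : (X ⧸ V) × (X ⧸ V) → S := Function.invFun π
  have hb : ∀ s, π (b (π s)) = π s := fun s => Function.invFun_eq ⟨s, rfl⟩
  have hm : ∀ x y : X, (QuotientGroup.mk y : X ⧸ V) = QuotientGroup.mk x → x * y⁻¹ ∈ V := by
    intro x y h
    rw [QuotientGroup.eq] at h
    have := (inferInstance : V.Normal).conj_mem _ h y
    simpa [mul_assoc] using this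
  have h1 : ∀ s : S, s.1.1 * (b (π s)).1.1⁻¹ ∈ V := fun s => hm _ _ (congrArg Prod.fst (hb s))
  have h2 : ∀ s : S, s.1.2 * (b (π s)).1.2⁻¹ ∈ V := fun s => hm _ _ (congrArg Prod.snd (hb s))
  let f : S → {p : Y × Y // Commute p.1 p.2} := fun s =>
    ⟨(⟨⟨_, h1 s⟩, (π s).1⟩, ⟨⟨_, h2 s⟩, (π s).2⟩), by
      have e1 : (π s).1 = QuotientGroup.mk (b (π s)).1.1 := (congrArg Prod.fst (hb s)).symm
      have e2 : (π s).2 = QuotientGroup.mk (b (π s)).1.2 := (congrArg Prod.snd (hb s)).symm
      have c1 : s.1.1 * s.1.2 = s.1.2 * s.1.1 := s.2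
      have c2 : (b (π s)).1.1 * (b (π s)).1.2 = (b (π s)).1.2 * (b (π s)).1.1 := (b (π s)).2
      have key : ∀ (v w : V) (a c : X ⧸ V) (x₀ y₀ : X), a = QuotientGroup.mk x₀ →
          c = QuotientGroup.mk y₀ → x₀ * y₀ = y₀ * x₀ →
          (v * x₀) * (w * y₀) = (w * y₀) * (v * x₀) →
          Commute (⟨v, a⟩ : SemidirectProduct ↥V (X ⧸ V) φ) ⟨w, c⟩ := by
        rintro v w a c x₀ y₀ rfl rfl c2 c1
        change _ * _ = _ * _
        refine SemidirectProduct.ext ?_ ?_
        · apply Subtype.ext
          simp only [SemidirectProduct.mul_left, Subgroup.coe_mul, hφ]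
          calc (v : X) * (x₀ * w * x₀⁻¹) = (v * x₀) * (w * y₀) * (x₀ * y₀)⁻¹ := by group
            _ = (w * y₀) * (v * x₀) * (y₀ * x₀)⁻¹ := by rw [c1, c2]
            _ = _ := by group
        · simp only [SemidirectProduct.mul_right, ← QuotientGroup.mk_mul, c2]
      refine key _ _ _ _ _ _ e1 e2 c2 ?_
      simpa using c1⟩
  have hf : Function.Injective f := by
    intro s t hst
    have h3 := congrArg Subtype.val hst
    simp only [f, Prod.mk.injEq] at h3
    obtain ⟨h4, h5⟩ := h3
    have h6 : π s = π t :=
      Prod.ext (congrArg SemidirectProduct.right h4) (congrArg SemidirectProduct.right h5)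
    have h7 := congrArg (fun y : Y => (y.left : X)) h4
    have h8 := congrArg (fun y : Y => (y.left : X)) h5
    simp only [h6, mul_left_inj] at h7 h8
    exact Subtype.ext (Prod.ext h7 h8)
  have hle := Nat.card_le_card_of_injective f hf
  rw [card_comm_eq_card_conjClasses_mul_card, card_comm_eq_card_conjClasses_mul_card,
    hcard] at hle
  exact Nat.le_of_mul_le_mul_right hle Nat.card_pos

end Cfsg.Agent.S4965
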