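import Cfsg.Statements.S4967
import Mathlib

set_option autoImplicit false
open Cfsg

namespace Cfsg.Agent.S4967

section Core
variable {F : Type*} [Field F] [Fintype F] {E : Type*} [Field E] [Algebra F E] [Finite E]
  {H : Type*} [CommGroup H] [Finite H] (χ : H →* E)

theorem ext_span (hsp : Submodule.span F (Set.range χ) = ⊤) {σ τ : E →ₐ[F] E}
    (h : ∀ g, σ (χ g) = τ (χ g)) : σ = τ := by
  have : σ.toLinearMap = τ.toLinearMap :=
    LinearMap.ext_on_range hsp h
  exact AlgHom.toLinearMap_injective this

theorem exists_sigma (hsp : Submodule.span F (Set.range χ) = ⊤) (B : LinearMap.BilinForm F E)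
    (hB : B.Nondegenerate) (hinv : ∀ h x y, B (χ h * x) (χ h * y) = B x y) :
    ∃ σ : E →ₐ[F] E, ∀ h, σ (χ h) = χ h⁻¹ := by
  have h0 : ∀ h x y, B (χ h * x) y = B x (χ h⁻¹ * y) := fun h x y => by
    rw [← hinv h x (χ h⁻¹ * y), ← mul_assoc, ← map_mul, mul_inv_cancel, map_one, one_mul]
  have h1 : ∀ e : E, ∃ e' : E, ∀ x y, B (e * x) y = B x (e' * y) := by
    intro e
    have he : e ∈ Submodule.span F (Set.range χ) := hsp ▸ trivial
    induction he using Submodule.span_induction with
    | mem x hx => obtain ⟨h, rfl⟩ := hx; exact ⟨_, h0 h⟩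
    | zero => exact ⟨0, by simp⟩
    | add a b _ _ ha hb =>
      obtain ⟨a', ha⟩ := ha
      obtain ⟨b', hb⟩ := hb
      exact ⟨a' + b', fun x y => by simp [add_mul, ha, hb]⟩
    | smul t a _ ha =>
      obtain ⟨a', ha⟩ := ha
      exact ⟨t • a', fun x y => by simp [ha]⟩
  choose s hs using h1
  have uniq : ∀ e e', (∀ x y, B (e * x) y = B x (e' * y)) → s e = e' := by
    intro e e' h
    rw [← sub_eq_zero]
    refine hB.2 _ fun x => ?_
    have := (hs e x 1).symm.trans (h x 1)
    simp only [mul_one] at this
    rw [map_sub, this, sub_self]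
  refine ⟨{ toFun := s
            map_one' := uniq _ _ (by simp)
            map_mul' := fun a b => uniq _ _ fun x y => ?_
            map_zero' := uniq _ _ (by simp)
            map_add' := fun a b => uniq _ _ fun x y => by simp [add_mul, hs]
            commutes' := fun t => uniq _ _ fun x y => by
              simp [Algebra.algebraMap_eq_smul_one] }, fun h => uniq _ _ (h0 h)⟩
  rw [mul_assoc, hs, hs]
  congr 1; ring

theorem card_dvd (hinj : Function.Injective χ) {k : ℕ} (h : ∀ g, χ g ^ k = 1) : Nat.card H ∣ k := by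
  have := isCyclic_of_injective_ringHom χ hinj
  rw [← IsCyclic.exponent_eq_card]
  refine Monoid.exponent_dvd_of_forall_pow_eq_one fun g => hinj ?_
  rw [map_pow, h, map_one]

theorem core (hinj : Function.Injective χ) (hsp : Submodule.span F (Set.range χ) = ⊤) :
    (Module.finrank F E = 1 → (∃ B : LinearMap.BilinForm F E, B.Nondegenerate ∧
      ∀ h : H, ∀ x y : E, B (χ h * x) (χ h * y) = B x y) → Nat.card H ≤ 2) ∧
    (2 ≤ Module.finrank F E → ((∃ B : LinearMap.BilinForm F E, B.Nondegenerate ∧
      ∀ h : H, ∀ x y : E, B (χ h * x) (χ h * y) = B x y) ↔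
      (Even (Module.finrank F E) ∧ Nat.card H ∣ Fintype.card F ^ (Module.finrank F E / 2) + 1))) := by
  have hfr : ∀ (k : ℕ) (x : E), (FiniteField.frobeniusAlgHom F E ^ k) x = x ^ (Fintype.card F ^ k) :=
    fun k x => by rw [AlgHom.coe_pow, FiniteField.coe_frobeniusAlgHom, pow_iterate]
  have key : ∀ B : LinearMap.BilinForm F E, B.Nondegenerate →
      (∀ h : H, ∀ x y : E, B (χ h * x) (χ h * y) = B x y) →
      ∃ k < Module.finrank F E, Module.finrank F E ∣ 2 * k ∧
        ∀ h, χ h ^ (Fintype.card F ^ k + 1) = 1 := by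
    intro B hB hinv
    obtain ⟨σ, hσ⟩ := exists_sigma χ hsp B hB hinv
    obtain ⟨⟨k, hk⟩, rfl⟩ := (FiniteField.bijective_frobeniusAlgHom_pow F E).2 σ
    refine ⟨k, hk, ?_, fun h => ?_⟩
    · rw [← FiniteField.orderOf_frobeniusAlgHom, orderOf_dvd_iff_pow_eq_one, mul_comm, pow_mul]
      refine ext_span χ hsp fun g => ?_
      rw [pow_two, AlgHom.mul_apply, hσ, hσ, inv_inv, AlgHom.one_apply]
    · have := hσ h
      simp only [hfr] at this
      rw [pow_succ, this, ← map_mul, inv_mul_cancel, map_one]
  refine ⟨fun h1 ⟨B, hB, hinv⟩ => ?_, fun h2 => ⟨fun ⟨B, hB, hinv⟩ => ?_, fun ⟨⟨m, hm⟩, hd⟩ => ?_⟩⟩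
  · obtain ⟨k, hk, -, h⟩ := key B hB hinv
    obtain rfl : k = 0 := by omega
    exact Nat.le_of_dvd two_pos (card_dvd χ hinj h)
  · obtain ⟨k, hk, ⟨c, hc⟩, h⟩ := key B hB hinv
    have hk0 : k ≠ 0 := by
      rintro rfl
      have : Submodule.span F (Set.range χ) ≤ Submodule.span F {1} := by
        rw [Submodule.span_le]
        rintro _ ⟨g, rfl⟩
        have := h g
        rw [pow_zero, pow_add, pow_one] at this
        rcases mul_self_eq_one_iff.1 this with h | h
        · rw [h]; exact Submodule.mem_span_singleton_self _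
        · rw [h]; exact Submodule.neg_mem _ (Submodule.mem_span_singleton_self _)
      have h3 := Submodule.finrank_mono this
      rw [hsp, finrank_top, finrank_span_singleton one_ne_zero] at h3
      omega
    have hc1 : c = 1 := by
      have : c < 2 := by nlinarith
      have : c ≠ 0 := by rintro rfl; omega
      omega
    subst hc1
    refine ⟨⟨k, by omega⟩, ?_⟩
    rw [show Module.finrank F E / 2 = k by omega]
    exact card_dvd χ hinj h
  · rw [show Module.finrank F E / 2 = m by omega] at hd
    let σ := FiniteField.frobeniusAlgEquivOfAlgebraic F E ^ m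
    have hσ : ∀ x, σ x = x ^ (Fintype.card F ^ m) := fun x => by
      rw [AlgEquiv.coe_pow, FiniteField.coe_frobeniusAlgEquivOfAlgebraic_iterate]
    have hT := traceForm_nondegenerate F E
    refine ⟨(Algebra.traceForm F E).compRight σ.toLinearMap, ⟨fun x hx => ?_, fun y hy => ?_⟩,
      fun h x y => ?_⟩
    · refine hT.1 x fun y => ?_
      simpa using hx (σ.symm y)
    · have : σ y = 0 := hT.2 _ fun x => by simpa using hy x
      simpa using this
    · have h1 : χ h * σ (χ h) = 1 := by
        rw [hσ, ← pow_succ', ← map_pow]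
        obtain ⟨c, hc⟩ := hd
        rw [hc, pow_mul, pow_card_eq_one', one_pow, map_one]
      simp only [LinearMap.BilinForm.compRight_apply, AlgEquiv.toLinearMap_apply, map_mul,
        Algebra.traceForm_apply]
      congr 1
      linear_combination (x * σ y) * h1

end Core


/-- Let F be a finite field with r elements and of characteristic p, H a finite abelian group of order prime to p, and V a faithful irreducible representation of H over F of dimension n (faithful: distinct elements act differently; irreducible: the only H-invariant subspaces are 0 and V). Call V self-dual when it carries a nondegenerate H-invariant bilinear form. If n = 1 and V is self-dual then H has order at most 2. If n ≥ 2 then V is self-dual if and only if n is even and the order of H divides r^(n/2) + 1. -/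
theorem result {F : Type*} [Field F] [Fintype F] (p : ℕ) [Fact p.Prime] [CharP F p] {H : Type*} [CommGroup H] [Finite H] (hcop : ¬ p ∣ Nat.card H) {V : Type*} [AddCommGroup V] [Module F V] [FiniteDimensional F V] (ρ : Representation F H V) (hfaith : Function.Injective ρ) (hirr : ∀ U : Submodule F V, (∀ h : H, ∀ u ∈ U, ρ h u ∈ U) → U = ⊥ ∨ U = ⊤) : (Module.finrank F V = 1 → (∃ B : LinearMap.BilinForm F V, B.Nondegenerate ∧ ∀ h : H, ∀ x y : V, B (ρ h x) (ρ h y) = B x y) → Nat.card H ≤ 2) ∧ (2 ≤ Module.finrank F V → ((∃ B : LinearMap.BilinForm F V, B.Nondegenerate ∧ ∀ h : H, ∀ x y : V, B (ρ h x) (ρ h y) = B x y) ↔ (Even (Module.finrank F V) ∧ Nat.card H ∣ Fintype.card F ^ (Module.finrank F V / 2) + 1))) := by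
  by_cases hV : Nontrivial V
  swap
  · have : Subsingleton V := not_nontrivial_iff_subsingleton.1 hV
    have h0 : Module.finrank F V = 0 := Module.finrank_zero_of_subsingleton
    exact ⟨fun h => by omega, fun h => by omega⟩
  obtain ⟨v0, hv0⟩ := exists_ne (0 : V)
  let f := ρ.asAlgebraHom
  have hcomm : ∀ (a : MonoidAlgebra F H) (h : H) (v : V), f a (ρ h v) = ρ h (f a v) := by
    intro a h v
    rw [← ρ.asAlgebraHom_of h, ← Module.End.mul_apply, ← Module.End.mul_apply, ← map_mul, ← map_mul,
      mul_comm]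
  have hker : ∀ a : MonoidAlgebra F H, f a = 0 ∨ Function.Injective (f a) := by
    intro a
    rcases hirr (LinearMap.ker (f a)) (fun h u hu => by
      rw [LinearMap.mem_ker] at hu ⊢
      rw [hcomm, hu, map_zero]) with h | h
    · exact Or.inr (LinearMap.ker_eq_bot.1 h)
    · exact Or.inl (LinearMap.ker_eq_top.1 h)
  let I : Ideal (MonoidAlgebra F H) := RingHom.ker f
  have hprime : I.IsPrime := by
    refine ⟨RingHom.ker_ne_top f, fun {a b} hab => ?_⟩
    rcases hker a with h | h
    · exact Or.inl h
    · right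
      rw [RingHom.mem_ker] at hab ⊢
      ext v
      refine h ?_
      rw [← Module.End.mul_apply, ← map_mul, hab]; simp
  have hfinA : Finite (MonoidAlgebra F H) := Module.finite_of_finite F
  have hfinE : Finite (MonoidAlgebra F H ⧸ I) :=
    Finite.of_surjective _ Ideal.Quotient.mk_surjective
  have hmax : I.IsMaximal := Ideal.Quotient.maximal_of_isField _ (Finite.isField_of_domain _)
  letI : Field (MonoidAlgebra F H ⧸ I) := Ideal.Quotient.field I
  let θ : (MonoidAlgebra F H ⧸ I) →ₐ[F] Module.End F V := Ideal.kerLiftAlg f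
  let χ : H →* (MonoidAlgebra F H ⧸ I) :=
    (Ideal.Quotient.mk I).toMonoidHom.comp (MonoidAlgebra.of F H)
  have hθχ : ∀ h, θ (χ h) = ρ h := fun h => (Ideal.kerLiftAlg_mk f _).trans (ρ.asAlgebraHom_of h)
  have hinj : Function.Injective χ := fun a b h => hfaith (by rw [← hθχ, ← hθχ, h])
  have hsp : Submodule.span F (Set.range χ) = ⊤ := by
    rw [eq_top_iff]
    rintro x -
    obtain ⟨a, rfl⟩ := Ideal.Quotient.mk_surjective x
    induction a using MonoidAlgebra.induction_on with
    | of h => exact Submodule.subset_span ⟨h, rfl⟩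
    | add a b ha hb => rw [map_add]; exact Submodule.add_mem _ ha hb
    | smul t a ha => exact Submodule.smul_mem _ t ha
  let e0 : (MonoidAlgebra F H ⧸ I) →ₗ[F] V := (LinearMap.applyₗ v0).comp θ.toLinearMap
  have he0 : ∀ x, e0 x = θ x v0 := fun _ => rfl
  have hmul : ∀ h x, e0 (χ h * x) = ρ h (e0 x) := fun h x => by
    rw [he0, he0, map_mul, hθχ]; rfl
  have hbij : Function.Bijective e0 := by
    constructor
    · rw [injective_iff_map_eq_zero]
      intro x hx
      by_contra h0
      apply hv0
      have : θ x⁻¹ (θ x v0) = v0 := by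
        rw [← Module.End.mul_apply, ← map_mul, inv_mul_cancel₀ h0, map_one]; rfl
      rw [← this, ← he0, hx, map_zero]
    · rcases hirr (LinearMap.range e0) (by
        rintro h _ ⟨x, rfl⟩
        exact ⟨_, hmul h x⟩) with h | h
      · exfalso
        apply hv0
        have : e0 1 ∈ LinearMap.range e0 := ⟨1, rfl⟩
        rw [h, Submodule.mem_bot, he0, map_one] at this
        exact this
      · exact LinearMap.range_eq_top.1 h
  let e := LinearEquiv.ofBijective e0 hbij
  have hmul' : ∀ h x, e (χ h * x) = ρ h (e x) := hmul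
  have hiff : (∃ B : LinearMap.BilinForm F V, B.Nondegenerate ∧
      ∀ h : H, ∀ x y : V, B (ρ h x) (ρ h y) = B x y) ↔
      (∃ B : LinearMap.BilinForm F (MonoidAlgebra F H ⧸ I), B.Nondegenerate ∧
      ∀ h : H, ∀ x y, B (χ h * x) (χ h * y) = B x y) := by
    constructor
    · rintro ⟨B, hB, hinv⟩
      refine ⟨LinearMap.BilinForm.congr e.symm B, hB.congr _, fun h x y => ?_⟩
      simp [hmul', hinv]
    · rintro ⟨B, hB, hinv⟩
      refine ⟨LinearMap.BilinForm.congr e B, hB.congr _, fun h x y => ?_⟩
      obtain ⟨x, rfl⟩ := e.surjective x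
      obtain ⟨y, rfl⟩ := e.surjective y
      simp [← hmul', hinv]
  rw [hiff, ← e.finrank_eq]
  exact core χ hinj hsp

end Cfsg.Agent.S4967
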