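import Cfsg.Statements.S5006
import Mathlib
import Cfsg.Agent.Spor.M24Block
import Cfsg.Agent.Char.Codeg

set_option autoImplicit false
open Cfsg

set_option linter.style.haveILetI false
set_option linter.unusedVariables false

namespace Cfsg.Agent.S5006

open Block Cfsg.Agent.Char Subgroup Cfsg.Agent.Spor Cfsg.Agent.Spor.M24C Cfsg.Agent.Comp

theorem card_cent {z N : ℕ} (hz : okM z = true)
    (h0 : and' (allLT 7 fun j => Nat.blt (dg bM j) 24) (Nat.beq (srch 7 orbM uM (okConj z z bM)
      (fun c => Nat.beq (conjC c z) z) (Nat.sub 7 0) oneC) N) = true) :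
    Nat.card (centralizer ({mc z} : Set M24)) = N := by
  rw [← chainM.card_cent hz 0 (by norm_num) h0, fixK_zero, top_inf_eq]

theorem not_isConj_inv {z : ℕ} (hz : okM z = true) (hw : okM (invC z) = true)
    (h0 : and' (allLT 7 fun j => Nat.blt (dg bM j) 24) (Nat.beq (srch 7 orbM uM
      (okConj z (invC z) bM) (fun c => and' (Nat.beq (conjC c z) (invC z)) (not' false)) 7 oneC) 0) =
        true) : ¬ IsConj (mc z) (mc z)⁻¹ := by
  intro h
  obtain ⟨g, hg⟩ := isConj_iff.1 h
  rw [inv_mc hz] at hg
  exact absurd (chainM.forall_conj hz hw (fun _ => false) h0 g trivial hg) (by simp)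

theorem isConj_pow {k z a : ℕ}
    (h : and' (and' (okM k) (okM z)) (Nat.beq (conjC k z) (powC z a)) = true) :
    IsConj (mc z) (mc z ^ a) := by
  have h1 := conj_mc h
  simp only [and'_eq_true] at h
  exact isConj_iff.2 ⟨mc k, by rw [h1, pow_mc h.1.2]⟩

def a23 : ℕ := 956302485175575353788796878166559809
def a11 : ℕ := 978194410780352192006149132852005952
def a7 : ℕ := 974055362495516289877840210542332992
def a5 : ℕ := 971541585361999105680547615942511680

theorem ok23 : okM a23 = true := by decide +kernel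
theorem ok11 : okM a11 = true := by decide +kernel
theorem ok7 : okM a7 = true := by decide +kernel
theorem ok5 : okM a5 = true := by decide +kernel
theorem o23 : orderOf (mc a23) = 23 := orderOf_mc_prime (by norm_num) ok23 (by decide +kernel)
theorem o11 : orderOf (mc a11) = 11 := orderOf_mc_prime (by norm_num) ok11 (by decide +kernel)
theorem o7 : orderOf (mc a7) = 7 := orderOf_mc_prime (by norm_num) ok7 (by decide +kernel)
theorem o5 : orderOf (mc a5) = 5 := orderOf_mc_prime (by norm_num) ok5 (by decide +kernel)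
theorem c23 : Nat.card (centralizer ({mc a23} : Set M24)) = 23 := card_cent ok23 (by decide +kernel)
theorem c11 : Nat.card (centralizer ({mc a11} : Set M24)) = 11 := card_cent ok11 (by decide +kernel)
theorem c7 : Nat.card (centralizer ({mc a7} : Set M24)) = 42 := card_cent ok7 (by decide +kernel)
theorem c5 : Nat.card (centralizer ({mc a5} : Set M24)) = 60 := card_cent ok5 (by decide +kernel)
theorem n23 : ¬ IsConj (mc a23) (mc a23)⁻¹ :=
  not_isConj_inv ok23 (by decide +kernel) (by decide +kernel)
theorem n7 : ¬ IsConj (mc a7) (mc a7)⁻¹ :=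
  not_isConj_inv ok7 (by decide +kernel) (by decide +kernel)
theorem p23 : IsConj (mc a23) (mc a23 ^ 2) :=
  isConj_pow (k := 983435072843990828779021698901151808) (by decide +kernel)
theorem p11 : IsConj (mc a11) (mc a11 ^ 3) :=
  isConj_pow (k := 968504838019167789452498055448662048) (by decide +kernel)
theorem p7 : IsConj (mc a7) (mc a7 ^ 2) :=
  isConj_pow (k := 968862408122672741797669726672030752) (by decide +kernel)
theorem p5 : IsConj (mc a5) (mc a5 ^ 2) :=
  isConj_pow (k := 962693934739099539844870992914746400) (by decide +kernel)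

attribute [irreducible] a23 a11 a7 a5

theorem arith (n m23 m11 m7 m5 : ℕ) (h1 : 1024 ∣ n) (h2 : n ∣ 244823040)
    (h23 : m23 ≡ n ^ 2 [MOD 23]) (h11 : m11 ≡ n ^ 2 [MOD 11]) (h7 : m7 ≡ n ^ 2 [MOD 7])
    (h5 : m5 ≡ n ^ 2 [MOD 5]) (h5' : 16 ∣ m5)
    (h : n ^ 2 + (4080384 * m5 + (2 * 5829120 * m7 + (22256640 * m11 + 2 * 10644480 * m23))) ≤
      244823040) : False := by
  obtain ⟨d, rfl⟩ := h1
  have h3 : d < 16 := by
    by_contra h3
    have : (1024 * 16) ^ 2 ≤ (1024 * d) ^ 2 := Nat.pow_le_pow_left (by omega) 2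
    omega
  unfold Nat.ModEq at *
  interval_cases d <;> omega

/-- All irreducible complex characters of the Mathieu group `M₂₄` lie in a single 2-block: any two of them lie in the same block relative to every maximal ideal of the algebraic integers containing 2. -/
theorem result (M : Ideal Cfsg.AlgInt) (hM : Cfsg.IsPModular 2 M)
    (χ ψ : Cfsg.IrrCharacter ↥Cfsg.M24) : Cfsg.SameBlock M (χ : ↥Cfsg.M24 → ℂ) (ψ : ↥Cfsg.M24 → ℂ) := by
  have := Fintype.ofFinite M24
  have hr : (MonoidHom.id M24).range = ⊤ := MonoidHom.range_eq_top.2 Function.surjective_id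
  refine sameBlock_of_locCon hM (ι := MonoidHom.id M24) Function.injective_id (fun t ht => ?_)
    (fun χ h0 => ?_) χ ψ
  · rw [hr]
    by_cases h : (fixSet (t : Equiv.Perm GolayPt)).card = 0
    · obtain ⟨k, rfl⟩ := conj_z2 ht (by omega)
      exact ⟨mc z2, (isConj_iff.2 ⟨k, rfl⟩).symm, exists_locCon_z2⟩
    · exact ⟨t, IsConj.refl t, _, locCon_octad (fixSet_mem_octads ht h)⟩
  · have hc := χ.2.isCharacter
    obtain ⟨m23, a1, a2⟩ := exists_nat_norm_sq hc (by norm_num) o23 p23 (by decide)
    obtain ⟨m11, b1, b2⟩ := exists_nat_norm_sq hc (by norm_num) o11 p11 (by decide)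
    obtain ⟨m7, d1, d2⟩ := exists_nat_norm_sq hc (by norm_num) o7 p7 (by decide)
    obtain ⟨m5, e1, e2⟩ := exists_nat_norm_sq hc (by norm_num) o5 p5 (by decide)
    have e3 := pow_dvd_norm_sq_of_defect_zero hM χ.2 h0 (c := 2) (by rw [c5]; norm_num) e1
    have a3 := two_index_mul_le_sumOrd hc o23 n23 c23 (i := 10644480) (by rw [card_M24])
    have b3 := index_mul_le_sumOrd hc.isClassFunction o11 c11 (i := 22256640) (by rw [card_M24])
    have d3 := two_index_mul_le_sumOrd hc o7 n7 c7 (i := 5829120) (by rw [card_M24])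
    have e4 := index_mul_le_sumOrd hc.isClassFunction o5 c5 (i := 4080384) (by rw [card_M24])
    have f1 := sq_le_sumOrd_one hc
    have f2 := sum_sumOrd_le χ.2 {1, 5, 7, 11, 23}
    rw [Finset.sum_insert (by decide), Finset.sum_insert (by decide), Finset.sum_insert (by decide),
      Finset.sum_insert (by decide), Finset.sum_singleton, card_M24] at f2
    rw [a1] at a3
    rw [b1] at b3
    rw [d1] at d3
    rw [e1] at e4
    refine arith (charDegree (χ : M24 → ℂ)) m23 m11 m7 m5 ?_
      (card_M24 ▸ Codeg.charDegree_dvd_card χ.2) a2 b2 d2 e2 e3 ?_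
    · refine (Nat.prime_two.pow_dvd_iff_le_factorization (k := 10)
        (charDegree_irr_ne_zero χ)).2 ?_
      rw [h0, ← Nat.prime_two.pow_dvd_iff_le_factorization Nat.card_pos.ne', card_M24]
      norm_num
    · have := (add_le_add f1 (add_le_add e4 (add_le_add d3 (add_le_add b3 a3)))).trans f2
      exact_mod_cast this

end Cfsg.Agent.S5006
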