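import Cfsg.Statements.S5005
import Mathlib
import Cfsg.Agent.S5006
import Cfsg.Agent.Small.BlockTools
import Cfsg.Agent.Char.Quot

set_option autoImplicit false
open Cfsg

set_option linter.style.haveILetI false
set_option linter.unusedVariables false

namespace Cfsg.Agent.S5005

open Block Cfsg.Agent.Char Subgroup Cfsg.Agent.Spor Cfsg.Agent.Spor.M24C Cfsg.Agent.Comp
open Cfsg.Spor Cfsg.Agent.S5006

theorem le24 : M22 ≤ M24 := fun _ h => h.1.1

/-- The inclusion. -/
noncomputable def ι : M22 →* M24 := Subgroup.inclusion le24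

theorem ι_inj : Function.Injective ι := Subgroup.inclusion_injective le24

theorem mem_range (g : M24) : g ∈ ι.range ↔ g • (some 0 : GolayPt) = some 0 ∧
    g • (none : GolayPt) = none := by
  constructor
  · rintro ⟨x, rfl⟩
    exact ⟨x.2.2, x.2.1.2⟩
  · rintro ⟨h1, h2⟩
    exact ⟨⟨g, ⟨g.2, h2⟩, h1⟩, rfl⟩

/-- The membership test. -/
noncomputable def tst (c : ℕ) : Bool := and' (Nat.beq (dg c 0) 0) (Nat.beq (dg c 23) 23)

theorem mem_range_iff (g : M24) :
    g ∈ ι.range ↔ tst (code (g : Equiv.Perm GolayPt)) = true := by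
  rw [mem_range, tst, and'_eq_true, beq_iff, beq_iff]
  have h0 : (some 0 : GolayPt) = pt 0 := by decide
  have h23 : (none : GolayPt) = pt 23 := by decide
  rw [h0, h23, smul_pt_eq g (by norm_num), smul_pt_eq g (by norm_num)]
  exact and_congr ⟨pt_inj (dg_code_lt _ (by norm_num)) (by norm_num), fun h => by rw [h]⟩
    ⟨pt_inj (dg_code_lt _ (by norm_num)) (by norm_num), fun h => by rw [h]⟩

theorem card22 : Nat.card M22 = 443520 := by
  rw [← card_stabilizer_two (p := some 0) (q := none) (by simp),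
    Nat.card_congr (MonoidHom.ofInjective ι_inj).toEquiv]
  congr 2
  ext g
  rw [mem_range]
  rfl

theorem exists_lift {c : ℕ} (hc : okM c = true) (h : tst c = true) : ∃ x : M22, ι x = mc c :=
  (mem_range_iff _).2 (by rw [code_mc hc]; exact h)

theorem card_cent' {z N : ℕ} (hz : okM z = true) {x : M22} (hx : ι x = mc z)
    (h0 : and' (allLT 7 fun j => Nat.blt (dg bM j) 24) (Nat.beq (srch 7 orbM uM
      (fun k c y => anyL [z] fun w => okConj z w bM k c y)
      (fun c => and' (force (conjC c z) fun x => anyL [z] fun w => Nat.beq w x) (tst c)) 7 oneC) N) =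
        true) : Nat.card (centralizer ({x} : Set M22)) = N := by
  rw [card_centralizer_eq_ncard ι_inj, hx]
  exact ncard_conj hz hz tst h0 mem_range_iff

theorem not_isConj_inv' {z : ℕ} (hz : okM z = true) (hw : okM (invC z) = true) {x : M22}
    (hx : ι x = mc z)
    (h0 : and' (allLT 7 fun j => Nat.blt (dg bM j) 24) (Nat.beq (srch 7 orbM uM
      (fun k c y => anyL [invC z] fun w => okConj z w bM k c y)
      (fun c => and' (force (conjC c z) fun x => anyL [invC z] fun w => Nat.beq w x) (tst c))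
        7 oneC) 0) = true) : ¬ IsConj x x⁻¹ := by
  intro h
  obtain ⟨g, hg⟩ := isConj_iff.1 h
  have h1 := ncard_conj hz hw tst h0 mem_range_iff
  have := Fintype.ofFinite M24
  rw [Set.ncard_eq_zero (Set.toFinite _), Set.eq_empty_iff_forall_notMem] at h1
  refine h1 (ι g) ⟨⟨g, rfl⟩, ?_⟩
  rw [← inv_mc hz, ← hx, ← map_inv, ← map_inv, ← map_mul, ← map_mul, hg]

theorem isConj_pow' {k z a : ℕ} {x : M22} (hx : ι x = mc z)
    (h : and' (and' (and' (okM k) (okM z)) (Nat.beq (conjC k z) (powC z a))) (tst k) = true) :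
    IsConj x (x ^ a) := by
  rw [and'_eq_true] at h
  have h1 := conj_mc h.1
  obtain ⟨h2, h3⟩ := h
  simp only [and'_eq_true] at h2
  obtain ⟨g, hg⟩ := exists_lift h2.1.1 h3
  refine isConj_iff.2 ⟨g, ι_inj ?_⟩
  rw [map_mul, map_mul, map_inv, map_pow, hg, hx, h1, pow_mc h2.1.2]

theorem orderOf_lift {z r : ℕ} {x : M22} (hx : ι x = mc z) (h : orderOf (mc z) = r) :
    orderOf x = r := by
  rw [← h, ← hx, orderOf_injective ι ι_inj]

theorem arith (n m11 m7 m5 : ℕ) (h1 : 128 ∣ n) (h2 : n ∣ 443520)
    (h11 : m11 ≡ n ^ 2 [MOD 11]) (h7 : m7 ≡ n ^ 2 [MOD 7]) (h5 : m5 ≡ n ^ 2 [MOD 5])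
    (h : n ^ 2 + (88704 * m5 + (2 * 63360 * m7 + 2 * 40320 * m11)) ≤ 443520) :
    n = 384 ∧ n ^ 2 + (88704 * m5 + (2 * 63360 * m7 + 2 * 40320 * m11)) = 443520 := by
  obtain ⟨d, rfl⟩ := h1
  have h3 : d < 6 := by
    by_contra h3
    have : (128 * 6) ^ 2 ≤ (128 * d) ^ 2 := Nat.pow_le_pow_left (by omega) 2
    omega
  unfold Nat.ModEq at *
  interval_cases d <;> omega

/-- All irreducible complex characters of the Mathieu group `M₂₂` lie in a single 2-block: any two of them lie in the same block relative to every maximal ideal of the algebraic integers containing 2. -/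
theorem result (M : Ideal Cfsg.AlgInt) (hM : Cfsg.IsPModular 2 M)
    (χ ψ : Cfsg.IrrCharacter ↥Cfsg.Spor.M22) : Cfsg.SameBlock M (χ : ↥Cfsg.Spor.M22 → ℂ) (ψ : ↥Cfsg.Spor.M22 → ℂ) := by
  have := Fintype.ofFinite M22
  refine sameBlock_of_locCon hM ι_inj (fun t ht => ?_) (fun χ h0 => ?_) χ ψ
  · have ht' : orderOf (ι t) = 2 := by rw [orderOf_injective ι ι_inj, ht]
    have hm := (mem_range (ι t)).1 ⟨t, rfl⟩
    have h1 : (some 0 : GolayPt) ∈ fixSet (ι t : Equiv.Perm GolayPt) := mem_fixSet.2 hm.1
    have h2 : (none : GolayPt) ∈ fixSet (ι t : Equiv.Perm GolayPt) := mem_fixSet.2 hm.2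
    refine ⟨t, IsConj.refl t, _, (locCon_octad (fixSet_mem_octads ht'
      (Finset.card_ne_zero_of_mem h1))).mono le_top fun u hu => ?_⟩
    exact (mem_range u).2 ⟨mem_fixS.1 hu _ h1, mem_fixS.1 hu _ h2⟩
  · have hc := χ.2.isCharacter
    obtain ⟨x11, y11⟩ := exists_lift ok11 (by decide +kernel)
    obtain ⟨x7, y7⟩ := exists_lift ok7 (by decide +kernel)
    obtain ⟨x5, y5⟩ := exists_lift ok5 (by decide +kernel)
    have q11 := orderOf_lift y11 o11
    have q7 := orderOf_lift y7 o7
    have q5 := orderOf_lift y5 o5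
    obtain ⟨m11, b1, b2⟩ := exists_nat_norm_sq hc (by norm_num) q11
      (isConj_pow' (k := 968504838019167789452498055448662048) (a := 3) y11 (by decide +kernel))
      (by decide)
    obtain ⟨m7, d1, d2⟩ := exists_nat_norm_sq hc (by norm_num) q7
      (isConj_pow' (k := 968862408122672741797669726672030752) (a := 2) y7 (by decide +kernel))
      (by decide)
    obtain ⟨m5, e1, e2⟩ := exists_nat_norm_sq hc (by norm_num) q5
      (isConj_pow' (k := 962693934739099539844870992914746400) (a := 2) y5 (by decide +kernel))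
      (by decide)
    have b3 := two_index_mul_le_sumOrd hc q11
      (not_isConj_inv' ok11 (by decide +kernel) y11 (by decide +kernel))
      (card_cent' (N := 11) ok11 y11 (by decide +kernel)) (i := 40320) (by rw [card22])
    have d3 := two_index_mul_le_sumOrd hc q7
      (not_isConj_inv' ok7 (by decide +kernel) y7 (by decide +kernel))
      (card_cent' (N := 7) ok7 y7 (by decide +kernel)) (i := 63360) (by rw [card22])
    have e4 := index_mul_le_sumOrd hc.isClassFunction q5
      (card_cent' (N := 5) ok5 y5 (by decide +kernel)) (i := 88704) (by rw [card22])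
    have f1 := sq_le_sumOrd_one hc
    rw [b1] at b3
    rw [d1] at d3
    rw [e1] at e4
    have f3 := add_le_add f1 (add_le_add e4 (add_le_add d3 b3))
    have f2 := sum_sumOrd_le χ.2 {1, 5, 7, 11}
    rw [Finset.sum_insert (by decide), Finset.sum_insert (by decide), Finset.sum_insert (by decide),
      Finset.sum_singleton, card22] at f2
    obtain ⟨hn, he⟩ := arith (charDegree (χ : M22 → ℂ)) m11 m7 m5 (by
      refine (Nat.prime_two.pow_dvd_iff_le_factorization (k := 7)
        (charDegree_irr_ne_zero χ)).2 ?_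
      rw [h0, ← Nat.prime_two.pow_dvd_iff_le_factorization Nat.card_pos.ne', card22]
      norm_num) (card22 ▸ Codeg.charDegree_dvd_card χ.2) b2 d2 e2 (by exact_mod_cast f3.trans f2)
    haveI : Fact (Nat.Prime 3) := ⟨by norm_num⟩
    obtain ⟨T, hT⟩ := Sylow.exists_subgroup_card_pow_prime (G := M22) 3 (n := 2)
      (by rw [card22]; norm_num)
    by_cases hv : ∀ x ∈ T, x ≠ 1 → (χ : M22 → ℂ) x = 0
    · have := Small.card_dvd_of_vanish hc.isGen T hv (d := 384)
        (by rw [← coe_charDegree_of_isCharacter hc, hn]; norm_num)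
      rw [hT] at this
      norm_num at this
    · push Not at hv
      obtain ⟨x, hxT, hx1, hx⟩ := hv
      have g1 := sumOrd_pos hx
      have g2 : orderOf x ∣ 3 ^ 2 := hT ▸ Subgroup.orderOf_dvd_natCard T hxT
      have g3 : orderOf x ∉ ({1, 5, 7, 11} : Finset ℕ) := by
        have := orderOf_eq_one_iff.not.2 hx1
        intro h
        simp only [Finset.mem_insert, Finset.mem_singleton] at h
        rcases h with h | h | h | h <;> simp_all
      have f4 := sum_sumOrd_le χ.2 (insert (orderOf x) {1, 5, 7, 11})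
      rw [Finset.sum_insert g3, Finset.sum_insert (by decide), Finset.sum_insert (by decide),
        Finset.sum_insert (by decide), Finset.sum_singleton, card22] at f4
      have he' : (charDegree (χ : M22 → ℂ) : ℝ) ^ 2 + ((88704 : ℕ) * (m5 : ℝ) +
        (2 * (63360 : ℕ) * (m7 : ℝ) + 2 * (40320 : ℕ) * (m11 : ℝ))) = (443520 : ℕ) := by
        exact_mod_cast he
      linarith

end Cfsg.Agent.S5005
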