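import Cfsg.Statements.S5008
import Cfsg.Agent.Block.PrincipalPow
import Cfsg.Agent.Block.ModExists

set_option autoImplicit false
open Cfsg

namespace Cfsg.Agent.S5008

open Cfsg.Agent.Char Cfsg.Agent.Block Subgroup
open scoped commutatorElement

/-- Let `G` be a finite group and `p` a prime dividing the size of no vanishing conjugacy class of `G` (a class of an element on which some irreducible complex character takes the value zero). Then `G` has a normal `p`-complement and abelian Sylow `p`-subgroups. The known proof uses the classification of finite simple groups. -/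
theorem result {G : Type*} [Group G] [Finite G] (p : ℕ) [Fact p.Prime]
    (h : ∀ x : G, (∃ χ : Cfsg.IrrCharacter G, (χ : G → ℂ) x = 0) → ¬ p ∣ (Subgroup.centralizer ({x} : Set G)).index) :
    Cfsg.HasNormalPComplement p G ∧ ∀ P : Sylow p G, IsMulCommutative (P : Subgroup G) := by
  classical
  obtain ⟨M, hM⟩ := exists_isPModular (Fact.out : p.Prime)
  have h1 : ∀ χ ∈ principalBlock M G, χ.1 1 = 1 := fun χ hχ => by
    by_contra h2
    obtain ⟨g, hg⟩ := χ.2.exists_eq_zero h2
    exact apply_ne_zero_of_mem_principal hM hχ (h g ⟨χ, hg⟩) hg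
  refine ⟨hasNormalPComplement_of_principal_linear hM (k := 1) (by simp) (n := 0) (by simp)
    fun χ hχ _ _ => (charDegree_eq_one_iff χ.2.isCharacter).2 (h1 χ hχ), fun P => ⟨⟨fun a b => ?_⟩⟩⟩
  rw [← commutatorElement_eq_one_iff_mul_comm]
  by_contra h2
  have h3 : p ∣ orderOf ((⁅a, b⁆ : (P : Subgroup G)) : G) := by
    by_contra h3
    exact h2 (Subtype.ext (eq_one_of_orderOf_pow_of_not_dvd (orderOf_eq_pow_of_mem P.2 (⁅a, b⁆).2) h3))
  have h4 := sum_mul_conj_eq_zero_of_singular_regular hM (val_blockCoeff_principal_le_one hM) h3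
    not_dvd_orderOf_one
  rw [finsum_mem_congr rfl (g := fun _ => (1 : ℂ)) fun χ hχ => by
    rw [show ((⁅a, b⁆ : (P : Subgroup G)) : G) = ⁅(a : G), (b : G)⁆ from rfl,
      (mem_charKer_irr χ).1 (commutator_le_charKer_of_one χ.2.isCharacter (h1 χ hχ)
      (commutator_mem_commutator (mem_top (a : G)) (mem_top (b : G)))), h1 χ hχ]; simp,
    finsum_mem_irr_eq_sum] at h4
  simp only [Finset.sum_const, nsmul_eq_mul, mul_one, Nat.cast_eq_zero, Finset.card_eq_zero] at h4
  have h5 : irrOne G ∈ (∅ : Finset (IrrCharacter G)) :=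
    h4 ▸ Finset.mem_filter.2 ⟨Finset.mem_univ _, irrOne_mem_principal hM⟩
  simp at h5

end Cfsg.Agent.S5008
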