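import Cfsg.Statements.S5010
import Mathlib
import Cfsg.Agent.SolvLin.Deg

set_option autoImplicit false
open Cfsg

namespace Cfsg.Agent.S5010

/-- Let `G` be a finite solvable group. If every irreducible complex character degree of `G` is squarefree (1 included), then the derived length of `G` is at most 4. -/
theorem result {G : Type*} [Group G] [Finite G] [Group.IsSolvable G]
    (h : ∀ χ : Cfsg.IrrCharacter G, Squarefree (Cfsg.charDegree (χ : G → ℂ))) : derivedSeries G 4 = ⊥ := by
  haveI := SolvLin.nilpotent_of_squarefree _ G rfl h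
  have h1 : derivedSeries (derivedSeries G 2) 2 = ⊥ :=
    SolvLin.metabelian_of_nilpotent_squarefree fun θ => by
      obtain ⟨χ, hχ⟩ := SolvLin.exists_deg_dvd _ θ
      exact (h χ).squarefree_of_dvd ((dvd_mul_left _ _).trans hχ)
  rw [← SolvLin.ds_top, ← SolvLin.ds_add ⊤ 2 2, SolvLin.ds_eq_map, SolvLin.ds_top, SolvLin.ds_top, h1,
    Subgroup.map_bot]

end Cfsg.Agent.S5010
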