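import Cfsg.Statements.S5014
import Cfsg.Agent.RootSub.RankOne

set_option autoImplicit false
open Cfsg

namespace Cfsg.Agent.S5014

open Cfsg.Agent.RootSub Subgroup in
/-- Let X = ⟨A, B⟩ be a rank one group with unipotent subgroups A and B and let Ω be the set of conjugates of A under X. Then Ω has at least three members, X acts doubly transitively on Ω by conjugation (any two ordered pairs of distinct members are carried to one another by a single element of X), and A acts regularly on Ω with A removed: for C, D in Ω different from A there is exactly one element of A conjugating C to D. -/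
theorem result {G : Type*} [Group G] {A B : Subgroup G} (h : Cfsg.IsRankOnePair A B) :
    (∃ C₁ ∈ Cfsg.unipotentSubgroups A B, ∃ C₂ ∈ Cfsg.unipotentSubgroups A B, ∃ C₃ ∈ Cfsg.unipotentSubgroups A B,
      C₁ ≠ C₂ ∧ C₁ ≠ C₃ ∧ C₂ ≠ C₃) ∧
    (∀ C₁ ∈ Cfsg.unipotentSubgroups A B, ∀ C₂ ∈ Cfsg.unipotentSubgroups A B, ∀ D₁ ∈ Cfsg.unipotentSubgroups A B,
      ∀ D₂ ∈ Cfsg.unipotentSubgroups A B, C₁ ≠ C₂ → D₁ ≠ D₂ →
        ∃ x ∈ A ⊔ B, Cfsg.conjBy C₁ x = D₁ ∧ Cfsg.conjBy C₂ x = D₂) ∧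
    (∀ C ∈ Cfsg.unipotentSubgroups A B, ∀ D ∈ Cfsg.unipotentSubgroups A B, C ≠ A → D ≠ A →
      ∃! a : G, a ∈ A ∧ Cfsg.conjBy C a = D) := by
  refine ⟨?_, ?_, ?_⟩
  · obtain ⟨C, hC, h1, h2⟩ := rankOne_exists_third h
    exact ⟨A, left_mem_unip A B, B, rankOne_right_mem_unip h, C, hC, h.ne, h1.symm, h2.symm⟩
  · intro C₁ hC₁ C₂ hC₂ D₁ hD₁ D₂ hD₂ hC hD
    obtain ⟨x, hx, rfl, rfl⟩ := rankOne_exists_conj_pair h hC₁ hC₂ hC
    obtain ⟨y, hy, rfl, rfl⟩ := rankOne_exists_conj_pair h hD₁ hD₂ hD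
    refine ⟨y * x⁻¹, mul_mem hy (inv_mem hx), ?_, ?_⟩ <;>
      rw [conjBy_conjBy, inv_mul_cancel_right]
  · intro C hC D hD hCA hDA
    obtain ⟨a, ha, rfl⟩ := ((rankOne_mem_unip_iff h).1 hC).resolve_left hCA
    obtain ⟨a', ha', rfl⟩ := ((rankOne_mem_unip_iff h).1 hD).resolve_left hDA
    refine ⟨a' * a⁻¹, ⟨mul_mem ha' (inv_mem ha), by rw [conjBy_conjBy, inv_mul_cancel_right]⟩, ?_⟩
    rintro c ⟨hc, e⟩
    rw [conjBy_conjBy] at e
    rw [← rankOne_conjBy_inj h (mul_mem hc ha) ha' e, mul_inv_cancel_right]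

end Cfsg.Agent.S5014
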