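import Cfsg.Statements.S5015
import Cfsg.Agent.RootSub.RankOne

set_option autoImplicit false
open Cfsg

namespace Cfsg.Agent.S5015

open Cfsg.Agent.RootSub Subgroup in
/-- Let a group Y act doubly transitively on a set Ω with at least three points, and suppose that the stabilizer of a point α contains a nilpotent subgroup A, normalized by that stabilizer, which acts regularly on the points other than α. Then for any y in Y moving α, the subgroups A and y A y⁻¹ are the unipotent subgroups of a rank one group, and the normal closure of A in Y (the subgroup generated by all conjugates of A) is generated by A and y A y⁻¹ alone. -/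
theorem result {Y Ω : Type*} [Group Y] [MulAction Y Ω]
    (h2 : MulAction.IsMultiplyPretransitive Y Ω 2) (hΩ : 3 ≤ ENat.card Ω) (α : Ω) (A : Subgroup Y)
    (hA : A ≤ MulAction.stabilizer Y α) (hAn : ∀ y ∈ MulAction.stabilizer Y α, Cfsg.conjBy A y = A)
    (hnil : Group.IsNilpotent A) (hreg : ∀ β γ : Ω, β ≠ α → γ ≠ α → ∃! a : Y, a ∈ A ∧ a • β = γ)
    (y : Y) (hy : y ∉ MulAction.stabilizer Y α) :
    Cfsg.IsRankOnePair A (Cfsg.conjBy A y) ∧ Subgroup.normalClosure (A : Set Y) = A ⊔ Cfsg.conjBy A y := by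
  have hdep : ∀ g g' : Y, g • α = g' • α → conjBy A g = conjBy A g' := by
    intro g g' e
    rw [conjBy_eq_conjBy_iff, ← conjBy_eq_self_iff]
    apply hAn
    rw [MulAction.mem_stabilizer_iff, mul_smul, e, inv_smul_smul]
  have hβ : y • α ≠ α := hy
  have hfix : ∀ a ∈ A, a • α = α := fun a ha => hA ha
  have hthird : ∃ γ : Ω, γ ≠ α ∧ γ ≠ y • α := by
    by_contra hc
    push Not at hc
    have hsub : (Set.univ : Set Ω) ⊆ {α, y • α} := by
      intro γ _
      by_cases h1 : γ = α
      · exact Or.inl h1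
      · exact Or.inr (hc γ h1)
    have h1 := Set.encard_le_encard hsub
    rw [Set.encard_univ] at h1
    have h2 : ({α, y • α} : Set Ω).encard ≤ 2 := by
      rw [Set.encard_pair hβ.symm]
    have := hΩ.trans (h1.trans h2)
    norm_num at this
  have hfixB : ∀ b ∈ conjBy A y, b • y • α = y • α := by
    intro b hb
    have := hfix _ (mem_conjBy.1 hb)
    rw [mul_smul, mul_smul, inv_smul_eq_iff] at this
    exact this
  have hne : A ≠ conjBy A y := by
    intro e
    obtain ⟨γ, h1, h2⟩ := hthird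
    obtain ⟨a, ⟨ha, ea⟩, -⟩ := hreg _ γ hβ h1
    rw [e] at ha
    exact h2 (by rw [← ea, hfixB a ha])
  have hregB : ∀ β γ : Ω, β ≠ y • α → γ ≠ y • α → ∃! b : Y, b ∈ conjBy A y ∧ b • β = γ := by
    intro β γ h1 h2
    obtain ⟨a, ⟨ha, ea⟩, hu⟩ := hreg (y⁻¹ • β) (y⁻¹ • γ) (fun e => h1 (inv_smul_eq_iff.1 e))
      (fun e => h2 (inv_smul_eq_iff.1 e))
    refine ⟨y * a * y⁻¹, ⟨conj_mem_conjBy ha y, ?_⟩, ?_⟩
    · rw [mul_smul, mul_smul, ea, smul_inv_smul]
    · rintro b ⟨hb, eb⟩
      have := hu (y⁻¹ * b * y) ⟨mem_conjBy.1 hb, by rw [mul_smul, mul_smul, smul_inv_smul, eb]⟩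
      rw [← this]; group
  refine ⟨rankOne_of_left hne hnil (isNilpotent_conjBy hnil y) ?_ ?_, ?_⟩
  · intro a ha ha1
    have h1 : a • y • α ≠ y • α := by
      intro e
      obtain ⟨a', -, hu⟩ := hreg _ _ hβ hβ
      exact ha1 ((hu a ⟨ha, e⟩).trans (hu 1 ⟨one_mem _, one_smul _ _⟩).symm)
    obtain ⟨b, ⟨hb, eb⟩, -⟩ := hregB α _ hβ.symm h1
    refine ⟨b, hb, ?_⟩
    rw [conjBy_conjBy]
    exact hdep _ _ (by rw [eb, mul_smul])
  · intro b hb hb1
    have h1 : b • α ≠ α := by
      intro e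
      obtain ⟨a', -, hu⟩ := hregB _ _ hβ.symm hβ.symm
      exact hb1 ((hu b ⟨hb, e⟩).trans (hu 1 ⟨one_mem _, one_smul _ _⟩).symm)
    obtain ⟨a, ⟨ha, ea⟩, -⟩ := hreg _ _ hβ h1
    refine ⟨a, ha, ?_⟩
    rw [conjBy_conjBy]
    exact hdep _ _ (by rw [← ea, mul_smul])
  · apply le_antisymm
    · rw [normalClosure, closure_le]
      intro x hx
      obtain ⟨a, ha, hc⟩ := Group.mem_conjugatesOfSet_iff.1 hx
      obtain ⟨g, rfl⟩ := isConj_iff.1 hc
      have hm : g * a * g⁻¹ ∈ conjBy A g := conj_mem_conjBy ha g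
      by_cases hg : g • α = α
      · rw [hdep g 1 (by rw [hg, one_smul]), conjBy_one] at hm
        exact mem_sup_left hm
      · obtain ⟨a', ⟨ha', ea⟩, -⟩ := hreg _ _ hβ hg
        rw [hdep g (a' * y) (by rw [mul_smul, ea]), ← conjBy_conjBy] at hm
        exact conjBy_le_of_le le_sup_right (mem_sup_left ha') hm
    · apply sup_le le_normalClosure
      rw [← conjBy_normal (normalClosure (A : Set Y)) y]
      exact conjBy_mono le_normalClosure y

end Cfsg.Agent.S5015
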