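import Cfsg.Statements.S5017
import Cfsg.Agent.RootSub.RankOne

set_option autoImplicit false
open Cfsg

namespace Cfsg.Agent.S5017

open Cfsg.Agent.RootSub Subgroup in
/-- Let X be a rank one group with unipotent subgroups A and B and N a normal subgroup of X. Then either X = N A or N lies in the centre of X. Consequently a perfect rank one group is quasisimple. -/
theorem result {X : Type*} [Group X] {A B : Subgroup X} (h : Cfsg.IsRankOneGroup X A B) :
    (∀ N : Subgroup X, N.Normal → N ⊔ A = ⊤ ∨ N ≤ Subgroup.center X) ∧
    (Group.IsPerfect X → Cfsg.IsQuasisimple X) := by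
  obtain ⟨hgen, h⟩ := h
  have key : ∀ N : Subgroup X, N.Normal → N ⊔ A = ⊤ ∨ N ≤ Subgroup.center X := by
    intro N hN
    rcases rankOne_normal_dichotomy h (N := N) (by rw [hgen]; exact le_top)
      (fun x _ => conjBy_normal N x) with e | e
    · left; rw [e, hgen]
    · right
      intro n hn
      rw [mem_center_iff]
      intro x
      exact (e n hn x (by rw [hgen]; trivial)).symm
  refine ⟨key, fun hp => ⟨hp, ?_⟩⟩
  have hnt : Nontrivial (X ⧸ Subgroup.center X) := by
    rw [QuotientGroup.nontrivial_iff]
    intro e
    apply rankOne_not_commutative h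
    intro x _ y _
    have : y ∈ Subgroup.center X := by rw [e]; trivial
    exact mem_center_iff.1 this x
  refine ⟨fun M hM => ?_⟩
  rcases key (M.comap (QuotientGroup.mk' _)) inferInstance with e | e
  · right
    set N := M.comap (QuotientGroup.mk' (Subgroup.center X)) with hN
    have hnil := h.nilpotent_left
    have hsurj : Function.Surjective ((QuotientGroup.mk' N).comp A.subtype) := by
      rw [← MonoidHom.range_eq_top, MonoidHom.range_comp, A.range_subtype]
      have := congrArg (Subgroup.map (QuotientGroup.mk' N)) e
      rw [Subgroup.map_sup, QuotientGroup.map_mk'_self, bot_sup_eq,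
        map_top_of_surjective _ (QuotientGroup.mk'_surjective N)] at this
      exact this
    have h1 : Group.IsNilpotent (X ⧸ N) := Group.nilpotent_of_surjective _ hsurj
    have h2 : Group.IsPerfect (X ⧸ N) := Group.IsPerfect.ofSurjective (QuotientGroup.mk'_surjective N)
    have h3 : N = ⊤ := by
      by_contra hc
      have : Nontrivial (X ⧸ N) := QuotientGroup.nontrivial_iff.2 hc
      exact Group.IsPerfect.not_isNilpotent (G := X ⧸ N) h1
    rw [← map_comap_eq_self_of_surjective (QuotientGroup.mk'_surjective _) M, ← hN, h3,
      map_top_of_surjective _ (QuotientGroup.mk'_surjective _)]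
  · left
    rw [← map_comap_eq_self_of_surjective (QuotientGroup.mk'_surjective _) M, eq_bot_iff]
    rw [← QuotientGroup.map_mk'_self (Subgroup.center X)]
    exact map_mono e

end Cfsg.Agent.S5017
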