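import Cfsg.Statements.S5018
import Cfsg.Agent.RootSub.RankOne

set_option autoImplicit false
open Cfsg

namespace Cfsg.Agent.S5018

open Cfsg.Agent.RootSub Subgroup in
/-- A rank one group is not nilpotent, and its second centre equals its centre. -/
theorem result {X : Type*} [Group X] {A B : Subgroup X} (h : Cfsg.IsRankOneGroup X A B) :
    Subgroup.upperCentralSeries X 2 = Subgroup.center X ∧ ¬ Group.IsNilpotent X := by
  obtain ⟨hgen, h⟩ := h
  have key : Subgroup.upperCentralSeries X 2 = Subgroup.center X := by
    apply le_antisymm
    · intro z hz
      rw [Subgroup.mem_upperCentralSeries_succ_iff, Subgroup.upperCentralSeries_one] at hz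
      rw [mem_center_iff]
      intro x
      refine (rankOne_centralizes_of_commutator_central h (z := z) ?_ ?_ ?_ x
        (by rw [hgen]; trivial)).symm
      · intro x _ y _
        exact (mem_center_iff.1 (hz x) y).symm
      · exact conjBy_mem_unip (left_mem_unip A B) (by rw [hgen]; trivial)
      · exact conjBy_mem_unip (rankOne_right_mem_unip h) (by rw [hgen]; trivial)
    · rw [← Subgroup.upperCentralSeries_one]
      exact Subgroup.upperCentralSeries_mono X (by norm_num)
  refine ⟨key, fun hn => ?_⟩
  have h1 : Subgroup.upperCentralSeries X 1 = ⊤ :=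
    Subgroup.upperCentralSeries.eq_top (a := 1) (b := 2) (by norm_num) (by rw [key, Subgroup.upperCentralSeries_one])
  rw [Subgroup.upperCentralSeries_one] at h1
  apply rankOne_not_commutative h
  intro x _ y _
  have : y ∈ Subgroup.center X := by rw [h1]; trivial
  exact mem_center_iff.1 this x

end Cfsg.Agent.S5018
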