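import Cfsg.Statements.S5020
import Cfsg.Agent.RootSub.Steinberg2
import Cfsg.Agent.RootSub.Special2
import Cfsg.Agent.S5017

set_option autoImplicit false
open Cfsg

namespace Cfsg.Agent.S5020

open Cfsg.Agent.RootSub Subgroup in
/-- Let X be a special rank one group with abelian unipotent subgroups A and B, and H = N(A) ∩ N(B) its diagonal subgroup. Then either A has at most three elements and X is isomorphic to SL₂(2), SL₂(3) or PSL₂(3); or X = X' A with the commutator subgroup X' quasisimple and the commutator subgroup ⁅A, H⁆ having more than three elements. -/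
theorem result {X : Type*} [Group X] {A B : Subgroup X} (h : Cfsg.IsRankOneGroup X A B)
    (hs : Cfsg.IsSpecialRankOnePair A B) (hab : Cfsg.HasAbelianUnipotents A B) :
    (ENat.card A ≤ 3 ∧ (Nonempty (X ≃* Matrix.SpecialLinearGroup (Fin 2) (ZMod 2)) ∨
        Nonempty (X ≃* Matrix.SpecialLinearGroup (Fin 2) (ZMod 3)) ∨
        Nonempty (X ≃* Matrix.ProjectiveSpecialLinearGroup (Fin 2) (ZMod 3)))) ∨
    (commutator X ⊔ A = ⊤ ∧ Cfsg.IsQuasisimple (commutator X) ∧
      3 < ENat.card ↥(⁅A, Cfsg.rankOneDiagonal A B⁆ : Subgroup X)) := by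
  have hAA : ⁅A, A⁆ = ⊥ := commutator_eq_bot_iff'.mpr (isMulCommutative_iff.mp hab.1)
  have hBB : ⁅B, B⁆ = ⊥ := commutator_eq_bot_iff'.mpr (isMulCommutative_iff.mp hab.2)
  rcases le_or_gt (ENat.card A) 3 with h3 | h3
  · refine Or.inl ⟨h3, ?_⟩
    obtain ⟨x, hx⟩ := exists_of_card_le_three h3
    obtain ⟨a, ha, ha1⟩ := rankOne_exists_ne_one h.2
    obtain ⟨b, hb, hb1, e⟩ := rankOne_exists_left h.2 ha ha1
    have hA : ∀ c ∈ A, c = 1 ∨ c = a ∨ c = a⁻¹ := by
      intro c hc
      rcases hx a ha with e1 | e1 | e1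
      · exact absurd e1 ha1
      · rw [e1]; exact hx c hc
      · rw [e1, inv_inv]; rcases hx c hc with e2 | e2 | e2 <;> simp [e2]
    have hgen : Subgroup.closure {a, b} = ⊤ := by
      have haC : a ∈ Subgroup.closure {a, b} := subset_closure (by simp)
      have hbC : b ∈ Subgroup.closure {a, b} := subset_closure (by simp)
      have hAC : A ≤ Subgroup.closure {a, b} := by
        intro c hc
        rcases hA c hc with rfl | rfl | rfl
        · exact one_mem _
        · exact haC
        · exact inv_mem haC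
      rw [eq_top_iff, ← h.1]
      refine sup_le hAC ?_
      rw [← special_mu_left hs ha hb e]
      exact conjBy_le_of_le hAC (mul_mem (mul_mem haC (inv_mem hbC)) haC)
    have key : ∀ (p : ℕ) [Fact p.Prime], a ^ p = 1 →
        Nonempty (X ≃* Matrix.SpecialLinearGroup (Fin 2) (ZMod p)) ∨
          Nonempty (X ≃* Matrix.ProjectiveSpecialLinearGroup (Fin 2) (ZMod p)) := by
      intro p _ hp
      obtain ⟨φ, h1, h2, -⟩ := special_exists_hom hs hBB
        (fun c hc => special_pow_eq_one hs hAA hBB ha ha1 hp hc) ha hb e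
      have i : X ≃* φ.range := ((MulEquiv.subgroupCongr (h1.trans hgen)).trans topEquiv).symm
      rcases sl2_range_equiv φ h2 with ⟨⟨j⟩⟩ | ⟨⟨j⟩⟩
      · exact Or.inl ⟨i.trans j⟩
      · exact Or.inr ⟨i.trans j⟩
    rcases hA (a * a) (A.mul_mem ha ha) with e1 | e1 | e1
    · left
      rcases key 2 (by rw [sq, e1]) with i | ⟨⟨i⟩⟩
      · exact i
      · have hc : Subgroup.center (Matrix.SpecialLinearGroup (Fin 2) (ZMod 2)) = ⊥ := by
          rw [eq_bot_iff]
          intro g hg
          rcases sl2_mem_center_iff.mp hg with rfl | rfl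
          · exact one_mem _
          · exact mem_bot.mpr (by decide)
        exact ⟨i.trans ((QuotientGroup.quotientMulEquivOfEq hc).trans QuotientGroup.quotientBot)⟩
    · exact absurd (mul_eq_left.mp e1) ha1
    · right
      exact key 3 (by rw [pow_succ, sq, e1, inv_mul_cancel])
  · right
    have hp : commutator X = ⊤ := by
      have h1 := special_le_commutator hs hAA h3
      rw [h.1] at h1
      rw [eq_top_iff, ← h.1]
      refine sup_le h1 ?_
      obtain ⟨x, -, e⟩ := rankOne_right_mem_unip h.2
      rw [e]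
      exact (conjBy_mono h1 x).trans (conjBy_normal (commutator X) x).le
    refine ⟨by rw [hp, top_sup_eq], ?_, ?_⟩
    · rw [hp]
      exact quasisimple_of_equiv topEquiv.symm ((S5017.result h).2 ⟨hp⟩)
    · rcases special_commutator_diagonal hs hAA with e | ⟨x, hx⟩
      · rwa [e]
      · exact absurd (card_le_three_of_forall hx) (not_le.mpr h3)

end Cfsg.Agent.S5020
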