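import Cfsg.Statements.S5022
import Cfsg.Agent.RootSub.Steinberg2

set_option autoImplicit false
open Cfsg

namespace Cfsg.Agent.S5022

open Cfsg.Agent.RootSub Subgroup in
/-- Let X be a special rank one group with abelian unipotent subgroups A and B, where A is an elementary abelian p-group for the prime p. Then for every non-identity a in A and the non-identity b in B with b⁻¹ A b = a⁻¹ B a, the subgroup generated by a and b is isomorphic to SL₂(p) or to PSL₂(p). -/
theorem result {X : Type*} [Group X] {A B : Subgroup X} (h : Cfsg.IsRankOneGroup X A B)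
    (hs : Cfsg.IsSpecialRankOnePair A B) (hab : Cfsg.HasAbelianUnipotents A B)
    {p : ℕ} [Fact p.Prime] (hA : Cfsg.IsElementaryAbelian p A)
    {a b : X} (ha : a ∈ A) (ha1 : a ≠ 1) (hb : b ∈ B) (hb1 : b ≠ 1) (hab' : Cfsg.conjBy A b⁻¹ = Cfsg.conjBy B a⁻¹) :
    Nonempty (↥(Subgroup.closure ({a, b} : Set X)) ≃* Matrix.SpecialLinearGroup (Fin 2) (ZMod p)) ∨
    Nonempty (↥(Subgroup.closure ({a, b} : Set X)) ≃* Matrix.ProjectiveSpecialLinearGroup (Fin 2) (ZMod p)) := by
  have e := special_inv hs (A.inv_mem ha) (B.inv_mem hb) hab'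
  rw [inv_inv, inv_inv] at e
  obtain ⟨φ, h1, h2, -⟩ := special_exists_hom hs
    (commutator_eq_bot_iff'.mpr (isMulCommutative_iff.mp hab.2)) hA.2 ha hb e
  rw [← h1]
  exact sl2_range_equiv φ h2

end Cfsg.Agent.S5022
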