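import Cfsg.Statements.S5023
import Cfsg.Agent.RootSub.Special

set_option autoImplicit false
open Cfsg

namespace Cfsg.Agent.S5023

open Cfsg.Agent.RootSub Subgroup in
/-- Let X be a rank one group with unipotent subgroups A and B that acts faithfully on an abelian group V (written additively) with A acting quadratically: a' • (a • v − v) = a • v − v for all a, a' in A and v in V. Then A is either torsion-free or an elementary abelian p-group for some prime p. -/
theorem result {X : Type*} [Group X] {A B : Subgroup X} (h : Cfsg.IsRankOneGroup X A B)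
    {V : Type*} [AddCommGroup V] [DistribMulAction X V] (hf : ∀ x : X, (∀ v : V, x • v = v) → x = 1)
    (hq : ∀ a ∈ A, ∀ a' ∈ A, ∀ v : V, a' • (a • v - v) = a • v - v) :
    (∀ a ∈ A, a ≠ 1 → ¬ IsOfFinOrder a) ∨ ∃ p : ℕ, p.Prime ∧ Cfsg.IsElementaryAbelian p A := by
  have hcomm : ∀ x y : X, (∀ n : V, y • (x • n - n) = x • n - n) →
      (∀ n : V, x • (y • n - n) = y • n - n) → x * y = y * x := by
    intro x y h1 h2
    rw [← mul_inv_eq_one]
    apply hf
    intro v
    have key : ∀ w : V, (x * y) • w = (y * x) • w := by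
      intro w
      have e1 := h1 w
      have e2 := h2 w
      rw [smul_sub, sub_eq_iff_eq_add] at e1 e2
      rw [mul_smul, mul_smul, e1, e2]; abel
    rw [mul_smul, key, smul_inv_smul]
  have hA : ⁅A, A⁆ = ⊥ := commutator_eq_bot_iff'.2 fun a ha b hb =>
    hcomm a b (hq a ha b hb) (hq b hb a ha)
  have hB : ⁅B, B⁆ = ⊥ := by
    obtain ⟨x, -, e⟩ := rankOne_right_mem_unip h.2
    rw [e]; exact conj_commutator_eq_bot hA x
  have hs : IsSpecialRankOnePair A B := by
    refine special_of_quadratic h.2 hq ?_
    by_contra hc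
    push Not at hc
    exact rankOne_not_commutative h.2 fun x hx y hy => hcomm x y (hc x hx y hy) (hc y hy x hx)
  rcases special_elementary_or_divisible hs hA hB with ⟨p, hp, h⟩ | h
  · exact Or.inr ⟨p, hp, commutator_self_eq_bot_iff.1 hA, h⟩
  · exact Or.inl h.1

end Cfsg.Agent.S5023
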