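import Cfsg.Statements.S5026
import Cfsg.Agent.RootSub.Basic

set_option autoImplicit false
open Cfsg

namespace Cfsg.Agent.S5026

open Cfsg.Agent.RootSub Subgroup in
/-- Let S be a degenerate set of abstract root subgroups of G (a set of abstract transvection groups) and let a, b be commuting non-identity elements of members of S with a b ≠ 1. Then the members of S centralizing a b are exactly those centralizing both a and b. -/
theorem result {G : Type*} [Group G] {S : Set (Subgroup G)} (hS : Cfsg.IsRootSubgroupSet S) (hdeg : Cfsg.IsDegenerateRootSet S)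
    {a b : G} (ha : a ∈ Cfsg.rootElements S) (hb : b ∈ Cfsg.rootElements S) (hab : a * b = b * a) (hab1 : a * b ≠ 1) :
    Cfsg.centralizingMembers S (Subgroup.zpowers (a * b)) =
      Cfsg.centralizingMembers S (Subgroup.zpowers a) ∩ Cfsg.centralizingMembers S (Subgroup.zpowers b) := by
  have hmem : ∀ (x : G) (C : Subgroup G), C ∈ centralizingMembers S (zpowers x) ↔
      C ∈ S ∧ ∀ c ∈ C, x * c = c * x := by
    intro x C
    refine and_congr_right fun _ => ⟨fun h c hc => ?_, fun h c hc => ?_⟩
    · exact mem_centralizer_iff.1 (h hc) x (mem_zpowers x)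
    · rw [mem_centralizer_iff]
      rintro _ ⟨n, rfl⟩
      exact ((show Commute x c from h c hc).zpow_left n)
  have key : ∀ {a b : G}, a ∈ rootElements S → b ∈ rootElements S → a * b = b * a → a * b ≠ 1 →
      ∀ C ∈ S, (∀ c ∈ C, a * b * c = c * (a * b)) → ∀ c ∈ C, a * c = c * a := by
    rintro a b ⟨ha1, A, hA, ha⟩ ⟨hb1, B, hB, hb⟩ hab hab1 C hC hc
    rcases hS.pair C hC A hA with h | h | h
    · exact fun c hc => (comm_of_commutator_eq_bot h hc ha).symm
    · exfalso
      have e : conjBy C b⁻¹ = conjBy C a := by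
        rw [conjBy_eq_conjBy_iff, ← mul_inv_rev, ← hab]
        exact inv_mem (conjBy_eq_self_iff.1 (conjBy_of_centralizes hc))
      obtain ⟨-, h2⟩ := root_mem_unip_of_conj_eq hS hB hC h ha ha1 (inv_mem hb) e
      have e2 : conjBy A b = A := by
        refine (root_eq_of_mem hS hC (RankOnePair_symm h) (hS.conj_mem A hA b) ha ha1 ?_).symm
        rw [mem_conjBy, mul_assoc, hab]; simpa using ha
      have e3 : B = A := rankOne_unip_eq_of_normalizes h h2 (rankOne_right_mem_unip h) hb hb1 e2
      rw [e3] at hb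
      exact hab1 (rankOne_eq_one_of_centralizes (RankOnePair_symm h) (mul_mem ha hb) hc)
    · exact absurd h (hdeg C hC A hA)
  ext C
  rw [Set.mem_inter_iff, hmem, hmem, hmem]
  constructor
  · rintro ⟨hC, hc⟩
    exact ⟨⟨hC, key ha hb hab hab1 C hC hc⟩,
      ⟨hC, key hb ha hab.symm (by rwa [← hab]) C hC (by rwa [← hab])⟩⟩
  · rintro ⟨⟨hC, h1⟩, -, h2⟩
    refine ⟨hC, fun c hc => ?_⟩
    rw [mul_assoc, h2 c hc, ← mul_assoc, h1 c hc, mul_assoc]

end Cfsg.Agent.S5026
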