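import Cfsg.Statements.S5027
import Cfsg.Agent.RootSub.Basic

set_option autoImplicit false
open Cfsg

namespace Cfsg.Agent.S5027

open Cfsg.Agent.RootSub Subgroup in
/-- Let S be a set of abstract root subgroups of G such that every member of S has a rank one partner in S (the graph of rank one pairs on S has no isolated vertex). Then the second centre of G equals its centre. -/
theorem result {G : Type*} [Group G] {S : Set (Subgroup G)} (hS : Cfsg.IsRootSubgroupSet S)
    (hF : ∀ A ∈ S, ¬ Cfsg.IsIsolatedIn (Cfsg.FAdj S) S A) : Subgroup.upperCentralSeries G 2 = Subgroup.center G := by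
  apply le_antisymm
  · intro z hz
    rw [Subgroup.mem_upperCentralSeries_succ_iff, Subgroup.upperCentralSeries_one] at hz
    have : (⨆ A ∈ S, A) ≤ centralizer {z} := by
      refine iSup₂_le fun A hA a ha => ?_
      rw [mem_centralizer_singleton_iff]
      by_cases ha1 : a = 1
      · rw [ha1]; simp
      obtain ⟨B, hB, h⟩ := (not_isolated_iff hA).1 (hF A hA)
      have hc := mem_center_iff.1 (hz a)
      have := root_central_translate hS hB h (z := z * a * z⁻¹ * a⁻¹) (fun x _ => (hc x).symm)
        (fun x _ => (hc x).symm) ha ha1 (hS.conj_mem A hA z)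
        (by rw [inv_mul_cancel_right]; exact conj_mem_conjBy ha z)
      calc a * z = (z * a * z⁻¹ * a⁻¹) * a * z := by rw [this, one_mul]
        _ = z * a := by group
    rw [hS.generates] at this
    rw [mem_center_iff]
    intro g
    exact mem_centralizer_singleton_iff.1 (this (mem_top g))
  · rw [← Subgroup.upperCentralSeries_one]
    exact Subgroup.upperCentralSeries_mono G (by norm_num)

end Cfsg.Agent.S5027
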