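import Cfsg.Statements.S5029
import Cfsg.Agent.RootSub.Lines

set_option autoImplicit false
open Cfsg

namespace Cfsg.Agent.S5029

open Cfsg.Agent.RootSub Subgroup in
/-- Let S be a set of abstract root subgroups of G, A ∈ S having a rank one partner in S, and B ∈ S with C = ⁅A, B⁆ ∈ S. Then the members of S contained in AC are the conjugates of A by elements of B together with C, they partition AC, the members of S inside AC partition AC so that A is a line partner of C, and for every non-identity a ∈ A the map b ↦ a⁻¹ b⁻¹ a b is an isomorphism from B onto C. -/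
theorem result {G : Type*} [Group G] {S : Set (Subgroup G)} (hS : Cfsg.IsRootSubgroupSet S)
    {A B : Subgroup G} (hA : ¬ Cfsg.IsIsolatedIn (Cfsg.FAdj S) S A) (hAS : A ∈ S) (hB : B ∈ S) (hC : ⁅A, B⁆ ∈ S) :
    Cfsg.membersIn S (A ⊔ ⁅A, B⁆) = (fun b : G => Cfsg.conjBy A b) '' (B : Set G) ∪ {⁅A, B⁆} ∧
    Cfsg.IsSubgroupPartition (A ⊔ ⁅A, B⁆) (Cfsg.membersIn S (A ⊔ ⁅A, B⁆)) ∧
    A ∈ Cfsg.linePartners S ⁅A, B⁆ ∧
    ∀ a ∈ A, a ≠ 1 → ∃ φ : ↥B ≃* ↥⁅A, B⁆, ∀ b : ↥B, (φ b : G) = a⁻¹ * (b : G)⁻¹ * a * b := by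
  obtain ⟨D, hD, hAD⟩ := (not_isolated_iff hAS).1 hA
  have h := root_commCase_of_mem hS hAS hB hC
  refine ⟨?_, commCase_partition hS hAS hD hAD h,
    linePartners_symm hAS (commCase_commutator_mem_line hS hAS hD hAD h), fun a ha ha1 => ?_⟩
  · ext E
    rw [commCase_mem_members hS hAS hD hAD h]
    simp only [Set.mem_union, Set.mem_image, SetLike.mem_coe, Set.mem_singleton_iff]
  · have hmem : ∀ b ∈ B, a⁻¹ * b⁻¹ * a * b ∈ ⁅A, B⁆ := by
      intro b hb
      have := commutator_mem_commutator (inv_mem ha) (inv_mem hb)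
      rwa [commutatorElement_def, inv_inv, inv_inv] at this
    let φ : B →* ↥⁅A, B⁆ := MonoidHom.mk' (fun b => ⟨a⁻¹ * (b : G)⁻¹ * a * b, hmem b b.2⟩) (by
      intro b b'
      apply Subtype.ext
      have e1 := comm_of_commutator_eq_bot (commCase_right h) b'.2 (hmem b b.2)
      have e2 := comm_of_commutator_eq_bot (commCase_self h) (hmem b b.2) (hmem b' b'.2)
      have e3 := comm_of_commutator_eq_bot (commCase_right h) b.2 (hmem b' b'.2)
      have e4 := comm_of_commutator_eq_bot (root_self_comm hS hB) b.2 b'.2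
      show a⁻¹ * ((b : G) * b')⁻¹ * a * (b * b') =
        (a⁻¹ * (b : G)⁻¹ * a * b) * (a⁻¹ * (b' : G)⁻¹ * a * b')
      rw [e2]
      calc a⁻¹ * ((b : G) * b')⁻¹ * a * (b * b')
          = a⁻¹ * (b' : G)⁻¹ * a * ((a⁻¹ * (b : G)⁻¹ * a * b) * b') := by group
        _ = _ := by rw [← e1]; group)
    refine ⟨MulEquiv.ofBijective φ ⟨?_, ?_⟩, fun b => rfl⟩
    · rw [injective_iff_map_eq_one]
      intro b hb
      have hb' : a⁻¹ * (b : G)⁻¹ * a * b = 1 := congrArg Subtype.val hb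
      apply Subtype.ext
      refine commCase_eq_one_of_comm hS hAS hD hAD h ha ha1 b.2 ?_
      calc a * b = (b * a) * (a⁻¹ * (b : G)⁻¹ * a * b) := by group
        _ = b * a := by rw [hb', mul_one]
    · rintro ⟨c, hc⟩
      obtain ⟨b, hb, rfl⟩ := commCase_exists_right h (inv_mem ha) (inv_ne_one.2 ha1) hc
      exact ⟨⟨b⁻¹, inv_mem hb⟩, Subtype.ext (by show a⁻¹ * b⁻¹⁻¹ * a * b⁻¹ = _; group)⟩

end Cfsg.Agent.S5029
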