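import Cfsg.Statements.S5030
import Cfsg.Agent.RootSub.Graph
import Cfsg.Agent.PLocal.CommMod

set_option autoImplicit false
open Cfsg

namespace Cfsg.Agent.S5030

open Cfsg.Agent.RootSub Subgroup in
/-- Let S be a set of abstract root subgroups of G and A, B, C ∈ S with ⁅A, B⁆ ∈ S and ⁅B, C⁆ ∈ S, where A and C are different and commute. For a non-identity b ∈ B put X = ⟨A, b⁻¹ C b⟩ and Y = ⟨b⁻¹ A b, C⟩ and R = ⟨A, B, C⟩. Then X and Y are either both abelian or both nilpotent of class exactly two; X and Y commute elementwise; XY is normal in R with R = (XY) B; and R is nilpotent. -/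
theorem result {G : Type*} [Group G] {S : Set (Subgroup G)} (hS : Cfsg.IsRootSubgroupSet S)
    {A B C : Subgroup G} (hA : A ∈ S) (hB : B ∈ S) (hC : C ∈ S) (hAB : ⁅A, B⁆ ∈ S) (hBC : ⁅B, C⁆ ∈ S)
    (hAC : C ∈ Cfsg.commutingPartners S A)
    {b : G} (hb : b ∈ B) (hb1 : b ≠ 1) :
    ((IsMulCommutative ↥(A ⊔ Cfsg.conjBy C b⁻¹) ∧ IsMulCommutative ↥(Cfsg.conjBy A b⁻¹ ⊔ C)) ∨
      ((¬ IsMulCommutative ↥(A ⊔ Cfsg.conjBy C b⁻¹) ∧
          ⁅⁅A ⊔ Cfsg.conjBy C b⁻¹, A ⊔ Cfsg.conjBy C b⁻¹⁆, A ⊔ Cfsg.conjBy C b⁻¹⁆ = ⊥) ∧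
        (¬ IsMulCommutative ↥(Cfsg.conjBy A b⁻¹ ⊔ C) ∧
          ⁅⁅Cfsg.conjBy A b⁻¹ ⊔ C, Cfsg.conjBy A b⁻¹ ⊔ C⁆, Cfsg.conjBy A b⁻¹ ⊔ C⁆ = ⊥))) ∧
    ⁅A ⊔ Cfsg.conjBy C b⁻¹, Cfsg.conjBy A b⁻¹ ⊔ C⁆ = ⊥ ∧
    (∀ r ∈ A ⊔ B ⊔ C, Cfsg.conjBy ((A ⊔ Cfsg.conjBy C b⁻¹) ⊔ (Cfsg.conjBy A b⁻¹ ⊔ C)) r =
      (A ⊔ Cfsg.conjBy C b⁻¹) ⊔ (Cfsg.conjBy A b⁻¹ ⊔ C)) ∧
    ((A ⊔ Cfsg.conjBy C b⁻¹) ⊔ (Cfsg.conjBy A b⁻¹ ⊔ C)) ⊔ B = A ⊔ B ⊔ C ∧
    Group.IsNilpotent ↥(A ⊔ B ⊔ C) := by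
  have h1 := root_commCase_of_mem hS hA hB hAB
  have h2 := commCase_symm (root_commCase_of_mem hS hB hC hBC)
  have hAC' : ⁅A, C⁆ = ⊥ := hAC.2.2
  have hb' := inv_mem hb
  have hb1' : b⁻¹ ≠ 1 := inv_ne_one.2 hb1
  generalize b⁻¹ = β at hb' hb1' ⊢
  have hAA := root_self_comm hS hA
  have hBB := root_self_comm hS hB
  have hCC := root_self_comm hS hC
  have hAb := hS.conj_mem A hA β
  have hCb := hS.conj_mem C hC β
  have hXY : ⁅A ⊔ conjBy C β, conjBy A β ⊔ C⁆ = ⊥ :=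
    commutator_sup_left_eq_bot
      (commutator_sup_right_eq_bot (commCase_conjBy_comm h1 hAA hb') hAC')
      (commutator_sup_right_eq_bot (commutator_eq_bot_symm (conj_commutator_eq_bot hAC' β))
        (commutator_eq_bot_symm (commCase_conjBy_comm h2 hCC hb')))
  have hnr : ∀ {A C : Subgroup G}, A ∈ S → C ∈ S → RootCommutatorCase S C B → ⁅A, C⁆ = ⊥ →
      ¬ IsRankOnePair A (conjBy C β) := by
    intro A C hA hC h2 hAC h
    obtain ⟨c, hc, hc1⟩ := root_exists_ne_one hS hC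
    have := root_central_translate hS hA (RankOnePair_symm h) (z := c⁻¹)
      (fun w hw => comm_of_commutator_eq_bot (commCase_conjBy_comm h2 (root_self_comm hS hC) hb')
        (inv_mem hc) hw)
      (fun w hw => (comm_of_commutator_eq_bot hAC hw (inv_mem hc)).symm) (conj_mem_conjBy hc β)
      (fun e => hc1 (by
        calc c = β⁻¹ * (β * c * β⁻¹) * β := by group
          _ = 1 := by rw [e]; group)) h2.1 (by
        have : c⁻¹ * (β * c * β⁻¹) = c⁻¹ * β * c⁻¹⁻¹ * β⁻¹ := by group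
        rw [this]
        exact commutator_mem_commutator (inv_mem hc) hb')
    exact hc1 (inv_eq_one.1 this)
  have hcl : ∀ {P Q : Subgroup G}, P ∈ S → Q ∈ S → ¬ IsRankOnePair P Q →
      ⁅⁅P ⊔ Q, P ⊔ Q⁆, P ⊔ Q⁆ = ⊥ := by
    intro P Q hP hQ h
    rw [commutator_sup_self_of_comm (root_self_comm hS hP) (root_self_comm hS hQ)]
    rcases hS.pair P hP Q hQ with h' | h' | h'
    · rw [h', commutator_bot_left]
    · exact absurd h' h
    · exact commutator_eq_bot_iff'.2 h'.2.1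
  have hX := hcl hA hCb (hnr hA hC h2 hAC')
  have hY := hcl hAb hC (fun h => hnr hC hA h1 (commutator_eq_bot_symm hAC') (RankOnePair_symm h))
  have hiff : ∀ {A C : Subgroup G}, A ∈ S → C ∈ S → RootCommutatorCase S A B →
      RootCommutatorCase S C B → ⁅A, C⁆ = ⊥ → ⁅A, conjBy C β⁆ = ⊥ → ⁅conjBy A β, C⁆ = ⊥ := by
    intro A C hA hC h1 h2 hAC h
    have e1 := commutator_sup_right_eq_bot hAC h
    rw [commCase_sup_conjBy h2 hb' hb1'] at e1
    have e2 : ⁅⁅B, C⁆, A⁆ = ⊥ := by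
      rw [commutator_comm, commutator_comm B]
      exact commutator_eq_bot_of_le e1 le_rfl le_sup_right
    have e3 : ⁅⁅C, A⁆, B⁆ = ⊥ := by rw [commutator_comm C, hAC, commutator_bot_left]
    have e4 := commutator_commutator_eq_bot_of_rotate e2 e3
    exact commutator_eq_bot_of_le (commutator_sup_left_eq_bot hAC e4)
      (conjBy_le_sup_commutator A B hb') le_rfl
  have hN : (A ⊔ conjBy C β) ⊔ (conjBy A β ⊔ C) = (A ⊔ ⁅A, B⁆) ⊔ (C ⊔ ⁅C, B⁆) := by
    rw [← commCase_sup_conjBy h1 hb' hb1', ← commCase_sup_conjBy h2 hb' hb1']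
    ac_rfl
  have hBN : B ≤ normalizer (((A ⊔ ⁅A, B⁆) ⊔ (C ⊔ ⁅C, B⁆) : Subgroup G) : Set G) := by
    intro x hx
    rw [← conjBy_eq_self_iff, conjBy_sup, conjBy_eq_self_iff.2 (commCase_le_normalizer h1 hx),
      conjBy_eq_self_iff.2 (commCase_le_normalizer h2 hx)]
  refine ⟨?_, hXY, ?_, ?_, ?_⟩
  · by_cases h : ⁅A, conjBy C β⁆ = ⊥
    · left
      rw [← commutator_self_eq_bot_iff, ← commutator_self_eq_bot_iff,
        commutator_sup_self_of_comm hAA (root_self_comm hS hCb),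
        commutator_sup_self_of_comm (root_self_comm hS hAb) hCC]
      exact ⟨h, hiff hA hC h1 h2 hAC' h⟩
    · right
      refine ⟨⟨?_, hX⟩, ?_, hY⟩
      · rwa [← commutator_self_eq_bot_iff, commutator_sup_self_of_comm hAA (root_self_comm hS hCb)]
      · rw [← commutator_self_eq_bot_iff, commutator_sup_self_of_comm (root_self_comm hS hAb) hCC]
        intro h'
        exact h (commutator_eq_bot_symm (hiff hC hA h2 h1 (commutator_eq_bot_symm hAC')
          (commutator_eq_bot_symm h')))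
  · intro r hr
    rw [hN, conjBy_eq_self_iff]
    refine (sup_le (sup_le ?_ hBN) ?_ : A ⊔ B ⊔ C ≤ _) hr
    · exact (le_sup_left.trans le_sup_left).trans le_normalizer
    · exact (le_sup_left.trans le_sup_right).trans le_normalizer
  · rw [hN]
    apply le_antisymm
    · refine sup_le (sup_le (sup_le ?_ ?_) (sup_le le_sup_right ?_)) (le_sup_right.trans le_sup_left)
      · exact le_sup_left.trans le_sup_left
      · exact (commutator_le_sup _ _).trans le_sup_left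
      · exact (commutator_le_sup _ _).trans (sup_le le_sup_right (le_sup_right.trans le_sup_left))
    · exact sup_le (sup_le ((le_sup_left.trans le_sup_left).trans le_sup_left) le_sup_right)
        ((le_sup_left.trans le_sup_right).trans le_sup_left)
  · -- nilpotency
    have hNN : ⁅⁅(A ⊔ ⁅A, B⁆) ⊔ (C ⊔ ⁅C, B⁆), (A ⊔ ⁅A, B⁆) ⊔ (C ⊔ ⁅C, B⁆)⁆,
        (A ⊔ ⁅A, B⁆) ⊔ (C ⊔ ⁅C, B⁆)⁆ = ⊥ := by
      rw [← hN]
      generalize A ⊔ conjBy C β = X at hXY hX
      generalize conjBy A β ⊔ C = Y at hXY hY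
      have hYX := commutator_eq_bot_symm hXY
      have nX : X ≤ normalizer ((⁅X, X⁆ ⊔ ⁅Y, Y⁆ : Subgroup G) : Set G) :=
        le_normalizer_of_commutator_eq_bot (commutator_sup_right_eq_bot (commutator_eq_bot_symm hX)
          (commutator_eq_bot_of_le hXY le_rfl (commutator_le_self Y)))
      have nY : Y ≤ normalizer ((⁅X, X⁆ ⊔ ⁅Y, Y⁆ : Subgroup G) : Set G) :=
        le_normalizer_of_commutator_eq_bot (commutator_sup_right_eq_bot
          (commutator_eq_bot_of_le hYX le_rfl (commutator_le_self X)) (commutator_eq_bot_symm hY))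
      have e1 : ⁅X ⊔ Y, X ⊔ Y⁆ ≤ ⁅X, X⁆ ⊔ ⁅Y, Y⁆ :=
        commutator_sup_left_le (commutator_sup_right_le le_sup_left (hXY ▸ bot_le) nX nY)
          (commutator_sup_right_le (hYX ▸ bot_le) le_sup_right nX nY) nX nY
      refine commutator_eq_bot_of_le (commutator_sup_left_eq_bot
        (commutator_sup_right_eq_bot hX (commutator_eq_bot_of_le hXY (commutator_le_self X) le_rfl))
        (commutator_sup_right_eq_bot (commutator_eq_bot_of_le hYX (commutator_le_self Y) le_rfl)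
          hY)) e1 le_rfl
    have hP := commCase_sup_comm h1 hAA
    have hQ := commCase_sup_comm h2 hCC
    have hDB := commCase_right h1
    have hEB := commCase_right h2
    have nP := commCase_le_normalizer h1
    have nQ := commCase_le_normalizer h2
    have hPB : ⁅A ⊔ ⁅A, B⁆, B⁆ ≤ ⁅A, B⁆ :=
      commutator_sup_left_le le_rfl (by rw [commutator_comm, hDB]; exact bot_le)
        (normalizer_commutator_ge_left _ _) le_normalizer
    have hQB : ⁅C ⊔ ⁅C, B⁆, B⁆ ≤ ⁅C, B⁆ :=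
      commutator_sup_left_le le_rfl (by rw [commutator_comm, hEB]; exact bot_le)
        (normalizer_commutator_ge_left _ _) le_normalizer
    have hAP : A ≤ A ⊔ ⁅A, B⁆ := le_sup_left
    have hDP : ⁅A, B⁆ ≤ A ⊔ ⁅A, B⁆ := le_sup_right
    have hCQ : C ≤ C ⊔ ⁅C, B⁆ := le_sup_left
    have hEQ : ⁅C, B⁆ ≤ C ⊔ ⁅C, B⁆ := le_sup_right
    rw [commutator_sup_self_of_comm hP hQ] at hNN
    generalize A ⊔ ⁅A, B⁆ = P at *
    generalize C ⊔ ⁅C, B⁆ = Q at *
    generalize hD : ⁅A, B⁆ = D at *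
    generalize hE : ⁅C, B⁆ = E at *
    have hnc : ∀ {X Y : Subgroup G}, B ≤ normalizer (X : Set G) → B ≤ normalizer (Y : Set G) →
        B ≤ normalizer ((⁅X, Y⁆ : Subgroup G) : Set G) := by
      intro X Y h1 h2 x hx
      rw [← conjBy_eq_self_iff, conjBy_commutator, conjBy_eq_self_iff.2 (h1 hx),
        conjBy_eq_self_iff.2 (h2 hx)]
    have hns : ∀ {X Y : Subgroup G}, B ≤ normalizer (X : Set G) → B ≤ normalizer (Y : Set G) →
        B ≤ normalizer ((X ⊔ Y : Subgroup G) : Set G) := by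
      intro X Y h1 h2 x hx
      rw [← conjBy_eq_self_iff, conjBy_sup, conjBy_eq_self_iff.2 (h1 hx),
        conjBy_eq_self_iff.2 (h2 hx)]
    have nD := le_normalizer_of_commutator_eq_bot hDB
    have nE := le_normalizer_of_commutator_eq_bot hEB
    have cZ : ∀ {Z : Subgroup G}, Z ≤ ⁅P, Q⁆ → ⁅Z, P ⊔ Q⁆ = ⊥ := fun h =>
      commutator_eq_bot_of_le hNN h le_rfl
    have nZ : ∀ {Z X : Subgroup G}, Z ≤ ⁅P, Q⁆ → X ≤ P ⊔ Q → X ≤ normalizer (Z : Set G) :=
      fun h h' => h'.trans (le_normalizer_of_commutator_eq_bot (commutator_eq_bot_symm (cZ h)))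
    have step : ∀ {Z W : Subgroup G}, Z ≤ ⁅P, Q⁆ → W ≤ ⁅P, Q⁆ → B ≤ normalizer (W : Set G) →
        ⁅Z, B⁆ ≤ W → ⁅Z, P ⊔ Q ⊔ B⁆ ≤ W := fun h h' hn hc =>
      commutator_sup_right_le (by rw [cZ h]; exact bot_le) hc (nZ h' le_rfl) hn
    have hDQ : ⁅D, Q⁆ ≤ ⁅P, Q⁆ := commutator_mono hDP le_rfl
    have hPE : ⁅P, E⁆ ≤ ⁅P, Q⁆ := commutator_mono le_rfl hEQ
    have hDE : ⁅D, E⁆ ≤ ⁅P, Q⁆ := commutator_mono hDP hEQ
    have hPN : P ≤ P ⊔ Q := le_sup_left
    have hQN : Q ≤ P ⊔ Q := le_sup_right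
    have hZN : ⁅P, Q⁆ ≤ P ⊔ Q := commutator_le_sup _ _
    have s5 : ⁅⁅D, E⁆, P ⊔ Q ⊔ B⁆ ≤ ⊥ := by
      refine step hDE bot_le (by rw [normalizer_eq_top]; exact le_top) (le_of_eq (commutator_eq_bot_symm ?_))
      exact commutator_eq_bot_of_le (commutator_sup_right_eq_bot hDB hEB) le_rfl
        (commutator_le_sup _ _)
    have s4 : ⁅⁅D, Q⁆ ⊔ ⁅P, E⁆, P ⊔ Q ⊔ B⁆ ≤ ⁅D, E⁆ := by
      refine step (sup_le hDQ hPE) hDE (hnc nD nE) (commutator_sup_left_le ?_ ?_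
        (nZ hDE (hDQ.trans hZN)) (nZ hDE (hPE.trans hZN)))
      · refine PLocal.CommMod.three_subgroups_mod (nZ hDE (hDP.trans hPN)) (nZ hDE hQN) (hnc nD nE) ?_ ?_
        · rw [commutator_comm D]; exact commutator_mono hQB le_rfl
        · rw [hDB, commutator_bot_left]; exact bot_le
      · refine PLocal.CommMod.three_subgroups_mod (nZ hDE hPN) (nZ hDE (hEQ.trans hQN)) (hnc nD nE) ?_ ?_
        · rw [commutator_comm E, hEB, commutator_bot_left]; exact bot_le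
        · rw [commutator_comm B]; exact commutator_mono hPB le_rfl
    have s3 : ⁅⁅P, Q⁆, P ⊔ Q ⊔ B⁆ ≤ ⁅D, Q⁆ ⊔ ⁅P, E⁆ := by
      have nb := hns (hnc nD nQ) (hnc nP nE)
      refine step le_rfl (sup_le hDQ hPE) nb ?_
      refine PLocal.CommMod.three_subgroups_mod (nZ (sup_le hDQ hPE) hPN) (nZ (sup_le hDQ hPE) hQN) nb ?_ ?_
      · rw [commutator_comm]; exact (commutator_mono le_rfl hQB).trans le_sup_right
      · rw [commutator_comm B]; exact (commutator_mono hPB le_rfl).trans le_sup_left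
    have nZ0 : P ⊔ Q ⊔ B ≤ normalizer ((⁅P, Q⁆ : Subgroup G) : Set G) :=
      sup_le (nZ le_rfl le_rfl) (hnc nP nQ)
    have s2 : ⁅D ⊔ E ⊔ ⁅P, Q⁆, P ⊔ Q ⊔ B⁆ ≤ ⁅P, Q⁆ := by
      have hNN' : ⁅P ⊔ Q, P ⊔ Q⁆ = ⁅P, Q⁆ := commutator_sup_self_of_comm hP hQ
      refine commutator_sup_left_le (commutator_sup_left_le ?_ ?_ (nZ le_rfl (hDP.trans hPN))
        (nZ le_rfl (hEQ.trans hQN))) (le_normalizer_iff_commutator_le_left.1 nZ0)
        (nZ le_rfl (sup_le (hDP.trans hPN) (hEQ.trans hQN))) le_normalizer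
      · refine commutator_sup_right_le ?_ ?_ (nZ le_rfl le_rfl) (hnc nP nQ)
        · rw [← hNN']; exact commutator_mono (hDP.trans hPN) le_rfl
        · rw [commutator_comm, hDB]; exact bot_le
      · refine commutator_sup_right_le ?_ ?_ (nZ le_rfl le_rfl) (hnc nP nQ)
        · rw [← hNN']; exact commutator_mono (hEQ.trans hQN) le_rfl
        · rw [commutator_comm, hEB]; exact bot_le
    have s1 : ⁅P ⊔ Q ⊔ B, P ⊔ Q ⊔ B⁆ ≤ D ⊔ E ⊔ ⁅P, Q⁆ := by
      have nM : P ⊔ Q ⊔ B ≤ normalizer ((D ⊔ E ⊔ ⁅P, Q⁆ : Subgroup G) : Set G) :=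
        le_normalizer_iff_commutator_le_left.2 (s2.trans le_sup_right)
      have n1 := le_sup_left.trans nM
      have n2 := le_sup_right.trans nM
      have e1 : ⁅P ⊔ Q, B⁆ ≤ D ⊔ E ⊔ ⁅P, Q⁆ :=
        commutator_sup_left_le (hPB.trans (le_sup_left.trans le_sup_left))
          (hQB.trans (le_sup_right.trans le_sup_left)) (hPN.trans n1) (hQN.trans n1)
      refine commutator_sup_left_le (commutator_sup_right_le ?_ e1 n1 n2)
        (commutator_sup_right_le ?_ ?_ n1 n2) n1 n2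
      · rw [commutator_sup_self_of_comm hP hQ]; exact le_sup_right
      · rwa [commutator_comm]
      · rw [hBB]; exact bot_le
    have hR : A ⊔ B ⊔ C ≤ P ⊔ Q ⊔ B :=
      sup_le (sup_le ((hAP.trans hPN).trans le_sup_left) le_sup_right)
        ((hCQ.trans hQN).trans le_sup_left)
    refine Subgroup.isNilpotent_of_lowerCentralSeries_eq_bot (n := 5) (le_bot_iff.1 ?_)
    simp only [Subgroup.lowerCentralSeries_succ, Subgroup.lowerCentralSeries_zero]
    exact (commutator_mono ((commutator_mono ((commutator_mono ((commutator_mono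
      ((commutator_mono hR hR).trans s1) hR).trans s2) hR).trans s3) hR).trans s4) hR).trans s5

end Cfsg.Agent.S5030
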