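import Cfsg.Statements.S5035
import Cfsg.Agent.RootSub.Graph

set_option autoImplicit false
open Cfsg

namespace Cfsg.Agent.S5035

open Cfsg.Agent.RootSub Subgroup in
/-- Let S be a set of abstract root subgroups of G whose graph of rank one pairs is connected, and f a homomorphism from G onto a group H. Then either the images of the members of S form a set of abstract root subgroups of H whose graph of rank one pairs is again connected, or H equals the image of a member of S. -/
theorem result {G H : Type*} [Group G] [Group H] {S : Set (Subgroup G)} (hS : Cfsg.IsRootSubgroupSet S)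
    (hc : Cfsg.IsConnectedFamily (Cfsg.FAdj S) S) (f : G →* H) (hf : Function.Surjective f) :
    (Cfsg.IsRootSubgroupSet ((fun A : Subgroup G => A.map f) '' S) ∧
      Cfsg.IsConnectedFamily (Cfsg.FAdj ((fun A : Subgroup G => A.map f) '' S)) ((fun A : Subgroup G => A.map f) '' S)) ∨
    ∃ A ∈ S, A.map f = ⊤ := by
  by_cases hb : ∃ A ∈ S, A.map f = ⊥
  · right
    obtain ⟨A, hA, e⟩ := hb
    refine ⟨A, hA, ?_⟩
    have : (⨆ B ∈ S, B) ≤ f.ker := by
      refine iSup₂_le fun B hB => ?_
      obtain ⟨g, rfl⟩ := freach_conj (hc A hA B hB)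
      rw [← Subgroup.map_eq_bot_iff, map_conjBy, e, conjBy_bot]
    rw [hS.generates] at this
    rw [e, eq_comm, ← map_top_of_surjective f hf, Subgroup.map_eq_bot_iff]
    exact this
  · left
    push Not at hb
    refine ⟨⟨?_, ?_, ?_, ?_, ?_⟩, ?_⟩
    · rintro _ ⟨A, hA, rfl⟩
      rw [← commutator_self_eq_bot_iff, ← map_commutator, root_self_comm hS hA, Subgroup.map_bot]
    · rintro _ ⟨A, hA, rfl⟩
      exact hb A hA
    · rw [iSup_image, eq_top_iff, ← map_top_of_surjective f hf, ← hS.generates, map_le_iff_le_comap]
      exact iSup₂_le fun A hA => map_le_iff_le_comap.1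
        (le_iSup₂_of_le (f := fun (A : Subgroup G) (_ : A ∈ S) => A.map f) A hA le_rfl)
    · rintro _ ⟨A, hA, rfl⟩ g
      obtain ⟨g, rfl⟩ := hf g
      exact ⟨conjBy A g, hS.conj_mem A hA g, map_conjBy f A g⟩
    · rintro _ ⟨A, hA, rfl⟩ _ ⟨B, hB, rfl⟩
      rcases hS.pair A hA B hB with h | h | h
      · left; rw [← map_commutator, h, Subgroup.map_bot]
      · by_cases e : A.map f = B.map f
        · left
          simp only [← e]
          rw [← map_commutator, root_self_comm hS hA, Subgroup.map_bot]
        · exact Or.inr (Or.inl (rankOne_map h f e))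
      · refine Or.inr (Or.inr ⟨⟨_, h.1, map_commutator _ _ _⟩, ?_, ?_, ?_⟩)
        · rw [← map_commutator, ← Subgroup.map_sup]
          rintro _ ⟨c, hc, rfl⟩ _ ⟨x, hx, rfl⟩
          rw [← map_mul, ← map_mul, h.2.1 c hc x hx]
        · rintro _ ⟨a, ha, rfl⟩ ha1
          rw [← map_commutator, ← h.2.2.1 a ha (by rintro rfl; exact ha1 (map_one f)),
            MonoidHom.map_closure, coe_map, Set.image_image, Set.image_image]
          simp
        · rintro _ ⟨a, ha, rfl⟩ ha1
          rw [← map_commutator, ← h.2.2.2 a ha (by rintro rfl; exact ha1 (map_one f)),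
            MonoidHom.map_closure, coe_map, Set.image_image, Set.image_image]
          simp
    · rintro _ ⟨A, hA, rfl⟩ _ ⟨B, hB, rfl⟩
      have := hc A hA B hB
      clear hB
      induction this with
      | refl => exact .refl
      | @tail C D _ h ih =>
        by_cases e : C.map f = D.map f
        · simp only [← e]; exact ih
        · exact ih.tail ⟨⟨C, h.1, rfl⟩, ⟨D, h.2.1, rfl⟩, rankOne_map h.2.2 f e⟩

end Cfsg.Agent.S5035
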