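import Cfsg.Statements.S5036
import Cfsg.Agent.RootSub.Graph
import Cfsg.Agent.S5030

set_option autoImplicit false
open Cfsg

namespace Cfsg.Agent.S5036

open Cfsg.Agent.RootSub Subgroup in
/-- Let S be a set of abstract root subgroups of G, A, B ∈ S with C = ⁅A, B⁆ ∈ S, and D ∈ S with ⁅D, C⁆ = A. Put X = ⟨B, D⟩ and N = AC. Then B, D form a rank one pair; the conjugates of A under X are the conjugates of C under X, namely the conjugates of A by elements of B together with C, equally the conjugates of C by elements of D together with A, and they partition N; and the centralizer of N in X is central in X. -/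
theorem result {G : Type*} [Group G] {S : Set (Subgroup G)} (hS : Cfsg.IsRootSubgroupSet S)
    {A B D : Subgroup G} (hA : A ∈ S) (hB : B ∈ S) (hC : ⁅A, B⁆ ∈ S) (hD : D ∈ S) (hDC : ⁅D, ⁅A, B⁆⁆ = A) :
    Cfsg.IsRankOnePair B D ∧
    {E | ∃ x ∈ B ⊔ D, E = Cfsg.conjBy A x} = {E | ∃ x ∈ B ⊔ D, E = Cfsg.conjBy ⁅A, B⁆ x} ∧
    {E | ∃ x ∈ B ⊔ D, E = Cfsg.conjBy A x} = (fun b : G => Cfsg.conjBy A b) '' (B : Set G) ∪ {⁅A, B⁆} ∧
    {E | ∃ x ∈ B ⊔ D, E = Cfsg.conjBy A x} = (fun d : G => Cfsg.conjBy ⁅A, B⁆ d) '' (D : Set G) ∪ {A} ∧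
    Cfsg.IsSubgroupPartition (A ⊔ ⁅A, B⁆) {E | ∃ x ∈ B ⊔ D, E = Cfsg.conjBy A x} ∧
    ∀ x ∈ (B ⊔ D) ⊓ Subgroup.centralizer ((A ⊔ ⁅A, B⁆ : Subgroup G) : Set G), ∀ y ∈ B ⊔ D, x * y = y * x := by
  have h1 := root_commCase_of_mem hS hA hB hC
  have h2 := root_commCase_of_mem hS hD hC (by rwa [hDC])
  have hDA : ⁅D, A⁆ = ⊥ := by have := commCase_left h2; rwa [hDC] at this
  have hBD : IsRankOnePair B D := by
    rcases hS.pair B hB D hD with h | h | h
    · exfalso
      have e1 : ⁅⁅⁅A, B⁆, B⁆, D⁆ = ⊥ := by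
        rw [commutator_eq_bot_symm (commCase_right h1), commutator_bot_left]
      have e2 : ⁅⁅B, D⁆, ⁅A, B⁆⁆ = ⊥ := by rw [h, commutator_bot_left]
      have e3 := commutator_commutator_eq_bot_of_rotate e1 e2
      rw [hDC] at e3
      exact hS.ne_bot _ hC e3
    · exact h
    · exfalso
      obtain ⟨b, hb, hb1⟩ := root_exists_ne_one hS hB
      have hne : D ≠ A := by
        intro e
        rw [e, commCase_left h1] at hDC
        exact hS.ne_bot A hA hDC.symm
      have hn := (S5030.result hS hA hB hD hC h.1 ⟨hD, hne, commutator_eq_bot_symm hDA⟩ hb hb1).2.2.2.2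
      obtain ⟨n, hn⟩ := (Subgroup.isNilpotent_iff_lowerCentralSeries _).1 hn
      have key : ∀ m, A ≤ (A ⊔ B ⊔ D).lowerCentralSeries m := by
        intro m
        induction m with
        | zero => exact le_sup_left.trans le_sup_left
        | succ m ih =>
          have e1 : ⁅A, B⁆ ≤ (A ⊔ B ⊔ D).lowerCentralSeries (m + 1) :=
            commutator_mono ih (le_sup_right.trans le_sup_left)
          have e2 : ⁅⁅A, B⁆, D⁆ ≤ (A ⊔ B ⊔ D).lowerCentralSeries (m + 1 + 1) :=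
            commutator_mono e1 le_sup_right
          rw [commutator_comm, hDC] at e2
          exact e2.trans (Subgroup.lowerCentralSeries_antitone _ (by omega))
      exact hS.ne_bot A hA (le_bot_iff.1 (hn ▸ key n))
  have h2' := commCase_symm h2
  have hCD : ⁅⁅A, B⁆, D⁆ = A := by rw [commutator_comm, hDC]
  have hBC := commCase_right h1
  have hAC := commCase_left h1
  have hNc := commCase_sup_comm h1 (root_self_comm hS hA)
  have nB := commCase_le_normalizer h1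
  have nD : D ≤ normalizer ((A ⊔ ⁅A, B⁆ : Subgroup G) : Set G) := by
    have := commCase_le_normalizer h2'
    rwa [hCD, sup_comm] at this
  have inj1 : ∀ a ∈ A, ∀ b ∈ B, b ≠ 1 → b * a = a * b → a = 1 := fun a ha b hb hb1 e =>
    commCase_eq_one_of_comm hS hB hD hBD (commCase_symm h1) hb hb1 ha e
  have inj2 : ∀ c ∈ ⁅A, B⁆, ∀ d ∈ D, d ≠ 1 → d * c = c * d → c = 1 := fun a ha b hb hb1 e =>
    commCase_eq_one_of_comm hS hD hB (RankOnePair_symm hBD) h2 hb hb1 ha e
  have hsub : ∀ b ∈ B, ∀ x ∈ A ⊔ ⁅A, B⁆, x ∈ conjBy A b ∨ x ∉ conjBy A b := fun _ _ _ _ => em _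
  generalize hCdef : ⁅A, B⁆ = C at *
  -- the centraliser of `B` in `N` is `C`, that of `D` is `A`
  have cB : (A ⊔ C) ⊓ centralizer (B : Set G) = C := by
    apply le_antisymm _ (le_inf le_sup_right
      (commutator_eq_bot_iff_le_centralizer.1 (commutator_eq_bot_symm hBC)))
    rintro x ⟨hx, hxc⟩
    obtain ⟨a, ha, c, hc, rfl⟩ := mem_sup_of_comm hAC hx
    obtain ⟨b, hb, hb1⟩ := root_exists_ne_one hS hB
    have e1 := mem_centralizer_iff.1 hxc b hb
    have e2 := comm_of_commutator_eq_bot hBC hb hc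
    rw [inj1 a ha b hb hb1 (by
      calc b * a = b * (a * c) * c⁻¹ := by group
        _ = a * (c * b) * c⁻¹ := by rw [e1]; group
        _ = a * b := by rw [← e2]; group), one_mul]
    exact hc
  have cD : (A ⊔ C) ⊓ centralizer (D : Set G) = A := by
    apply le_antisymm _ (le_inf le_sup_left
      (commutator_eq_bot_iff_le_centralizer.1 (commutator_eq_bot_symm hDA)))
    rintro x ⟨hx, hxc⟩
    obtain ⟨a, ha, c, hc, rfl⟩ := mem_sup_of_comm hAC hx
    obtain ⟨d, hd, hd1⟩ := root_exists_ne_one hS hD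
    have e1 := mem_centralizer_iff.1 hxc d hd
    have e2 := comm_of_commutator_eq_bot hDA hd ha
    rw [inj2 c hc d hd hd1 (by
      calc d * c = a⁻¹ * (a * d) * c := by group
        _ = a⁻¹ * (d * (a * c)) := by rw [← e2]; group
        _ = c * d := by rw [e1]; group), mul_one]
    exact ha
  have hkey : ∀ b ∈ B, ∀ d ∈ D, conjBy B d = conjBy D b → conjBy C d = conjBy A b := by
    intro b hb d hd e
    conv_lhs => rw [← cB]
    conv_rhs => rw [← cD]
    rw [conjBy_inf, conjBy_inf, conjBy_centralizer, conjBy_centralizer, e,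
      conjBy_eq_self_iff.2 (nB hb), conjBy_eq_self_iff.2 (nD hd)]
  have fixC : ∀ b ∈ B, conjBy C b = C := fun b hb => conjBy_eq_of_commutator_eq_bot hBC hb
  have fixA : ∀ d ∈ D, conjBy A d = A := fun d hd => conjBy_eq_of_commutator_eq_bot hDA hd
  have hTT : ∀ E, ((∃ b ∈ B, conjBy A b = E) ∨ E = C) ↔ ((∃ d ∈ D, conjBy C d = E) ∨ E = A) := by
    intro E
    constructor
    · rintro (⟨b, hb, rfl⟩ | rfl)
      · by_cases hb1 : b = 1
        · right; rw [hb1, conjBy_one]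
        · obtain ⟨d, hd, -, e⟩ := rankOne_exists_left hBD hb hb1
          exact Or.inl ⟨d, hd, hkey b hb d hd e⟩
      · exact Or.inl ⟨1, one_mem _, conjBy_one _⟩
    · rintro (⟨d, hd, rfl⟩ | rfl)
      · by_cases hd1 : d = 1
        · right; rw [hd1, conjBy_one]
        · obtain ⟨b, hb, -, e⟩ := rankOne_exists_right hBD hd hd1
          exact Or.inl ⟨b, hb, (hkey b hb d hd e).symm⟩
      · exact Or.inl ⟨1, one_mem _, conjBy_one _⟩
  have hinv : ∀ x ∈ B ⊔ D, ∀ E, ((∃ b ∈ B, conjBy A b = E) ∨ E = C) →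
      ((∃ b ∈ B, conjBy A b = conjBy E x) ∨ conjBy E x = C) := by
    intro x hx
    rw [sup_eq_iSup] at hx
    refine iSup_induction _ (C := fun x => ∀ E, ((∃ b ∈ B, conjBy A b = E) ∨ E = C) →
      ((∃ b ∈ B, conjBy A b = conjBy E x) ∨ conjBy E x = C)) hx ?_ ?_ ?_
    · rintro (_ | _) x hx E hE
      · rw [hTT] at hE ⊢
        rcases hE with ⟨d, hd, rfl⟩ | rfl
        · exact Or.inl ⟨x * d, mul_mem hx hd, (conjBy_conjBy _ _ _).symm⟩
        · exact Or.inr (fixA x hx)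
      · rcases hE with ⟨d, hd, rfl⟩ | rfl
        · exact Or.inl ⟨x * d, mul_mem hx hd, (conjBy_conjBy _ _ _).symm⟩
        · exact Or.inr (fixC x hx)
    · intro E hE; rwa [conjBy_one]
    · intro x y ihx ihy E hE
      rw [← conjBy_conjBy]; exact ihx _ (ihy _ hE)
  obtain ⟨x₀, hx₀, e₀⟩ : ∃ x ∈ B ⊔ D, C = conjBy A x := by
    obtain ⟨b, hb, hb1⟩ := root_exists_ne_one hS hB
    obtain ⟨d, hd, -, e⟩ := rankOne_exists_left hBD hb hb1
    refine ⟨d⁻¹ * b, mul_mem (mem_sup_right (inv_mem hd)) (mem_sup_left hb), ?_⟩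
    rw [← conjBy_conjBy, ← hkey b hb d hd e, conjBy_inv_cancel]
  have hT : ∀ E, (∃ x ∈ B ⊔ D, E = conjBy A x) ↔ ((∃ b ∈ B, conjBy A b = E) ∨ E = C) := by
    intro E
    constructor
    · rintro ⟨x, hx, rfl⟩
      exact hinv x hx A (Or.inl ⟨1, one_mem _, conjBy_one _⟩)
    · rintro (⟨b, hb, rfl⟩ | rfl)
      · exact ⟨b, mem_sup_left hb, rfl⟩
      · exact ⟨x₀, hx₀, e₀⟩
  have hACbot : A ⊓ C = ⊥ := by
    rw [eq_bot_iff]
    rintro x ⟨hx1, hx2⟩
    obtain ⟨b, hb, hb1⟩ := root_exists_ne_one hS hB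
    exact inj1 x hx1 b hb hb1 (comm_of_commutator_eq_bot hBC hb hx2)
  refine ⟨hBD, ?_, ?_, ?_, ⟨?_, ?_, ?_⟩, ?_⟩
  · ext E
    constructor
    · rintro ⟨x, hx, rfl⟩
      exact ⟨x * x₀⁻¹, mul_mem hx (inv_mem hx₀), by rw [e₀, conjBy_conjBy, inv_mul_cancel_right]⟩
    · rintro ⟨x, hx, rfl⟩
      exact ⟨x * x₀, mul_mem hx hx₀, by rw [e₀, conjBy_conjBy]⟩
  · ext E
    simp only [Set.mem_union, Set.mem_image, SetLike.mem_coe, Set.mem_singleton_iff]
    exact hT E
  · ext E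
    simp only [Set.mem_union, Set.mem_image, SetLike.mem_coe, Set.mem_singleton_iff]
    exact (hT E).trans (hTT E)
  · rintro _ ⟨x, hx, rfl⟩
    rw [← conjBy_eq_self_iff.2 ((sup_le nB nD : B ⊔ D ≤ _) hx)]
    exact conjBy_mono le_sup_left x
  · intro x hx _
    by_cases hxC : x ∈ C
    · exact ⟨C, (hT C).2 (Or.inr rfl), hxC⟩
    · obtain ⟨b, hb, h⟩ := commCase_mem_conj h1 (hCdef ▸ hx) (hCdef ▸ hxC)
      exact ⟨_, (hT _).2 (Or.inl ⟨b, hb, rfl⟩), h⟩
  · rintro _ ⟨x, hx, rfl⟩ E hE hne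
    have hE' : conjBy E x⁻¹ ∈ {E | ∃ x ∈ B ⊔ D, E = conjBy A x} := by
      obtain ⟨y, hy, rfl⟩ := hE
      exact ⟨x⁻¹ * y, mul_mem (inv_mem hx) hy, conjBy_conjBy _ _ _⟩
    rw [← conjBy_eq_bot_iff (g := x⁻¹), conjBy_inf, conjBy_inv_cancel]
    have hne' : A ≠ conjBy E x⁻¹ := fun e => hne (conjBy_eq_iff.2 e)
    generalize conjBy E x⁻¹ = F at hE' hne'
    obtain ⟨d, hd, rfl⟩ := ((hTT F).1 ((hT F).1 hE')).resolve_right hne'.symm
    rw [← fixA d hd, ← conjBy_inf, hACbot, conjBy_bot]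
  · rcases rankOne_normal_dichotomy hBD
      (N := (B ⊔ D) ⊓ centralizer ((A ⊔ C : Subgroup G) : Set G)) inf_le_left (fun x hx => by
        rw [conjBy_inf, conjBy_of_mem hx, conjBy_centralizer,
          conjBy_eq_self_iff.2 ((sup_le nB nD : B ⊔ D ≤ _) hx)]) with e | e
    · exfalso
      have : B ⊔ D ≤ centralizer (C : Set G) := by
        rw [← e]
        exact sup_le (inf_le_right.trans (centralizer_le (show C ≤ A ⊔ C from le_sup_right)))
          (commutator_eq_bot_iff_le_centralizer.1 hBC)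
      rw [commutator_eq_bot_iff_le_centralizer.2 (le_sup_right.trans this)] at hDC
      exact hS.ne_bot A hA hDC.symm
    · exact e

end Cfsg.Agent.S5036
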