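import Cfsg.Statements.S5037
import Cfsg.Agent.RootSub.Graph

set_option autoImplicit false
open Cfsg

namespace Cfsg.Agent.S5037

open Cfsg.Agent.RootSub Subgroup in
/-- Let S be a class of abstract root subgroups of G that is either degenerate or non-degenerate (so either the commutator case never occurs, or all three cases occur), and A ≠ C members of S. If every member of S commuting with A commutes with C, then A and C have the same commuting members of S; and if every rank one partner of A is a rank one partner of C, then A and C commute and have the same rank one partners. -/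
theorem result {G : Type*} [Group G] {S : Set (Subgroup G)} (hS : Cfsg.IsRootSubgroupClass S)
    (hdn : Cfsg.IsDegenerateRootSet S ∨ Cfsg.IsNondegenerateRootSet S)
    {A C : Subgroup G} (hA : A ∈ S) (hC : C ∈ S) (hAC : A ≠ C) :
    (Cfsg.centralizingMembers S A ⊆ Cfsg.centralizingMembers S C →
      Cfsg.centralizingMembers S A = Cfsg.centralizingMembers S C) ∧
    (Cfsg.rankOnePartners S A ⊆ Cfsg.rankOnePartners S C →
      ⁅A, C⁆ = ⊥ ∧ Cfsg.rankOnePartners S A = Cfsg.rankOnePartners S C) := by
  have hmem : ∀ X Y : Subgroup G, Y ∈ centralizingMembers S X ↔ Y ∈ S ∧ ⁅Y, X⁆ = ⊥ := by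
    intro X Y
    rw [commutator_eq_bot_iff_le_centralizer]; rfl
  by_cases hex : ∃ A ∈ S, ∃ B ∈ S, IsRankOnePair A B
  swap
  · push Not at hex
    have hdeg : IsDegenerateRootSet S := by
      rcases hdn with h | h
      · exact h
      · obtain ⟨A, hA, B, hB, h⟩ := h.2.1
        exact absurd h (hex A hA B hB)
    have hall : ∀ X ∈ S, ∀ Y ∈ S, ⁅X, Y⁆ = ⊥ := fun X hX Y hY =>
      (hS.1.pair X hX Y hY).resolve_right (not_or.2 ⟨hex X hX Y hY, hdeg X hX Y hY⟩)
    refine ⟨fun _ => ?_, fun _ => ⟨hall A hA C hC, ?_⟩⟩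
    · ext Y
      rw [hmem, hmem]
      exact and_congr_right fun hY => ⟨fun _ => hall Y hY C hC, fun _ => hall Y hY A hA⟩
    · ext Y
      exact ⟨fun h => absurd h.2 (hex A hA Y h.1), fun h => absurd h.2 (hex C hC Y h.1)⟩
  obtain ⟨A₀, hA₀, B₀, hB₀, h₀⟩ := hex
  have hF := class_exists_partner hS hA₀ hB₀ h₀
  constructor
  · intro hsub
    have hCA : ⁅A, C⁆ = ⊥ := ((hmem _ _).1 (hsub ((hmem _ _).2 ⟨hA, root_self_comm hS.1 hA⟩))).2
    obtain ⟨B, hB, hCB⟩ := hF C hC
    have hAB : IsRankOnePair A B := by
      rcases hS.1.pair B hB A hA with h | h | h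
      · exact absurd ((hmem _ _).1 (hsub ((hmem _ _).2 ⟨hB, h⟩))).2
          (rankOne_commutator_ne_bot (RankOnePair_symm hCB))
      · exact RankOnePair_symm h
      · exfalso
        have hl := commCase_commutator_mem_line hS.1 hB hC (RankOnePair_symm hCB) h
        refine wline_commutator_ne_bot hS.1 hC (RankOnePair_symm hCB) h.1 (commCase_left h)
          (wline_of_le_line hB hl le_sup_left le_sup_right) (commutator_eq_bot_symm ?_)
        exact ((hmem _ _).1 (hsub ((hmem _ _).2
          ⟨h.1, commutator_eq_bot_symm (commCase_right h)⟩))).2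
    refine hsub.antisymm (preorder_symm_of_common_partner
      (r := fun X Y => centralizingMembers S X ⊆ centralizingMembers S Y)
      (fun h1 h2 => h1.trans h2) ?_ ?_ hAB hCB hCA hsub)
    · intro X Y g h Z hZ
      rw [hmem] at hZ ⊢
      have h1 := conj_commutator_eq_bot hZ.2 g⁻¹
      rw [conjBy_inv_cancel] at h1
      have h2 := conj_commutator_eq_bot
        ((hmem _ _).1 (h ((hmem _ _).2 ⟨hS.1.conj_mem _ hZ.1 _, h1⟩))).2 g
      rw [conjBy_cancel_inv] at h2
      exact ⟨hZ.1, h2⟩
    · intro g h h'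
      exact rankOne_commutator_ne_bot h'
        ((hmem _ _).1 (h ((hmem _ _).2 ⟨hB, root_self_comm hS.1 hB⟩))).2
  · intro hsub
    have hAC : ⁅A, C⁆ = ⊥ := by
      rcases hS.1.pair A hA C hC with h | h | h
      · exact h
      · exact absurd rfl (hsub ⟨hC, h⟩).2.ne
      · exfalso
        obtain ⟨D₀, hD₀, hED₀⟩ := hF _ h.1
        obtain ⟨D, hD, hED, hAD⟩ : ∃ D ∈ S, IsRankOnePair ⁅A, C⁆ D ∧ IsRankOnePair A D := by
          by_cases h1 : IsRankOnePair A D₀
          · exact ⟨D₀, hD₀, hED₀, h1⟩
          · obtain ⟨e, he, he1⟩ := root_exists_ne_one hS.1 h.1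
            obtain ⟨a, ha, ha1⟩ := root_exists_ne_one hS.1 hA
            obtain ⟨c, hc, e1⟩ := commCase_exists_right h (inv_mem ha) (inv_ne_one.2 ha1) he
            refine ⟨conjBy D₀ c⁻¹, hS.1.conj_mem _ hD₀ _, ?_, ?_⟩
            · rw [← conjBy_eq_of_commutator_eq_bot (commCase_right h) (inv_mem hc)]
              exact rankOne_conjBy hED₀ _
            · rw [← rankOne_conjBy_iff (g := c), conjBy_cancel_inv]
              by_contra h2
              refine root_not_rankOne_conj_conj hS.1 hD₀ hA (hS.1.conj_mem A hA c)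
                (fun h => h1 (RankOnePair_symm h)) (fun h => h2 (RankOnePair_symm h)) ha
                (conj_mem_conjBy ha c) ?_
              rw [← rankOne_conjBy_iff (g := a⁻¹), conjBy_inv_cancel, conjBy_conjBy]
              have : a⁻¹ * (c * a * c⁻¹) = e := by rw [e1]; group
              rw [this]
              exact (rankOne_self_conjBy (RankOnePair_symm hED₀) he he1).1
        have hCD : IsRankOnePair C D := (hsub ⟨hD, hAD⟩).2
        have hl := commCase_commutator_mem_line hS.1 hC hD hCD (commCase_symm h)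
        obtain ⟨P, hP, k1, -, -, k4⟩ := line_structure hS.1 hC hD hCD hl
        have hn := commCase_not_rankOne k1 (root_self_comm hS.1 hD)
        rcases (commCase_mem_members (E := P) hS.1 hC hD hCD (commCase_symm h)).1
          ⟨hP, k4 ▸ le_sup_right⟩ with ⟨a, ha, rfl⟩ | rfl
        · apply hn
          have h1 : IsRankOnePair A (conjBy D a⁻¹) := by
            have := rankOne_conjBy hAD a⁻¹
            rwa [conjBy_of_mem (inv_mem ha)] at this
          have h2 := rankOne_conjBy (hsub ⟨hS.1.conj_mem _ hD _, h1⟩).2 a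
          rw [conjBy_cancel_inv] at h2
          exact RankOnePair_symm h2
        · apply hn
          rw [commutator_comm]
          exact RankOnePair_symm hED
    obtain ⟨B, hB, hAB⟩ := hF A hA
    refine ⟨hAC, hsub.antisymm (preorder_symm_of_common_partner
      (r := fun X Y => rankOnePartners S X ⊆ rankOnePartners S Y)
      (fun h1 h2 => h1.trans h2) ?_ ?_ hAB (hsub ⟨hB, hAB⟩).2 hAC hsub)⟩
    · intro X Y g h Z hZ
      have h1 := rankOne_conjBy hZ.2 g⁻¹
      rw [conjBy_inv_cancel] at h1
      have h2 := rankOne_conjBy (h ⟨hS.1.conj_mem _ hZ.1 _, h1⟩).2 g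
      rw [conjBy_cancel_inv] at h2
      exact ⟨hZ.1, h2⟩
    · intro g h h'
      exact (h ⟨hS.1.conj_mem _ hB g, h'⟩).2.ne rfl

end Cfsg.Agent.S5037
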