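import Cfsg.Statements.S5039
import Cfsg.Agent.RootSub.Triangle

set_option autoImplicit false
universe u
open Cfsg

namespace Cfsg.Agent.S5039

open Cfsg.Agent.RootSub Subgroup commutatorElement in
/-- Let S be a class of abstract root subgroups of G containing two different commuting members. Suppose that, in case S is degenerate and every element of every member of S has order at most 3, the following holds: for every A ∈ S and every rank one partner B of A there are subgroups A₀ ≤ A and B₀ ≤ B generating an image of SL₂(k) with central kernel, k a field with at least four elements, A₀ and B₀ being the images of the unitriangular subgroups. Then every rank one pair A, B in S is special. -/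
theorem result {G : Type u} [Group G] {S : Set (Subgroup G)} (hS : Cfsg.IsRootSubgroupClass S)
    (hcomm : ∃ A ∈ S, ∃ C ∈ S, A ≠ C ∧ ⁅A, C⁆ = ⊥)
    (hH : Cfsg.IsDegenerateRootSet S → (∀ A ∈ S, ∀ a ∈ A, 0 < orderOf a ∧ orderOf a ≤ 3) →
      ∀ A ∈ S, ∀ B ∈ Cfsg.rankOnePartners S A, ∃ A₀ B₀ : Subgroup G, A₀ ≤ A ∧ B₀ ≤ B ∧
        ∃ (k : Type u) (_ : Field k), 3 < ENat.card k ∧ Cfsg.IsPSL2PairOver k A₀ B₀)
    {A B : Subgroup G} (hA : A ∈ S) (hB : B ∈ Cfsg.rankOnePartners S A) : Cfsg.IsSpecialRankOnePair A B := by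
  have hAB := hB.2
  by_cases hd : IsDegenerateRootSet S
  swap
  · exact nondeg_special hS (nondeg_of_not_degenerate hS.1 hA hB.1 hAB hd) hA hB.1 hAB
  have key : ∀ {A B : Subgroup G}, A ∈ S → B ∈ S → IsRankOnePair A B →
      ¬ IsSpecialRankOnePair A B → commutingPartners S A ⊆ commutingPartners S B := by
    intro A B hA hB hAB hn C hC
    refine ⟨hC.1, fun e => rankOne_commutator_ne_bot hAB (e ▸ hC.2.2), ?_⟩
    by_contra hc
    exact hn (triangle_special hS.1 hA hB hAB
      (RankOnePair_symm (deg_rankOne hS.1 hd hB hC.1 hc)) hC.2.2 hC.2.1.symm)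
  by_contra hn
  have hs := (key hA hB.1 hAB hn).antisymm
    (key hB.1 hA (RankOnePair_symm hAB) fun h => hn (special_symm h))
  obtain ⟨E, hE, C, hC, hAE, hCE⟩ := exists_triangle hS hd hcomm hA hB.1 hAB
  have hBE : IsRankOnePair B E := deg_rankOne hS.1 hd hB.1 hE fun e => by
    have : E ∈ commutingPartners S B :=
      ⟨hE, fun e1 => rankOne_commutator_ne_bot hCE (by
        rw [e1]; exact commutator_eq_bot_symm (hs ▸ hC).2.2), e⟩
    exact rankOne_commutator_ne_bot hAE (hs ▸ this).2.2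
  by_cases ho : ∀ A ∈ S, ∀ a ∈ A, 0 < orderOf a ∧ orderOf a ≤ 3
  · obtain ⟨A₀, B₀, h1, h2, k, _, hk, hp⟩ := hH hd ho A hA B hB
    obtain ⟨x, hx, a, ha, hxa, hne⟩ := psl2_diag hk hp
    have ha1 : a ≠ 1 := by rintro rfl; simp at hne
    exact hne (same_partners_centralizes hS.1 hA hE hAE hBE hCE hC hs (sup_le_sup h1 h2 hx)
      (root_eq_of_mem hS.1 hB.1 hAB (hS.1.conj_mem A hA x) (h1 hxa) (conj_ne_one ha1 x)
        (conj_mem_conjBy (h1 ha) x)).symm (h1 ha))
  · obtain ⟨e, he, ho⟩ : ∃ e ∈ E, ¬ (0 < orderOf e ∧ orderOf e ≤ 3) := by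
      push Not at ho
      obtain ⟨D, hD, d, hd, ho⟩ := ho
      obtain ⟨g, rfl⟩ := hS.2.2 D hD E hE
      refine ⟨_, conj_mem_conjBy hd g, ?_⟩
      have : orderOf (g * d * g⁻¹) = orderOf d := (MulAut.conj g).orderOf_eq d
      rw [this]; omega
    have hp : ∀ i : ℕ, 0 < i → i ≤ 3 → e ^ i ≠ 1 := fun i h0 h3 h =>
      ho ⟨(isOfFinOrder_iff_pow_eq_one.mpr ⟨i, h0, h⟩).orderOf_pos,
        (orderOf_le_of_pow_eq_one h0 h).trans h3⟩
    obtain ⟨m, h, h1, h2, h3⟩ := triangle_good hS.1 hA hE hAE hCE hC.2.2 hC.2.1.symm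
    have e1 : e ≠ 1 := by simpa using hp 1 (by omega) (by omega)
    have e2 : e * e ≠ 1 := by simpa [pow_two] using hp 2 (by omega) (by omega)
    have e3 : e * (e * e) ≠ 1 := by simpa [pow_three] using hp 3 (by omega) (by omega)
    obtain ⟨a, ha, ha1, ea⟩ := rankOne_exists_right hAE he e1
    have k : ∀ f ∈ E, f ≠ 1 → ⁅B, conjBy A ⁅f, m⁆⁆ = ⊥ := fun f hf hf1 =>
      (hs.subset ⟨hS.1.conj_mem A hA _, h.conj_ne h1 hf hf1, (h.step hf).cB⟩).2.2
    exact ha1 (rankOne_eq_one_of_centralizes hAB ha fun b hb => (comm_of_commutator_eq_bot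
      (commutator_sup_right_eq_bot (commutator_sup_right_eq_bot (k e he e1)
        (k _ (mul_mem he he) e2)) (k _ (mul_mem he (mul_mem he he)) e3)) hb
      (h.cubic h2 h3 ha he ea)).symm)

end Cfsg.Agent.S5039
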