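import Cfsg.Statements.S5040
import Cfsg.Agent.RootSub.Graph
import Cfsg.Agent.S5036

set_option autoImplicit false
open Cfsg

namespace Cfsg.Agent.S5040

open Cfsg.Agent.RootSub Subgroup in
/-- Let S be a non-degenerate class of abstract root subgroups of G and Δ a weak TI-subset of S. Then the members of Δ commute with one another elementwise. -/
theorem result {G : Type*} [Group G] {S : Set (Subgroup G)} (hS : Cfsg.IsRootSubgroupClass S) (hnd : Cfsg.IsNondegenerateRootSet S)
    {Δ : Set (Subgroup G)} (hΔ : Cfsg.IsWeakTISubset S Δ) : Cfsg.IsAbelianFamily Δ := by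
  have hF := nondeg_exists_partner hS hnd
  obtain ⟨hsub, -, hne, hTI⟩ := hΔ
  let N : Subgroup G :=
    { carrier := {g | ∀ C, C ∈ Δ ↔ conjBy C g ∈ Δ}
      one_mem' := fun C => by rw [conjBy_one]
      mul_mem' := fun {x y} hx hy C => by rw [← conjBy_conjBy, ← hx, ← hy]
      inv_mem' := fun {x} hx C => by rw [hx (conjBy C x⁻¹), conjBy_cancel_inv] }
  have hN : ∀ A ∈ Δ, ∀ C ∈ S, ⁅C, A⁆ = ⊥ → C ≤ N := by
    intro A hA C hC h c hc
    by_cases hc1 : c = 1
    · rw [hc1]; exact one_mem N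
    rcases hTI c ⟨hc1, C, hC, hc⟩ with e | e
    · intro E
      constructor
      · intro hE; rw [← e]; exact ⟨E, hE, rfl⟩
      · intro hE
        rw [← e] at hE
        obtain ⟨E', hE', e'⟩ := hE
        rwa [← conjBy_inj.1 e']
    · exact absurd hA (Set.disjoint_left.1 e ⟨A, hA, conjBy_eq_of_commutator_eq_bot h hc⟩)
  have hr : ∀ A ∈ Δ, ∀ B ∈ Δ, ¬ IsRankOnePair A B := by
    intro A hA B hB h
    have := nondeg_generated hS hnd (hsub hA) (hsub hB) h (U := N)
      (fun C hC => hN A hA C hC.1.1 (commutator_eq_bot_symm hC.1.2.2))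
      (hN B hB B (hsub hB) (root_self_comm hS.1 (hsub hB)))
    apply hne (hsub.antisymm fun C hC => ?_)
    obtain ⟨g, rfl⟩ := hS.2.2 A (hsub hA) C hC
    exact ((this ▸ mem_top g : g ∈ N) A).1 hA
  intro A hA B hB
  rcases hS.1.pair A (hsub hA) B (hsub hB) with h | h | h
  · exact commutator_eq_bot_iff'.1 h
  · exact absurd h (hr A hA B hB)
  · exfalso
    obtain ⟨D, hD, hAD⟩ := hF A (hsub hA)
    obtain ⟨F, hFS, k1, k2⟩ := line_exists_commutator hS.1 hF (hsub hA)
      (commCase_commutator_mem_line hS.1 (hsub hA) hD hAD h)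
    have hBF := (S5036.result hS.1 (hsub hA) (hsub hB) h.1 hFS (by rw [commutator_comm, k2])).1
    have hFA : ⁅F, A⁆ = ⊥ := by have := commCase_right k1; rwa [k2] at this
    obtain ⟨f, hf, hf1⟩ := root_exists_ne_one hS.1 hFS
    exact hr B hB _ ((hN A hA F hFS hFA hf B).1 hB) (rankOne_self_conjBy hBF hf hf1).1

end Cfsg.Agent.S5040
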