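import Cfsg.Statements.S5043
import Cfsg.Agent.RootSub.LinEx

set_option autoImplicit false
open Matrix
open Cfsg

namespace Cfsg.Agent.S5043

open Cfsg.Agent.RootSub in
/-- Let k be a field and n a natural number. In SL_{n+3}(k) (so in every dimension at least 3) the conjugates of the root subgroup of elementary transvections 1 + c E₁₂ (c ∈ k) — that is, the groups of transvections attached to an incident point–hyperplane pair — form a non-degenerate class of abstract k-root subgroups of SL_{n+3}(k) whose graph of rank one pairs is connected. -/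
theorem result (k : Type*) [Field k] (n : ℕ) :
    Cfsg.IsRootSubgroupClass {A : Subgroup (Matrix.SpecialLinearGroup (Fin (n + 3)) k) |
        ∃ g : Matrix.SpecialLinearGroup (Fin (n + 3)) k,
          A = Cfsg.conjBy (Subgroup.closure {t : Matrix.SpecialLinearGroup (Fin (n + 3)) k |
            ∃ c : k, (t : Matrix (Fin (n + 3)) (Fin (n + 3)) k) = Matrix.transvection 0 1 c}) g} ∧
    Cfsg.IsNondegenerateRootSet {A : Subgroup (Matrix.SpecialLinearGroup (Fin (n + 3)) k) |
        ∃ g : Matrix.SpecialLinearGroup (Fin (n + 3)) k,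
          A = Cfsg.conjBy (Subgroup.closure {t : Matrix.SpecialLinearGroup (Fin (n + 3)) k |
            ∃ c : k, (t : Matrix (Fin (n + 3)) (Fin (n + 3)) k) = Matrix.transvection 0 1 c}) g} ∧
    Cfsg.IsKRootSubgroupSet k {A : Subgroup (Matrix.SpecialLinearGroup (Fin (n + 3)) k) |
        ∃ g : Matrix.SpecialLinearGroup (Fin (n + 3)) k,
          A = Cfsg.conjBy (Subgroup.closure {t : Matrix.SpecialLinearGroup (Fin (n + 3)) k |
            ∃ c : k, (t : Matrix (Fin (n + 3)) (Fin (n + 3)) k) = Matrix.transvection 0 1 c}) g} ∧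
    Cfsg.IsConnectedFamily (Cfsg.FAdj {A : Subgroup (Matrix.SpecialLinearGroup (Fin (n + 3)) k) |
        ∃ g : Matrix.SpecialLinearGroup (Fin (n + 3)) k,
          A = Cfsg.conjBy (Subgroup.closure {t : Matrix.SpecialLinearGroup (Fin (n + 3)) k |
            ∃ c : k, (t : Matrix (Fin (n + 3)) (Fin (n + 3)) k) = Matrix.transvection 0 1 c}) g})
      {A : Subgroup (Matrix.SpecialLinearGroup (Fin (n + 3)) k) |
        ∃ g : Matrix.SpecialLinearGroup (Fin (n + 3)) k,
          A = Cfsg.conjBy (Subgroup.closure {t : Matrix.SpecialLinearGroup (Fin (n + 3)) k |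
            ∃ c : k, (t : Matrix (Fin (n + 3)) (Fin (n + 3)) k) = Matrix.transvection 0 1 c}) g} := by
  have h01 : (0 : Fin (n + 3)) ≠ 1 := by simp
  have hX := elem_mem_slX (F := k) h01
  have hS := slFam.kroot_top (sl_generates (n := Fin (n + 3)) (F := k))
  have hcl := connected_class hS.1 sl_connected (Set.mem_image_of_mem _ hX)
  have e0 : Subgroup.closure {t : Matrix.SpecialLinearGroup (Fin (n + 3)) k |
      ∃ c : k, (t : Matrix (Fin (n + 3)) (Fin (n + 3)) k) = Matrix.transvection 0 1 c} =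
      LRoot (RingHom.id k) slEnd (rk (Pi.single 0 (1 : k) : Fin (n + 3) → k) (LinearMap.proj 1)) := by
    unfold LRoot
    congr 1
    ext t
    exact exists_congr fun c => slEnd_eq_iff.symm
  have e : {A : Subgroup (Matrix.SpecialLinearGroup (Fin (n + 3)) k) |
        ∃ g : Matrix.SpecialLinearGroup (Fin (n + 3)) k,
          A = Cfsg.conjBy (Subgroup.closure {t : Matrix.SpecialLinearGroup (Fin (n + 3)) k |
            ∃ c : k, (t : Matrix (Fin (n + 3)) (Fin (n + 3)) k) = Matrix.transvection 0 1 c}) g} =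
      LRoot (RingHom.id k) slEnd '' slX (Fin (n + 3)) k := by
    rw [e0]
    ext A
    constructor
    · rintro ⟨g, rfl⟩
      exact hS.1.conj_mem _ (Set.mem_image_of_mem _ hX) g
    · exact fun hA => hcl.2.2 _ (Set.mem_image_of_mem _ hX) A hA
  rw [e]
  have h12 : (1 : Fin (n + 3)) ≠ 2 := by simp [Fin.ext_iff, Nat.mod_eq_of_lt (show 2 < n + 3 by omega)]
  have h02 : (0 : Fin (n + 3)) ≠ 2 := by simp [Fin.ext_iff, Nat.mod_eq_of_lt (show 2 < n + 3 by omega)]
  have hY := elem_mem_slX (F := k) h12
  have hZ := elem_mem_slX (F := k) h02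
  have hc := slFam.commCase hX hY (by simp [rk_mul_mul, h02.symm]) (by simp [rk_mul_mul, h02.symm])
    (by simpa [rk_mul, h02.symm] using hZ)
  obtain ⟨W, hW, ho⟩ := slX_partner _ hX
  refine ⟨hcl, ⟨⟨_, Set.mem_image_of_mem _ hX, _, hc.2.1, commCase_ne_commutator hS.1 hc.2,
    commCase_left hc.2⟩, ⟨_, Set.mem_image_of_mem _ hX, _, Set.mem_image_of_mem _ hW,
    slFam.rankOne hX hW ho⟩, _, Set.mem_image_of_mem _ hX, _, Set.mem_image_of_mem _ hY, hc.2⟩,
    hS, sl_connected⟩

end Cfsg.Agent.S5043
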