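import Cfsg.Statements.S5045
import Cfsg.Agent.RootInv.Class

set_option autoImplicit false
open Cfsg

namespace Cfsg.Agent.S5045

/-- Let G be a finite group generated by a set D of root involutions, and W the set of members of D whose product with every other member of D has even order or is trivial (the isolated vertices of the odd-order-product graph on D). Then W is conjugation-invariant and generates a normal 2-subgroup of G meeting D in exactly W; the commutator of two members of D lying in different connected components of that graph, each with more than one member, lies in the subgroup generated by W; and for a in such a component, every member of D commuting with a, different from a and with product with a in D, lies in that component or in W. -/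
theorem result {G : Type*} [Group G] [Finite G] {D : Set G} (hD : Cfsg.IsRootInvolutionSet D) :
    (∀ w ∈ {w | Cfsg.IsIsolatedElem (Cfsg.OddAdj D) D w}, ∀ g : G, g * w * g⁻¹ ∈ {w | Cfsg.IsIsolatedElem (Cfsg.OddAdj D) D w}) ∧
    (Subgroup.closure {w | Cfsg.IsIsolatedElem (Cfsg.OddAdj D) D w}).Normal ∧
    IsPGroup 2 ↥(Subgroup.closure {w | Cfsg.IsIsolatedElem (Cfsg.OddAdj D) D w}) ∧
    (Subgroup.closure {w | Cfsg.IsIsolatedElem (Cfsg.OddAdj D) D w} : Set G) ∩ D = {w | Cfsg.IsIsolatedElem (Cfsg.OddAdj D) D w} ∧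
    (∀ a ∈ D, ∀ b ∈ D, (∃ a' ∈ Cfsg.elemComponentOf (Cfsg.OddAdj D) D a, a' ≠ a) →
      (∃ b' ∈ Cfsg.elemComponentOf (Cfsg.OddAdj D) D b, b' ≠ b) →
      Cfsg.elemComponentOf (Cfsg.OddAdj D) D a ≠ Cfsg.elemComponentOf (Cfsg.OddAdj D) D b →
        a * b * a⁻¹ * b⁻¹ ∈ Subgroup.closure {w | Cfsg.IsIsolatedElem (Cfsg.OddAdj D) D w}) ∧
    (∀ a ∈ D, (∃ a' ∈ Cfsg.elemComponentOf (Cfsg.OddAdj D) D a, a' ≠ a) →
      Cfsg.productPartners D a ⊆ Cfsg.elemComponentOf (Cfsg.OddAdj D) D a ∪ {w | Cfsg.IsIsolatedElem (Cfsg.OddAdj D) D w}) := by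
  have h := RootInv.ri_of hD
  have hW : {w | Cfsg.IsIsolatedElem (Cfsg.OddAdj D) D w} = D ∩ (Cfsg.pCore 2 G : Set G) := by
    ext w
    refine and_congr_right fun hw => ?_
    rw [SetLike.mem_coe, h.mem_pCore_iff hw]
    exact ⟨fun h1 b hb ho => (h1 b).1 ⟨hw, hb, ho⟩,
      fun h1 b => ⟨fun ho => h1 b ho.2.1 ho.2.2, fun ho => h1 b ho.1 (RootInv.Od.symm ho.2.2)⟩⟩
  rw [hW]
  have hconj : ∀ w ∈ D ∩ (Cfsg.pCore 2 G : Set G), ∀ g : G,
      g * w * g⁻¹ ∈ D ∩ (Cfsg.pCore 2 G : Set G) := fun w hw g =>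
    ⟨h.conj w hw.1 g, (Cfsg.pCore_normal 2 G).conj_mem _ hw.2 g⟩
  have hle : Subgroup.closure (D ∩ (Cfsg.pCore 2 G : Set G)) ≤ Cfsg.pCore 2 G :=
    (Subgroup.closure_le _).2 Set.inter_subset_right
  have hsymm : ∀ {a b : G}, Relation.ReflTransGen (Cfsg.OddAdj D) a b →
      Relation.ReflTransGen (Cfsg.OddAdj D) b a := by
    intro a b hab
    induction hab with
    | refl => exact Relation.ReflTransGen.refl
    | tail _ hxy ih =>
      exact Relation.ReflTransGen.head ⟨hxy.2.1, hxy.1, RootInv.Od.symm hxy.2.2⟩ ih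
  have hlast : ∀ a ∈ D, (∃ a' ∈ Cfsg.elemComponentOf (Cfsg.OddAdj D) D a, a' ≠ a) →
      ∀ c, RootInv.Xp D a c → Relation.ReflTransGen (Cfsg.OddAdj D) a c ∨ c ∈ Cfsg.pCore 2 G := by
    rintro a ha ⟨a', ⟨-, ha'⟩, hne⟩ c hc
    obtain ⟨b, hab⟩ : ∃ b, Cfsg.OddAdj D a b := by
      rcases ha'.cases_head with e | ⟨b, hb, -⟩
      · exact absurd e.symm hne
      · exact ⟨b, hb⟩
    by_cases hcp : c ∈ Cfsg.pCore 2 G
    · exact Or.inr hcp
    left
    rw [h.mem_pCore_iff hc.1] at hcp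
    push Not at hcp
    obtain ⟨x, hx, hcx⟩ := hcp
    by_cases h1 : RootInv.Od c b
    · exact (Relation.ReflTransGen.single hab).tail ⟨hab.2.1, hc.1, h1.symm⟩
    by_cases h2 : RootInv.Od a x
    · exact (Relation.ReflTransGen.single ⟨ha, hx, h2⟩).tail ⟨hx, hc.1, hcx.symm⟩
    have o1 := h.od_mul_of_gam ha hab.2.1 hab.2.2 (h.gam_of_not_od ha hab.2.1 hab.2.2 hc h1)
    have o2 := h.od_mul_of_gam hc.1 hx hcx (h.gam_of_not_od hc.1 hx hcx (hc.symm ha) h2)
    rw [hc.2.1.eq] at o2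
    exact (((Relation.ReflTransGen.single hab).tail ⟨hab.2.1, hc.2.2, o1.symm⟩).tail
      ⟨hc.2.2, hx, o2⟩).tail ⟨hx, hc.1, hcx.symm⟩
  refine ⟨hconj, RootInv.normal_closure hconj, (Grp.pCore_isPGroup 2 G).to_le hle, ?_, ?_, ?_⟩
  · ext w
    exact ⟨fun hw => ⟨hw.2, hle hw.1⟩, fun hw => ⟨Subgroup.subset_closure hw, hw.1⟩⟩
  · intro a ha b hb ha' hb' hne
    have hnp : ¬ Relation.ReflTransGen (Cfsg.OddAdj D) a b := fun hab => hne (by
      ext y
      exact and_congr_right fun _ => ⟨fun hy => (hsymm hab).trans hy, fun hy => hab.trans hy⟩)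
    rw [h.inv_eq ha, h.inv_eq hb]
    rcases h.tri ha hb with h1 | h1 | h1
    · rw [show a * b * a * b = 1 from (RootInv.cm_eq_one_iff (h.sq ha) (h.sq hb)).2 h1]
      exact Subgroup.one_mem _
    · exact absurd (Relation.ReflTransGen.single ⟨ha, hb, h1⟩) hnp
    · refine Subgroup.subset_closure ⟨h.cm_mem ha hb h1, ?_⟩
      rcases hlast a ha ha' _ (h.xp_cm ha hb h1) with h2 | h2
      · rcases hlast b hb hb' _ (h.xp_cm' ha hb h1) with h3 | h3
        · exact absurd (h2.trans (hsymm h3)) hnp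
        · exact h3
      · exact h2
  · intro a ha ha' c hc
    have hc' := h.mem_productPartners.1 hc
    rcases hlast a ha ha' c hc' with h2 | h2
    · exact Or.inl ⟨hc'.1, h2⟩
    · exact Or.inr ⟨hc'.1, h2⟩

end Cfsg.Agent.S5045
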