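import Cfsg.Statements.S5046
import Cfsg.Agent.RootInv.Class

set_option autoImplicit false
open Cfsg

namespace Cfsg.Agent.S5046

/-- Let G be a finite group generated by a set D of root involutions whose odd-order-product graph is connected, and d ∈ D. Then the members e of D with the same commuting members as d are exactly those for which the union of the commuting members of d and the members whose product with d has order 4 equals the corresponding union for e. -/
theorem result {G : Type*} [Group G] [Finite G] {D : Set G} (hD : Cfsg.IsRootInvolutionSet D)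
    (hc : Cfsg.IsConnectedSet (Cfsg.OddAdj D) D) {d : G} (hd : d ∈ D) :
    Cfsg.sameCommutingClass D d =
      {e | e ∈ D ∧ Cfsg.commutingMembers D d ∪ Cfsg.fourPartners D d = Cfsg.commutingMembers D e ∪ Cfsg.fourPartners D e} := by
  have h := RootInv.ri_of hD
  have hcl := h.cl_of_conn hc
  have key : ∀ x ∈ D, Cfsg.commutingMembers D x ∪ Cfsg.fourPartners D x = D \ RootInv.OA D x := by
    intro x hx
    ext y
    constructor
    · rintro (hy | hy)
      · exact ⟨hy.1, fun ho => ho.2.not_commute (h.sq hx) (h.sq hy.1) (Commute.symm hy.2)⟩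
      · exact ⟨hy.1, fun ho => ho.2.not_fo hy.2⟩
    · rintro ⟨hy, hn⟩
      rcases (h.not_od_iff hx hy).1 (fun ho => hn ⟨hy, ho⟩) with h1 | h1
      · exact Or.inl ⟨hy, h1.symm⟩
      · exact Or.inr ⟨hy, h1⟩
  ext e
  refine and_congr_right fun he => ?_
  rw [key d hd, key e he, RootInv.commutingMembers_eq, RootInv.commutingMembers_eq,
    ← h.OA_eq_iff hcl hd he]
  refine ⟨fun e => by rw [e], fun e' => ?_⟩
  rw [← Set.sdiff_sdiff_cancel_left (s := RootInv.OA D d) (t := D) (fun x hx => hx.1), e',
    Set.sdiff_sdiff_cancel_left (fun x hx => hx.1)]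

end Cfsg.Agent.S5046
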