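import Cfsg.Statements.S5049
import Cfsg.Agent.RootInv.Class

set_option autoImplicit false
open Cfsg

namespace Cfsg.Agent.S5049

/-- Let G be a finite group generated by a set D of odd transpositions (root involutions with no product of order 4), Q = O₂(G), and for a ∈ D let Q_a be the commutator subgroup of Q with a. Then every member of D commuting with a centralizes Q_a; and for b ∈ D with ab of odd order greater than 1, the centralizer of ab in Q is the intersection of the centralizers of a and b in Q. -/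
theorem result {G : Type*} [Group G] [Finite G] {D : Set G} (hD : Cfsg.IsOddTranspositionSet D) {a : G} (ha : a ∈ D) :
    (∀ e ∈ Cfsg.commutingMembers D a, ∀ q ∈ ⁅Cfsg.pCore 2 G, Subgroup.zpowers a⁆, e * q = q * e) ∧
    (∀ b ∈ Cfsg.oddPartners D a,
      Cfsg.pCore 2 G ⊓ Subgroup.centralizer {a * b} = Cfsg.pCore 2 G ⊓ Subgroup.centralizer {a} ⊓ Subgroup.centralizer {b}) := by
  have h := RootInv.ri_of hD.1
  have hQ := Cfsg.pCore_normal 2 G
  have hcm : ∀ e ∈ D, Commute e a → ∀ q ∈ Cfsg.pCore 2 G, Commute e (q * a * q⁻¹) := by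
    intro e he hea q hq
    refine h.commute_of he (h.conj a ha q) (fun ho => ?_) (hD.2 e he _ (h.conj a ha q))
    have hod : RootInv.Od (a * (q * a * q⁻¹) * (q * a * q⁻¹)) e := by
      refine h.od_mul (Grp.pCore_isPGroup 2 G) he ho.symm ?_ (fun x hx => hQ.conj_mem x hx _) ?_
      · have : a * (q * a * q⁻¹) = (a * q * a⁻¹) * q⁻¹ := by rw [h.inv_eq ha]; group
        rw [this]; exact mul_mem (hQ.conj_mem q hq a) (inv_mem hq)
      · rw [mul_assoc, h.sq (h.conj a ha q), mul_one]; exact ha
    rw [mul_assoc, h.sq (h.conj a ha q), mul_one] at hod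
    exact hod.not_commute (h.sq ha) (h.sq he) hea.symm
  constructor
  · intro e he
    have hle : ⁅Cfsg.pCore 2 G, Subgroup.zpowers a⁆ ≤ Subgroup.centralizer {e} := by
      rw [Subgroup.commutator_le]
      rintro q hq _ ⟨n, rfl⟩
      rw [Subgroup.mem_centralizer_singleton_iff]
      have hea : Commute e a := he.2
      have h1 : Commute e (q * a ^ n * q⁻¹) := by
        rw [← conj_zpow]; exact (hcm e he.1 hea q hq).zpow_right n
      exact (h1.mul_right (hea.zpow_right n).inv_right).symm
    intro q hq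
    exact (Subgroup.mem_centralizer_singleton_iff.1 (hle hq)).symm
  · intro b hb
    rw [RootInv.oddPartners_eq] at hb
    ext q
    simp only [Subgroup.mem_inf, Subgroup.mem_centralizer_singleton_iff]
    constructor
    · rintro ⟨hq, hc⟩
      have ha' := h.conj a ha q
      have hb' := h.conj b hb.1 q
      have c1 : Commute a (q * a * q⁻¹) := hcm a ha (Commute.refl a) q hq
      have c2 : Commute b (q * b * q⁻¹) := by
        have hQ' := hQ.conj_mem
        refine h.commute_of hb.1 hb' (h.not_od_of_isPGroup (Grp.pCore_isPGroup 2 G) hb' ?_)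
          (hD.2 b hb.1 _ hb')
        have : b * (q * b * q⁻¹) = (b * q * b⁻¹) * q⁻¹ := by rw [h.inv_eq hb.1]; group
        rw [this]; exact mul_mem (hQ.conj_mem q hq b) (inv_mem hq)
      have e : q * a * q⁻¹ * (q * b * q⁻¹) = a * b := by
        calc q * a * q⁻¹ * (q * b * q⁻¹) = q * (a * b) * q⁻¹ := by group
          _ = a * b := by rw [hc]; group
      have e2 : a * (q * a * q⁻¹) = b * (q * b * q⁻¹) := by
        calc a * (q * a * q⁻¹) = a * (q * a * q⁻¹) * ((q * b * q⁻¹) * (q * b * q⁻¹)) := by
              rw [h.sq hb', mul_one]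
          _ = a * (q * a * q⁻¹ * (q * b * q⁻¹)) * (q * b * q⁻¹) := by group
          _ = b * (q * b * q⁻¹) := by rw [e, h.sq' ha]
      have hz : a * (q * a * q⁻¹) = 1 := by
        refine h.key ha hb.1 hb.2 ((Commute.refl a).mul_left c1.symm) ?_ ?_
        · rw [e2]; exact (Commute.refl b).mul_left c2.symm
        · rw [h.sq' ha]; exact ha'
      have hz2 := e2 ▸ hz
      have r1 : q * a * q⁻¹ = a := by rw [← h.inv_eq ha, eq_comm, inv_eq_iff_mul_eq_one, h.inv_eq ha]; exact hz
      have r2 : q * b * q⁻¹ = b := by rw [← h.inv_eq hb.1, eq_comm, inv_eq_iff_mul_eq_one, h.inv_eq hb.1]; exact hz2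
      exact ⟨⟨hq, RootInv.commute_of_conj_eq r1⟩, RootInv.commute_of_conj_eq r2⟩
    · rintro ⟨⟨hq, h1⟩, h2⟩
      exact ⟨hq, Commute.mul_right h1 h2⟩

end Cfsg.Agent.S5049
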