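import Cfsg.Statements.S5058
import Mathlib
import Cfsg.Agent.RootInv.Class
import Cfsg.Agent.S2579
import Cfsg.Agent.Class.LinearBasic

set_option autoImplicit false
open Matrix
open Cfsg

namespace Cfsg.Agent.S5058

open Matrix Polynomial

variable {F : Type*} [Field F] {m : ℕ}

/-- `t = 1 + v φ` with `φ v = 0`. -/
def Tv (t : SpecialLinearGroup (Fin m) F) : Prop :=
  ∃ v φ : Fin m → F, v ≠ 0 ∧ φ ≠ 0 ∧ φ ⬝ᵥ v = 0 ∧ (t : Matrix (Fin m) (Fin m) F) = 1 + vecMulVec v φ

theorem Tv.isTransvection {t : SpecialLinearGroup (Fin m) F} (h : Tv t) :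
    IsTransvection (t : Matrix (Fin m) (Fin m) F) := by
  obtain ⟨v, φ, hv, hφ, h0, e⟩ := h
  rw [e]
  refine ⟨?_, by simp [vecMulVec_mul_vecMulVec, h0]⟩
  rw [add_sub_cancel_left]
  refine le_antisymm (rank_vecMulVec_le v φ) (Nat.pos_of_ne_zero fun h => ?_)
  have : vecMulVec v φ = 0 := by
    rw [Matrix.rank, Submodule.finrank_eq_zero, LinearMap.range_eq_bot] at h
    exact Matrix.toLin'.map_eq_zero_iff.1 h
  rcases vecMulVec_eq_zero.1 this with h | h
  · exact hv h
  · exact hφ h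

theorem Tv.conj {t : SpecialLinearGroup (Fin m) F} (h : Tv t) (g : SpecialLinearGroup (Fin m) F) :
    Tv (g * t * g⁻¹) := by
  obtain ⟨v, φ, hv, hφ, h0, e⟩ := h
  have h1 : (g⁻¹ : SpecialLinearGroup (Fin m) F).1 * g.1 = 1 := congrArg Subtype.val (inv_mul_cancel g)
  have h2 : g.1 * (g⁻¹ : SpecialLinearGroup (Fin m) F).1 = 1 := congrArg Subtype.val (mul_inv_cancel g)
  refine ⟨g.1 *ᵥ v, φ ᵥ* (g⁻¹ : SpecialLinearGroup (Fin m) F).1, fun h => hv ?_, fun h => hφ ?_,
    ?_, ?_⟩
  · have := congrArg ((g⁻¹ : SpecialLinearGroup (Fin m) F).1 *ᵥ ·) h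
    simpa only [mulVec_mulVec, h1, one_mulVec, mulVec_zero] using this
  · have := congrArg (· ᵥ* g.1) h
    simpa only [vecMul_vecMul, h1, vecMul_one, zero_vecMul] using this
  · rw [← dotProduct_mulVec, mulVec_mulVec, h1, one_mulVec, h0]
  · change g.1 * t.1 * (g⁻¹ : SpecialLinearGroup (Fin m) F).1 = _
    rw [show t.1 = _ from e, mul_add, add_mul, mul_one, h2, mul_vecMulVec, vecMulVec_mul]

theorem tv_transvection {i j : Fin m} (hij : i ≠ j) {c : F} (hc : c ≠ 0) :
    Tv (SpecialLinearGroup.transvection hij c) := by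
  refine ⟨Pi.single i c, Pi.single j 1, by simpa using hc, by simp, by simp [hij.symm], ?_⟩
  rw [SpecialLinearGroup.transvection_coe]
  congr 1
  ext a b
  simp only [single_apply, vecMulVec_apply, Pi.single_apply]
  grind

theorem mem_iff [Finite F] {n : ℕ} {t : SpecialLinearGroup (Fin (n + 3)) F} :
    (∃ c : F, c ≠ 0 ∧ ∃ g : SpecialLinearGroup (Fin (n + 3)) F,
      ((g⁻¹ * t * g : SpecialLinearGroup (Fin (n + 3)) F) : Matrix (Fin (n + 3)) (Fin (n + 3)) F) =
        Matrix.transvection 0 1 c) ↔ Tv t := by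
  have h01 : (0 : Fin (n + 3)) ≠ 1 := by simp
  constructor
  · rintro ⟨c, hc, g, hg⟩
    have : g⁻¹ * t * g = SpecialLinearGroup.transvection h01 c := Subtype.ext hg
    have h2 := (tv_transvection h01 hc).conj g
    rw [← this] at h2
    simpa [mul_assoc] using h2
  · intro h
    obtain ⟨g, hg⟩ := isConj_iff.1 (S2579.result (by omega) _ _
      (tv_transvection h01 (one_ne_zero (α := F))).isTransvection h.isTransvection)
    exact ⟨1, one_ne_zero, g, by rw [← hg]; simp [mul_assoc]; rfl⟩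

theorem cubic {R : Type*} [Ring R] [Algebra F R] {A B : R} {l : F} (hA : A * A = 0) (hB : B * B = 0)
    (h1 : A * B * A = l • A) (h2 : B * A * B = l • B) :
    (A + B + A * B) * (A + B + A * B) = A * B + B * A + l • (A + B + A * B) ∧
    (A + B + A * B) * (A * B + B * A) = l • (A + B + A * B) := by
  have e1 : A * (A * B) = 0 := by rw [← mul_assoc, hA, zero_mul]
  have e2 : A * B * B = 0 := by rw [mul_assoc, hB, mul_zero]
  have e3 : B * (A * B) = l • B := by rw [← mul_assoc, h2]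
  have e4 : A * B * (A * B) = l • (A * B) := by rw [← mul_assoc, h1, smul_mul_assoc]
  have e5 : A * (B * A) = l • A := by rw [← mul_assoc, h1]
  have e6 : B * (B * A) = 0 := by rw [← mul_assoc, hB, zero_mul]
  have e7 : A * B * (B * A) = 0 := by rw [← mul_assoc, e2, zero_mul]
  constructor
  · simp only [add_mul, mul_add, hA, hB, e1, e2, e3, e4, h1, smul_add]; abel
  · simp only [add_mul, mul_add, e1, e3, e4, e5, e6, e7, smul_add]; abel

variable [CharP F 2]

theorem add_self' (A : Matrix (Fin m) (Fin m) F) : A + A = 0 := by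
  ext i j; exact CharTwo.add_self_eq_zero _

theorem Tv.orderOf {t : SpecialLinearGroup (Fin m) F} (h : Tv t) : orderOf t = 2 := by
  obtain ⟨v, φ, hv, hφ, h0, e⟩ := h
  refine Inv.orderOf_two_of_mul_self (Subtype.ext ?_) fun h => ?_
  · change t.1 * t.1 = 1
    rw [show t.1 = _ from e]
    simp [mul_add, add_mul, vecMulVec_mul_vecMulVec, h0, add_assoc, add_self']
  · rw [h] at e
    have : vecMulVec v φ = 0 := by simpa using e
    rcases vecMulVec_eq_zero.1 this with h | h
    · exact hv h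
    · exact hφ h

theorem odd_of_cubic {g : SpecialLinearGroup (Fin m) F} (hg : 0 < orderOf g) {l : F} (hl : l ≠ 0)
    (h : aeval g.1 ((X + 1) * (X ^ 2 + C l * X + 1) : F[X]) = 0) : Odd (orderOf g) := by
  rw [← Nat.not_even_iff_odd]
  rintro ⟨k, hk⟩
  have hsq : Squarefree ((X + 1) * (X ^ 2 + C l * X + 1) : F[X]) := by
    refine Separable.squarefree ⟨C (l⁻¹ ^ 2), C (l⁻¹ ^ 2) * (X + C l + 1), ?_⟩
    have h2 : (2 : F[X]) = 0 := CharTwo.two_eq_zero
    have h3 : C (l⁻¹ ^ 2) * C l ^ 2 = (1 : F[X]) := by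
      rw [← C_pow, ← C_mul, ← mul_pow, inv_mul_cancel₀ hl, one_pow, C_1]
    simp only [derivative_mul, derivative_add, derivative_X, derivative_one, derivative_X_pow,
      derivative_C, Nat.cast_ofNat, map_ofNat]
    linear_combination h3 + (C (l⁻¹ ^ 2) * (2 * X ^ 3 + 3 * X ^ 2 + 3 * C l * X ^ 2 + 2 * X +
      3 * C l * X + C l ^ 2 * X + 1 + C l)) * h2
  have h1 : minpoly F g.1 ∣ (X ^ k - 1) ^ 2 := by
    refine minpoly.dvd F _ ?_
    have : (X ^ k - 1 : F[X]) ^ 2 = X ^ (k + k) - 1 := by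
      have h2 : (2 : F[X]) = 0 := CharTwo.two_eq_zero
      linear_combination (1 - X ^ k) * h2
    rw [this, ← hk]
    simp only [map_sub, map_pow, aeval_X, map_one]
    rw [sub_eq_zero]
    exact (Matrix.SpecialLinearGroup.coe_pow g _).symm.trans (congrArg Subtype.val (pow_orderOf_eq_one g))
  have h2 := (hsq.squarefree_of_dvd (minpoly.dvd F _ h)).isRadical 2 _ h1
  have h3 : aeval g.1 (X ^ k - 1 : F[X]) = 0 := aeval_eq_zero_of_dvd_aeval_eq_zero h2 (minpoly.aeval F _)
  have h4 : g ^ k = 1 := Subtype.ext (by simpa [sub_eq_zero] using h3)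
  have := orderOf_le_of_pow_eq_one (by omega) h4
  omega

theorem pair [Finite F] {a b : SpecialLinearGroup (Fin m) F} (ha : Tv a) (hb : Tv b) :
    a * b = b * a ∨ (∃ l : F, l ≠ 0 ∧
      aeval (a * b).1 ((X + 1) * (X ^ 2 + C l * X + 1) : F[X]) = 0) ∨ Tv ((a * b) ^ 2) := by
  obtain ⟨v, φ, hv, hφ, h0, e⟩ := ha
  obtain ⟨w, ψ, hw, hψ, h1, e'⟩ := hb
  set A := vecMulVec v φ with hA
  set B := vecMulVec w ψ with hB
  have AA : A * A = 0 := by simp [hA, vecMulVec_mul_vecMulVec, h0]
  have BB : B * B = 0 := by simp [hB, vecMulVec_mul_vecMulVec, h1]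
  have AB : A * B = vecMulVec v ((φ ⬝ᵥ w) • ψ) := vecMulVec_mul_vecMulVec _ _ _ _
  have BA : B * A = vecMulVec w ((ψ ⬝ᵥ v) • φ) := vecMulVec_mul_vecMulVec _ _ _ _
  have ABA : A * B * A = ((φ ⬝ᵥ w) * (ψ ⬝ᵥ v)) • A := by
    rw [AB, hA, vecMulVec_mul_vecMulVec, smul_dotProduct, vecMulVec_smul, smul_eq_mul]
  have BAB : B * A * B = ((φ ⬝ᵥ w) * (ψ ⬝ᵥ v)) • B := by
    rw [BA, hB, vecMulVec_mul_vecMulVec, smul_dotProduct, vecMulVec_smul, smul_eq_mul, mul_comm]
  obtain ⟨c1, c2⟩ := cubic AA BB ABA BAB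
  have eab : (a * b).1 = 1 + (A + B + A * B) := by
    change a.1 * b.1 = _
    rw [show a.1 = _ from e, show b.1 = _ from e']; noncomm_ring
  have eba : (b * a).1 = 1 + (A + B + B * A) := by
    change b.1 * a.1 = _
    rw [show a.1 = _ from e, show b.1 = _ from e']; noncomm_ring
  have esq : ((a * b) ^ 2).1 = 1 + (A * B + B * A + ((φ ⬝ᵥ w) * (ψ ⬝ᵥ v)) • (A + B + A * B)) := by
    rw [pow_two]
    change (a * b).1 * (a * b).1 = _
    rw [eab, ← c1]
    have := add_self' (A + B + A * B)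
    calc _ = 1 + ((A + B + A * B) + (A + B + A * B)) + (A + B + A * B) * (A + B + A * B) := by
          noncomm_ring
      _ = _ := by rw [this, add_zero]
  by_cases hα : φ ⬝ᵥ w = 0 <;> by_cases hβ : ψ ⬝ᵥ v = 0
  · left
    apply Subtype.ext
    rw [eab, eba, AB, BA, hα, hβ]; simp
  · right; right
    refine ⟨w, (ψ ⬝ᵥ v) • φ, hw, smul_ne_zero hβ hφ, by simp [hα], ?_⟩
    rw [show ((a * b) ^ 2 : SpecialLinearGroup (Fin m) F).1 = _ from esq, BA, AB, hα]; simp
  · right; right
    refine ⟨v, (φ ⬝ᵥ w) • ψ, hv, smul_ne_zero hα hψ, by simp [hβ], ?_⟩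
    rw [show ((a * b) ^ 2 : SpecialLinearGroup (Fin m) F).1 = _ from esq, BA, AB, hβ]; simp
  · right; left
    refine ⟨_, mul_ne_zero hα hβ, ?_⟩
    set l := (φ ⬝ᵥ w) * (ψ ⬝ᵥ v)
    set M := A + B + A * B
    have e2 : (a * b).1 ^ 2 = 1 + (A * B + B * A + l • M) := by rw [← esq]; simp
    simp only [map_mul, map_add, aeval_X, map_one, map_pow, aeval_C]
    rw [e2, eab, ← Algebra.smul_def]
    have s1 : (1 + M + 1 : Matrix (Fin m) (Fin m) F) = M := by
      rw [add_right_comm, add_self', zero_add]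
    have s2 : (1 + (A * B + B * A + l • M) + l • (1 + M) + 1 : Matrix (Fin m) (Fin m) F) =
        A * B + B * A + l • 1 := by
      calc _ = (1 + 1) + (l • M + l • M) + (A * B + B * A + l • 1) := by rw [smul_add l 1 M]; abel
        _ = _ := by rw [add_self', add_self', zero_add, zero_add]
    rw [s1, s2, mul_add, c2, mul_smul_comm, mul_one, add_self']

omit [CharP F 2] in
theorem fo {a b : SpecialLinearGroup (Fin m) F} (h : orderOf ((a * b) ^ 2) = 2) :
    orderOf (a * b) = 4 := by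
  obtain ⟨h1, h2⟩ := Inv.orderOf_two_iff.1 h
  exact RootInv.fo_of_cm (by simpa [RootInv.cm, pow_two, mul_assoc] using h2)
    (by simpa [RootInv.cm, pow_two, mul_assoc] using h1)

/-- Let F be a finite field of characteristic 2 and n a natural number. Then the transvections of SL_{n+3}(F) (so in every dimension at least 3) (the conjugates of the elementary matrices 1 + c E₁₂, c ≠ 0) form a class of root involutions of SL_{n+3}(F); when F has two elements they form a class of {3,4}⁺-transpositions (every product of odd order has order 1 or 3). -/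
theorem result (F : Type*) [Field F] [Fintype F] [CharP F 2] (n : ℕ) :
    Cfsg.IsRootInvolutionClass {t : Matrix.SpecialLinearGroup (Fin (n + 3)) F | ∃ c : F, c ≠ 0 ∧
        ∃ g : Matrix.SpecialLinearGroup (Fin (n + 3)) F, ((g⁻¹ * t * g : Matrix.SpecialLinearGroup (Fin (n + 3)) F) :
          Matrix (Fin (n + 3)) (Fin (n + 3)) F) = Matrix.transvection 0 1 c} ∧
    (Fintype.card F = 2 → Cfsg.IsThreeFourPlusTranspositionSet {t : Matrix.SpecialLinearGroup (Fin (n + 3)) F | ∃ c : F, c ≠ 0 ∧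
        ∃ g : Matrix.SpecialLinearGroup (Fin (n + 3)) F, ((g⁻¹ * t * g : Matrix.SpecialLinearGroup (Fin (n + 3)) F) :
          Matrix (Fin (n + 3)) (Fin (n + 3)) F) = Matrix.transvection 0 1 c}) := by
  simp only [mem_iff]
  have hD : Cfsg.IsRootInvolutionSet {t : Matrix.SpecialLinearGroup (Fin (n + 3)) F | Tv t} := by
    refine ⟨fun d hd => hd.orderOf, Class.SL_eq_top_of_transvection_mem _ fun i j hij c => ?_,
      fun d hd g => hd.conj g, fun a ha b hb => ?_⟩
    · by_cases hc : c = 0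
      · rw [hc, SpecialLinearGroup.transvection_coeff_zero]; exact Subgroup.one_mem _
      · exact Subgroup.subset_closure (tv_transvection hij hc)
    · rcases pair ha hb with h | ⟨l, hl, h⟩ | h
      · exact Or.inl h
      · exact Or.inr (Or.inl (odd_of_cubic (orderOf_pos _) hl h))
      · exact Or.inr (Or.inr ⟨fo h.orderOf, h⟩)
  refine ⟨⟨hD, ⟨_, tv_transvection (show (0 : Fin (n + 3)) ≠ 1 by simp) one_ne_zero⟩,
    fun a ha b hb => ?_⟩, fun h2 => ⟨hD, fun a ha b hb ho => ?_⟩⟩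
  · obtain ⟨g, hg⟩ := isConj_iff.1 (S2579.result (by omega) _ _ ha.isTransvection hb.isTransvection)
    exact ⟨g, hg.symm⟩
  · rcases pair ha hb with h | ⟨l, hl, h⟩ | h
    · left
      rw [orderOf_eq_one_iff]
      refine RootInv.eq_one_of_odd_of_pow ho (k := 1) ?_
      rw [pow_one, pow_two]
      exact RootInv.mul_sq_of_commute (Inv.mul_self_of_orderOf_two ha.orderOf)
        (Inv.mul_self_of_orderOf_two hb.orderOf) h
    · have hl1 : l = 1 := by
        have := FiniteField.pow_card_sub_one_eq_one l hl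
        rwa [h2, pow_one] at this
      have e : ((X + 1) * (X ^ 2 + C l * X + 1) : F[X]) = X ^ 3 - 1 := by
        have h2 : (2 : F[X]) = 0 := CharTwo.two_eq_zero
        rw [hl1, C_1]
        linear_combination (X ^ 2 + X + 1) * h2
      rw [e] at h
      have h3 : (a * b) ^ 3 = 1 := Subtype.ext (by simpa [sub_eq_zero] using h)
      exact (Nat.dvd_prime Nat.prime_three).1 (orderOf_dvd_of_pow_eq_one h3)
    · rw [fo h.orderOf] at ho; exact absurd ho (by decide)

end Cfsg.Agent.S5058
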