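import Cfsg.Statements.S5059
import Cfsg.Agent.QP.Sig

set_option autoImplicit false
universe u
open Cfsg

namespace Cfsg.Agent.S5059

open Cfsg.Agent.RootSub Cfsg.Agent.QP in
/-- Let k be a field of characteristic not 2 with k not of order 3, M a finite-dimensional k-vector space and G ≤ GL(M) such that (G, M) is a quadratic pair (M irreducible for G, and G generated by its quadratically acting elements σ whose scalar family 1 + c(σ − 1), c ∈ k, lies in G). Write 𝒬_d for the quadratic elements of G of minimal commutator rank, E(σ) for the subgroup generated by the members of 𝒬_d with the same fixed space and commutator space as σ, and Σ for the set of these subgroups. Then for σ ∈ 𝒬_d the subgroup E(σ) consists exactly of those members together with the identity, it is abelian, and if k has prime characteristic p every element of E(σ) has order dividing p. -/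
theorem result {k : Type u} [Field k] (hk2 : ringChar k ≠ 2) (hk3 : Nat.card k ≠ 3)
    {M : Type u} [AddCommGroup M] [Module k M] [FiniteDimensional k M]
    {G : Subgroup (LinearMap.GeneralLinearGroup k M)} (hG : Cfsg.IsQuadraticPair G)
    {σ : LinearMap.GeneralLinearGroup k M} (hσ : σ ∈ Cfsg.minimalQuadraticElements G) :
    (Cfsg.sameActionSubgroup G σ : Set (LinearMap.GeneralLinearGroup k M)) = Cfsg.sameActionClass G σ ∪ {1} ∧
    IsMulCommutative ↥(Cfsg.sameActionSubgroup G σ) ∧
    (∀ p : ℕ, p.Prime → ringChar k = p → ∀ x ∈ Cfsg.sameActionSubgroup G σ, x ^ p = 1) := by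
  have hs := mem_min_iff.mp hσ
  rw [sameActionSubgroup_eq hσ]
  refine ⟨?_, Subgroup.commutator_self_eq_bot_iff.mp (Eg_comm hs.1.1), fun p _ hp x hx => ?_⟩
  · ext g
    constructor
    · intro hg
      by_cases h1 : g = 1
      · exact Or.inr h1
      · have := hs.ee (hg hs.1.1) (sub_one_ne_zero h1)
        exact Or.inl ⟨mem_min_iff.mpr this.1, this.2⟩
    · rintro (⟨h1, h2, h3⟩ | rfl)
      · exact fun _ => ⟨(mem_min_iff.mp h1).1, h2.ge, h3.le⟩
      · exact Subgroup.one_mem _
  · have h0 := (hx hs.1.1).1.1
    have key : ∀ n : ℕ, (x ^ n).val = 1 + (n : k) • (x.val - 1) := by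
      intro n
      induction n with
      | zero => simp
      | succ n ih =>
        rw [pow_succ, Units.val_mul, ih]
        generalize hy : x.val - 1 = y at h0 ⊢
        rw [show x.val = 1 + y by rw [← hy]; abel]
        simp only [add_mul, mul_add, smul_mul_assoc, h0, one_mul, mul_one, Nat.cast_succ]
        module
    apply Units.ext
    rw [key, ← hp, ringChar.Nat.cast_ringChar]
    simp

end Cfsg.Agent.S5059
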