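import Cfsg.Statements.S5060
import Cfsg.Agent.QP.Gen

set_option autoImplicit false
open Cfsg

namespace Cfsg.Agent.S5060

open Cfsg.Agent.RootSub in
/-- Let k ⊆ K be fields with the characteristic of k not 2 and k not of order 3, and let α ∈ K be a non-zero element algebraic over k. Then the subgroup of SL₂(K) generated by the upper unitriangular matrices with entry c and the lower unitriangular matrices with entry cα, c ranging over k, is exactly the group of matrices of SL₂(K) with all entries in k(α). -/
theorem result {k K : Type*} [Field k] [Field K] [Algebra k K] (hk2 : ringChar k ≠ 2) (hk3 : Nat.card k ≠ 3)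
    (α : K) (hα : IsAlgebraic k α) (hα0 : α ≠ 0) :
    (Subgroup.closure ({g : Matrix.SpecialLinearGroup (Fin 2) K | ∃ c : k, (g : Matrix (Fin 2) (Fin 2) K) = !![1, algebraMap k K c; 0, 1]} ∪
        {g : Matrix.SpecialLinearGroup (Fin 2) K | ∃ c : k, (g : Matrix (Fin 2) (Fin 2) K) = !![1, 0; algebraMap k K c * α, 1]}) :
      Set (Matrix.SpecialLinearGroup (Fin 2) K)) =
    {g : Matrix.SpecialLinearGroup (Fin 2) K | ∀ i j : Fin 2, (g : Matrix (Fin 2) (Fin 2) K) i j ∈ IntermediateField.adjoin k ({α} : Set K)} := by
  apply Set.Subset.antisymm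
  · intro g hg
    induction hg using Subgroup.closure_induction with
    | mem g hg =>
      have hαL := IntermediateField.mem_adjoin_simple_self k α
      rcases hg with ⟨c, hc⟩ | ⟨c, hc⟩ <;> intro i j <;> rw [hc] <;> fin_cases i <;> fin_cases j <;>
        simp [mul_mem, hαL]
    | one => intro i j; fin_cases i <;> fin_cases j <;> simp
    | mul g h _ _ h1 h2 =>
      intro i j
      have := sl2_mul_apply g h i j
      exact this ▸ add_mem (mul_mem (h1 _ _) (h2 _ _)) (mul_mem (h1 _ _) (h2 _ _))
    | inv g _ h =>
      intro i j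
      rw [Matrix.SpecialLinearGroup.coe_inv, Matrix.adjugate_fin_two]
      fin_cases i <;> fin_cases j <;> simp [h _ _]
  · intro g hg
    exact QP.gen_sl2 (QP.two_ne_zero_of_ringChar hk2) hk3 hα hα0
      (fun c => Subgroup.subset_closure (Or.inl ⟨c, rfl⟩))
      (fun c => Subgroup.subset_closure (Or.inr ⟨c, rfl⟩)) hg

end Cfsg.Agent.S5060
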