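import Cfsg.Statements.S5063
import Cfsg.Agent.QP.Center

set_option autoImplicit false
universe u
open Cfsg

namespace Cfsg.Agent.S5063

open Cfsg.Agent.RootSub Cfsg.Agent.QP in
/-- Let k be a field of characteristic not 2 with k not of order 3, M a finite-dimensional k-vector space and G ≤ GL(M) such that (G, M) is a quadratic pair (M irreducible for G, and G generated by its quadratically acting elements σ whose scalar family 1 + c(σ − 1), c ∈ k, lies in G). Write 𝒬_d for the quadratic elements of G of minimal commutator rank, E(σ) for the subgroup generated by the members of 𝒬_d with the same fixed space and commutator space as σ, and Σ for the set of these subgroups. Then G is a central product of finitely many quasisimple normal subgroups G₁, …, G_s (pairwise commuting and together generating G), each generated by the quadratic elements of G it contains, and every quadratic element of G lies in one of them. -/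
theorem result {k : Type u} [Field k] (hk2 : ringChar k ≠ 2) (hk3 : Nat.card k ≠ 3)
    {M : Type u} [AddCommGroup M] [Module k M] [FiniteDimensional k M]
    {G : Subgroup (LinearMap.GeneralLinearGroup k M)} (hG : Cfsg.IsQuadraticPair G) :
    ∃ (s : ℕ) (Gi : Fin s → Subgroup (LinearMap.GeneralLinearGroup k M)),
      (∀ i, Gi i ≤ G ∧ ∀ g ∈ G, Cfsg.conjBy (Gi i) g = Gi i) ∧ (∀ i j, i ≠ j → ⁅Gi i, Gi j⁆ = ⊥) ∧ (⨆ i, Gi i) = G ∧
      (∀ i, Cfsg.IsQuasisimple ↥(Gi i) ∧ Subgroup.closure (Cfsg.quadraticElements G ∩ (Gi i : Set (LinearMap.GeneralLinearGroup k M))) = Gi i) ∧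
      Cfsg.quadraticElements G ⊆ ⋃ i, (Gi i : Set (LinearMap.GeneralLinearGroup k M)) := by
  obtain ⟨F, f1, f2, f3, f4, f5⟩ := central_product (two_ne_zero_of_ringChar hk2) hk3
    (Module.finrank k M + 1) G (noFix_of_irreducible hG.1) hG.2 (fun t _ _ => by omega)
  obtain ⟨r, Gi, inj, hr⟩ := f1.fin_param
  have hi : ∀ i, Gi i ∈ F := fun i => hr ▸ Set.mem_range_self i
  have h5 : quadraticElements G ⊆ ⋃ i, (Gi i : Set (LinearMap.GeneralLinearGroup k M)) := by
    intro g hg
    obtain ⟨X, hX, e⟩ := f5 g hg
    obtain ⟨i, rfl⟩ : X ∈ Set.range Gi := hr ▸ hX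
    exact Set.mem_iUnion.mpr ⟨i, e⟩
  refine ⟨r, Gi, fun i => f2 _ (hi i), fun i j hij => f3 _ (hi i) _ (hi j) (inj.ne hij),
    le_antisymm (iSup_le fun i => (f2 _ (hi i)).1) ?_, fun i => f4 _ (hi i), h5⟩
  conv_lhs => rw [← hG.2]
  rw [Subgroup.closure_le]
  intro g hg
  obtain ⟨i, e⟩ := Set.mem_iUnion.mp (h5 hg)
  exact le_iSup Gi i e

end Cfsg.Agent.S5063
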