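import Cfsg.Statements.S5064
import Cfsg.Agent.QP.Sig

set_option autoImplicit false
universe u
open Cfsg

namespace Cfsg.Agent.S5064

open Cfsg.Agent.RootSub Cfsg.Agent.QP Polynomial in
/-- Let k be a field of characteristic not 2 with k not of order 3, M a finite-dimensional k-vector space and G ≤ GL(M) such that (G, M) is a quadratic pair (M irreducible for G, and G generated by its quadratically acting elements σ whose scalar family 1 + c(σ − 1), c ∈ k, lies in G). Write 𝒬_d for the quadratic elements of G of minimal commutator rank, E(σ) for the subgroup generated by the members of 𝒬_d with the same fixed space and commutator space as σ, and Σ for the set of these subgroups. If σ, τ ∈ 𝒬_d and the subgroup H generated by their two scalar families does not act unipotently on M, then H is isomorphic to SL₂ over a simple algebraic extension k(λ) of k. -/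
theorem result {k : Type u} [Field k] (hk2 : ringChar k ≠ 2) (hk3 : Nat.card k ≠ 3)
    {M : Type u} [AddCommGroup M] [Module k M] [FiniteDimensional k M]
    {G : Subgroup (LinearMap.GeneralLinearGroup k M)} (hG : Cfsg.IsQuadraticPair G)
    {σ τ : LinearMap.GeneralLinearGroup k M} (hσ : σ ∈ Cfsg.minimalQuadraticElements G) (hτ : τ ∈ Cfsg.minimalQuadraticElements G)
    (hH : ¬ Cfsg.IsUnipotentOn (Subgroup.closure (Cfsg.scalarFamily σ ∪ Cfsg.scalarFamily τ))) :
    ∃ (K : Type u) (_ : Field K) (_ : Algebra k K) (lam : K), IsAlgebraic k lam ∧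
      IntermediateField.adjoin k ({lam} : Set K) = ⊤ ∧
      Nonempty (↥(Subgroup.closure (Cfsg.scalarFamily σ ∪ Cfsg.scalarFamily τ)) ≃* Matrix.SpecialLinearGroup (Fin 2) K) := by
  have h2 := two_ne_zero_of_ringChar hk2
  have hs := mem_min_iff.mp hσ
  have ht := mem_min_iff.mp hτ
  have ho : Opp (σ.val - 1) (τ.val - 1) := by
    by_contra hc
    refine hH (unip_mono (hs.unip_of_not_opp h2 hk3 ht hc) ?_)
    rw [Subgroup.closure_le]
    rintro g (⟨c, hc⟩ | ⟨c, hc⟩)
    · exact Subgroup.mem_sup_left ((hs.1.ee.smul c).mem_of_eq hc)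
    · exact Subgroup.mem_sup_right ((ht.1.ee.smul c).mem_of_eq hc)
  have e0 : Cfsg.scalarFamily σ ∪ Cfsg.scalarFamily τ = {g | ∃ c : k, g.val = 1 + c • (σ.val - 1)} ∪
    {g | ∃ c : k, g.val = 1 + c • (τ.val - 1)} := rfl
  rw [e0]
  generalize σ.val - 1 = s at hs ho
  generalize τ.val - 1 = t at ht ho
  have hz : ¬ IsNilpotent (s * t + t * s) := fun hn =>
    not_opp_of_eq_zero hs.2.1 (hs.nil' h2 ht hn).1 ho
  obtain ⟨f, hf, hfX, fs⟩ := hs.exists_irred h2 hk3 ht.1 hz
  obtain ⟨g, hg, hgX, gt⟩ := ht.exists_irred h2 hk3 hs.1 (by rwa [add_comm])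
  rw [add_comm] at gt
  let := polyMod (k := k) (s * t + t * s)
  have := polyMod_tower (k := k) (s * t + t * s)
  have h : Two k s t := two_polyMod hs.1.1 ht.1.1
  have hC : ∀ (c : k) (x : Module.End k M), C c • x = c • x := fun c x => by
    change aeval _ (C c) * x = _
    rw [aeval_C, Algebra.smul_def]
  replace fs : f • s = 0 := fs
  replace gt : g • t = 0 := gt
  have ft : f • t = 0 := by
    have h1 : (f * X) • t = 0 := by
      have := congrArg (fun x => t * x * t) fs
      simp only [h.nf] at this
      linear_combination (norm := module) this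
    exact smul_eq_zero_of_dvd gt
      ((hg.prime.dvd_or_dvd (dvd_of_smul_eq_zero hg gt ht.2.1 h1)).resolve_right hgX)
  obtain ⟨a, b, e⟩ := hf.coprime_iff_not_dvd.mpr hfX
  have key : ∀ x : Module.End k M, f • x = 0 → (b * X) • x = x := fun x hx => by
    rw [show b * X = 1 - a * f by linear_combination e, sub_smul, mul_smul, hx]; simp
  have es := key s fs
  have et := key t ft
  have tr : Tri s (b • t) := ⟨hs.1.1, by simp only [h.nf],
    by simp only [h.nf]; linear_combination (norm := module) es,
    by simp only [h.nf]; linear_combination (norm := module) b • et⟩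
  have fe : f • (b * X) • (1 : Module.End k M) = 0 := by
    have h1 := congrArg (fun x => x * t + t * x) fs
    simp only [h.nf] at h1
    linear_combination (norm := module) b • h1
  have : Fact (Irreducible f) := ⟨hf⟩
  let ι : AdjoinRoot f → Module.End k M := fun β =>
    (AdjoinRoot.mk_surjective β).choose • (b * X) • (1 : Module.End k M)
  have hι : ∀ p, ι (AdjoinRoot.mk f p) = p • (b * X) • (1 : Module.End k M) := fun p => by
    rw [← sub_eq_zero, ← sub_smul]
    exact smul_eq_zero_of_dvd fe (AdjoinRoot.mk_eq_mk.mp (AdjoinRoot.mk_surjective _).choose_spec)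
  have h2' : (2 : AdjoinRoot f) ≠ 0 := by
    rw [← map_ofNat (AdjoinRoot.of f) 2]; exact (_root_.map_ne_zero _).mpr h2
  obtain ⟨φ, inj, hx, hy⟩ := tr.exists_hom hs.2.1 h2' ι
    (fun p q => by
      obtain ⟨p, rfl⟩ := AdjoinRoot.mk_surjective p
      obtain ⟨q, rfl⟩ := AdjoinRoot.mk_surjective q
      rw [← map_add, hι, hι, hι, add_smul])
    (fun p q => by
      obtain ⟨p, rfl⟩ := AdjoinRoot.mk_surjective p
      obtain ⟨q, rfl⟩ := AdjoinRoot.mk_surjective q
      rw [← map_mul, hι, hι, hι]
      simp only [h.nf]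
      linear_combination (norm := module) -(p * q) • key _ fe)
    (by rw [← map_one (AdjoinRoot.mk f), hι]; simp only [h.nf]; module)
    (fun p => by simp only [ι, h.nf]) (fun p => by simp only [ι, h.nf]; module)
  have ex : ∀ c : k, (φ (xx (algebraMap k (AdjoinRoot f) c))).val = 1 + c • s := fun c => by
    rw [hx, AdjoinRoot.algebraMap_eq, ← AdjoinRoot.mk_C, hι, ← hC]
    simp only [h.nf, es]
  have ey : ∀ c : k, (φ (yy (algebraMap k (AdjoinRoot f) c * AdjoinRoot.root f))).val = 1 + c • t := fun c => by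
    rw [hy, AdjoinRoot.algebraMap_eq, ← AdjoinRoot.mk_C, ← AdjoinRoot.mk_X, ← map_mul, hι, ← hC]
    simp only [h.nf]
    linear_combination (norm := module) (C c * (b * X) + C c : k[X]) • et
  have hadj : IntermediateField.adjoin k {AdjoinRoot.root f} = ⊤ := by
    rw [eq_top_iff]
    intro x _
    apply IntermediateField.algebra_adjoin_le_adjoin
    rw [AdjoinRoot.adjoinRoot_eq_top]; trivial
  refine ⟨AdjoinRoot f, inferInstance, inferInstance, AdjoinRoot.root f,
    AdjoinRoot.isAlgebraic_root hf.ne_zero, hadj,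
    ⟨(MulEquiv.subgroupCongr ?_).trans (MonoidHom.ofInjective inj).symm⟩⟩
  refine le_antisymm ?_ ?_
  · rw [Subgroup.closure_le]
    rintro g (⟨c, hc⟩ | ⟨c, hc⟩)
    · exact ⟨_, Units.ext ((ex c).trans hc.symm)⟩
    · exact ⟨_, Units.ext ((ey c).trans hc.symm)⟩
  · rintro _ ⟨A, rfl⟩
    rw [← Subgroup.mem_comap]
    refine gen_sl2 (α := AdjoinRoot.root f) h2 hk3 (AdjoinRoot.isAlgebraic_root hf.ne_zero) ?_
      (fun c => ?_) (fun c => ?_) fun i j => hadj ▸ IntermediateField.mem_top
    · rwa [Ne, ← AdjoinRoot.mk_X, AdjoinRoot.mk_eq_zero]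
    · rw [Subgroup.mem_comap]
      apply Subgroup.subset_closure
      left
      rw [Set.mem_setOf_eq]
      exact ⟨c, ex c⟩
    · rw [Subgroup.mem_comap]
      apply Subgroup.subset_closure
      right
      rw [Set.mem_setOf_eq]
      exact ⟨c, ey c⟩

end Cfsg.Agent.S5064
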