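import Cfsg.Statements.S5065
import Cfsg.Agent.QP.Sig

set_option autoImplicit false
universe u
open Cfsg

namespace Cfsg.Agent.S5065

open Cfsg.Agent.RootSub Cfsg.Agent.QP Polynomial in
/-- Let k be a field of characteristic not 2 with k not of order 3, M a finite-dimensional k-vector space and G ≤ GL(M) such that (G, M) is a quadratic pair (M irreducible for G, and G generated by its quadratically acting elements σ whose scalar family 1 + c(σ − 1), c ∈ k, lies in G). Write 𝒬_d for the quadratic elements of G of minimal commutator rank, E(σ) for the subgroup generated by the members of 𝒬_d with the same fixed space and commutator space as σ, and Σ for the set of these subgroups. For σ, τ ∈ 𝒬_d put A = E(σ), B = E(τ) and X = ⟨A, B⟩. Then either X acts unipotently on M, or A and B are the unipotent subgroups of a special rank one group X; in the latter case X contains exactly one central involution acting as −1 on the commutator space [M, X] and trivially on the fixed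 space C_M(X), and M is the direct sum of C_M(X) and [M, X]. -/
theorem result {k : Type u} [Field k] (hk2 : ringChar k ≠ 2) (hk3 : Nat.card k ≠ 3)
    {M : Type u} [AddCommGroup M] [Module k M] [FiniteDimensional k M]
    {G : Subgroup (LinearMap.GeneralLinearGroup k M)} (hG : Cfsg.IsQuadraticPair G)
    {σ τ : LinearMap.GeneralLinearGroup k M} (hσ : σ ∈ Cfsg.minimalQuadraticElements G) (hτ : τ ∈ Cfsg.minimalQuadraticElements G) :
    Cfsg.IsUnipotentOn (Cfsg.sameActionSubgroup G σ ⊔ Cfsg.sameActionSubgroup G τ) ∨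
    (Cfsg.IsSpecialRankOnePair (Cfsg.sameActionSubgroup G σ) (Cfsg.sameActionSubgroup G τ) ∧
      (∃! i : LinearMap.GeneralLinearGroup k M, i ∈ Cfsg.sameActionSubgroup G σ ⊔ Cfsg.sameActionSubgroup G τ ∧ i ≠ 1 ∧ i * i = 1 ∧
        (∀ x ∈ Cfsg.sameActionSubgroup G σ ⊔ Cfsg.sameActionSubgroup G τ, i * x = x * i) ∧
        (∀ m ∈ Cfsg.commutatorSubmodule (Cfsg.sameActionSubgroup G σ ⊔ Cfsg.sameActionSubgroup G τ), (i : M →ₗ[k] M) m = -m) ∧
        (∀ m ∈ Cfsg.fixedSubmodule (Cfsg.sameActionSubgroup G σ ⊔ Cfsg.sameActionSubgroup G τ), (i : M →ₗ[k] M) m = m)) ∧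
      IsCompl (Cfsg.fixedSubmodule (Cfsg.sameActionSubgroup G σ ⊔ Cfsg.sameActionSubgroup G τ))
        (Cfsg.commutatorSubmodule (Cfsg.sameActionSubgroup G σ ⊔ Cfsg.sameActionSubgroup G τ))) := by
  have h2 := two_ne_zero_of_ringChar hk2
  have hs := mem_min_iff.mp hσ
  have ht := mem_min_iff.mp hτ
  rw [sameActionSubgroup_eq hσ, sameActionSubgroup_eq hτ]
  generalize σ.val - 1 = s at hs
  generalize τ.val - 1 = t at ht
  by_cases ho : Opp s t
  swap
  · exact Or.inl (hs.unip_of_not_opp h2 hk3 ht ho)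
  refine Or.inr ⟨ho.special h2 hk3 hs ht, ?_⟩
  obtain ⟨y, hy, hy0, tr⟩ := ho.exists_tri h2 hk3 hs ht hs.1.ee hs.2.1
  rw [← ht.Eg_eq hy hy0]
  obtain ⟨ε, hε⟩ : ∃ ε, ε = s * y + y * s := ⟨_, rfl⟩
  have idem : ε * ε = ε := by rw [hε]; simp only [tr.nf]; abel
  have key : ∀ g ∈ Eg G s ⊔ Eg G y, (1 - ε) * (g.val - 1) = 0 ∧ (g.val - 1) * (1 - ε) = 0 := by
    intro g hg
    refine sup_induction' (p := fun g => (1 - ε) * (g.val - 1) = 0 ∧ (g.val - 1) * (1 - ε) = 0)
      (fun a ha => ⟨mul_eq_zero_of_range_le (ha tr.uu).2.2 ?_,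
        mul_eq_zero_of_ker_le (ha tr.uu).2.1 ?_⟩)
      (fun a ha => ⟨mul_eq_zero_of_range_le (ha tr.vv).2.2 ?_,
        mul_eq_zero_of_ker_le (ha tr.vv).2.1 ?_⟩) (by simp) ?_ hg
    · rw [hε]; simp only [tr.nf]; abel
    · rw [hε]; simp only [tr.nf]; abel
    · rw [hε]; simp only [tr.nf]; abel
    · rw [hε]; simp only [tr.nf]; abel
    · rintro a b ⟨a1, a2⟩ ⟨b1, b2⟩
      have e : (a * b).val - 1 = (a.val - 1) * (b.val - 1) + (a.val - 1) + (b.val - 1) := by
        simp only [Units.val_mul, tr.nf]; abel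
      rw [e]
      constructor
      · rw [mul_add, mul_add, ← mul_assoc, a1, b1]; simp
      · rw [add_mul, add_mul, mul_assoc, a2, b2]; simp
  have ms : ex s tr.uu ∈ Eg G s ⊔ Eg G y := Subgroup.mem_sup_left hs.1.ee.ex_mem
  have my : ex y tr.vv ∈ Eg G s ⊔ Eg G y := Subgroup.mem_sup_right hy.1.ee.ex_mem
  have e1 : fixedSubmodule (Eg G s ⊔ Eg G y) = LinearMap.ker ε := by
    refine le_antisymm (fun m hm => ?_) (le_iInf₂ fun g hg m hm => ?_)
    · have a := iInf₂_le (f := fun g (_ : g ∈ Eg G s ⊔ Eg G y) => LinearMap.ker (g.val - 1)) _ ms hm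
      have b := iInf₂_le (f := fun g (_ : g ∈ Eg G s ⊔ Eg G y) => LinearMap.ker (g.val - 1)) _ my hm
      rw [ex_sub, LinearMap.mem_ker] at a b
      simp [hε, a, b]
    · have := LinearMap.congr_fun (key g hg).2 m
      rwa [Module.End.mul_apply, LinearMap.sub_apply 1 ε, LinearMap.mem_ker.mp hm, sub_zero] at this
  have e2 : commutatorSubmodule (Eg G s ⊔ Eg G y) = LinearMap.range ε := by
    refine le_antisymm (iSup₂_le fun g hg => ?_) ?_
    · have := (key g hg).1
      rw [sub_mul, one_mul, sub_eq_zero] at this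
      rw [this]; exact range_mul_le _ _
    · have a := le_iSup₂ (f := fun g (_ : g ∈ Eg G s ⊔ Eg G y) => LinearMap.range (g.val - 1)) _ ms
      have b := le_iSup₂ (f := fun g (_ : g ∈ Eg G s ⊔ Eg G y) => LinearMap.range (g.val - 1)) _ my
      rw [ex_sub] at a b
      rintro _ ⟨m, rfl⟩
      rw [hε]
      exact Submodule.add_mem _ (a ⟨_, rfl⟩) (b ⟨_, rfl⟩)
  rw [e1, e2]
  refine ⟨?_, (LinearMap.IsIdempotentElem.isCompl idem).symm⟩
  obtain ⟨i, hi, e3⟩ : ∃ i ∈ Eg G s ⊔ Eg G y, i.val = 1 - ε - ε := by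
    refine ⟨(ex s tr.uu * (ex y tr.vv)⁻¹ * ex s tr.uu) * (ex s tr.uu * (ex y tr.vv)⁻¹ * ex s tr.uu),
      ?_, ?_⟩
    · have := Subgroup.mul_mem _ (Subgroup.mul_mem _ ms (Subgroup.inv_mem _ my)) ms
      exact Subgroup.mul_mem _ this this
    · change (1 + s) * (1 - y) * (1 + s) * ((1 + s) * (1 - y) * (1 + s)) = _
      rw [hε]; simp only [tr.nf]; abel
  refine ⟨i, ⟨hi, fun e => hs.2.1 (eq_zero_of_two_smul h2 ?_), Units.ext ?_, fun x hx => Units.ext ?_,
    ?_, fun m hm => ?_⟩, ?_⟩
  · have := congrArg (· * s) e3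
    rw [e, hε] at this
    simp only [tr.nf, Units.val_one] at this
    linear_combination (norm := abel) this
  · rw [Units.val_mul, e3]; simp only [tr.nf, idem, Units.val_one]; abel
  · obtain ⟨a, b⟩ := key x hx
    rw [Units.val_mul, Units.val_mul, e3]
    simp only [tr.nf] at a b ⊢
    linear_combination (norm := abel) a + a - b - b
  · rintro _ ⟨m, rfl⟩
    have : ε (ε m) = ε m := LinearMap.congr_fun idem m
    change i.val _ = _
    simp [e3, this]
  · change i.val _ = _
    simp [e3, LinearMap.mem_ker.mp hm]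
  · rintro j ⟨-, -, -, -, j1, j2⟩
    ext m
    have a := j1 (ε m) ⟨m, rfl⟩
    have b := j2 (m - ε m) (by
      rw [LinearMap.mem_ker, map_sub, sub_eq_zero]; exact (LinearMap.congr_fun idem m).symm)
    rw [map_sub, a] at b
    rw [e3]
    simp only [LinearMap.sub_apply, Module.End.one_apply]
    linear_combination (norm := abel) b

end Cfsg.Agent.S5065
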