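import Cfsg.Statements.S5067
import Cfsg.Agent.RootSub.Basic

set_option autoImplicit false
open Cfsg

namespace Cfsg.Agent.S5067

open Cfsg.Agent.RootSub Subgroup in
/-- Let P be a non-abelian nilpotent p-group (every element of p-power order; P possibly infinite) generated by two abelian subgroups E and F. Then the normal closure of E in P, and likewise that of F, has nilpotency class strictly smaller than that of P. -/
theorem result {P : Type*} [Group P] {p : ℕ} [Fact p.Prime] (hP : IsPGroup p P) [Group.IsNilpotent P]
    (hna : ¬ IsMulCommutative P) {E F : Subgroup P} (hE : IsMulCommutative ↥E) (hF : IsMulCommutative ↥F) (hgen : E ⊔ F = ⊤) :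
    Group.nilpotencyClass ↥(Subgroup.normalClosure (E : Set P)) < Group.nilpotencyClass P ∧
    Group.nilpotencyClass ↥(Subgroup.normalClosure (F : Set P)) < Group.nilpotencyClass P := by
  have key : ∀ E : Subgroup P, IsMulCommutative ↥E →
      Group.nilpotencyClass ↥(normalClosure (E : Set P)) < Group.nilpotencyClass P := by
    intro E hE
    have hn : (commutator P ⊔ E).Normal := Subgroup.Normal.of_commutator_le P le_sup_left
    have hN : normalClosure (E : Set P) ≤ commutator P ⊔ E :=
      normalClosure_le_normal (le_sup_right (a := commutator P))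
    have hEE : ⁅E, E⁆ = ⊥ := commutator_self_eq_bot_iff.mpr hE
    have t : ∀ X : Subgroup P, X ≤ normalizer ((⊤ : Subgroup P).lowerCentralSeries 2 : Set P) :=
      fun X => le_normalizer_of_normal
    have c : ∀ X : Subgroup P, ⁅commutator P, X⁆ ≤ (⊤ : Subgroup P).lowerCentralSeries 2 :=
      fun X => commutator_mono le_rfl le_top
    have h1 : ∀ k, (normalClosure (E : Set P)).lowerCentralSeries (k + 1) ≤
        (⊤ : Subgroup P).lowerCentralSeries (k + 2) := by
      intro k
      induction k with
      | zero =>
        refine (commutator_mono hN hN).trans (commutator_sup_left_le (c _)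
          (commutator_sup_right_le ?_ (by rw [hEE]; exact bot_le) (t _) (t _)) (t _) (t _))
        rw [commutator_comm]; exact c _
      | succ k ih => exact commutator_mono ih le_top
    obtain ⟨k, hk⟩ : ∃ k, Group.nilpotencyClass P = k + 2 := by
      have := mt Group.IsNilpotent.nilpotencyClass_le_one_iff.mp hna
      exact ⟨Group.nilpotencyClass P - 2, by omega⟩
    have h2 := h1 k
    rw [← hk, Subgroup.lowerCentralSeries_nilpotencyClass, le_bot_iff, ← top_subtype_lowerCentralSeries,
      map_eq_bot_iff_of_injective _ (subtype_injective _),
      Subgroup.lowerCentralSeries_eq_bot_iff_nilpotencyClass_le] at h2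
    omega
  exact ⟨key E hE, key F hF⟩

end Cfsg.Agent.S5067
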