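import Cfsg.Statements.S5069
import Cfsg.Agent.QP.Split

set_option autoImplicit false
universe u
open Cfsg

namespace Cfsg.Agent.S5069

open Cfsg.Agent.RootSub Cfsg.Agent.QP in
/-- Let k be a field of characteristic not 2 with k not of order 3, M a finite-dimensional k-vector space and G ≤ GL(M) such that (G, M) is a quadratic pair (M irreducible for G, and G generated by its quadratically acting elements σ whose scalar family 1 + c(σ − 1), c ∈ k, lies in G). Write 𝒬_d for the quadratic elements of G of minimal commutator rank, E(σ) for the subgroup generated by the members of 𝒬_d with the same fixed space and commutator space as σ, and Σ for the set of these subgroups. Then Σ is a disjoint union of finitely many parts Σ₁, …, Σ_r such that the subgroups G_i generated by the Σ_i commute pairwise, each G_i is quasisimple, and inside G_i the members of Σ_i form a class of abstract root subgroups in which every rank one pair A, B contains subgroups A₀ ≤ A, B₀ ≤ B generating an image of SL₂(k₁) with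 central kernel on unitriangular subgroups for some field k₁ with at least four elements. -/
theorem result {k : Type u} [Field k] (hk2 : ringChar k ≠ 2) (hk3 : Nat.card k ≠ 3)
    {M : Type u} [AddCommGroup M] [Module k M] [FiniteDimensional k M]
    {G : Subgroup (LinearMap.GeneralLinearGroup k M)} (hG : Cfsg.IsQuadraticPair G) :
    ∃ (r : ℕ) (part : Fin r → Set (Subgroup (LinearMap.GeneralLinearGroup k M))),
      (⋃ i, part i) = Cfsg.quadraticRootSubgroups G ∧ (∀ i j, i ≠ j → Disjoint (part i) (part j)) ∧ (∀ i, (part i).Nonempty) ∧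
      (∀ i j, i ≠ j → ⁅(⨆ A ∈ part i, A), (⨆ A ∈ part j, A)⁆ = ⊥) ∧
      (∀ i, Cfsg.IsQuasisimple ↥(⨆ A ∈ part i, A) ∧
        Cfsg.IsRootSubgroupClass ((fun A : Subgroup (LinearMap.GeneralLinearGroup k M) => A.subgroupOf (⨆ B ∈ part i, B)) '' (part i)) ∧
        ∀ A ∈ part i, ∀ B ∈ Cfsg.rankOnePartners (part i) A, ∃ A₀ B₀ : Subgroup (LinearMap.GeneralLinearGroup k M), A₀ ≤ A ∧ B₀ ≤ B ∧
          ∃ (k₁ : Type u) (_ : Field k₁), 3 < ENat.card k₁ ∧ Cfsg.IsPSL2PairOver k₁ A₀ B₀) := by
  have h2 := two_ne_zero_of_ringChar hk2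
  have hN := noFix_of_irreducible hG.1
  have ha := sig_amb h2 hk3 hN
  obtain ⟨r, part, inj, hr⟩ := (comp_finite h2 hk3 hN).fin_param
  have hp : ∀ i, ∃ A ∈ quadraticRootSubgroups G, part i =
      componentOf (FAdj (quadraticRootSubgroups G)) (quadraticRootSubgroups G) A := fun i => by
    have := Set.mem_range_self (f := part) i
    rwa [hr] at this
  refine ⟨r, part, ?_, fun i j hij => ?_, fun i => ?_, fun i j hij => ?_, fun i => ?_⟩
  · refine Set.Subset.antisymm (Set.iUnion_subset fun i => ?_) fun A hA => ?_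
    · obtain ⟨A, -, e⟩ := hp i
      rw [e]; exact fun B hB => hB.1
    · obtain ⟨i, e⟩ : componentOf (FAdj (quadraticRootSubgroups G)) (quadraticRootSubgroups G) A ∈
        Set.range part := by rw [hr]; exact ⟨A, hA, rfl⟩
      exact Set.mem_iUnion.mpr ⟨i, e ▸ ⟨hA, .refl⟩⟩
  · obtain ⟨A, -, e⟩ := hp i
    obtain ⟨B, -, e'⟩ := hp j
    rw [Set.disjoint_left]
    intro C h1 h4
    rw [e] at h1
    rw [e'] at h4
    exact hij (inj (by rw [e, e', componentOf_eq_of_freach (h1.2.trans (freach_symm h4.2))]))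
  · obtain ⟨A, hA, e⟩ := hp i
    exact ⟨A, e ▸ ⟨hA, .refl⟩⟩
  · obtain ⟨A, -, e⟩ := hp i
    obtain ⟨B, -, e'⟩ := hp j
    have := inj.ne hij
    rw [e, e'] at this ⊢
    exact ha.comp_comm this
  · obtain ⟨A, hA, e⟩ := hp i
    rw [e]
    refine ⟨comp_quasisimple h2 hk3 hN hA, ha.comp_class hA, fun B hB C hC => ?_⟩
    obtain ⟨s, t, hs, ht, rfl, rfl, ho⟩ := sig_opp_of_rankOne h2 hk3 hN hB.1 hC.1.1 hC.2
    obtain ⟨A₀, B₀, a, b, c⟩ := ho.psl2 h2 hk3 hs ht
    exact ⟨A₀, B₀, a, b, k, inferInstance, three_lt_card h2 hk3, c⟩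

end Cfsg.Agent.S5069
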