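import Cfsg.Statements.S5072
import Cfsg.Agent.RootSub.LinSiegel

set_option autoImplicit false
open Matrix
open Cfsg

namespace Cfsg.Agent.S5072

open Cfsg.Agent.RootSub Cfsg.Agent.Class.Orth in
/-- Let F be a field, m a natural number and V = F^{2(m+3)} with the hyperbolic quadratic form q(x, y) = Σ xᵢ yᵢ (non-degenerate, Witt index m + 3 ≥ 3). For a singular line ℓ (a 2-dimensional subspace on which q vanishes) let T(ℓ) be the group of isometries of q fixing every vector of ℓ^⊥ (the Siegel transvection group of ℓ), let Σ be the set of these groups and G₀ the subgroup they generate. Then, viewed inside G₀, the members of Σ form a set of abstract F-root subgroups of G₀ (any two commute, or are the unipotent subgroups of a rank one group that is an image of SL₂(F) with central kernel, or satisfy the commutator case), and their graph of rank one pairs is connected. -/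
theorem result (F : Type*) [Field F] (m : ℕ) :
    Cfsg.IsKRootSubgroupSet F ((fun A : Subgroup ↥(Cfsg.isometryGroup F (Cfsg.quadFormPlus (m + 3) F)) => A.subgroupOf (⨆ B ∈ {A : Subgroup ↥(Cfsg.isometryGroup F (Cfsg.quadFormPlus (m + 3) F)) | ∃ p r : Fin (m + 3) ⊕ Fin (m + 3) → F, LinearIndependent F ![p, r] ∧
          Cfsg.quadFormPlus (m + 3) F p = 0 ∧ Cfsg.quadFormPlus (m + 3) F r = 0 ∧
          Cfsg.quadFormPlus (m + 3) F (p + r) = 0 ∧
          A = Subgroup.closure {σ : ↥(Cfsg.isometryGroup F (Cfsg.quadFormPlus (m + 3) F)) | ∀ v : Fin (m + 3) ⊕ Fin (m + 3) → F,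
            Cfsg.quadFormPlus (m + 3) F (v + p) - Cfsg.quadFormPlus (m + 3) F v - Cfsg.quadFormPlus (m + 3) F p = 0 →
            Cfsg.quadFormPlus (m + 3) F (v + r) - Cfsg.quadFormPlus (m + 3) F v - Cfsg.quadFormPlus (m + 3) F r = 0 →
              ((σ : Matrix.GeneralLinearGroup (Fin (m + 3) ⊕ Fin (m + 3)) F) : Matrix (Fin (m + 3) ⊕ Fin (m + 3)) (Fin (m + 3) ⊕ Fin (m + 3)) F) *ᵥ v = v}}, B)) ''
      {A : Subgroup ↥(Cfsg.isometryGroup F (Cfsg.quadFormPlus (m + 3) F)) | ∃ p r : Fin (m + 3) ⊕ Fin (m + 3) → F, LinearIndependent F ![p, r] ∧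
          Cfsg.quadFormPlus (m + 3) F p = 0 ∧ Cfsg.quadFormPlus (m + 3) F r = 0 ∧
          Cfsg.quadFormPlus (m + 3) F (p + r) = 0 ∧
          A = Subgroup.closure {σ : ↥(Cfsg.isometryGroup F (Cfsg.quadFormPlus (m + 3) F)) | ∀ v : Fin (m + 3) ⊕ Fin (m + 3) → F,
            Cfsg.quadFormPlus (m + 3) F (v + p) - Cfsg.quadFormPlus (m + 3) F v - Cfsg.quadFormPlus (m + 3) F p = 0 →
            Cfsg.quadFormPlus (m + 3) F (v + r) - Cfsg.quadFormPlus (m + 3) F v - Cfsg.quadFormPlus (m + 3) F r = 0 →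
              ((σ : Matrix.GeneralLinearGroup (Fin (m + 3) ⊕ Fin (m + 3)) F) : Matrix (Fin (m + 3) ⊕ Fin (m + 3)) (Fin (m + 3) ⊕ Fin (m + 3)) F) *ᵥ v = v}}) ∧
    Cfsg.IsConnectedFamily (Cfsg.FAdj {A : Subgroup ↥(Cfsg.isometryGroup F (Cfsg.quadFormPlus (m + 3) F)) | ∃ p r : Fin (m + 3) ⊕ Fin (m + 3) → F, LinearIndependent F ![p, r] ∧
          Cfsg.quadFormPlus (m + 3) F p = 0 ∧ Cfsg.quadFormPlus (m + 3) F r = 0 ∧
          Cfsg.quadFormPlus (m + 3) F (p + r) = 0 ∧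
          A = Subgroup.closure {σ : ↥(Cfsg.isometryGroup F (Cfsg.quadFormPlus (m + 3) F)) | ∀ v : Fin (m + 3) ⊕ Fin (m + 3) → F,
            Cfsg.quadFormPlus (m + 3) F (v + p) - Cfsg.quadFormPlus (m + 3) F v - Cfsg.quadFormPlus (m + 3) F p = 0 →
            Cfsg.quadFormPlus (m + 3) F (v + r) - Cfsg.quadFormPlus (m + 3) F v - Cfsg.quadFormPlus (m + 3) F r = 0 →
              ((σ : Matrix.GeneralLinearGroup (Fin (m + 3) ⊕ Fin (m + 3)) F) : Matrix (Fin (m + 3) ⊕ Fin (m + 3)) (Fin (m + 3) ⊕ Fin (m + 3)) F) *ᵥ v = v}})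
      {A : Subgroup ↥(Cfsg.isometryGroup F (Cfsg.quadFormPlus (m + 3) F)) | ∃ p r : Fin (m + 3) ⊕ Fin (m + 3) → F, LinearIndependent F ![p, r] ∧
          Cfsg.quadFormPlus (m + 3) F p = 0 ∧ Cfsg.quadFormPlus (m + 3) F r = 0 ∧
          Cfsg.quadFormPlus (m + 3) F (p + r) = 0 ∧
          A = Subgroup.closure {σ : ↥(Cfsg.isometryGroup F (Cfsg.quadFormPlus (m + 3) F)) | ∀ v : Fin (m + 3) ⊕ Fin (m + 3) → F,
            Cfsg.quadFormPlus (m + 3) F (v + p) - Cfsg.quadFormPlus (m + 3) F v - Cfsg.quadFormPlus (m + 3) F p = 0 →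
            Cfsg.quadFormPlus (m + 3) F (v + r) - Cfsg.quadFormPlus (m + 3) F v - Cfsg.quadFormPlus (m + 3) F r = 0 →
              ((σ : Matrix.GeneralLinearGroup (Fin (m + 3) ⊕ Fin (m + 3)) F) : Matrix (Fin (m + 3) ⊕ Fin (m + 3)) (Fin (m + 3) ⊕ Fin (m + 3)) F) *ᵥ v = v}} := by
  let Q := plusQF (m + 3) F
  have hQ : ND Q := nd_plusQF _ _
  let ι : ↥(Cfsg.isometryGroup F (Cfsg.quadFormPlus (m + 3) F)) →*
      Module.End F (Fin (m + 3) ⊕ Fin (m + 3) → F) :=
    mEnd.comp ((Units.coeHom _).comp (Subgroup.subtype _))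
  have hi : Function.Injective ι :=
    mEnd_injective.comp (Units.val_injective.comp Subtype.val_injective)
  have hq : ∀ g v, Q (ι g v) = Q v := fun g v => (plusEquiv (m + 3) F g).2 v
  have hF := sgFam hQ hi hq fun σ => ⟨(plusEquiv (m + 3) F).symm σ,
    isoEquiv_symm_mulVec _ _ (plusQF_apply (m + 3) F) σ⟩
  have hp : ∀ v p, Cfsg.quadFormPlus (m + 3) F (v + p) - Cfsg.quadFormPlus (m + 3) F v -
      Cfsg.quadFormPlus (m + 3) F p = QuadraticMap.polar Q v p := fun v p => by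
    simp only [QuadraticMap.polar, Q, plusQF_apply]
  have hl : ∀ p r : Fin (m + 3) ⊕ Fin (m + 3) → F, SLine Q p r ↔ LinearIndependent F ![p, r] ∧
      Cfsg.quadFormPlus (m + 3) F p = 0 ∧ Cfsg.quadFormPlus (m + 3) F r = 0 ∧
      Cfsg.quadFormPlus (m + 3) F (p + r) = 0 := by
    intro p r
    rw [LinearIndependent.pair_iff]
    have := hp p r
    constructor
    · intro h
      have h1 := (plusQF_apply _ F p).symm.trans h.qp
      have h2 := (plusQF_apply _ F r).symm.trans h.qr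
      exact ⟨h.ind, h1, h2, by rw [h1, h2, h.pr] at this; simpa using this⟩
    · rintro ⟨h0, h1, h2, h3⟩
      exact ⟨(plusQF_apply _ F p).trans h1, (plusQF_apply _ F r).trans h2,
        by rw [← this, h1, h2, h3]; simp, h0⟩
  have e : {A : Subgroup ↥(Cfsg.isometryGroup F (Cfsg.quadFormPlus (m + 3) F)) | ∃ p r : Fin (m + 3) ⊕ Fin (m + 3) → F, LinearIndependent F ![p, r] ∧
          Cfsg.quadFormPlus (m + 3) F p = 0 ∧ Cfsg.quadFormPlus (m + 3) F r = 0 ∧
          Cfsg.quadFormPlus (m + 3) F (p + r) = 0 ∧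
          A = Subgroup.closure {σ : ↥(Cfsg.isometryGroup F (Cfsg.quadFormPlus (m + 3) F)) | ∀ v : Fin (m + 3) ⊕ Fin (m + 3) → F,
            Cfsg.quadFormPlus (m + 3) F (v + p) - Cfsg.quadFormPlus (m + 3) F v - Cfsg.quadFormPlus (m + 3) F p = 0 →
            Cfsg.quadFormPlus (m + 3) F (v + r) - Cfsg.quadFormPlus (m + 3) F v - Cfsg.quadFormPlus (m + 3) F r = 0 →
              ((σ : Matrix.GeneralLinearGroup (Fin (m + 3) ⊕ Fin (m + 3)) F) : Matrix (Fin (m + 3) ⊕ Fin (m + 3)) (Fin (m + 3) ⊕ Fin (m + 3)) F) *ᵥ v = v}} =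
      LRoot (RingHom.id F) ι '' sgX Q := by
    have k : ∀ p r : Fin (m + 3) ⊕ Fin (m + 3) → F, SLine Q p r →
        Subgroup.closure {σ : ↥(Cfsg.isometryGroup F (Cfsg.quadFormPlus (m + 3) F)) | ∀ v : Fin (m + 3) ⊕ Fin (m + 3) → F,
            Cfsg.quadFormPlus (m + 3) F (v + p) - Cfsg.quadFormPlus (m + 3) F v - Cfsg.quadFormPlus (m + 3) F p = 0 →
            Cfsg.quadFormPlus (m + 3) F (v + r) - Cfsg.quadFormPlus (m + 3) F v - Cfsg.quadFormPlus (m + 3) F r = 0 →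
              ((σ : Matrix.GeneralLinearGroup (Fin (m + 3) ⊕ Fin (m + 3)) F) : Matrix (Fin (m + 3) ⊕ Fin (m + 3)) (Fin (m + 3) ⊕ Fin (m + 3)) F) *ᵥ v = v} =
          LRoot (RingHom.id F) ι (wedge Q p r) := by
      intro p r h
      unfold LRoot
      congr 1
      ext g
      simp only [hp]
      exact sg_set hQ hq h g
    ext A
    constructor
    · rintro ⟨p, r, h0, h1, h2, h3, rfl⟩
      have h := (hl p r).mpr ⟨h0, h1, h2, h3⟩
      exact ⟨_, ⟨p, r, h, rfl⟩, (k p r h).symm⟩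
    · rintro ⟨_, ⟨p, r, h, rfl⟩, rfl⟩
      obtain ⟨h0, h1, h2, h3⟩ := (hl p r).mp h
      exact ⟨p, r, h0, h1, h2, h3, (k p r h).symm⟩
  rw [e]
  let j : (Fin (m + 3) → F) →ₗ[F] (Fin (m + 3) ⊕ Fin (m + 3) → F) :=
    { toFun := fun x => Sum.elim x 0
      map_add' := fun x y => by ext (i | i) <;> simp
      map_smul' := fun c x => by ext (i | i) <;> simp }
  refine ⟨hF.kroot, sg_connected hQ hF (LinearMap.range j) ?_ fun x y => ?_⟩
  · rintro _ ⟨x, rfl⟩
    simp [Q, plusQF_apply, Cfsg.quadFormPlus, j]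
  · have := LinearMap.ker_ne_bot_of_finrank_lt (f := ((QuadraticMap.polarBilin Q x).prod
      (QuadraticMap.polarBilin Q y)) ∘ₗ j) (by simp)
    obtain ⟨t, ht, t0⟩ := Submodule.exists_mem_ne_zero_of_ne_bot this
    refine ⟨j t, ⟨t, rfl⟩, fun e => t0 (funext fun i => congrFun e (Sum.inl i)), ?_⟩
    simpa using ht

end Cfsg.Agent.S5072
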