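import Cfsg.Statements.S5073
import Cfsg.Agent.QP.Sig

set_option autoImplicit false
universe u
open Cfsg

namespace Cfsg.Agent.S5073

open Cfsg.Agent.RootSub Cfsg.Agent.QP in
/-- Let k be a field of characteristic not 2 with k not of order 3, M a finite-dimensional k-vector space and G ≤ GL(M) such that (G, M) is a quadratic pair (M irreducible for G, and G generated by its quadratically acting elements σ whose scalar family 1 + c(σ − 1), c ∈ k, lies in G). Write 𝒬_d for the quadratic elements of G of minimal commutator rank, E(σ) for the subgroup generated by the members of 𝒬_d with the same fixed space and commutator space as σ, and Σ for the set of these subgroups. Let E, F ∈ Σ. If some non-identity element of E commutes with some non-identity element of F, or some non-identity element of E normalizes F, then E and F commute elementwise. -/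
theorem result {k : Type u} [Field k] (hk2 : ringChar k ≠ 2) (hk3 : Nat.card k ≠ 3)
    {M : Type u} [AddCommGroup M] [Module k M] [FiniteDimensional k M]
    {G : Subgroup (LinearMap.GeneralLinearGroup k M)} (hG : Cfsg.IsQuadraticPair G)
    {E F : Subgroup (LinearMap.GeneralLinearGroup k M)} (hE : E ∈ Cfsg.quadraticRootSubgroups G) (hF : F ∈ Cfsg.quadraticRootSubgroups G)
    (h : (∃ e ∈ E, e ≠ 1 ∧ ∃ f ∈ F, f ≠ 1 ∧ e * f = f * e) ∨ E ⊓ Subgroup.normalizer (F : Set (LinearMap.GeneralLinearGroup k M)) ≠ ⊥) :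
    ⁅E, F⁆ = ⊥ := by
  have h2 := two_ne_zero_of_ringChar hk2
  have hN := noFix_of_irreducible hG.1
  rcases sig_cases hE hF with h' | ⟨s, t, hs, ht, rfl, rfl, ho | ⟨ho, hne⟩⟩
  · exact h'
  · exfalso
    have hr := (ho.special h2 hk3 hs ht).1
    rcases h with ⟨e, he, e1, f, hf, f1, hc⟩ | h
    · refine e1 (rankOne_eq_one_of_conjBy_eq hr he ?_)
      obtain ⟨b, hb, b1⟩ : ∃ b ∈ Eg G t, b ≠ 1 ∧ b ∈ conjBy (Eg G t) e :=
        ⟨f, hf, f1, by rw [mem_conjBy, mul_assoc, ← hc]; simpa using hf⟩
      exact sig_eq_of_mem (sig_conj hF (sig_le hE he)) hF b1.2 hb b1.1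
    · exact h (rankOne_inf_normalizer hr)
  · rcases h with ⟨e, he, e1, f, hf, f1, hc⟩ | h
    · exact absurd (mul_comm_iff_sub.mp hc) (hs.noncomm h2 hk3 ht ho hne (he hs.1.1) (hf ht.1.1)
        (sub_one_ne_zero e1) (sub_one_ne_zero f1))
    · obtain ⟨e, ⟨he, hn⟩, e1⟩ := exists_mem_ne_one h
      have hc := hs.commCase h2 hk3 hN ht ho hne
      have hle : ⁅Eg G s, Eg G t⁆ ≤ Eg G t := by
        rw [← hc.2.2.1 e he e1, Subgroup.closure_le]
        rintro _ ⟨f, hf, rfl⟩
        exact Subgroup.mul_mem _ ((Subgroup.mem_normalizer_iff.mp hn f).mp hf) (Subgroup.inv_mem _ hf)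
      obtain ⟨d, hd, d1⟩ := exists_mem_ne_one (sig_ne_bot hc.1)
      have := commCase_left hc
      rwa [sig_eq_of_mem hc.1 hF hd (hle hd) d1] at this

end Cfsg.Agent.S5073
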