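import Mathlib
import Cfsg.Statements.S5081
import Cfsg.Agent.Fus.Essential
-- import your own Cfsg.Agent.* helpers here

set_option autoImplicit false
open Cfsg

namespace Cfsg.Agent.S5081

open Cfsg.Agent.Fus Cfsg.FusionSystem

/-- Let F be a saturated fusion system over a finite p-group S, P a proper subgroup of S that is fully normalized, and H the subgroup of Aut_F(P) generated by the automorphisms that extend to maps of the system defined on strictly larger subgroups of S. Then either P is not essential and H is all of Aut_F(P), or P is essential and the image of H in Out_F(P) = Aut_F(P)/Inn(P) is strongly p-embedded there. -/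
theorem result {Ω : Type*} [Group Ω] {S : Subgroup Ω} [Finite S] (p : ℕ) [Fact p.Prime] (hS : IsPGroup p S) (F : Cfsg.FusionSystem S) (hF : F.IsSaturated p) (P : Subgroup Ω) (hPS : P < S) (hPn : F.IsFullyNormalized P) (H : Subgroup (MulAut P)) (hH : H = Subgroup.closure {α : MulAut P | ∃ (Q : Subgroup Ω) (hPQ : P < Q) (φ : Q →* Ω), φ ∈ F.Hom Q ∧ ∀ x : P, φ (Subgroup.inclusion hPQ.le x) = α x}) : (¬ F.IsEssential p P ∧ H = F.autGroup P) ∨ (F.IsEssential p P ∧ ∃ _ : ((Cfsg.Inn P).subgroupOf (F.autGroup P)).Normal, Cfsg.IsStronglyPEmbedded p ((H.subgroupOf (F.autGroup P)).map (QuotientGroup.mk' ((Cfsg.Inn P).subgroupOf (F.autGroup P))))) := by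
  have hHe : H = extAut F P := by
    rw [hH]
    apply le_antisymm
    · refine (Subgroup.closure_le _).2 ?_
      rintro α ⟨Q, hPQ, φ, hφ, e⟩
      refine mem_extAut_of_ext hS hPQ (isMap_fn hφ) fun x hx => ?_
      rw [fn_apply _ (hPQ.le hx), afn_apply _ hx, ← e]; rfl
    · refine (Subgroup.closure_le _).2 ?_
      rintro α ⟨hα, hN⟩
      have hαm := isMap_afn hPS.le hα
      obtain ⟨g, hg, e⟩ := receptive_extend (sat_receptive_of_fullyNormalized hS hF hPn) hαm
        (img_afn α) le_rfl
      refine Subgroup.subset_closure ⟨_, lt_of_le_of_ne hαm.le_Nf fun h => hN h.ge, _,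
        hg.toHom_mem, fun x => ?_⟩
      rw [HomOn.toHom_apply, ← afn_coe, ← e x x.2]; rfl
  subst hHe
  by_cases he : F.IsEssential p P
  · exact Or.inr ⟨he, inferInstance, spe_extAut hS hPS (isCentric_self he.1)
      (sat_fullyAutomized hS hF hPn) (essential_not_le_extAut hS hF he)⟩
  · exact Or.inl ⟨he, le_antisymm (extAut_le F P)
      (not_not.1 ((essential_iff hS hF hPS hPn).not.1 he))⟩

end Cfsg.Agent.S5081
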