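import Cfsg.Statements.S5086
import Mathlib
import Cfsg.Agent.Fus.Normal

set_option autoImplicit false
open Cfsg

namespace Cfsg.Agent.S5086

/-- In a saturated fusion system over a finite p-group, a subgroup Q is normal in the system if and only if Q is strongly closed in the system and is contained in every centric-radical subgroup. -/
theorem result {Ω : Type*} [Group Ω] {S : Subgroup Ω} [Finite S] (p : ℕ) [Fact p.Prime] (hS : IsPGroup p S) (F : Cfsg.FusionSystem S) (hF : F.IsSaturated p) (Q : Subgroup Ω) : F.IsNormal Q ↔ (F.StronglyClosed Q ∧ ∀ P : Subgroup Ω, F.IsCentric P → F.IsRadical p P → Q ≤ P) := by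
  constructor
  · intro h
    exact ⟨Fus.stronglyClosed_of_isNormal h, fun P hc hr => Fus.le_of_isNormal_of_cr hS h hc hr⟩
  · rintro ⟨h1, h2⟩
    exact Fus.isNormal_of_le_cr hS hF (Fus.weaklyClosed_of_stronglyClosed h1)
      fun R _ hc hr => h2 R hc hr

end Cfsg.Agent.S5086
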