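import Cfsg.Statements.S5087
import Mathlib
import Cfsg.Agent.Fus.Normal

set_option autoImplicit false
open Cfsg

namespace Cfsg.Agent.S5087

/-- In a saturated fusion system over a finite p-group S, a subgroup Q is normal in the system if and only if every subgroup P that equals S or is essential contains Q and every element of Aut_F(P) maps Q onto itself. -/
theorem result {Ω : Type*} [Group Ω] {S : Subgroup Ω} [Finite S] (p : ℕ) [Fact p.Prime] (hS : IsPGroup p S) (F : Cfsg.FusionSystem S) (hF : F.IsSaturated p) (Q : Subgroup Ω) : F.IsNormal Q ↔ ∀ P : Subgroup Ω, (P = S ∨ F.IsEssential p P) → (Q ≤ P ∧ ∀ α ∈ F.autGroup P, (Q.subgroupOf P).map α.toMonoidHom = Q.subgroupOf P) := by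
  constructor
  · intro h P hP
    obtain ⟨h1, h2, h3⟩ := Fus.alperin_family hS hF hP
    have hQP := Fus.le_of_isNormal_of_cr hS h h2 h3
    refine ⟨hQP, fun α hα => ?_⟩
    have h4 := (Fus.isMap_afn h1.1 hα).img_weaklyClosed (Fus.weaklyClosed_of_isNormal h) hQP
    apply Subgroup.map_injective P.subtype_injective
    rw [Subgroup.map_map, Fus.map_subgroupOf_eq_img hQP _ fun x => (Fus.afn_coe α x).symm, h4,
      Subgroup.map_subgroupOf_eq_of_le hQP]
  · intro h
    refine Fus.isNormal_of_essential hS hF fun R hR => ⟨(h R hR).1, fun g hg hi x hx => ?_⟩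
    obtain ⟨α, hα, e⟩ := hg.exists_aut hi
    have hxR := (h R hR).1 hx
    have : α ⟨x, hxR⟩ ∈ Q.subgroupOf R := by
      rw [← (h R hR).2 α hα]
      exact ⟨⟨x, hxR⟩, hx, rfl⟩
    rw [← e x hxR, Fus.afn_apply α hxR]
    exact this

end Cfsg.Agent.S5087
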