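import Cfsg.Statements.S5102
import Mathlib
import Cfsg.Agent.Fus.GroupFus

set_option autoImplicit false
open Cfsg

namespace Cfsg.Agent.S5102

/-- A normal p-subgroup of a finite group G is normal in the fusion system of G on a Sylow p-subgroup. -/
theorem result {G : Type*} [Group G] [Finite G] (p : ℕ) [Fact p.Prime] (S : Sylow p G) (R : Subgroup G) [R.Normal] (hR : IsPGroup p R) : (Cfsg.groupFusionSystem (S : Subgroup G)).IsNormal R := by
  have hRS : R ≤ S := hR.le_sylow_of_normal S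
  refine ⟨hRS, ?_⟩
  rintro P φ ⟨hP, hφ, g, hg⟩
  refine ⟨conjHom _ g, ⟨sup_le hP hRS, ?_, g, fun _ => rfl⟩, fun x => (hg x).symm, ?_⟩
  · rintro ⟨x, hx⟩
    obtain ⟨y, hy, r, hr, rfl⟩ := Subgroup.mem_sup_of_normal_right.mp hx
    have h1 : g * y * g⁻¹ ∈ (S : Subgroup G) := by
      have := hφ ⟨y, hy⟩
      rwa [hg] at this
    have h2 : g * r * g⁻¹ ∈ (S : Subgroup G) := hRS (Subgroup.Normal.conj_mem inferInstance r hr g)
    have h3 := (S : Subgroup G).mul_mem h1 h2
    change g * (y * r) * g⁻¹ ∈ (S : Subgroup G)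
    simpa [mul_assoc] using h3
  · ext y
    constructor
    · rintro ⟨x, hx, rfl⟩
      exact Subgroup.Normal.conj_mem (H := R) inferInstance (x : G) hx g
    · intro hy
      have h1 : g⁻¹ * y * g⁻¹⁻¹ ∈ R := Subgroup.Normal.conj_mem inferInstance _ hy g⁻¹
      refine ⟨⟨_, Subgroup.mem_sup_right h1⟩, h1, ?_⟩
      change g * (g⁻¹ * y * g⁻¹⁻¹) * g⁻¹ = y
      group

end Cfsg.Agent.S5102
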