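import Cfsg.Statements.S5107
import Mathlib
import Cfsg.Agent.Fus.WNorm

set_option autoImplicit false
open Cfsg

namespace Cfsg.Agent.S5107

/-- If a Sylow p-subgroup S of a finite group G has nilpotency class at most two and its centre is strongly closed in S with respect to G, then every map of the fusion system of G on S is conjugation by an element of N_G(S), and S is the largest subgroup normal in that fusion system. -/
theorem result {G : Type*} [Group G] [Finite G] (p : ℕ) [Fact p.Prime] (S : Sylow p G) (hcl : ⁅(S : Subgroup G), (S : Subgroup G)⁆ ≤ (S : Subgroup G) ⊓ Subgroup.centralizer ((S : Subgroup G) : Set G)) (hZ : Cfsg.IsStronglyClosed ((S : Subgroup G) ⊓ Subgroup.centralizer ((S : Subgroup G) : Set G)) (S : Subgroup G)) : (∀ (P : Subgroup G) (φ : P →* G), φ ∈ (Cfsg.groupFusionSystem (S : Subgroup G)).Hom P → ∃ g ∈ Subgroup.normalizer ((S : Subgroup G) : Set G), ∀ x : P, φ x = g * (x : G) * g⁻¹) ∧ (Cfsg.groupFusionSystem (S : Subgroup G)).core = S := by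
  have hF := Fus.isSaturated_group S
  have hN : (Cfsg.groupFusionSystem (S : Subgroup G)).IsNormal S := by
    refine Fus.isNormal_of_chain S.isPGroup' hF (Fus.stronglyClosed_top _)
      (fun i => if i = 0 then ⊥ else if i = 1 then
        (S : Subgroup G) ⊓ Subgroup.centralizer ((S : Subgroup G) : Set G) else S) 2 rfl le_rfl
      (fun i _ => ?_) fun i hi x hx y hy => ?_
    · split_ifs
      · exact Fus.stronglyClosed_bot _
      · exact Fus.stronglyClosed_group_iff.2 hZ
      · exact Fus.stronglyClosed_top _
    · interval_cases i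
      · have h1 : y ∈ (S : Subgroup G) ⊓ Subgroup.centralizer ((S : Subgroup G) : Set G) := by
          simpa using hy
        have := h1.2 x hx
        simp only [if_true, Subgroup.mem_bot]
        rw [this]; group
      · simp only [one_ne_zero, if_false, if_true]
        exact hcl (Subgroup.commutator_mem_commutator hx hy)
  refine ⟨fun P φ hφ => ?_, le_antisymm (Fus.core_le _) (Fus.le_core hN)⟩
  obtain ⟨g, hg, e, hi⟩ := Fus.IsNormal_extend hN (Fus.isMap_fn hφ)
  obtain ⟨-, -, a, ea⟩ := Fus.isMap_group_iff.1 hg
  refine ⟨a, Fus.mem_normalizer_of_conj_mem fun x hx => ?_, fun x => ?_⟩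
  · rw [← ea x (Subgroup.mem_sup_right hx)]; exact Fus.mem_of_img_eq hi hx
  · rw [← ea x (Subgroup.mem_sup_left x.2), e x x.2, Fus.fn_coe]

end Cfsg.Agent.S5107
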