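import Cfsg.Statements.S5112
import Mathlib
import Cfsg.Agent.Fus.Sat
import Cfsg.Agent.Inv.AutCyc

set_option autoImplicit false
open Cfsg

namespace Cfsg.Agent.S5112

/-- If S is a dihedral or generalized quaternion 2-group of order at least 16, then in every saturated fusion system over S (at the prime 2) the automorphism group Aut_F(S) consists of the inner automorphisms of S. -/
theorem result {Ω : Type*} [Group Ω] {S : Subgroup Ω} [Finite S] (n : ℕ) (hn : 4 ≤ n) (hshape : Nonempty (S ≃* DihedralGroup (2 ^ (n - 1))) ∨ Nonempty (S ≃* QuaternionGroup (2 ^ (n - 2)))) (F : Cfsg.FusionSystem S) (hF : F.IsSaturated 2) : F.autGroup S = Cfsg.Inn S := by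
  have h : IsPGroup 2 (MulAut S) ∧ IsPGroup 2 S := by
    rcases hshape with ⟨⟨e⟩⟩ | ⟨⟨e⟩⟩
    · refine ⟨Inv.AutCyc.isPGroup_mulAut_congr e (Inv.AutCyc.isPGroup_mulAut_dihedral (by omega)),
        IsPGroup.of_card (n := n - 1 + 1) ?_⟩
      rw [Nat.card_congr e.toEquiv, DihedralGroup.nat_card, pow_succ']
    · have : NeZero (2 ^ (n - 2)) := ⟨by positivity⟩
      refine ⟨Inv.AutCyc.isPGroup_mulAut_congr e (Inv.AutCyc.isPGroup_mulAut_quaternion (by omega)),
        IsPGroup.of_card (n := n - 2 + 2) ?_⟩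
      rw [Nat.card_congr e.toEquiv, Nat.card_eq_fintype_card, QuaternionGroup.card]
      ring
  exact (Fus.sat_sylIn_inn h.2 hF).eq_of_le (Fus.inn_le_autGroup F le_rfl) (h.1.to_subgroup _)
    (Fus.inn_le_autGroup F le_rfl) le_rfl

end Cfsg.Agent.S5112
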