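import Mathlib
import Cfsg.Statements.S5130
import Cfsg.Agent.Fus.ResSat
import Cfsg.Agent.Fus.Functor
-- import your own Cfsg.Agent.* helpers here

set_option autoImplicit false
open Cfsg

namespace Cfsg.Agent.S5130

open Subgroup Cfsg.Agent.Fus

/-- Let F be a saturated fusion system over a finite p-group S that is the direct product of two subgroups S₁ and S₂, each strongly closed in F. Let R be the full subsystem of F over S₁ (all maps of F between subgroups of S₁) and R′ the subsystem over S₁ of those maps that extend to the subgroup generated with S₂ fixing S₂ elementwise. Then R and R′ are saturated, R′ is normal in F and in R, and R is weakly normal in F. -/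
theorem result {Ω : Type*} [Group Ω] {S : Subgroup Ω} [Finite S] (p : ℕ) [Fact p.Prime] (hS : IsPGroup p S) (F : Cfsg.FusionSystem S) (hF : F.IsSaturated p) (S₁ S₂ : Subgroup Ω) (hprod : Cfsg.IsInternalDirectProduct S₁ S₂ S) (h₁ : F.StronglyClosed S₁) (h₂ : F.StronglyClosed S₂) (R R' : Cfsg.FusionSystem S₁) (hR : ∀ P : Subgroup Ω, P ≤ S₁ → R.Hom P = F.Hom P) (hR' : ∀ P : Subgroup Ω, P ≤ S₁ → R'.Hom P = F.centralizerHom S₂ P) : R.IsSaturated p ∧ R'.IsSaturated p ∧ R'.IsNormalIn F p ∧ R'.IsNormalIn R p ∧ R.IsWeaklyNormalIn F p := by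
  obtain ⟨l₁, l₂, hc, -, hsup⟩ := hprod
  have hmul : ∀ s ∈ S, ∃ a ∈ S₁, ∃ b ∈ S₂, s = a * b := fun s hs =>
    mem_sup_of_normalizes (fun a ha l hl => by rw [hc a ha l hl, mul_inv_cancel_right]; exact hl)
      (hsup ▸ hs)
  have hconj : ∀ s ∈ S, ∃ t ∈ S₁, ∀ x ∈ S₁, s * x * s⁻¹ = t * x * t⁻¹ := fun s hs => by
    obtain ⟨a, ha, b, hb, rfl⟩ := hmul s hs
    refine ⟨a, ha, fun x hx => ?_⟩
    rw [mul_assoc a, ← hc x hx b hb]; group
  have hC : S₁ ≤ FusionSystem.centralizerIn S S₂ := fun x hx =>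
    mem_centralizerIn.2 ⟨l₁ hx, fun y hy => (hc x hx y hy).symm⟩
  have hw := weaklyClosed_of_stronglyClosed h₂
  obtain rfl : R = resSys F S₁ l₁ := ext_isMap fun P f => ⟨fun h => isMap_resSys_of_sc h₁
    ((hom_eq_iff_isMap.1 (hR P h.le) f).1 h) h.le, fun h =>
      (hom_eq_iff_isMap.1 (hR P h.le) f).2 (h.of_sub (resSys_sub _ _))⟩
  have hR'' : ∀ P f, IsMap R' P f ↔ P ≤ S₁ ∧ IsCMap F S₂ P f := fun P f =>
    ⟨fun h => ⟨h.le, hom_subset_centralizerHom_iff.1 (hR' P h.le).le f h⟩, fun h =>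
      ⟨h.2.isMap.homOn.toHom, hR' P h.1 ▸ (mem_centralizerHom_iff _ fun _ => rfl).2 h.2,
        fun _ => rfl⟩⟩
  have hsub := centSys_sub F l₂
  have hsc := stronglyClosed_of_sub hsub h₁ hC
  have e' : R' = resSys (centSys F S₂ l₂) S₁ hC := ext_isMap fun P f => (hR'' P f).trans
    ⟨fun h => isMap_resSys_of_sc hsc (isMap_centSys.2 h.2) h.1, fun h =>
      ⟨h.le, isMap_centSys.1 (h.of_sub (resSys_sub _ _))⟩⟩
  have hs' : R'.IsSaturated p := e' ▸ resSys_saturated (centSys_saturated hS hF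
    (sat_fullyCentralized hS hF (fullyNormalized_of_weaklyClosed hw))) hsc
    fun s hs => hconj s hs.1
  have hw₁ := resSys_weaklyNormal hS hF h₁ hconj
  have hsub' : R'.IsSubsystemOf F := isSubsystemOf_iff.2 fun P f h => ((hR'' P f).1 h).2.isMap
  have hw' : R'.IsWeaklyNormalIn F p := by
    refine ⟨hs', hF, isInvariantIn_of_sInv hS hF h₁ hsub' fun P Q f g k hPQ hQ hf hm hg e => ?_⟩
    have hi : img Q g ≤ S₁ := img_le_iff.2 fun x hx => hg.mem_of_stronglyClosed h₁ hx (hQ hx)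
    obtain ⟨g', hg', eg⟩ := exists_ext_sup_of_centralizes hS hF hw hg (hQ.trans hC) (hi.trans hC)
    have h1 := ((hR'' P f).1 hf).2.conj hg' (le_sup_of_le_left hPQ) le_sup_right
      (fun x hx => Subgroup.mem_sup_left (hm x hx)) (hg'.img_weaklyClosed hw le_sup_right)
      (k := k) fun x hx => by rw [eg x (hPQ hx), eg _ (hm x hx), e x hx]
    rw [img_congr fun x hx => eg x (hPQ hx)] at h1
    exact (hR'' _ _).2 ⟨(img_mono g hPQ).trans hi, h1⟩
  have := finite_of_le l₁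
  refine ⟨hw₁.1, hs', isNormalIn_of_extC hw' fun α hα => ?_, isNormalIn_of_weaklyNormal_top
    (weaklyNormal_of_sub hS hw' hw₁.1 (resSys_sub _ _) (le_resSys_iff.2 hsub')), hw₁⟩
  obtain ⟨-, g, hg, e1, e2⟩ := ((hR'' _ _).1 (isMap_afn le_rfl hα)).2
  rw [hsup] at hg
  refine ⟨g, hg.mono (sup_le l₁ (centralizerIn_le _ _)), e1, fun c hc' => ?_⟩
  obtain ⟨a, ha, b, hb, rfl⟩ := hmul c hc'.1
  have h3 := S₁.mul_mem (S₁.inv_mem ha) (afn_mem α ha)
  rw [hg.map_mul (l₁ ha) (l₂ hb), e1 a ha, e2 b hb, mul_inv_rev, mul_assoc, ← mul_assoc a⁻¹,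
    hc _ h3 b hb, inv_mul_cancel_left]
  exact h3

end Cfsg.Agent.S5130
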