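import Cfsg.Statements.S5143
import Mathlib
import Cfsg.Agent.Fus.ProdES

set_option autoImplicit false
open Cfsg

namespace Cfsg.Agent.S5143

/-- Let F be a saturated fusion system over a finite p-group S, E a normal subsystem over T, and R a subgroup with T ≤ R ≤ S. Then there is exactly one saturated subsystem D of F over R (exactly one family of map sets) whose p-residual subsystem is that of E: the hyperfocal subgroups of D and E coincide and the p-residual subsystems of D and of E have the same maps. -/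
theorem result {Ω : Type*} [Group Ω] {S : Subgroup Ω} [Finite S] (p : ℕ) [Fact p.Prime] (hS : IsPGroup p S) (F : Cfsg.FusionSystem S) (hF : F.IsSaturated p) {T : Subgroup Ω} (E : Cfsg.FusionSystem T) (hE : E.IsNormalIn F p) (R : Subgroup Ω) (hTR : T ≤ R) (hRS : R ≤ S) : ∃ D : Cfsg.FusionSystem R, (D.IsSaturated p ∧ D.IsSubsystemOf F ∧ D.hyperfocalSubgroup p = E.hyperfocalSubgroup p ∧ ∀ (D₁ : Cfsg.FusionSystem (D.hyperfocalSubgroup p)) (E₁ : Cfsg.FusionSystem (E.hyperfocalSubgroup p)), D.IsPResidual p D₁ → E.IsPResidual p E₁ → ∀ P : Subgroup Ω, D₁.Hom P = E₁.Hom P) ∧ ∀ D' : Cfsg.FusionSystem R, D'.IsSaturated p → D'.IsSubsystemOf F → D'.hyperfocalSubgroup p = E.hyperfocalSubgroup p → (∀ (D₁ : Cfsg.FusionSystem (D'.hyperfocalSubgroup p)) (E₁ : Cfsg.FusionSystem (E.hyperfocalSubgroup p)), D'.IsPResidual p D₁ → E.IsPResidual p E₁ → ∀ P : Subgroup Ω, D₁.Hom P = E₁.Hom P) → ∀ P : Subgroup Ω, D'.Hom P = D.Hom P := by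
  have hT := Fus.Inv.le hE.1.2.2
  have := Fus.finite_of_le hT
  have := Fus.finite_of_le hRS
  have hTp := Fus.isPGroup_of_le hS hT
  have hRp := Fus.isPGroup_of_le hS hRS
  obtain ⟨O, hO⟩ := Fus.exists_isPResidual hTp hE.1.1
  have hOn := Fus.isPResidual_normal_of_normal hS hE hO
  obtain ⟨D, hD, hDi, hOD, huniq⟩ := Fus.exists_prodSys hS hOn ((Fus.hyp_le E p).trans hTR) hRS
  have e1 : D.hyperfocalSubgroup p = E.hyperfocalSubgroup p :=
    (Fus.hyp_eq_of_pIndex hRp hOD).symm.trans (Fus.hyp_eq_of_pIndex hTp hO.2)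
  refine ⟨D, ⟨hD, Fus.sub_trans hDi.1 (Fus.esSys_sub hS hOn.1), e1, fun D₁ E₁ h1 h2 P => ?_⟩,
    fun D' h1 h2 h3 h4 P => ?_⟩
  · rw [Fus.isPResidual_unique hTp h2 hO]
    exact Fus.hom_eq_of_pIndex hRp h1.1 h1.2 hO.1 hOD e1 P
  · obtain ⟨O', hO'⟩ := Fus.exists_isPResidual hRp h1
    have h5 := h4 O' O hO' hO
    rw [huniq D' h1 h2 (Fus.hasPPowerIndexIn_iff.2 ⟨fun P => h5 P ▸ hO'.2.1 P, h3.le,
      fun P hP => ((Fus.hasPPowerIndexIn_iff.1 hO'.2).2.2 P (hP.trans h3.ge)).trans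
        (Fus.autGroup_mono (fun P => (h5 P).le) P)⟩)]

end Cfsg.Agent.S5143
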