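import Cfsg.Statements.S5160
import Mathlib
import Cfsg.Agent.Fus.PPrime
import Cfsg.Agent.Fus.GroupQuot

set_option autoImplicit false
open Cfsg

namespace Cfsg.Agent.S5160

/-- Let G be a finite group with nontrivial Sylow p-subgroup S and F its fusion system on S. Suppose (a) no nontrivial proper subgroup of S is strongly closed in F, and (b) the automorphisms of S induced by G are generated by those induced, for R running over the fully normalized radical centric subgroups of F, by the subgroup of N_G(R) generated by its elements of p-power order. Then F is simple. -/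
theorem result {G : Type*} [Group G] [Finite G] (p : ℕ) [Fact p.Prime] (S : Sylow p G) (hS1 : (S : Subgroup G) ≠ ⊥) (ha : ∀ T : Subgroup G, (Cfsg.groupFusionSystem (S : Subgroup G)).StronglyClosed T → T = ⊥ ∨ T = (S : Subgroup G)) (hb : Cfsg.autInducedBy ⊤ (S : Subgroup G) = ⨆ (R : Subgroup G) (_ : (Cfsg.groupFusionSystem (S : Subgroup G)).IsFullyNormalized R ∧ (Cfsg.groupFusionSystem (S : Subgroup G)).IsRadical p R ∧ (Cfsg.groupFusionSystem (S : Subgroup G)).IsCentric R), Cfsg.autInducedBy (Subgroup.closure {g : G | g ∈ Subgroup.normalizer (R : Set G) ∧ ∃ k : ℕ, orderOf g = p ^ k}) (S : Subgroup G)) : (Cfsg.groupFusionSystem (S : Subgroup G)).IsSimple p := by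
  have hF := Fus.isSaturated_group S
  have hS := S.isPGroup'
  refine Fus.isSimple_of_top hF hS1 ha fun E hE => ?_
  rw [Fus.autGroup_group le_rfl, hb]
  refine iSup_le fun R => iSup_le fun ⟨hn, hr, hc⟩ α hα => ?_
  obtain ⟨g, hg, e⟩ := Fus.mem_autInducedBy.1 hα
  have hsub := Fus.Inv.sub hE.1.2.2
  have key : Subgroup.closure {g : G | g ∈ Subgroup.normalizer (R : Set G) ∧ ∃ k : ℕ, orderOf g = p ^ k}
      ≤ Fus.NK ⊤ R (E.autGroup R) := by
    rw [Subgroup.closure_le]
    rintro g ⟨hg, k, hk⟩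
    refine ⟨trivial, Fus.conjAut R g hg, Fus.ppSub_le_of_sInv_top hS hF (Fus.Inv.sInv hE.1.2.2) hc.1
      (Fus.mem_ppSub ?_ ?_), fun y hy => Fus.afn_conjAut hg hy⟩
    · rw [Fus.autGroup_group hc.1]
      exact Fus.conjAut_mem_autInducedBy (K := ⊤) ⟨trivial, hg⟩
    · have : orderOf (Fus.conjAut R g hg) ∣ p ^ k := by
        rw [← hk, ← Subgroup.orderOf_mk g hg]
        exact orderOf_map_dvd R.normalizerMonoidHom _
      obtain ⟨j, -, hj⟩ := (Nat.dvd_prime_pow Fact.out).1 this
      exact ⟨j, hj⟩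
  obtain ⟨-, β, hβ, eβ⟩ := key hg
  have hαF : α ∈ (Cfsg.groupFusionSystem (S : Subgroup G)).autGroup S := by
    rw [Fus.autGroup_group le_rfl]
    exact Fus.mem_autInducedBy.2 ⟨g, trivial, e⟩
  exact (Fus.mem_autGroup le_rfl).2 (Fus.isMap_of_restrict_centric hS hF hE.1.1 hsub hc hc.1
    (Fus.isMap_afn le_rfl hαF) ((Fus.isMap_afn hc.1 hβ).congr fun x hx => by
      rw [eβ x hx, e x (hc.1 hx)]))

end Cfsg.Agent.S5160
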