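import Cfsg.Statements.S5163
import Mathlib
import Cfsg.Agent.Fus.LinP
import Cfsg.Agent.Class.LinearBasic

set_option autoImplicit false
open Cfsg

namespace Cfsg.Agent.S5163

/-- For a finite field K of characteristic p and n ≥ 3, the p-fusion system of the projective special linear group PSL_n(K) on a Sylow p-subgroup is simple. -/
theorem result {K : Type*} [Field K] [Fintype K] (p : ℕ) [Fact p.Prime] [CharP K p] (n : ℕ) (hn : 3 ≤ n) (S : Sylow p (Matrix.ProjectiveSpecialLinearGroup (Fin n) K)) : (Cfsg.groupFusionSystem (S : Subgroup (Matrix.ProjectiveSpecialLinearGroup (Fin n) K))).IsSimple p := by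
  have : Nonempty (Fin n) := ⟨⟨0, by omega⟩⟩
  refine Fus.isSimple_quotient_of_hom
    ((Class.Orth.glEquiv (Fin n) K).toMonoidHom.comp Matrix.SpecialLinearGroup.toGL)
    ((Class.Orth.glEquiv (Fin n) K).injective.comp Matrix.SpecialLinearGroup.toGL_injective)
    (H := Class.Max.SLV K (Fin n → K)) ?_ _ ?_ (Fus.isSimple_SLV (by simpa using hn)) S
  · ext g
    obtain ⟨g, rfl⟩ := (Class.Orth.glEquiv (Fin n) K).surjective g
    rw [← Class.Max.mem_specialLinear_iff]
    constructor
    · rintro ⟨a, ha⟩
      obtain rfl := (Class.Orth.glEquiv (Fin n) K).injective ha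
      exact Units.ext a.2
    · intro h
      exact ⟨⟨g.1, congrArg Units.val h⟩, congrArg (Class.Orth.glEquiv (Fin n) K) (Units.ext rfl)⟩
  · rw [Class.card_center_SL]
    refine Nat.Coprime.coprime_dvd_left (Nat.gcd_dvd_right _ _) ?_
    obtain ⟨k, -, hk⟩ := FiniteField.card K p
    rw [Nat.card_eq_fintype_card, hk]
    exact ((Nat.coprime_self_sub_left (Nat.one_le_pow _ _ (Fact.out : p.Prime).pos)).2
      (by simp)).coprime_dvd_right (dvd_pow_self p k.ne_zero)

end Cfsg.Agent.S5163
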