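import Cfsg.Statements.S5164
import Mathlib
import Cfsg.Agent.KSG.SymEmbed

set_option autoImplicit false
open Cfsg

namespace Cfsg.Agent.S5164

open Subgroup MulAction

theorem comm_of_lt {n p : ℕ} [hp : Fact p.Prime] (G : Type*) [Group G] [Finite G]
    [MulAction G (Fin n)] [FaithfulSMul G (Fin n)] (hG : IsPGroup p G) (h : n < p ^ 2) :
    IsMulCommutative G := by
  refine ⟨⟨fun a b => ?_⟩⟩
  apply eq_of_smul_eq_smul (α := Fin n)
  intro w
  have h1 : (stabilizer G w).index ≤ n := by
    rw [index_stabilizer]
    simpa using Set.ncard_le_ncard (Set.subset_univ (orbit G w))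
  obtain ⟨k, hk⟩ := hG.index (stabilizer G w)
  have hk1 : k < 2 := by
    rw [hk] at h1
    exact (Nat.pow_lt_pow_iff_right hp.out.one_lt).1 (h1.trans_lt h)
  have key : ∀ x y : G, x⁻¹ * y⁻¹ * x * y ∈ stabilizer G w := by
    intro x y
    obtain rfl | rfl : k = 0 ∨ k = 1 := by omega
    · rw [pow_zero, index_eq_one] at hk
      rw [hk]; trivial
    · rw [pow_one] at hk
      obtain ⟨m, hm⟩ := hG.exists_card_eq
      have hm0 : m ≠ 0 := by
        rintro rfl
        have := (stabilizer G w).index_dvd_card
        rw [hk, hm, pow_zero, Nat.dvd_one] at this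
        exact hp.out.ne_one this
      haveI : (stabilizer G w).Normal := by
        apply Subgroup.normal_of_index_eq_minFac_card
        rw [hk, hm, hp.out.pow_minFac hm0]
      haveI : IsCyclic (G ⧸ stabilizer G w) := isCyclic_of_prime_card (p := p) hk
      rw [← QuotientGroup.eq_one_iff]
      simp only [QuotientGroup.mk_mul, QuotientGroup.mk_inv]
      have := IsCyclic.isMulCommutative (α := G ⧸ stabilizer G w)
      rw [mul_assoc, mul_assoc, ← mul_assoc _ (x : G ⧸ stabilizer G w), this.1.1 _ (x : G ⧸ stabilizer G w)]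
      group
  have := mem_stabilizer_iff.1 (key b a)
  rw [mul_assoc, ← mul_inv_rev, mul_smul, inv_smul_eq_iff] at this
  exact this.symm


/-- For n ≥ 6 and a prime p, a nontrivial Sylow p-subgroup of the alternating group of degree n is abelian if and only if n < p². -/
theorem result (n p : ℕ) (hn : 6 ≤ n) [Fact p.Prime] (S : Sylow p (alternatingGroup (Fin n))) (hS : (S : Subgroup (alternatingGroup (Fin n))) ≠ ⊥) : IsMulCommutative S ↔ n < p ^ 2 := by
  constructor
  · intro h
    by_contra hlt
    exact KSG.not_isMulCommutative_sylow_alt (by simpa using hlt) (by simpa using hn) S h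
  · intro h
    exact comm_of_lt (n := n) _ S.isPGroup' h

end Cfsg.Agent.S5164
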