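import Cfsg.Statements.S5171
import Mathlib
import Cfsg.Agent.Fus.FormP
import Cfsg.Agent.Class.Max.Bridge

set_option autoImplicit false
open Cfsg

namespace Cfsg.Agent.S5171

/-- For a finite field K of characteristic p and m ≥ 2, excluding the case m = 2 with K of two elements, the p-fusion system of the projective symplectic group PSp_{2m}(K) on a Sylow p-subgroup is simple. -/
theorem result {K : Type*} [Field K] [Fintype K] (p : ℕ) [Fact p.Prime] [CharP K p] (m : ℕ) (hm : 2 ≤ m) (hex : m = 2 → 3 ≤ Fintype.card K) (S : Sylow p (Cfsg.PSp m K)) : (Cfsg.groupFusionSystem (S : Subgroup (Cfsg.PSp m K))).IsSimple p := by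
  have hI := Class.Max.EG_fmSpStd (F := K) m
  have : Finite (Matrix.symplecticGroup (Fin m) K) := inferInstance
  have h2 : p = 2 ∨ (2 : K) ≠ 0 := by
    by_contra h
    push Not at h
    exact h.1 ((Nat.prime_dvd_prime_iff_eq Fact.out Nat.prime_two).1
      ((CharP.cast_eq_zero_iff K p 2).1 (by simpa using h.2)))
  refine Fus.isSimple_quotient_of_hom (DistribMulAction.toModuleAut K (Fin m ⊕ Fin m → K))
    (fun a b h => Class.Sp.ext_smul fun v => LinearEquiv.congr_fun h v)
    (H := (Class.Max.fmSpStd K m).EG) ?_ _ ?_ (Fus.isSimple_EG (by change 1 + 2 ≤ _; simp; omega)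
      ⟨1, one_ne_zero, rfl⟩ (fun _ _ => rfl) ?_ fun H hH M hM => ?_) S
  · rw [hI]
    ext g
    constructor
    · rintro ⟨a, rfl⟩
      exact ⟨(Class.Sp.mem_iff_preserves (A := a.1)).1 a.2, fun _ => rfl⟩
    · intro hg
      obtain ⟨g, rfl⟩ := (Class.Orth.glEquiv _ K).surjective g
      exact ⟨⟨g.1, (Class.Sp.mem_iff_preserves (A := g.1)).2 hg.1⟩, LinearEquiv.ext fun _ => rfl⟩
  · have h3 : ∀ g ∈ Subgroup.center (Matrix.symplecticGroup (Fin m) K), g ^ 2 = 1 := fun g hg => by
      rcases Class.Sp.mem_center_iff.1 hg with rfl | rfl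
      · simp
      · exact Class.Sp.ext_smul fun v => by simp [pow_two, mul_smul, Class.Sp.negOne_smul]
    rcases h2 with rfl | h2
    · rw [Subgroup.card_eq_one.2, Nat.coprime_one_left_iff] <;> try trivial
      refine eq_bot_iff.2 fun g hg => ?_
      rcases Class.Sp.mem_center_iff.1 hg with rfl | rfl
      · simp
      · exact Class.Sp.ext_smul fun v => by
          rw [Class.Sp.negOne_smul, one_smul]; exact funext fun i => CharTwo.neg_eq _
    · have : Fact (Nat.Prime 2) := ⟨Nat.prime_two⟩
      obtain ⟨k, hk⟩ := IsPGroup.iff_card.1 (show IsPGroup 2 (Subgroup.center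
        (Matrix.symplecticGroup (Fin m) K)) from fun g => ⟨1, Subtype.ext (h3 g.1 g.2)⟩)
      rw [hk]
      refine Nat.Coprime.pow_left _ ((Nat.coprime_primes Nat.prime_two Fact.out).2 ?_)
      rintro rfl
      exact h2 (by simpa using CharP.cast_eq_zero K 2)
  · rcases h2 with rfl | h2
    · refine Or.inr ⟨fun _ => rfl, ?_⟩
      by_cases h : m = 2
      · classical
        obtain ⟨t, -, ht⟩ := Finset.exists_mem_notMem_of_card_lt_card (s := {(0 : K), 1})
          (t := Finset.univ) (lt_of_le_of_lt Finset.card_le_two (by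
            rw [Finset.card_univ]; have := hex h; omega))
        exact Or.inl ⟨t, by simpa [not_or] using ht⟩
      · exact Or.inr (by change 1 + 4 ≤ _; simp; omega)
    · refine Or.inl ⟨1, fun h => h2 ?_⟩
      change (1 : K) = -1 * 1 at h
      linear_combination h
  · rw [hI]
    exact Fus.fix_le_of_alt (fun _ => rfl) (fun x y => Class.Sp.form_skew y x) hH hM

end Cfsg.Agent.S5171
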