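import Cfsg.Statements.S5172
import Mathlib
import Cfsg.Agent.Fus.FormP
import Cfsg.Agent.Class.Max.Bridge
import Cfsg.Agent.Class.U.Simple

set_option autoImplicit false
open Cfsg

namespace Cfsg.Agent.S5172

/-- For a finite field K with q² elements of characteristic p and n ≥ 4, the p-fusion system of the projective special unitary group PSU_n(q) (realised over K) on a Sylow p-subgroup is simple. -/
theorem result {K : Type*} [Field K] [Fintype K] (p q : ℕ) [Fact p.Prime] [CharP K p] (hK : Fintype.card K = q ^ 2) (n : ℕ) (hn : 4 ≤ n) (S : Sylow p (Cfsg.PSU n K q)) : (Cfsg.groupFusionSystem (S : Subgroup (Cfsg.PSU n K q))).IsSimple p := by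
  have := Class.U.UF.of_card hK
  have hI := Class.Max.EG_fmUStd (F := K) n q
  let φ : Cfsg.SU n K q →* ((Fin n → K) ≃ₗ[K] (Fin n → K)) :=
    (Class.Orth.glEquiv _ K).toMonoidHom.comp
      (Matrix.SpecialLinearGroup.toGL.comp (Cfsg.SU n K q).subtype)
  have hφ : φ.range = (Class.Max.fmUStd K n q).EG := by
    rw [hI]
    ext g
    obtain ⟨g, rfl⟩ := (Class.Orth.glEquiv _ K).surjective g
    constructor
    · rintro ⟨a, ha⟩
      rw [← ha]
      exact ⟨⟨fun x y => a.2 y x, fun x => a.2 x x⟩,
        (Class.Max.mem_specialLinear_iff _).1 (Units.ext a.1.2)⟩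
    · intro hg
      exact ⟨Class.U.mkSU (q := q) g.1 (fun x y => hg.1.1 y x)
        (congrArg Units.val ((Class.Max.mem_specialLinear_iff g).2 hg.2)),
        LinearEquiv.ext fun _ => rfl⟩
  refine Fus.isSimple_quotient_of_hom φ ((Class.Orth.glEquiv (Fin n) K).injective.comp
    (Matrix.SpecialLinearGroup.toGL_injective.comp Subtype.val_injective)) hφ _ ?_
    (Fus.isSimple_EG (by change 2 + 2 ≤ _; simpa using hn) (Class.Max.fmUStd_lam n q)
      (fun _ h => h) (Or.inl ?_) fun H hH M hM => ?_) S
  · rw [Class.U.card_center (by omega)]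
    refine Nat.Coprime.coprime_dvd_left (Nat.gcd_dvd_right _ _) ?_
    obtain ⟨k, -, hk⟩ := FiniteField.card K p
    have h1 : p ∣ q := (Fact.out : p.Prime).dvd_of_dvd_pow (hK ▸ hk ▸ dvd_pow_self p k.ne_zero)
    exact (Nat.coprime_self_add_left.2 (by simp)).coprime_dvd_right h1
  · obtain ⟨x, hx⟩ := Class.U.exists_conj_ne K q
    exact ⟨x, fun h => hx (h.trans (one_mul x))⟩
  · rintro g ⟨hg, hgH⟩
    obtain ⟨a, rfl⟩ : g ∈ φ.range := hφ ▸ hg
    have hW : Class.U.Split q ((Class.Max.fmUStd K n q).perp H) := fun x => by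
      obtain ⟨w, hw, h⟩ := hH.perp.exists_decomp x
      exact ⟨w, hw, h⟩
    refine Class.U.SW_induction (P := fun a => φ a ∈ M) (by simp) ?_
      (hW.mem_SW fun y hy => hgH y ?_)
    · intro u hu w hw c s g h1 h2 hs ih
      rw [map_mul]
      refine M.mul_mem ?_ ih
      by_cases h0 : u = 0
      · subst h0
        rw [hs.eq_one_of_zero, map_one]
        exact M.one_mem
      have e : ∀ x, φ s x = (Class.Max.fmUStd K n q).ef u w (-c) x := fun x => by
        change s • x = x + hermForm n K q x u • w -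
          (1 * (hermForm n K q x w + -c * hermForm n K q x u)) • u
        rw [hs]
        module
      exact (hM u hu w hw _ (Class.Max.Fm.valid_of_Iso h1 h0 h2 (g := φ s)
        ⟨fun x y => s.2 y x, fun x => s.2 x x⟩ e)).mem e
    · rw [← (Class.Max.fmUStd K n q).perp_perp H]
      exact hy

end Cfsg.Agent.S5172
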