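import Mathlib
import Cfsg.Statements.S5311
import Cfsg.Agent.Fus.CompBasic
-- import your own Cfsg.Agent.* helpers here

set_option autoImplicit false
open Cfsg

namespace Cfsg.Agent.S5311

open Subgroup Cfsg.Agent.Fus Cfsg.Agent.FGS Cfsg.Agent.PLocal.CF

/-- The layer of a saturated fusion system F over a finite p-group S is characteristic in F: for every automorphism α of S that is an automorphism of F (α and its inverse are morphisms from F to F) and every layer E of F over T, α carries T onto T and, for every map φ of E with source P, the map induced by α on α(P) (that is, α ∘ φ ∘ α⁻¹) is a map of E. -/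
theorem result {Ω : Type*} [Group Ω] {S : Subgroup Ω} [Finite S] (p : ℕ) [Fact p.Prime] (hS : IsPGroup p S) (F : Cfsg.FusionSystem S) (hF : F.IsSaturated p)
    (α : ↥S ≃* ↥S) (hα : F.IsMorphism F (S.subtype.comp α.toMonoidHom))
    (hα' : F.IsMorphism F (S.subtype.comp α.symm.toMonoidHom))
    {T : Subgroup Ω} (E : Cfsg.FusionSystem T) (hE : E.IsLayerOf F p) :
    Cfsg.FusionSystem.imageAlong (S.subtype.comp α.toMonoidHom) T = T ∧
      ∀ (P : Subgroup Ω) (φ : ↥P →* Ω), φ ∈ E.Hom P →
        ∀ φ' : ↥(Cfsg.FusionSystem.imageAlong (S.subtype.comp α.toMonoidHom) P) →* Ω,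
          Cfsg.FusionSystem.InducedAlong (S.subtype.comp α.toMonoidHom) φ φ' →
            φ' ∈ E.Hom (Cfsg.FusionSystem.imageAlong (S.subtype.comp α.toMonoidHom) P) := by
  have hg : GIso S S (hfn (S.subtype.comp α.toMonoidHom)) (hfn (S.subtype.comp α.symm.toMonoidHom)) := by
    refine ⟨fun x hx => ?_, fun x hx => ?_, fun x hx => ?_, fun x hx => ?_,
      fun x hx y hy => hfn_mul _ hx hy⟩
    · rw [hfn_apply _ hx]; exact (α ⟨x, hx⟩).2
    · rw [hfn_apply _ hx]; exact (α.symm ⟨x, hx⟩).2
    · rw [hfn_apply _ hx]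
      exact (hfn_coe _ (α ⟨x, hx⟩)).trans (by simp)
    · rw [hfn_apply _ hx]
      exact (hfn_coe _ (α.symm ⟨x, hx⟩)).trans (by simp)
  have h : FIso F F (hfn (S.subtype.comp α.toMonoidHom)) (hfn (S.subtype.comp α.symm.toMonoidHom)) := by
    refine ⟨hg, fun P f hf => ?_, fun P f hf => ?_⟩
    · rw [imX_hfn _ hf.le]
      exact morph_isMap hα hf fun x hx => by
        simp only [Function.comp]; rw [hg.left x (hf.le hx)]
    · rw [imX_hfn _ hf.le]
      exact morph_isMap hα' hf fun x hx => by
        simp only [Function.comp]; rw [hg.right x (hf.le hx)]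
  have h1 := layer_fIso h hE
  have hT := Inv.le hE.1.1.2.2
  refine ⟨by rw [← imX_hfn _ hT, h1.g.imX_top], fun P φ hφ φ' hφ' => ?_⟩
  have hP := (hom_le hφ).trans hT
  rw [mem_Hom_iff_fn]
  have := h1.isMap (isMap_fn hφ)
    ((inducedAlong_iff (fun x => (fn_coe φ x).symm) (fun x => (fn_coe φ' x).symm)).1 hφ').2.2.2
  rwa [imX_hfn _ hP] at this

end Cfsg.Agent.S5311
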