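import Cfsg.Statements.S5344
import Mathlib
import Cfsg.Agent.TT.SymHom

set_option autoImplicit false
open Cfsg

namespace Cfsg.Agent.S5344

/-- In a set of 3-transpositions, let a, b, c be members with a and c different and commuting, while neither a nor c commutes with b (a 3-string). Then there is an injective homomorphism from the symmetric group of degree 4 into the ambient group sending the transpositions (0 1), (1 2), (2 3) to a, b, c; so a, b, c generate a copy of the symmetric group of degree 4 in which they are transpositions. -/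
theorem result {G : Type*} [Group G] {D : Set G} (hD : Cfsg.IsThreeTranspositionSet D) {a b c : G} (ha : a ∈ D) (hb : b ∈ D) (hc : c ∈ D) (hac : a ≠ c) (hac' : Commute a c) (hab : ¬ Commute a b) (hbc : ¬ Commute b c) : ∃ φ : Equiv.Perm (Fin 4) →* G, Function.Injective φ ∧ φ (Equiv.swap 0 1) = a ∧ φ (Equiv.swap 1 2) = b ∧ φ (Equiv.swap 2 3) = c := by
  obtain ⟨φ, hφ⟩ := Cfsg.Agent.KSG.exists_hom_perm_of_rels ![a, b, c]
    (fun i => by fin_cases i <;> simp [TT.mul_self hD, ha, hb, hc])
    (fun i j h => by fin_cases i <;> fin_cases j <;> simp_all)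
    (fun i j h => by
      fin_cases i <;> fin_cases j <;> simp_all [TT.braid hD ha hb hab, TT.braid hD hb hc hbc])
  have h0 : φ (Equiv.swap 0 1) = a := hφ 0
  have h1 : φ (Equiv.swap 1 2) = b := hφ 1
  have h2 : φ (Equiv.swap 2 3) = c := hφ 2
  refine ⟨φ, TT.perm_hom_injective φ (a := 0) (b := 1) (c := 2) (d := 3) (by decide) (by decide)
    (by decide) (by decide) (by decide) (by decide) ?_ (by rwa [h0, h2]), h0, h1, h2⟩
  rw [h0, h1]
  exact fun e => hab (e ▸ Commute.refl a)

end Cfsg.Agent.S5344
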