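import Cfsg.Statements.S5346
import Mathlib
import Cfsg.Agent.TT.Classes

set_option autoImplicit false
open Cfsg

namespace Cfsg.Agent.S5346

/-- Let D be a conjugation-invariant generating set of 3-transpositions of a finite group G and d a member of D. Then D has width 1 (no two different members of D commute) if and only if G is the product of the subgroup generated by d with the largest normal 3-subgroup of G. -/
theorem result {G : Type*} [Group G] [Finite G] {D : Set G} (hD : Cfsg.IsThreeTranspositionGroup D) {d : G} (hd : d ∈ D) : Cfsg.commutingWidth D = 1 ↔ Subgroup.zpowers d ⊔ Cfsg.pCore 3 G = ⊤ := by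
  classical
  rw [TT.width_eq_one_iff hd]
  constructor
  · intro h
    have hw := TT.isW1_of_no_commute hD.1 subset_rfl (fun _ h _ h' => TT.conj_mem hD h h') h
    rw [eq_top_iff, ← hD.2.2, Subgroup.closure_le]
    intro e he
    have := mul_mem (Subgroup.mem_sup_left (T := pCore 3 G) (Subgroup.mem_zpowers d))
      (Subgroup.mem_sup_right (hw.mul_mem_pCore hD.2.1 hd he))
    rwa [TT.mul_cancel_left hD.1 hd] at this
  · intro h a ha b hb hab
    have key : ∀ a ∈ D, d * a ∈ pCore 3 G := by
      intro a ha
      have : a ∈ Subgroup.zpowers d ⊔ pCore 3 G := h ▸ Subgroup.mem_top a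
      obtain ⟨y, hy, z, hz, hyz⟩ := Subgroup.mem_sup_of_normal_right.1 this
      have hy' : y = 1 ∨ y = d := by
        have hfin : IsOfFinOrder d := isOfFinOrder_of_finite d
        rw [hfin.mem_zpowers_iff_mem_range_orderOf, hD.1.1 d hd] at hy
        simp only [Finset.mem_image, Finset.mem_range] at hy
        obtain ⟨n, hn, rfl⟩ := hy
        interval_cases n <;> simp
      rcases hy' with rfl | rfl
      · rw [one_mul] at hyz
        subst hyz
        obtain ⟨k, hk⟩ := Grp.pCore_isPGroup 3 G ⟨_, hz⟩
        have : orderOf z ∣ 3 ^ k := orderOf_dvd_of_pow_eq_one (congrArg Subtype.val hk)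
        rw [hD.1.1 z ha] at this
        have := Nat.Coprime.eq_one_of_dvd (Nat.Coprime.pow_right k (by norm_num)) this
        omega
      · rw [← hyz, TT.mul_cancel_left hD.1 hd]; exact hz
    refine TT.eq_of_commute_of_mul_mem_pgroup hD.1 (by norm_num) (Grp.pCore_isPGroup 3 G) ha hb
      hab ?_
    have := mul_mem (inv_mem (key a ha)) (key b hb)
    rwa [mul_inv_rev, TT.inv_eq hD.1 ha, TT.inv_eq hD.1 hd, mul_assoc,
      TT.mul_cancel_left hD.1 hd] at this

end Cfsg.Agent.S5346
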