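import Cfsg.Statements.S5348
import Mathlib
import Cfsg.Agent.TT.Classes

set_option autoImplicit false
open Cfsg

namespace Cfsg.Agent.S5348

/-- Let D be a conjugation-invariant generating set of 3-transpositions of a finite group G and d a member of D. Let V be the set of members of D commuting with exactly the same members of D as d, and W the set of members w of D such that the members of D other than w commuting with w are precisely the members of D other than d commuting with d. Then V = {d} or W = {d}. -/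
theorem result {G : Type*} [Group G] [Finite G] {D : Set G} (hD : Cfsg.IsThreeTranspositionGroup D) {d : G} (hd : d ∈ D) : {v : G | v ∈ D ∧ ∀ e ∈ D, Commute v e ↔ Commute d e} = {d} ∨ {w : G | w ∈ D ∧ {y : G | y ∈ D ∧ y ≠ d ∧ Commute d y} = {y : G | y ∈ D ∧ y ≠ w ∧ Commute w y}} = {d} := by
  by_contra h
  push Not at h
  obtain ⟨h1, h2⟩ := h
  have h1' : ∃ v ∈ D, TT.VRel D v d ∧ v ≠ d := by
    by_contra h3
    push Not at h3
    exact h1 (Set.eq_singleton_iff_unique_mem.2 ⟨⟨hd, fun _ _ => Iff.rfl⟩,
      fun v hv => h3 v hv.1 hv.2⟩)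
  have h2' : ∃ w ∈ D, TT.WRel D d w ∧ w ≠ d := by
    by_contra h3
    push Not at h3
    exact h2 (Set.eq_singleton_iff_unique_mem.2 ⟨⟨hd, rfl⟩,
      fun v hv => h3 v hv.1 (TT.wrel_iff_set.2 hv.2)⟩)
  obtain ⟨v, hv, hvd, hne⟩ := h1'
  obtain ⟨w, hw, hdw, hne'⟩ := h2'
  have := ((hdw v hv).1 ⟨hne, (hvd.commute hd).symm⟩).2
  exact hne' (hdw.eq_of_commute hw ((hvd w hw).1 this.symm)).symm

end Cfsg.Agent.S5348
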