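import Cfsg.Statements.S5349
import Mathlib
import Cfsg.Agent.TT.Classes

set_option autoImplicit false
open Cfsg

namespace Cfsg.Agent.S5349

/-- Let D be a conjugacy class of 3-transpositions generating the finite group G, with at least two members, and d a member of D. Then the set of members of D commuting with exactly the same members of D as d coincides with the set of members of D lying in the coset of d modulo the largest normal 2-subgroup of G, and also with the orbit of d under conjugation by that normal 2-subgroup. -/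
theorem result {G : Type*} [Group G] [Finite G] {D : Set G} (hD : Cfsg.IsThreeTranspositionClass D) (hD2 : ∃ a ∈ D, ∃ b ∈ D, a ≠ b) {d : G} (hd : d ∈ D) : {v : G | v ∈ D ∧ ∀ e ∈ D, Commute v e ↔ Commute d e} = {v : G | v ∈ D ∧ d⁻¹ * v ∈ Cfsg.pCore 2 G} ∧ {v : G | v ∈ D ∧ ∀ e ∈ D, Commute v e ↔ Commute d e} = {v : G | ∃ g ∈ Cfsg.pCore 2 G, v = g * d * g⁻¹} := by
  have hG := TT.group_of_class hD
  have key : ∀ v ∈ D, TT.VRel D v d ↔ d * v ∈ pCore 2 G := fun v hv =>
    ⟨fun h => (TT.vrel_iff hG hd hv).1 h.symm, fun h => ((TT.vrel_iff hG hd hv).2 h).symm⟩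
  refine ⟨?_, ?_⟩
  · ext v
    rw [TT.inv_eq hD.1 hd]
    exact and_congr_right (key v)
  · ext v
    constructor
    · rintro ⟨hv, h⟩
      obtain ⟨a, ha, hda⟩ := TT.exists_not_commute hD hD2 hd
      have h' : TT.VRel D v d := h
      have hav : ¬ Commute a v := fun h1 => hda ((h' a ha).1 h1.symm)
      refine ⟨a * (d * v) * a, ?_, (TT.string_conj hD.1 hd ha hv (h'.commute hd).symm hda hav).symm⟩
      have := (inferInstance : (pCore 2 G).Normal).conj_mem _ ((key v hv).1 h') a
      rwa [TT.inv_eq hD.1 ha] at this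
    · rintro ⟨g, hg, rfl⟩
      exact ⟨hG.2.1 g d hd, (key _ (hG.2.1 g d hd)).2 (TT.mul_conj_mem (TT.mul_self hD.1 hd) hg)⟩

end Cfsg.Agent.S5349
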