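import Cfsg.Statements.S5350
import Mathlib
import Cfsg.Agent.TT.Classes

set_option autoImplicit false
open Cfsg

namespace Cfsg.Agent.S5350

/-- Let D be a conjugacy class of 3-transpositions generating the finite group G, with at least two members, and d a member of D. Then the set of members w of D whose commuting partners in D (other than w) are exactly those of d (other than d) coincides with the set of members of D lying in the coset of d modulo the largest normal 3-subgroup of G, and also with the orbit of d under conjugation by that normal 3-subgroup. -/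
theorem result {G : Type*} [Group G] [Finite G] {D : Set G} (hD : Cfsg.IsThreeTranspositionClass D) (hD2 : ∃ a ∈ D, ∃ b ∈ D, a ≠ b) {d : G} (hd : d ∈ D) : {w : G | w ∈ D ∧ {y : G | y ∈ D ∧ y ≠ d ∧ Commute d y} = {y : G | y ∈ D ∧ y ≠ w ∧ Commute w y}} = {w : G | w ∈ D ∧ d⁻¹ * w ∈ Cfsg.pCore 3 G} ∧ {w : G | w ∈ D ∧ {y : G | y ∈ D ∧ y ≠ d ∧ Commute d y} = {y : G | y ∈ D ∧ y ≠ w ∧ Commute w y}} = {w : G | ∃ g ∈ Cfsg.pCore 3 G, w = g * d * g⁻¹} := by
  have hG := TT.group_of_class hD
  have key : ∀ v ∈ D, {y : G | y ∈ D ∧ y ≠ d ∧ Commute d y} = {y : G | y ∈ D ∧ y ≠ v ∧ Commute v y}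
      ↔ d * v ∈ pCore 3 G := fun v hv => TT.wrel_iff_set.symm.trans (TT.wrel_iff hG hd hv)
  refine ⟨?_, ?_⟩
  · ext v
    rw [TT.inv_eq hD.1 hd]
    exact and_congr_right (key v)
  · ext v
    constructor
    · rintro ⟨hv, h⟩
      by_cases hc : Commute d v
      · exact ⟨1, one_mem _, by simp [(TT.wrel_iff_set.2 h).eq_of_commute hv hc]⟩
      · exact ⟨d * v, (key v hv).1 h, (TT.conj_mul_of_not_commute hD.1 hd hv hc).symm⟩
    · rintro ⟨g, hg, rfl⟩
      exact ⟨hG.2.1 g d hd, (key _ (hG.2.1 g d hd)).2 (TT.mul_conj_mem (TT.mul_self hD.1 hd) hg)⟩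

end Cfsg.Agent.S5350
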