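import Cfsg.Statements.S5354
import Mathlib
import Cfsg.Agent.TT.PrimGroup

set_option autoImplicit false
open Cfsg

namespace Cfsg.Agent.S5354

/-- Let D be a conjugation-invariant generating set of 3-transpositions of the finite group G on which G acts primitively by conjugation, and suppose two different members of D commute (width at least 2). Then G has a quasisimple normal subgroup L of index at most 2 with the generalized Fitting subgroup of G equal to L times the centre, the commuting graph of D is connected, and for d in D the subgroup generated by the members of D commuting with d is a maximal D-subgroup: it is proper, and every subgroup generated by members of D that contains it is either it or G. -/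
theorem result {G : Type*} [Group G] [Finite G] {D : Set G} (hD : Cfsg.IsThreeTranspositionGroup D) (hprim : Cfsg.IsPrimitiveUnderConj D) (hw : ∃ a ∈ D, ∃ b ∈ D, a ≠ b ∧ Commute a b) : (∃ L : Subgroup G, L.Normal ∧ Cfsg.IsQuasisimple L ∧ L.index ≤ 2 ∧ Cfsg.generalizedFittingSubgroup G = L ⊔ Subgroup.center G) ∧ (Cfsg.commutingGraph D).Connected ∧ ∀ d ∈ D, Subgroup.closure {y : G | y ∈ D ∧ Commute d y} ≠ ⊤ ∧ ∀ H : Subgroup G, Cfsg.IsDSubgroup D H → Subgroup.closure {y : G | y ∈ D ∧ Commute d y} ≤ H → H = Subgroup.closure {y : G | y ∈ D ∧ Commute d y} ∨ H = ⊤ := by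
  have h := TT.prim_of_group hD hprim hw
  obtain ⟨L, hL, hN, hi, hF, -⟩ := h.exists_comp hD.2.2
  refine ⟨⟨L, hN, hL.2, hi, hF⟩, (TT.cconn_iff h.nonempty).1 h.cconn, fun d hd => ⟨fun h1 => ?_,
    fun H hH h1 => ?_⟩⟩
  · obtain ⟨x, -, hx⟩ := h.exists_not_commute hd
    exact hx (TT.commute_of_mem_closure_perp (D := D) (h1 ▸ Subgroup.mem_top x)).symm
  · by_cases h2 : ∃ a ∈ D, a ∈ H ∧ ¬ Commute d a
    · obtain ⟨a, ha, haH, hda⟩ := h2
      right
      rw [eq_top_iff, ← hD.2.2, Subgroup.closure_le]
      have h3 : TT.perp D d ⊆ H := Subgroup.subset_closure.trans h1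
      exact h.subset_of_closed hd ha hda (fun x hx y hy =>
        H.mul_mem (H.mul_mem (h3 hx) hy) (h3 hx)) h3 haH
    · left
      push Not at h2
      refine le_antisymm ?_ h1
      rw [← hH]
      exact Subgroup.closure_mono fun x hx => ⟨hx.1, h2 x hx.1 hx.2⟩

end Cfsg.Agent.S5354
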