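import Cfsg.Statements.S5356
import Mathlib
import Cfsg.Agent.TT.Classes
import Cfsg.Agent.Grp.Subnormal
import Cfsg.Agent.FGS.PrimePart

set_option autoImplicit false
open Cfsg

namespace Cfsg.Agent.S5356

open Subgroup Cfsg.Agent.TT

theorem vrel_all {G : Type*} [Group G] {D : Set G} (hD : IsThreeTranspositionClass D) {d : G}
    (hd : d ∈ D)
    (hV : {y : G | y ∈ D ∧ Commute d y} = {v : G | v ∈ D ∧ ∀ e ∈ D, Commute v e ↔ Commute d e})
    {a b : G} (ha : a ∈ D) (hb : b ∈ D) (hab : Commute a b) : VRel D a b := by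
  have hG := group_of_class hD
  obtain ⟨g, rfl⟩ := exists_conj_of_class hD hd ha
  have hb' : g⁻¹ * b * g ∈ D := conj_inv_mem hG g b hb
  have h1 : Commute d (g⁻¹ * b * g) := by
    rw [← commute_conj_iff' g]
    simpa [mul_assoc] using hab
  have h2 : g⁻¹ * b * g ∈ {v : G | v ∈ D ∧ ∀ e ∈ D, Commute v e ↔ Commute d e} := by
    rw [← hV]; exact ⟨hb', h1⟩
  have h3 : VRel D d (g⁻¹ * b * g) := fun e he => (h2.2 e he).symm
  have := h3.conj (g := g) (conj_inv_mem hG g)
  simpa [mul_assoc] using this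

theorem mem_of_max {G : Type*} [Group G] {P : Subgroup G} {d u : G}
    (hP : Maximal (fun R : Subgroup G => IsPGroup 3 R ∧ d ∈ normalizer (R : Set G) ∧ u ∈ R) P)
    {y : G} (hy : y ∈ normalizer (P : Set G)) {k : ℕ} (hk : y ^ 3 ^ k = 1)
    (hdy : d ∈ normalizer (zpowers y : Set G)) : y ∈ P := by
  have hz : IsPGroup 3 (zpowers y) := by
    rintro ⟨_, n, rfl⟩
    refine ⟨k, Subtype.ext ?_⟩
    simp only [SubgroupClass.coe_pow, OneMemClass.coe_one]
    rw [← zpow_natCast, ← zpow_mul, mul_comm, zpow_mul, zpow_natCast, hk, one_zpow]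
  have h1 : IsPGroup 3 (zpowers y ⊔ P : Subgroup G) :=
    IsPGroup.to_sup_of_normal_right' hz hP.prop.1 (by rwa [zpowers_le])
  have h2 : d ∈ normalizer ((zpowers y ⊔ P : Subgroup G) : Set G) :=
    Subgroup.normalizer_inf_normalizer_le_normalizer_sup _ _ ⟨hdy, hP.prop.2.1⟩
  have h3 := hP.le_of_ge ⟨h1, h2, mem_sup_right hP.prop.2.2⟩ le_sup_right
  exact h3 (mem_sup_left (mem_zpowers y))

theorem mem_normalizer_zpowers_of_commute {G : Type*} [Group G] {d y : G} (h : Commute d y) :
    d ∈ normalizer (zpowers y : Set G) := by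
  refine centralizer_le_normalizer _ ?_
  rw [mem_centralizer_iff]
  rintro _ ⟨n, rfl⟩
  exact (h.zpow_right n).symm.eq

theorem mem_normalizer_zpowers_of_inv {G : Type*} [Group G] {d y : G} (hd : d * d = 1)
    (h : d * y * d = y⁻¹) : d ∈ normalizer (zpowers y : Set G) := by
  have hi : d⁻¹ = d := inv_eq_of_mul_eq_one_right hd
  have key : ∀ x ∈ zpowers y, d * x * d⁻¹ ∈ zpowers y := by
    rintro _ ⟨n, rfl⟩
    have : d * y ^ n * d⁻¹ = (d * y * d⁻¹) ^ n := by rw [conj_zpow]
    simp only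
    rw [this, hi, h]
    exact zpow_mem (inv_mem (mem_zpowers y)) n
  rw [mem_normalizer_iff]
  intro x
  refine ⟨key x, fun hx => ?_⟩
  have := key _ hx
  rwa [hi, ← mul_assoc, ← mul_assoc, hd, one_mul, mul_assoc, hd, mul_one] at this

/-- Let D be a conjugacy class of 3-transpositions generating the finite group G, with at least two members, and d a member of D such that every member of D commuting with d commutes with exactly the same members of D as d. Then there is a Sylow 3-subgroup P of G normalized by d such that G is generated by d, P and the largest normal 2-subgroup of G. -/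
theorem result {G : Type*} [Group G] [Finite G] {D : Set G} (hD : Cfsg.IsThreeTranspositionClass D) (hD2 : ∃ a ∈ D, ∃ b ∈ D, a ≠ b) {d : G} (hd : d ∈ D) (hV : {y : G | y ∈ D ∧ Commute d y} = {v : G | v ∈ D ∧ ∀ e ∈ D, Commute v e ↔ Commute d e}) : ∃ P : Sylow 3 G, d ∈ Subgroup.normalizer (P : Set G) ∧ Subgroup.zpowers d ⊔ (P : Subgroup G) ⊔ Cfsg.pCore 2 G = ⊤ := by
  classical
  haveI : Fact (Nat.Prime 3) := ⟨Nat.prime_three⟩
  haveI : Fact (Nat.Prime 2) := ⟨Nat.prime_two⟩
  have hG := group_of_class hD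
  have hT := hD.1
  obtain ⟨a, ha, hda⟩ := exists_not_commute hD hD2 hd
  have hdd := mul_self hT hd
  have haa := mul_self hT ha
  have hdi := inv_eq hT hd
  -- a maximal `d`-invariant 3-subgroup containing `d * a`
  have h0 : IsPGroup 3 (zpowers (d * a)) ∧ d ∈ normalizer (zpowers (d * a) : Set G) ∧
      d * a ∈ zpowers (d * a) := by
    refine ⟨IsPGroup.of_card (n := 1) ?_, mem_normalizer_zpowers_of_inv hdd ?_, mem_zpowers _⟩
    · rw [Nat.card_zpowers, orderOf_mul_of_not_commute hT hd ha hda, pow_one]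
    · rw [mul_inv_rev, inv_eq hT ha, hdi, ← mul_assoc, hdd, one_mul]
  obtain ⟨P, -, hP⟩ := Set.Finite.exists_le_maximal
    (s := {R : Subgroup G | IsPGroup 3 R ∧ d ∈ normalizer (R : Set G) ∧ d * a ∈ R})
    (Set.toFinite _) (a := zpowers (d * a)) h0
  have hP' : Maximal (fun R : Subgroup G => IsPGroup 3 R ∧ d ∈ normalizer (R : Set G) ∧
    d * a ∈ R) P := hP
  obtain ⟨S, hS⟩ := hP'.prop.1.exists_le_sylow
  have hdN := hP'.prop.2.1
  have haN : a ∈ normalizer (P : Set G) := by
    have := mul_mem hdN (le_normalizer hP'.prop.2.2)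
    rwa [← mul_assoc, hdd, one_mul] at this
  have hQS : ∀ q ∈ pCore 2 G, q ∈ (S : Subgroup G) → q = 1 := fun q h1 h2 => by
    have := IsPGroup.disjoint_of_ne 2 3 (by norm_num) _ _ (Grp.pCore_isPGroup 2 G) S.isPGroup'
    exact (disjoint_def.1 this) h1 h2
  have hPS : P = S := by
    by_contra hne
    obtain ⟨x, ⟨hxS, hxN⟩, hxP⟩ := SetLike.exists_of_lt
      (Grp.lt_inf_normalizer_of_isNilpotent S.isPGroup'.isNilpotent (lt_of_le_of_ne hS hne))
    have hv : x * d * x⁻¹ ∈ D := hG.2.1 x d hd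
    have hvN : x * d * x⁻¹ ∈ normalizer (P : Set G) := mul_mem (mul_mem hxN hdN) (inv_mem hxN)
    by_cases hc : Commute d (x * d * x⁻¹)
    · by_cases hdv : ¬ Commute a (x * d * x⁻¹)
      · have hq : a * (d * (x * d * x⁻¹)) * a ∈ pCore 2 G := by
          have := (inferInstance : (pCore 2 G).Normal).conj_mem _
            (mul_mem_pCore_two hG hd hv (vrel_all hD hd hV hd hv hc)) a
          rwa [inv_eq hT ha] at this
        have hqN : a * (d * (x * d * x⁻¹)) * a ∈ normalizer (P : Set G) :=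
          mul_mem (mul_mem haN (mul_mem hdN hvN)) haN
        have hs := string_conj hT hd ha hv hc hda hdv
        set q := a * (d * (x * d * x⁻¹)) * a with hqdef
        have hcd : Commute d (q⁻¹ * x) := by
          refine (commute_of_conj_eq ?_).symm
          calc q⁻¹ * x * d * (q⁻¹ * x)⁻¹ = q⁻¹ * (x * d * x⁻¹) * q := by group
            _ = d := by rw [← hs]; group
        set c := q⁻¹ * x with hcdef
        have hn : orderOf c ≠ 0 := (orderOf_pos c).ne'
        set m := ordCompl[3] (orderOf c) with hm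
        have hcm : (c ^ m) ^ 3 ^ (orderOf c).factorization 3 = 1 := by
          rw [← pow_mul, mul_comm, hm, Nat.ordProj_mul_ordCompl_eq_self, pow_orderOf_eq_one]
        have hcP : c ^ m ∈ P := mem_of_max hP' (pow_mem (mul_mem (inv_mem hqN) hxN) m) hcm
          (mem_normalizer_zpowers_of_commute (hcd.pow_right m))
        have hxc : (c ^ m)⁻¹ * x ^ m ∈ pCore 2 G := by
          rw [← QuotientGroup.eq, QuotientGroup.mk_pow, QuotientGroup.mk_pow]
          congr 1
          rw [hcdef, QuotientGroup.mk_mul, (QuotientGroup.eq_one_iff _).2 (inv_mem hq), one_mul]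
        have h1 := hQS _ hxc (mul_mem (inv_mem (hS hcP)) (pow_mem hxS m))
        rw [inv_mul_eq_one] at h1
        obtain ⟨k, hk⟩ := (IsPGroup.iff_orderOf.1 S.isPGroup') ⟨x, hxS⟩
        rw [orderOf_mk] at hk
        refine hxP (FGS.mem_of_pow_mem_of_coprime (m := m) ?_ (h1 ▸ hcP))
        rw [hk]
        exact Nat.Coprime.pow_left _ (Nat.coprime_ordCompl Nat.prime_three hn)
      · push Not at hdv
        exact hda (((vrel_all hD hd hV hd hv hc) a ha).2 hdv.symm)
    · have hy : d * (x * d * x⁻¹) ∈ P := by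
        refine mem_of_max hP' (mul_mem hdN hvN) (k := 1) (by rw [pow_one]; exact cube hT hd hv hc)
          (mem_normalizer_zpowers_of_inv hdd ?_)
        rw [mul_inv_rev, inv_eq hT hv, hdi, ← mul_assoc, hdd, one_mul]
      have hs := conj_mul_of_not_commute hT hd hv hc
      set y := d * (x * d * x⁻¹) with hydef
      have hcd : Commute d (y⁻¹ * x) := by
        refine (commute_of_conj_eq ?_).symm
        calc y⁻¹ * x * d * (y⁻¹ * x)⁻¹ = y⁻¹ * (x * d * x⁻¹) * y := by group
          _ = d := by rw [← hs]; group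
      obtain ⟨k, hk⟩ := S.isPGroup' ⟨y⁻¹ * x, mul_mem (inv_mem (hS hy)) hxS⟩
      have := mem_of_max hP' (mul_mem (inv_mem (le_normalizer hy)) hxN) (k := k)
        (congrArg Subtype.val hk) (mem_normalizer_zpowers_of_commute hcd)
      exact hxP (by simpa using mul_mem hy this)
  refine ⟨S, by rw [← Sylow.coe_coe, ← hPS]; exact hdN, ?_⟩
  -- the image of `D` modulo `O₂(G)` has width one
  set f := QuotientGroup.mk' (pCore 2 G) with hf
  have hW : IsW1 (f '' D) := by
    refine ⟨?_, ?_, ?_⟩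
    · rintro _ ⟨x, hx, rfl⟩
      rw [← map_mul, mul_self hT hx, map_one]
    · rintro _ ⟨x, hx, rfl⟩ _ ⟨y, hy, rfl⟩
      by_cases hc : Commute x y
      · have : f (x * y) = 1 := (QuotientGroup.eq_one_iff _).2
          (mul_mem_pCore_two hG hx hy (vrel_all hD hd hV hx hy hc))
        rw [← map_mul, this, one_pow]
      · rw [← map_mul, ← map_pow, cube hT hx hy hc, map_one]
    · rintro _ ⟨x, hx, rfl⟩ _ ⟨y, hy, rfl⟩
      exact ⟨x * y * x, conj_mem hG hx hy, by simp⟩
  have hsurj : Function.Surjective f := QuotientGroup.mk'_surjective _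
  have hn : ∀ g, ∀ x ∈ f '' D, g * x * g⁻¹ ∈ f '' D := by
    rintro g _ ⟨x, hx, rfl⟩
    obtain ⟨g, rfl⟩ := hsurj g
    exact ⟨g * x * g⁻¹, hG.2.1 g x hx, by simp⟩
  rw [eq_top_iff, ← hD.2.2, closure_le]
  intro e he
  have h1 : f d * f e ∈ pCore 3 _ := hW.mul_mem_pCore hn ⟨d, hd, rfl⟩ ⟨e, he, rfl⟩
  have h2 := Grp.pCore_le_sylow (S.mapSurjective hsurj) h1
  rw [Sylow.coe_mapSurjective, ← map_mul] at h2
  obtain ⟨s, hs, hse⟩ := h2
  have h3 : s⁻¹ * (d * e) ∈ pCore 2 G := QuotientGroup.eq.1 hse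
  have : e = d * s * (s⁻¹ * (d * e)) := by
    rw [mul_assoc, mul_inv_cancel_left, ← mul_assoc, hdd, one_mul]
  rw [SetLike.mem_coe, this]
  exact mul_mem (mem_sup_left (mul_mem (mem_sup_left (mem_zpowers d)) (mem_sup_right hs)))
    (mem_sup_right h3)

end Cfsg.Agent.S5356
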