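import Cfsg.Statements.S5355
import Mathlib
import Cfsg.Agent.TT.SymHom
import Cfsg.Agent.S5356

set_option autoImplicit false
open Cfsg

namespace Cfsg.Agent.S5355

open Subgroup Cfsg.Agent.TT Equiv

/-- Let D be a conjugacy class of 3-transpositions generating the finite group G, with at least two members, and d a member of D. Suppose that every member of D commuting with d commutes with exactly the same members of D as d does, and that exactly one member of D other than d commutes with d. Then G is isomorphic to the symmetric group of degree 4. -/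
theorem result {G : Type*} [Group G] [Finite G] {D : Set G} (hD : Cfsg.IsThreeTranspositionClass D) (hD2 : ∃ a ∈ D, ∃ b ∈ D, a ≠ b) {d : G} (hd : d ∈ D) (hV : {y : G | y ∈ D ∧ Commute d y} = {v : G | v ∈ D ∧ ∀ e ∈ D, Commute v e ↔ Commute d e}) (hm : {y : G | y ∈ D ∧ Commute d y}.ncard = 2) : Nonempty (G ≃* Equiv.Perm (Fin 4)) := by
  classical
  have hG := group_of_class hD
  have hT := hD.1
  have hI := isTT_of_group hG
  have hall := fun {a b : G} (ha : a ∈ D) (hb : b ∈ D) (hab : Commute a b) =>
    S5356.vrel_all hD hd hV ha hb hab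
  -- every member of `D` commutes with at most one other member
  have huniq : ∀ x ∈ D, ∀ y ∈ loc D x, ∀ z ∈ loc D x, y = z := by
    have h0 : ∀ y ∈ loc D d, ∀ z ∈ loc D d, y = z := by
      obtain ⟨p, q, -, hpq⟩ := Set.ncard_eq_two.1 hm
      have hmem : ∀ y ∈ D, Commute d y → y = p ∨ y = q := fun y hy hc => by
        have : y ∈ {y : G | y ∈ D ∧ Commute d y} := ⟨hy, hc⟩
        rw [hpq] at this
        exact this
      intro y hy z hz
      have h1 := hmem y hy.1 hy.2.2
      have h2 := hmem z hz.1 hz.2.2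
      have h3 := hmem d hd (Commute.refl d)
      have h4 := hy.2.1
      have h5 := hz.2.1
      rcases h1 with rfl | rfl <;> rcases h2 with rfl | rfl <;> rcases h3 with h | h <;>
        simp_all
    intro x hx y hy z hz
    obtain ⟨g, rfl⟩ := exists_conj_of_class hD hd hx
    have hg : g ∈ closure D := by rw [hD.2.2]; trivial
    have h1 : g⁻¹ * y * g ∈ loc D d := by
      rw [← hI.conj_mem_loc_iff hg]; simpa [mul_assoc] using hy
    have h2 : g⁻¹ * z * g ∈ loc D d := by
      rw [← hI.conj_mem_loc_iff hg]; simpa [mul_assoc] using hz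
    simpa using h0 _ h1 _ h2
  obtain ⟨v, hv⟩ : ∃ v, v ∈ loc D d := by
    obtain ⟨p, q, hne, hpq⟩ := Set.ncard_eq_two.1 hm
    have hp : p ∈ {y : G | y ∈ D ∧ Commute d y} := by rw [hpq]; simp
    have hq : q ∈ {y : G | y ∈ D ∧ Commute d y} := by rw [hpq]; simp
    by_cases h : p = d
    · exact ⟨q, hq.1, fun e => hne (h.trans e.symm), hq.2⟩
    · exact ⟨p, hp.1, h, hp.2⟩
  obtain ⟨a, ha, hda⟩ := exists_not_commute hD hD2 hd
  have hav : ¬ Commute a v := fun h => hda ((hall hd hv.1 hv.2.2 a ha).2 h.symm)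
  obtain ⟨φ, hφ⟩ := KSG.exists_hom_perm_of_rels (n := 3) ![d, a, v]
    (by intro i; fin_cases i <;> exact mul_self hT (by first | exact hd | exact ha | exact hv.1))
    (by
      intro i j hij
      fin_cases i <;> fin_cases j <;> simp at hij
      exact hv.2.2)
    (by
      intro i j hij
      fin_cases i <;> fin_cases j <;> simp at hij
      · exact braid hT hd ha hda
      · exact braid hT ha hv.1 hav)
  have h0 : φ (swap 0 1) = d := hφ 0
  have h1 : φ (swap 1 2) = a := hφ 1
  have h2 : φ (swap 2 3) = v := hφ 2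
  have hadj : ∀ i : Fin 3, φ (swap i.castSucc i.succ) ∈ D := fun i => by
    rw [hφ]; fin_cases i <;> first | exact hd | exact ha | exact hv.1
  have hinj : Function.Injective φ :=
    perm_hom_injective φ (a := 0) (b := 1) (c := 2) (d := 3) (by decide) (by decide) (by decide)
      (by decide) (by decide) (by decide)
      (by rw [h0, h1]; rintro rfl; exact hda (Commute.refl _))
      (by rw [h0, h2]; exact hv.2.1.symm)
  refine ⟨(MulEquiv.ofBijective φ ⟨hinj, ?_⟩).symm⟩
  rw [← MonoidHom.range_eq_top, eq_top_iff, ← hD.2.2, closure_le]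
  intro b hb
  by_contra hbr
  have hnc : ∀ i j : Fin 4, i ≠ j → ¬ Commute b (φ (swap i j)) := by
    intro i j hij hc
    obtain ⟨k, l, hkl, hne, hcm⟩ : ∃ k l : Fin 4, k ≠ l ∧ swap k l ≠ swap i j ∧
        swap i j * swap k l = swap k l * swap i j := by
      clear hc; revert i j; decide
    have := huniq _ (hI.perm_hom_swap_mem φ hadj hij) b
      ⟨hb, fun e => hbr ⟨_, e.symm⟩, hc.symm⟩ (φ (swap k l))
      ⟨hI.perm_hom_swap_mem φ hadj hkl, fun e => hne (hinj e), (show Commute _ _ from hcm).map φ⟩
    exact hbr ⟨_, this.symm⟩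
  obtain ⟨x, hx, y, hy, hxy, -⟩ := hI.exists_two_of_S4 hd hv.1 ha hb hv.2.2 hv.2.1.symm hda hav
    (h0 ▸ hnc 0 1 (by decide)) (h2 ▸ hnc 2 3 (by decide))
    (by
      rw [← h0, ← h1, ← map_mul, ← map_mul,
        show (swap 1 2 * swap 0 1 * swap 1 2 : Perm (Fin 4)) = swap 0 2 by decide]
      exact hnc 0 2 (by decide))
    (by
      rw [← h2, ← h1, ← map_mul, ← map_mul,
        show (swap 1 2 * swap 2 3 * swap 1 2 : Perm (Fin 4)) = swap 1 3 by decide]
      exact hnc 1 3 (by decide))
    (h1 ▸ hnc 1 2 (by decide))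
    (by
      rw [← h0, ← h2, ← h1, ← map_mul, ← map_mul, ← map_mul, ← map_mul,
        show (swap 0 1 * (swap 2 3 * swap 1 2 * swap 2 3) * swap 0 1 : Perm (Fin 4)) = swap 0 3 by
          decide]
      exact hnc 0 3 (by decide))
  exact hxy (huniq b hb x hx y hy)

end Cfsg.Agent.S5355
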