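import Cfsg.Statements.S5358
import Cfsg.Agent.Class.Orth.ThreeTr
import Cfsg.Agent.Class.Orth.Mat

set_option autoImplicit false
open scoped MatrixGroups
open Cfsg

namespace Cfsg.Agent.S5358

open Cfsg.Agent.Class Cfsg.Agent.Class.Orth QuadraticMap Module

/-- Let Q be a non-degenerate quadratic form on the n-dimensional coordinate space over the field with three elements and u, v vectors of the same non-zero norm Q(u) = Q(v) spanning different lines (v ≠ u and v ≠ −u). Then the reflection matrices of u and v commute if and only if u and v are orthogonal for the polar form of Q. -/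
theorem result (n : ℕ) (Q : QuadraticForm (ZMod 3) (Fin n → ZMod 3)) (hQ : (QuadraticMap.polarBilin Q).Nondegenerate) (u v : Fin n → ZMod 3) (hu : Q u ≠ 0) (huv : Q u = Q v) (h1 : v ≠ u) (h2 : v ≠ -u) : Commute (Cfsg.reflectionMatrix (⇑Q) u) (Cfsg.reflectionMatrix (⇑Q) v) ↔ QuadraticMap.polar (⇑Q) u v = 0 := by
  have h3 : ∀ c : ZMod 3, c = 0 ∨ c = 1 ∨ c = -1 := by decide
  rw [← refl_commute_iff hu (huv ▸ hu) fun c hc => ?_]
  · have hr : ∀ w x, (reflectionMatrix (⇑Q) w).mulVec x = (refl Q w).1 x := fun w x => by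
      rw [Mat.reflectionMatrix_mulVec, refl_apply, polar_comm]
    constructor
    · intro h
      refine OG.ext fun x => ?_
      rw [OG.mul_apply, OG.mul_apply, ← hr, ← hr, ← hr, ← hr, Matrix.mulVec_mulVec,
        Matrix.mulVec_mulVec, h.eq]
    · intro h
      refine Matrix.ext_iff_mulVec.2 fun x => ?_
      rw [← Matrix.mulVec_mulVec, ← Matrix.mulVec_mulVec, hr, hr, hr, hr, ← OG.mul_apply, h,
        OG.mul_apply]
  · rcases h3 c with rfl | rfl | rfl
    · exact hu (by rw [huv, hc, zero_smul, map_zero])
    · exact h1 (by rw [hc, one_smul])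
    · exact h2 (by rw [hc, neg_one_smul])

end Cfsg.Agent.S5358
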