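import Cfsg.Statements.S5359
import Cfsg.Agent.Class.Orth.ThreeTr

set_option autoImplicit false
open scoped MatrixGroups
open Cfsg

namespace Cfsg.Agent.S5359

open Cfsg.Agent.Class Cfsg.Agent.Class.Orth QuadraticMap Module

/-- Let Q be a non-degenerate quadratic form on the n-dimensional coordinate space over the field with three elements, n odd and at least 5, and c a non-zero scalar. Then the subgroup of the isometry group of Q generated by the reflections in vectors of norm c has index 2 in the isometry group. -/
theorem result (n : ℕ) (hn : 5 ≤ n) (hodd : Odd n) (Q : QuadraticForm (ZMod 3) (Fin n → ZMod 3)) (hQ : (QuadraticMap.polarBilin Q).Nondegenerate) (c : ZMod 3) (hc : c ≠ 0) : (Cfsg.reflectionSubgroup (⇑Q) c).index = 2 := by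
  have hF : ∀ t : ZMod 3, t ≠ 0 → t ^ 2 = 1 := by decide
  have h2 : (2 : ZMod 3) ≠ 0 := by decide
  have hQ' : ND Q := (nd_iff Q).2 hQ
  have hd : 5 ≤ finrank (ZMod 3) (Fin n → ZMod 3) := by simpa using hn
  rw [← hQ'.index_reflClass h2 (Or.inr (by omega)) (by omega) hc, ← map_reflectionSubgroup hF,
    Subgroup.index_map_equiv]

end Cfsg.Agent.S5359
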