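import Cfsg.Statements.S5360
import Cfsg.Agent.Class.Orth.ThreeTr
import Cfsg.Agent.S5357
import Cfsg.Agent.S5352
import Cfsg.Agent.S5353

set_option autoImplicit false
open scoped MatrixGroups
open Cfsg

namespace Cfsg.Agent.S5360

open Cfsg.Agent.Class Cfsg.Agent.Class.Orth QuadraticMap Module

/-- Let Q be a non-degenerate quadratic form on the n-dimensional coordinate space over the field with three elements, n ≥ 5, c a non-zero scalar, and R the subgroup of the isometry group generated by the reflections of norm c. Then the commutator subgroup of R is quasisimple of index at most 2, the generalized Fitting subgroup of R is the product of the centre and the commutator subgroup, and R acts primitively by conjugation on its reflections of norm c. -/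
theorem result (n : ℕ) (hn : 5 ≤ n) (Q : QuadraticForm (ZMod 3) (Fin n → ZMod 3)) (hQ : (QuadraticMap.polarBilin Q).Nondegenerate) (c : ZMod 3) (hc : c ≠ 0) : Cfsg.IsQuasisimple (commutator ↥(Cfsg.reflectionSubgroup (⇑Q) c)) ∧ (commutator ↥(Cfsg.reflectionSubgroup (⇑Q) c)).index ≤ 2 ∧ Cfsg.generalizedFittingSubgroup ↥(Cfsg.reflectionSubgroup (⇑Q) c) = Subgroup.center ↥(Cfsg.reflectionSubgroup (⇑Q) c) ⊔ commutator ↥(Cfsg.reflectionSubgroup (⇑Q) c) ∧ Cfsg.IsPrimitiveUnderConj {g : ↥(Cfsg.reflectionSubgroup (⇑Q) c) | (g : ↥(Cfsg.isometryGroup (ZMod 3) (⇑Q))) ∈ Cfsg.reflectionsOfNorm (⇑Q) c} := by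
  have hF : ∀ t : ZMod 3, t ≠ 0 → t ^ 2 = 1 := by decide
  have h2 : (2 : ZMod 3) ≠ 0 := by decide
  have hQ' : ND Q := (nd_iff Q).2 hQ
  have hd : 5 ≤ finrank (ZMod 3) (Fin n → ZMod 3) := by simpa using hn
  have hr := range_reflSubHom hF Q c
  have hinj := reflSubHom_injective Q c
  have hle : commutator (OG Q) ≤ (reflSubHom Q c).range :=
    hr ▸ hQ'.commutator_le_reflClass h2 (Or.inr (by omega)) (by omega) hc
  have hfin : Finite (OG Q) := by
    have := finite_linearEquiv (F := ZMod 3) (V := Fin n → ZMod 3)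
    infer_instance
  have : Finite (reflectionSubgroup (⇑Q) c) := Finite.of_injective _ hinj
  have hD := S5357.result n hn Q hQ c hc
  have hq := hQ'.isQuasisimple_commutator_of_le hd _ hinj hle
  have hp : ∀ p, p.Prime → pCore p (reflectionSubgroup (⇑Q) c) ≤ Subgroup.center _ := by
    intro p hp
    have := Fact.mk hp
    have := (Grp.pCore_isPGroup p (reflectionSubgroup (⇑Q) c)).isNilpotent
    exact hQ'.le_center_of_solvable hd _ hinj hle _ inferInstance
  have hD2 : ∃ a ∈ {g : reflectionSubgroup (⇑Q) c | (g : isometryGroup (ZMod 3) ⇑Q) ∈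
      reflectionsOfNorm (⇑Q) c}, ∃ b ∈ {g : reflectionSubgroup (⇑Q) c |
      (g : isometryGroup (ZMod 3) ⇑Q) ∈ reflectionsOfNorm (⇑Q) c}, a ≠ b := by
    by_contra hcon
    push Not at hcon
    obtain ⟨d, hd1, -⟩ := hD.2.1
    have h1 : Subgroup.zpowers d = ⊤ := by
      rw [eq_top_iff, ← hD.2.2, Subgroup.closure_le]
      intro a ha
      rw [hcon a ha d hd1]
      exact Subgroup.mem_zpowers d
    have : IsCyclic (reflectionSubgroup (⇑Q) c) := ⟨d, fun x =>
      show x ∈ Subgroup.zpowers d from h1 ▸ Subgroup.mem_top x⟩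
    apply PLocal.qsS_ne_bot hq
    rw [commutator_eq_bot_iff]
    infer_instance
  have hi : (commutator (reflectionSubgroup (⇑Q) c)).index ≤ 2 := by
    have h1 := Subgroup.relIndex_mul_index hle
    rw [hQ'.index_commutator_eq_four h2 (by omega), hr,
      hQ'.index_reflClass h2 (Or.inr (by omega)) (by omega) hc] at h1
    rw [← Subgroup.comap_map_eq_self_of_injective hinj (commutator _),
      hQ'.map_commutator_of_le hd _ hle, Subgroup.index_comap, hr]
    omega
  obtain ⟨L, hLn, hL, hF', -⟩ := S5352.result hD hD2 (hp 2 Nat.prime_two) (hp 3 Nat.prime_three)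
  have hL1 : L ≤ commutator _ := by
    rw [← PLocal.qsS_commutator hL]
    exact Subgroup.commutator_mono le_top le_top
  have hL2 : commutator _ ≤ L := (PLocal.qsS_normal hq L Subgroup.le_normalizer_of_normal).resolve_right
    fun h => PLocal.qsS_not_le_centralizer hL
      ((le_inf le_rfl hL1).trans (h.trans (Subgroup.centralizer_le hL1)))
  obtain rfl : L = commutator _ := le_antisymm hL1 hL2
  exact ⟨hq, hi, hF'.trans (sup_comm _ _),
    (S5353.result hD hD2 (hp 2 Nat.prime_two) (hp 3 Nat.prime_three) _ hq hF').1 hi⟩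

end Cfsg.Agent.S5360
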