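import Cfsg.Statements.S5363
import Cfsg.Agent.Inv.Isolated
import Cfsg.Agent.TT.InvUtil

set_option autoImplicit false
open Cfsg

namespace Cfsg.Agent.S5363

/-- Let D be a conjugation-invariant set of involutions of a finite group G. Then every product of two members of D has odd order or order 2 if and only if, for every a in D and every b in D different from a and commuting with a, the members of D commuting with a b are exactly those commuting with both a and b. -/
theorem result {G : Type*} [Group G] [Finite G] {D : Set G} (hinv : ∀ d ∈ D, orderOf d = 2) (hconj : ∀ g : G, ∀ d ∈ D, g * d * g⁻¹ ∈ D) : (∀ a ∈ D, ∀ b ∈ D, Odd (orderOf (a * b)) ∨ orderOf (a * b) = 2) ↔ ∀ a ∈ D, ∀ b ∈ D, b ≠ a → Commute a b → {y : G | y ∈ D ∧ Commute (a * b) y} = {y : G | y ∈ D ∧ Commute a y} ∩ {y : G | y ∈ D ∧ Commute b y} := by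
  have hsq : ∀ a ∈ D, a * a = 1 := fun a ha => Inv.mul_self_of_orderOf_eq_two (hinv a ha)
  have hcomm : ∀ a ∈ D, ∀ b ∈ D, a * b * (a * b) = 1 → Commute a b := fun a ha b hb h => by
    have h1 := inv_eq_of_mul_eq_one_right h
    rw [mul_inv_rev, inv_eq_of_mul_eq_one_right (hsq a ha),
      inv_eq_of_mul_eq_one_right (hsq b hb)] at h1
    exact h1.symm
  constructor
  · intro h a ha b hb hne hab
    ext y
    refine ⟨fun ⟨hy, hc⟩ => ?_, fun ⟨h1, h2⟩ => ⟨h1.1, h1.2.mul_left h2.2⟩⟩
    have e1 : b = a * (a * b) := by rw [← mul_assoc, hsq a ha, one_mul]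
    have e2 : a = a * b * b := by rw [mul_assoc, hsq b hb, mul_one]
    rcases h y hy a ha with h1 | h1
    · rcases h y hy b hb with h2 | h2
      · exfalso
        have h3 : Commute (y * a)⁻¹ (y * b) := by
          rw [e1, ← mul_assoc]
          exact ((Commute.refl _).mul_right
            (hc.symm.mul_left ((Commute.refl a).mul_right hab))).inv_left
        have h4 := h3.orderOf_mul_dvd_mul_orderOf
        have h5 : (y * a)⁻¹ * (y * b) = a * b := by
          rw [mul_inv_rev, inv_eq_of_mul_eq_one_right (hsq a ha)]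
          group
        rw [h5, orderOf_inv] at h4
        have h6 := Inv.eq_one_of_mul_self_of_odd (x := a * b) (by
          rw [← sq, hab.mul_pow, sq, sq, hsq a ha, hsq b hb, one_mul]) ((h1.mul h2).of_dvd_nat h4)
        exact hne (by rw [e1, h6, mul_one])
      · have h3 := (hcomm y hy b hb (Inv.mul_self_of_orderOf_eq_two h2)).symm
        exact ⟨⟨hy, e2 ▸ hc.mul_left h3⟩, hy, h3⟩
    · have h3 := (hcomm y hy a ha (Inv.mul_self_of_orderOf_eq_two h1)).symm
      exact ⟨⟨hy, h3⟩, hy, e1 ▸ h3.mul_left hc⟩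
  · intro h a ha b hb
    rcases Nat.even_or_odd (orderOf (a * b)) with hev | hodd
    · right
      obtain ⟨k, h1, -, h2, h3, h4⟩ := TT.exists_central_of_even_orderOf_mul (hsq a ha) (hsq b hb) hev
      have h5 : a * (a * b) ^ k ∈ D := by
        rcases h4 with ⟨m, e⟩ | ⟨m, e⟩ <;> rw [e]
        · simpa using hconj ((a * b) ^ m)⁻¹ a ha
        · simpa using hconj ((a * b) ^ m)⁻¹ b hb
      have h6 := h a ha _ h5 (fun e => h1 (by simpa using e)) ((Commute.refl a).mul_right h2)
      rw [← mul_assoc, hsq a ha, one_mul] at h6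
      have h7 : Commute a b := (h6.subset ⟨hb, h3.symm⟩).1.2
      refine Inv.orderOf_eq_two_of_mul_self (fun e => ?_) (by
        rw [← sq, h7.mul_pow, sq, sq, hsq a ha, hsq b hb, one_mul])
      rw [e, orderOf_one] at hev
      exact Nat.not_even_one hev
    · exact Or.inl hodd

end Cfsg.Agent.S5363
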