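import Cfsg.Statements.S5364
import Cfsg.Agent.Inv.Isolated

set_option autoImplicit false
open Cfsg

namespace Cfsg.Agent.S5364

/-- Let D be a conjugation-invariant set of involutions of a finite group G and t an involution in the centre of G such that d t does not lie in D for any d in D. If the images of the members of D in G modulo the subgroup generated by t satisfy the 3-transposition order conditions (each has order 2 and any two have product of order at most 3), then so do the members of D. -/
theorem result {G : Type*} [Group G] [Finite G] {D : Set G} (hinv : ∀ d ∈ D, orderOf d = 2) (hconj : ∀ g : G, ∀ d ∈ D, g * d * g⁻¹ ∈ D) (t : G) (ht : orderOf t = 2) (htZ : t ∈ Subgroup.center G) (hDt : ∀ d ∈ D, d * t ∉ D) [(Subgroup.zpowers t).Normal] (himg : Cfsg.IsThreeTranspositionSet ((QuotientGroup.mk : G → G ⧸ Subgroup.zpowers t) '' D)) : Cfsg.IsThreeTranspositionSet D := by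
  classical
  refine ⟨hinv, fun a ha b hb => ?_⟩
  have haa := Inv.inv_eq_of_orderOf_eq_two (hinv a ha)
  have hbb := Inv.inv_eq_of_orderOf_eq_two (hinv b hb)
  have key : ∀ n : ℕ, ((a : G ⧸ Subgroup.zpowers t) * b) ^ n = 1 → (a * b) ^ n = 1 ∨ (a * b) ^ n = t := by
    intro n hn
    rw [← QuotientGroup.mk_mul, ← QuotientGroup.mk_pow, QuotientGroup.eq_one_iff,
      mem_zpowers_iff_mem_range_orderOf, ht] at hn
    simp only [Finset.mem_image, Finset.mem_range] at hn
    obtain ⟨i, hi, e⟩ := hn
    interval_cases i
    · exact Or.inl (by simpa using e.symm)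
    · exact Or.inr (by simpa using e.symm)
  have hc : t * b = b * t := (Subgroup.mem_center_iff.1 htZ b).symm
  rcases himg.2 _ ⟨a, ha, rfl⟩ _ ⟨b, hb, rfl⟩ with h | h
  · refine Or.inl ((key 2 h).resolve_right fun e => hDt b hb ?_)
    have : b * t = a * b * a⁻¹ := by
      rw [← hc, ← e, haa]
      nth_rewrite 2 [← hbb]
      rw [sq]
      group
    exact this ▸ hconj a b hb
  · refine Or.inr ((key 3 h).resolve_right fun e => hDt b hb ?_)
    have : b * t = a * b * a * (a * b)⁻¹ := by
      rw [← hc, ← e, mul_inv_rev, haa, hbb]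
      nth_rewrite 2 [← hbb]
      rw [pow_succ, sq]
      group
    exact this ▸ hconj (a * b) a ha

end Cfsg.Agent.S5364
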