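import Cfsg.Statements.S5365
import Mathlib
import Cfsg.Agent.TT.SymHom

set_option autoImplicit false
open Cfsg

namespace Cfsg.Agent.S5365

open Subgroup Cfsg.Agent.TT Equiv

theorem s3_inv : ∀ x y : Perm (Fin 3), x * x = 1 → y * y = 1 → x ≠ 1 → y ≠ 1 → x ≠ y →
    x * y ≠ y * x ∧ ∀ z : Perm (Fin 3), z * z = 1 → z ≠ 1 → z = x ∨ z = y ∨ z = x * y * x := by
  decide +kernel

theorem s3_center : ∀ x : Perm (Fin 3), (∀ y, y * x = x * y) → x = 1 := by decide +kernel

theorem line_of_s3 {G : Type*} [Group G] {D E : Set G} (hD : IsThreeTranspositionSet D)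
    (hE : E ⊆ D) (e : closure E ≃* Perm (Fin 3)) {a b : G} (ha : a ∈ E) (hb : b ∈ E)
    (hab : a ≠ b) : ¬ Commute a b ∧ ∀ y ∈ E, y = a ∨ y = b ∨ y = a * b * a := by
  have h1 : ∀ x (hx : x ∈ E), e ⟨x, subset_closure hx⟩ * e ⟨x, subset_closure hx⟩ = 1 :=
    fun x hx => by
      rw [← map_mul, ← map_one e]; congr 1; exact Subtype.ext (mul_self hD (hE hx))
  have h2 : ∀ x (hx : x ∈ E), e ⟨x, subset_closure hx⟩ ≠ 1 := fun x hx h => by
    rw [← map_one e, e.apply_eq_iff_eq] at h
    exact ne_one hD (hE hx) (congrArg Subtype.val h)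
  obtain ⟨h3, h4⟩ := s3_inv _ _ (h1 a ha) (h1 b hb) (h2 a ha) (h2 b hb)
    (fun h => hab (congrArg Subtype.val (e.injective h)))
  refine ⟨fun hc => h3 ?_, fun y hy => ?_⟩
  · rw [← map_mul, ← map_mul]; congr 1; exact Subtype.ext hc
  · rcases h4 _ (h1 y hy) (h2 y hy) with h | h | h
    · exact Or.inl (congrArg Subtype.val (e.injective h))
    · exact Or.inr (Or.inl (congrArg Subtype.val (e.injective h)))
    · rw [← map_mul, ← map_mul] at h
      exact Or.inr (Or.inr (congrArg Subtype.val (e.injective h)))

theorem two_of_s3 {G : Type*} [Group G] {E : Set G} (e : closure E ≃* Perm (Fin 3)) (d : G) :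
    ∃ a ∈ E, a ≠ d := by
  by_contra h
  push Not at h
  have hc : ∀ x ∈ closure E, ∀ y ∈ closure E, Commute x y := fun x hx y hy =>
    commute_of_mem_closure (fun b hb => (commute_of_mem_closure
      (fun c hc => by rw [h b hb, h c hc]) hx).symm) hy
  have : swap (0 : Fin 3) 1 = 1 := s3_center _ fun y => by
    obtain ⟨y, rfl⟩ := e.surjective y
    obtain ⟨x, hx⟩ := e.surjective (swap 0 1)
    rw [← hx, ← map_mul, ← map_mul]; congr 1
    exact Subtype.ext (hc _ y.2 _ x.2)
  exact absurd this (by decide)

/-- Let D be a non-empty conjugation-invariant set of involutions of a finite group G satisfying the 3-transposition order conditions, and suppose that for every d in D the members of D other than d commuting with d generate a subgroup isomorphic to the symmetric group of degree 3, and the largest normal 3-subgroup of the centralizer of d has order 3. Then the subgroup generated by D is isomorphic to the symmetric group of degree 5 or to the direct product of two symmetric groups of degree 3. -/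
theorem result {G : Type*} [Group G] [Finite G] {D : Set G} (hD : Cfsg.IsThreeTranspositionSet D) (hconj : ∀ g : G, ∀ d ∈ D, g * d * g⁻¹ ∈ D) (hne : D.Nonempty) (hloc : ∀ d ∈ D, Nonempty (↥(Subgroup.closure {y : G | y ∈ D ∧ y ≠ d ∧ Commute d y}) ≃* Equiv.Perm (Fin 3)) ∧ Nat.card (Cfsg.pCore 3 ↥(Subgroup.centralizer ({d} : Set G))) = 3) : Nonempty (↥(Subgroup.closure D) ≃* Equiv.Perm (Fin 5)) ∨ Nonempty (↥(Subgroup.closure D) ≃* Equiv.Perm (Fin 3) × Equiv.Perm (Fin 3)) := by
  classical
  haveI : Fact (Nat.Prime 3) := ⟨Nat.prime_three⟩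
  have hI : IsTT D := ⟨hD, fun a ha b hb => by
    have := hconj a b hb
    rwa [inv_eq hD ha] at this⟩
  have hline : ∀ d ∈ D, ∀ a ∈ loc D d, ∀ b ∈ loc D d, a ≠ b →
      ¬ Commute a b ∧ ∀ y ∈ loc D d, y = a ∨ y = b ∨ y = a * b * a := fun d hd a ha b hb hab =>
    let ⟨⟨e⟩, _⟩ := hloc d hd
    line_of_s3 hD (loc_subset D d) e ha hb hab
  have htwo : ∀ d ∈ D, ∀ x : G, ∃ a ∈ loc D d, a ≠ x := fun d hd x =>
    let ⟨⟨e⟩, _⟩ := hloc d hd
    two_of_s3 e x
  have hinv : ∀ g : G, ∀ e ∈ D, g⁻¹ * e * g ∈ D := fun g e he => by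
    simpa using hconj g⁻¹ e he
  -- two common neighbours force equal neighbourhoods
  have hW : ∀ a ∈ D, ∀ b ∈ D, ∀ d ∈ loc D a, ∀ e ∈ loc D a, d ≠ e → d ∈ loc D b → e ∈ loc D b →
      loc D a = loc D b := by
    have key : ∀ a ∈ D, ∀ b ∈ D, ∀ d ∈ loc D a, ∀ e ∈ loc D a, d ≠ e → d ∈ loc D b →
        e ∈ loc D b → loc D a ⊆ loc D b := by
      intro a ha b hb d hd e he hde hd' he' y hy
      rcases (hline a ha d hd e he hde).2 y hy with rfl | rfl | rfl
      · exact hd'
      · exact he'
      · exact hI.closed_loc b d hd' e he'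
    intro a ha b hb d hd e he hde hd' he'
    exact Set.Subset.antisymm (key a ha b hb d hd e he hde hd' he')
      (key b hb a ha d hd' e he' hde hd he)
  by_cases hw : WTriv D
  · left
    obtain ⟨d, hd⟩ := hne
    obtain ⟨a, ha, -⟩ := htwo d hd d
    obtain ⟨b, hb, hba⟩ := htwo d hd a
    obtain ⟨e, he, hed⟩ := htwo a ha.1 d
    have hda : d ∈ loc D a := mem_loc_comm hd ha
    have hde : ¬ Commute d e := (hline a ha.1 d hda e he hed.symm).1
    have hba' : ¬ Commute b a := (hline d hd b hb a ha hba).1
    have heb : ¬ Commute e b := fun h => by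
      have hne' : e ≠ b := by rintro rfl; exact hba' he.2.2.symm
      have := hW a ha.1 b hb.1 d hda e he hed.symm (mem_loc_comm hd hb) ⟨he.1, hne', h.symm⟩
      exact hba (hw b hb.1 a ha.1 (wrel_iff_set.2 this.symm))
    obtain ⟨φ, hφ⟩ := KSG.exists_hom_perm_of_rels (n := 4) ![d, e, b, a]
      (by
        intro i
        fin_cases i <;> exact mul_self hD
          (by first | exact hd | exact ha.1 | exact hb.1 | exact he.1))
      (by
        intro i j hij
        fin_cases i <;> fin_cases j <;> simp at hij
        · exact hb.2.2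
        · exact ha.2.2
        · exact he.2.2.symm)
      (by
        intro i j hij
        fin_cases i <;> fin_cases j <;> simp at hij
        · exact braid hD hd he.1 hde
        · exact braid hD he.1 hb.1 heb
        · exact braid hD hb.1 ha.1 hba')
    have h0 : φ (swap 0 1) = d := hφ 0
    have h1 : φ (swap 1 2) = e := hφ 1
    have h2 : φ (swap 2 3) = b := hφ 2
    have hadj : ∀ i : Fin 4, φ (swap i.castSucc i.succ) ∈ D := fun i => by
      rw [hφ]; fin_cases i <;> first | exact hd | exact ha.1 | exact hb.1 | exact he.1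
    have hinj : Function.Injective φ :=
      perm_hom_injective φ (a := 0) (b := 1) (c := 2) (d := 3) (by decide) (by decide) (by decide)
        (by decide) (by decide) (by decide)
        (by rw [h0, h1]; exact hed.symm) (by rw [h0, h2]; exact hb.2.1.symm)
    have hr : closure D = φ.range := by
      refine le_antisymm ?_ ?_
      · rw [closure_le]
        intro x hx
        by_contra hxr
        have hnc : ∀ i j : Fin 5, i ≠ j → ¬ Commute x (φ (swap i j)) := by
          intro i j hij hc
          obtain ⟨k, l, m, hkl, hlm, hn1, hn2, hn3, hc1, hc2⟩ : ∃ k l m : Fin 5, k ≠ l ∧ l ≠ m ∧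
              swap k l ≠ swap i j ∧ swap l m ≠ swap i j ∧ swap k l ≠ swap l m ∧
              swap i j * swap k l = swap k l * swap i j ∧
              swap i j * swap l m = swap l m * swap i j := by
            clear hc; revert i j; decide +kernel
          have := (hline _ (hI.perm_hom_swap_mem φ hadj hij) (φ (swap k l))
            ⟨hI.perm_hom_swap_mem φ hadj hkl, fun e => hn1 (hinj e),
              (show Commute _ _ from hc1).map φ⟩ (φ (swap l m))
            ⟨hI.perm_hom_swap_mem φ hadj hlm, fun e => hn2 (hinj e),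
              (show Commute _ _ from hc2).map φ⟩ (fun e => hn3 (hinj e))).2 x
            ⟨hx, fun e => hxr ⟨_, e.symm⟩, hc.symm⟩
          rcases this with h | h | h
          · exact hxr ⟨_, h.symm⟩
          · exact hxr ⟨_, h.symm⟩
          · rw [← map_mul, ← map_mul] at h
            exact hxr ⟨_, h.symm⟩
        obtain ⟨y, hy, z, hz, hyz, hc⟩ := hI.exists_two_of_S4 hd hb.1 he.1 hx hb.2.2 hb.2.1.symm
          hde heb (h0 ▸ hnc 0 1 (by decide)) (h2 ▸ hnc 2 3 (by decide))
          (by
            rw [← h0, ← h1, ← map_mul, ← map_mul,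
              show (swap 1 2 * swap 0 1 * swap 1 2 : Perm (Fin 5)) = swap 0 2 by decide]
            exact hnc 0 2 (by decide))
          (by
            rw [← h2, ← h1, ← map_mul, ← map_mul,
              show (swap 1 2 * swap 2 3 * swap 1 2 : Perm (Fin 5)) = swap 1 3 by decide]
            exact hnc 1 3 (by decide))
          (h1 ▸ hnc 1 2 (by decide))
          (by
            rw [← h0, ← h2, ← h1, ← map_mul, ← map_mul, ← map_mul, ← map_mul,
              show (swap 0 1 * (swap 2 3 * swap 1 2 * swap 2 3) * swap 0 1 : Perm (Fin 5)) =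
                swap 0 3 by decide]
            exact hnc 0 3 (by decide))
        exact (hline x hx y hy z hz hyz).1 hc
      · rintro _ ⟨σ, rfl⟩
        exact perm_hom_mem_closure φ hadj σ
    exact ⟨(MulEquiv.subgroupCongr hr).trans (MonoidHom.ofInjective hinj).symm⟩
  · right
    simp only [WTriv, not_forall] at hw
    obtain ⟨d, hd, e, he, hde, hne'⟩ := hw
    have hl : loc D d = loc D e := wrel_iff_set.1 hde
    obtain ⟨a, ha, -⟩ := htwo d hd d
    obtain ⟨b, hb, hba⟩ := htwo d hd a
    have hda : d ∈ loc D a := mem_loc_comm hd ha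
    have hea : e ∈ loc D a := mem_loc_comm he (hl ▸ ha)
    have hcde := (hline a ha.1 d hda e hea hne').1
    have hcab := (hline d hd a ha b hb hba.symm).1
    -- all members of `loc D d` have the same neighbourhood
    have hla : ∀ y ∈ loc D d, loc D y = loc D a := fun y hy =>
      hW y hy.1 a ha.1 d (mem_loc_comm hd hy) e (mem_loc_comm he (hl ▸ hy)) hne' hda hea
    have hR : d * e ∈ pCore 3 G := by
      refine (threeSetup_wrel hD hI.conj).mem_pCore ?_ ⟨d, hd, e, he, hde, rfl⟩
      rintro g _ ⟨p, hp, q, hq, hpq, rfl⟩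
      exact ⟨_, hconj g p hp, _, hconj g q hq, hpq.conj (hinv g), by group⟩
    -- the centralizer of `d` in `O₃(G)`
    have hX : ∀ r ∈ pCore 3 G, Commute d r → r ∈ zpowers (a * b) := by
      intro r hr hc
      have habC : a * b ∈ centralizer ({d} : Set G) :=
        mem_centralizer_singleton_iff.2 (ha.2.2.mul_right hb.2.2).symm.eq
      have h1 : zpowers (a * b) ≤ (pCore 3 (centralizer ({d} : Set G))).map (Subgroup.subtype _) := by
        refine Grp.le_map_pCore (by rwa [zpowers_le]) ?_ (IsPGroup.of_card (n := 1) ?_)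
        · intro c hc'
          have hcd : Commute c d := mem_centralizer_singleton_iff.1 hc'
          have hcl : ∀ y ∈ loc D d, c * y * c⁻¹ ∈ loc D d := fun y hy =>
            ⟨hconj c y hy.1, fun h => hy.2.1 (by
              rw [← conj_eq_of_commute hcd, conj_inj] at h; exact h), by
              rw [← conj_eq_of_commute hcd, commute_conj_iff']; exact hy.2.2⟩
          have key : c * (a * b) * c⁻¹ ∈ zpowers (a * b) := by
            have e1 : c * (a * b) * c⁻¹ = (c * a * c⁻¹) * (c * b * c⁻¹) := by group
            have hb3 := braid hD ha.1 hb.1 hcab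
            have haa := mul_cancel_left hD ha.1
            have hbb := mul_cancel_left hD hb.1
            have hba2 : b * a ∈ zpowers (a * b) := by
              have := inv_mem (mem_zpowers (a * b))
              rwa [mul_inv_rev, inv_eq hD ha.1, inv_eq hD hb.1] at this
            rw [e1]
            rcases (hline d hd a ha b hb hba.symm).2 _ (hcl a ha) with h | h | h <;>
              rcases (hline d hd a ha b hb hba.symm).2 _ (hcl b hb) with h' | h' | h' <;>
              rw [h, h']
            · rw [mul_self hD ha.1]; exact one_mem _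
            · exact mem_zpowers _
            · simpa only [mul_assoc, haa] using hba2
            · exact hba2
            · rw [mul_self hD hb.1]; exact one_mem _
            · rw [hb3]; simpa only [mul_assoc, hbb] using mem_zpowers (a * b)
            · rw [mul_assoc, mul_self hD ha.1, mul_one]; exact mem_zpowers _
            · rw [hb3, mul_assoc, mul_self hD hb.1, mul_one]; exact hba2
            · rw [mul_self hD (hI.conj a ha.1 b hb.1)]; exact one_mem _
          refine Subgroup.mem_normalizer_fintype ?_
          rintro _ ⟨n, rfl⟩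
          simp only
          rw [← conj_zpow]
          exact zpow_mem key n
        · rw [Nat.card_zpowers, orderOf_mul_of_not_commute hD ha.1 hb.1 hcab, pow_one]
      have h2 : zpowers (a * b) = (pCore 3 (centralizer ({d} : Set G))).map (Subgroup.subtype _) := by
        refine eq_of_le_of_card_ge h1 ?_
        rw [card_map_of_injective (Subgroup.subtype_injective _), (hloc d hd).2, Nat.card_zpowers,
          orderOf_mul_of_not_commute hD ha.1 hb.1 hcab]
      rw [h2]
      exact Grp.pCore_inf_le_map_pCore 3 _ ⟨hr, mem_centralizer_singleton_iff.2 hc.symm.eq⟩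
    -- `d * a` inverts `O₃(G)`
    have hinvR : ∀ r ∈ pCore 3 G, (d * a) * r * (d * a)⁻¹ = r⁻¹ := by
      intro r hr
      have h1 : WRel D d (r * d * r⁻¹) := wrel_of_mul_mem hD (Grp.pCore_isPGroup 3 G) hd
        (hconj r d hd) (mul_conj_mem (mul_self hD hd) hr)
      have h2 : r * d * r⁻¹ ∈ loc D a :=
        mem_loc_comm (hconj r d hd) (by
          have : loc D d = loc D (r * d * r⁻¹) := wrel_iff_set.1 h1
          exact this ▸ ha)
      obtain ⟨y, hy, hyd⟩ : ∃ y ∈ zpowers (d * e), y * d * y⁻¹ = r * d * r⁻¹ := by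
        rcases (hline a ha.1 d hda e hea hne').2 _ h2 with h | h | h
        · exact ⟨1, one_mem _, by rw [h]; simp⟩
        · exact ⟨_, mem_zpowers _, by rw [h]; exact conj_mul_of_not_commute hD hd he hcde⟩
        · refine ⟨(d * e)⁻¹, inv_mem (mem_zpowers _), ?_⟩
          rw [h, inv_inv, mul_inv_rev, inv_eq hD hd, inv_eq hD he, braid hD hd he hcde]
          simp only [mul_assoc, mul_cancel_left hD hd]
      have hyR : y ∈ pCore 3 G := (zpowers_le.2 hR) hy
      have hx : y⁻¹ * r ∈ zpowers (a * b) := by
        refine hX _ (mul_mem (inv_mem hyR) hr) (commute_of_conj_eq ?_).symm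
        calc y⁻¹ * r * d * (y⁻¹ * r)⁻¹ = y⁻¹ * (r * d * r⁻¹) * y := by group
          _ = d := by rw [← hyd]; group
      have hi1 : ∀ y ∈ zpowers (d * e), (d * a) * y * (d * a)⁻¹ = y⁻¹ := by
        rintro _ ⟨n, rfl⟩
        simp only
        rw [← conj_zpow, ← inv_zpow]
        congr 1
        have : a * (d * e) * a⁻¹ = d * e :=
          conj_eq_of_commute (hda.2.2.mul_right hea.2.2)
        calc d * a * (d * e) * (d * a)⁻¹ = d * (a * (d * e) * a⁻¹) * d⁻¹ := by group
          _ = (d * e)⁻¹ := by
            rw [this, mul_inv_rev, inv_eq hD hd, inv_eq hD he, mul_cancel_left hD hd]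
      have hi2 : ∀ y ∈ zpowers (a * b), (d * a) * y * (d * a)⁻¹ = y⁻¹ := by
        rintro _ ⟨n, rfl⟩
        simp only
        rw [← conj_zpow, ← inv_zpow]
        congr 1
        have : d * (b * a) * d⁻¹ = b * a :=
          conj_eq_of_commute (hb.2.2.mul_right ha.2.2)
        calc d * a * (a * b) * (d * a)⁻¹ = d * (a * (a * b) * a⁻¹) * d⁻¹ := by group
          _ = (a * b)⁻¹ := by
            rw [mul_cancel_left hD ha.1, inv_eq hD ha.1, this, mul_inv_rev, inv_eq hD ha.1,
              inv_eq hD hb.1]
      have hcm : Commute y (y⁻¹ * r) := by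
        obtain ⟨n, rfl⟩ := hy
        obtain ⟨m, hm⟩ := hx
        rw [← hm]
        refine Commute.zpow_zpow ?_ n m
        have hbe : e ∈ loc D b := mem_loc_comm he (hl ▸ hb)
        exact (ha.2.2.mul_right hb.2.2).mul_left (hea.2.2.symm.mul_right hbe.2.2.symm)
      calc d * a * r * (d * a)⁻¹
          = (d * a * y * (d * a)⁻¹) * (d * a * (y⁻¹ * r) * (d * a)⁻¹) := by group
        _ = ((y⁻¹ * r) * y)⁻¹ := by rw [hi1 y hy, hi2 _ hx, ← mul_inv_rev]
        _ = r⁻¹ := by rw [← hcm.eq]; group
    have hall : ∀ x ∈ D, x ∈ loc D d ∨ x ∈ loc D a := by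
      intro x hx
      by_contra hn
      push Not at hn
      have hxd : ¬ Commute x d := fun h =>
        hn.1 ⟨hx, by rintro rfl; exact hn.2 hda, h.symm⟩
      have hxa : ¬ Commute x a := fun h =>
        hn.2 ⟨hx, by rintro rfl; exact hn.1 ha, h.symm⟩
      have h1 := cube hD hx hd hxd
      have h2 := cube hD hx ha.1 hxa
      have e1 : x * a = (x * d) * (d * a) := by rw [mul_assoc, mul_cancel_left hD hd]
      set g := x * d
      have hN : (pCore 3 G).Normal := inferInstance
      have step : ∀ r ∈ pCore 3 G, (x * a) * r * (x * a)⁻¹ = g * r⁻¹ * g⁻¹ := fun r hr => by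
        rw [e1, ← hinvR r hr]; group
      have s1 := step _ hR
      have m1 := hN.conj_mem _ (inv_mem hR) g
      have s2 := step _ m1
      have m2 := hN.conj_mem _ (inv_mem m1) g
      have s3 := step _ m2
      have : (x * a) ^ 3 * (d * e) * ((x * a) ^ 3)⁻¹ = g ^ 3 * (d * e)⁻¹ * (g ^ 3)⁻¹ := by
        calc (x * a) ^ 3 * (d * e) * ((x * a) ^ 3)⁻¹
            = (x * a) * ((x * a) * ((x * a) * (d * e) * (x * a)⁻¹) * (x * a)⁻¹) * (x * a)⁻¹ := by
              generalize x * a = u; generalize d * e = v; rw [pow_three]; simp only [mul_inv_rev, mul_assoc]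
          _ = g ^ 3 * (d * e)⁻¹ * (g ^ 3)⁻¹ := by
              rw [s1, s2, s3]; generalize d * e = v; rw [pow_three]
              simp only [mul_inv_rev, mul_assoc, inv_inv]
      rw [h1, h2] at this
      simp only [one_mul, inv_one, mul_one] at this
      refine hcde ((commute_iff_sq hD hd he).2 ?_)
      rw [sq]
      nth_rewrite 1 [this]
      exact inv_mul_cancel _
    obtain ⟨⟨e1⟩, -⟩ := hloc d hd
    obtain ⟨⟨e2⟩, -⟩ := hloc a ha.1
    have hcomm : ∀ x ∈ closure (loc D d), ∀ y ∈ closure (loc D a), Commute x y :=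
      fun x hx y hy => commute_of_mem_closure (fun q hq => (commute_of_mem_closure
        (fun p hp => (show q ∈ loc D p from hla p hp ▸ hq).2.2.symm) hx).symm) hy
    let ψ := MonoidHom.noncommCoprod (closure (loc D d)).subtype (closure (loc D a)).subtype
      (fun x y => hcomm x x.2 y y.2)
    have hψ : Function.Injective ψ := by
      refine (MonoidHom.noncommCoprod_injective _ _ _).2 ⟨Subgroup.subtype_injective _, Subgroup.subtype_injective _, ?_⟩
      rw [range_subtype, range_subtype, disjoint_def]
      intro x hx1 hx2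
      have := s3_center (e1 ⟨x, hx1⟩) fun y => by
        obtain ⟨y, rfl⟩ := e1.surjective y
        rw [← map_mul, ← map_mul]; congr 1
        exact Subtype.ext (hcomm _ y.2 _ hx2)
      rw [← map_one e1, e1.apply_eq_iff_eq] at this
      exact congrArg Subtype.val this
    have hr : closure D = ψ.range := by
      refine Eq.trans ?_ (MonoidHom.noncommCoprod_range _ _ _).symm
      rw [range_subtype, range_subtype, ← Subgroup.closure_union]
      congr 1
      exact Set.Subset.antisymm hall (Set.union_subset (loc_subset _ _) (loc_subset _ _))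
    exact ⟨(MulEquiv.subgroupCongr hr).trans ((MonoidHom.ofInjective hψ).symm.trans
      (MulEquiv.prodCongr e1 e2))⟩

end Cfsg.Agent.S5365
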