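import Cfsg.Statements.S5366
import Mathlib
import Cfsg.Agent.TT.FSpace

set_option autoImplicit false
open Cfsg

namespace Cfsg.Agent.S5366

open Cfsg.Agent.TT LineSystem

theorem lineMap_restrict {X : Type*} {L : Set (Set X)} (hL : IsPartialLinear L) {S : Set X}
    (hS : IsSubspace L S) (x y : S) :
    ((lineMap (restrict L S) x y : S) : X) = lineMap L x y := by
  by_cases h : ∃ z : S, z ≠ x ∧ z ≠ y ∧ x ≠ y ∧ ({x, y, z} : Set S) ∈ restrict L S
  · have hs := h.choose_spec
    have : lineMap (restrict L S) x y = h.choose := by simp only [lineMap]; rw [dif_pos h]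
    rw [this]
    obtain ⟨h1, h2, h3, l, hl, hlS, e⟩ := hs
    refine (lineMap_eq hL (Subtype.coe_injective.ne h1) (Subtype.coe_injective.ne h2)
      (Subtype.coe_injective.ne h3) ?_).symm
    have : l = {(x : X), (y : X), (h.choose : X)} := by
      ext p
      constructor
      · intro hp
        have : (⟨p, hlS hp⟩ : S) ∈ ({x, y, h.choose} : Set S) := by rw [e]; exact hp
        simpa [Subtype.ext_iff] using this
      · have key : ∀ q ∈ ({x, y, h.choose} : Set S), (q : X) ∈ l := fun q hq => by
          rw [e] at hq; exact hq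
        rintro (rfl | rfl | rfl) <;> exact key _ (by simp)
    rwa [← this]
  · rw [lineMap_eq_self h, lineMap_eq_self]
    rintro ⟨z, h1, h2, h3, h4⟩
    have hsub := hS _ h4 x x.2 y y.2 h3 (by simp) (by simp)
    refine h ⟨⟨z, hsub (by simp)⟩, fun e => h1 (congrArg Subtype.val e),
      fun e => h2 (congrArg Subtype.val e), fun e => h3 (congrArg Subtype.val e), _, h4, hsub, ?_⟩
    ext p
    simp [Subtype.ext_iff]

theorem isSubspace_span {X : Type*} (L : Set (Set X)) (S : Set X) : IsSubspace L (span L S) :=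
  fun l hl x hx y hy hxy h1 h2 _ hz T hT => hT.2 l hl x (hx T hT) y (hy T hT) hxy h1 h2 hz

theorem subset_span {X : Type*} (L : Set (Set X)) (S : Set X) : S ⊆ span L S :=
  fun _ hx _ hT => hT.1 hx

theorem image_mem_of_model {X P : Type*} {L : Set (Set X)} (hL : IsPartialLinear L) {S : Set X}
    (hS : IsSubspace L S) {op : P → P → P} (h : Qd op)
    (he : Isomorphic (restrict L S) (qlines op)) {x : X} (hx : x ∈ S) {l : Set X} (hl : l ∈ L)
    (hlS : l ⊆ S) : lineMap L x '' l ∈ L := by
  obtain ⟨e, he⟩ := he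
  have h1 := h.image_mem (e ⟨x, hx⟩) ((he _).1 ⟨l, hl, hlS, rfl⟩)
  have h2 : op (e ⟨x, hx⟩) '' (e '' {p : S | (p : X) ∈ l}) =
      e '' (lineMap (restrict L S) ⟨x, hx⟩ '' {p : S | (p : X) ∈ l}) := by
    simp only [Set.image_image]
    refine Set.image_congr fun p _ => ?_
    rw [← lineMap_iso h.partialLinear he, h.lineMap_qlines]
  rw [h2] at h1
  obtain ⟨m, hm, hmS, e'⟩ := (he _).2 h1
  have : lineMap L x '' l = m := by
    ext q
    constructor
    · rintro ⟨p, hp, rfl⟩
      have : lineMap (restrict L S) ⟨x, hx⟩ ⟨p, hlS hp⟩ ∈ {p : S | (p : X) ∈ m} := by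
        rw [← e']; exact ⟨_, hp, rfl⟩
      rwa [Set.mem_setOf_eq, lineMap_restrict hL hS] at this
    · intro hq
      have : (⟨q, hmS hq⟩ : S) ∈ {p : S | (p : X) ∈ m} := hq
      rw [← e'] at this
      obtain ⟨p, hp, hpq⟩ := this
      exact ⟨p, hp, by
        have := lineMap_restrict hL hS ⟨x, hx⟩ p
        rw [hpq] at this
        exact this.symm⟩
  rwa [this]

theorem exists_eq_triple {X : Type*} {l : Set X} (hl : l.ncard = 3) {x : X} (hx : x ∈ l) :
    ∃ y z, x ≠ y ∧ z ≠ x ∧ z ≠ y ∧ l = {x, y, z} := by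
  obtain ⟨a, b, c, hab, hac, hbc, rfl⟩ := Set.ncard_eq_three.1 hl
  rcases hx with rfl | rfl | rfl
  · exact ⟨b, c, hab, hac.symm, hbc.symm, rfl⟩
  · exact ⟨a, c, hab.symm, hbc.symm, hac.symm, Set.insert_comm _ _ _⟩
  · exact ⟨a, b, hac.symm, hbc, hab.symm, by ext; simp; tauto⟩

/-- Let L be a nondegenerate Fischer space on the point type X (every point on a line). Then for every point x the map t(x) — sending a point collinear with x to the third point of their common line and fixing every other point — is a permutation of X of order 2 and an automorphism of the line system; and the set of all t(x) satisfies the 3-transposition order conditions in the permutation group of X (any two have product of order at most 3). -/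
theorem result {X : Type*} (L : Set (Set X)) (hL : Cfsg.IsFischerSpace L) (hnd : Cfsg.LineSystem.IsNondegenerate L) : (∀ x : X, ∃ σ : Equiv.Perm X, ⇑σ = Cfsg.LineSystem.lineMap L x ∧ orderOf σ = 2 ∧ Cfsg.LineSystem.IsIso L L σ) ∧ Cfsg.IsThreeTranspositionSet {σ : Equiv.Perm X | ∃ x : X, ⇑σ = Cfsg.LineSystem.lineMap L x} := by
  classical
  haveI : Fact (Nat.Prime 2) := ⟨Nat.prime_two⟩
  obtain ⟨hP, h3, hpl⟩ := hL
  have hself : ∀ x, lineMap L x x = x := fun x => lineMap_eq_self (by simp)
  have hinv : ∀ x, Function.Involutive (lineMap L x) := by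
    intro x y
    by_cases h : ∃ z : X, z ≠ x ∧ z ≠ y ∧ x ≠ y ∧ ({x, y, z} : Set X) ∈ L
    · obtain ⟨z, h1, h2, h3, h4⟩ := h
      rw [lineMap_eq hP h1 h2 h3 h4]
      exact lineMap_eq hP h3.symm h2.symm h1.symm (by rwa [Set.pair_comm])
    · rw [lineMap_eq_self h, lineMap_eq_self h]
  have himg : ∀ x, ∀ l ∈ L, lineMap L x '' l ∈ L := by
    intro x l hl
    by_cases hx : x ∈ l
    · obtain ⟨y, z, h1, h2, h4, rfl⟩ := exists_eq_triple (h3 l hl) hx
      have e := lineMap_eq hP h2 h4 h1 hl
      have e' : lineMap L x z = y := by rw [← e, hinv x y]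
      simp only [Set.image_insert_eq, Set.image_singleton, hself, e, e']
      rwa [Set.pair_comm]
    · by_cases h : ∃ y ∈ l, ∃ z : X, z ≠ x ∧ z ≠ y ∧ x ≠ y ∧ ({x, y, z} : Set X) ∈ L
      · obtain ⟨y, hy, z, -, -, -, hm⟩ := h
        have hxS : x ∈ span L (l ∪ {x, y, z}) := subset_span _ _ (by simp)
        have hlS : l ⊆ span L (l ∪ {x, y, z}) :=
          Set.subset_union_left.trans (subset_span _ _)
        rcases hpl l hl _ hm (by rintro rfl; exact hx (by simp)) ⟨y, hy, by simp⟩ with h | h
        · rw [dualAffinePlaneTwo_eq] at h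
          exact image_mem_of_model hP (isSubspace_span _ _) qd_dualOp h hxS hl hlS
        · rw [affinePlaneThree_eq] at h
          exact image_mem_of_model hP (isSubspace_span _ _) qd_affOp h hxS hl hlS
      · have : lineMap L x '' l = l := by
          exact (Set.image_congr (g := id)
            fun y hy => lineMap_eq_self fun h' => h ⟨y, hy, h'⟩).trans (Set.image_id _)
        rwa [this]
  have hiso : ∀ x, IsIso L L (hinv x).toPerm := fun x l =>
    ⟨himg x l, fun h => by
      have := himg x _ h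
      rwa [Function.Involutive.coe_toPerm, Set.image_image, Set.image_congr (g := id)
        (fun y _ => hinv x y), Set.image_id] at this⟩
  have hord : ∀ x, orderOf (hinv x).toPerm = 2 := by
    intro x
    refine orderOf_eq_prime ?_ ?_
    · ext y
      simp [sq, hinv x y]
    · obtain ⟨l, hl, hx⟩ := hnd x
      obtain ⟨y, z, h1, h2, h4, rfl⟩ := exists_eq_triple (h3 l hl) hx
      intro e
      have : lineMap L x y = y := by simpa using congrArg (fun σ : Equiv.Perm X => σ y) e
      exact h4 ((lineMap_eq hP h2 h4 h1 hl).symm.trans this)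
  have hconj : ∀ x y p, lineMap L x (lineMap L y p) =
      lineMap L (lineMap L x y) (lineMap L x p) := fun x y p =>
    (lineMap_iso hP (hiso x) y p).symm
  refine ⟨fun x => ⟨(hinv x).toPerm, rfl, hord x, hiso x⟩, ?_, ?_⟩
  · rintro σ ⟨x, hx⟩
    have : σ = (hinv x).toPerm := Equiv.ext (congrFun hx)
    rw [this, hord]
  · rintro σ ⟨x, hx⟩ τ ⟨y, hy⟩
    by_cases h : ∃ z : X, z ≠ x ∧ z ≠ y ∧ x ≠ y ∧ ({x, y, z} : Set X) ∈ L
    · right
      obtain ⟨z, h1, h2, h4, h5⟩ := h
      have e1 := lineMap_eq hP h1 h2 h4 h5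
      have e2 := lineMap_eq hP h2 h1 h4.symm (by rwa [Set.insert_comm])
      ext p
      simp only [pow_three, Equiv.Perm.mul_apply, hx, hy, Equiv.Perm.one_apply]
      rw [hconj x y, hinv x, hconj y x, hinv y, e1, e2, hinv z]
    · left
      ext p
      simp only [sq, Equiv.Perm.mul_apply, hx, hy, Equiv.Perm.one_apply]
      rw [hconj x y, hinv x, lineMap_eq_self h, hinv y]

end Cfsg.Agent.S5366
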