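import Cfsg.Statements.S5367
import Mathlib
import Cfsg.Agent.TT.SymHom
import Cfsg.Agent.TT.AffPlane

set_option autoImplicit false
open Cfsg

namespace Cfsg.Agent.S5367

open Subgroup Cfsg.Agent.TT Equiv LineSystem

/-- The third-point operation on `D`. -/
def dop {G : Type*} [Group G] {D : Set G} (hD : IsTT D) (a b : D) : D :=
  ⟨a * b * a, hD.conj a a.2 b b.2⟩

theorem dop_eq_iff {G : Type*} [Group G] {D : Set G} (hD : IsTT D) (a b : D) :
    dop hD a b = b ↔ Commute (a : G) b := by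
  rw [commute_iff_conj_eq hD.tt a.2, Subtype.ext_iff]; rfl

theorem qd_dop {G : Type*} [Group G] {D : Set G} (hD : IsTT D) : Qd (dop hD) := by
  refine ⟨fun a => (dop_eq_iff hD a a).2 (Commute.refl _),
    fun a b => Subtype.ext (conj_conj hD.tt a.2 b), fun a b h => Subtype.ext ?_,
    fun a b c => Subtype.ext ?_⟩
  · exact (braid hD.tt a.2 b.2 fun hc => h ((dop_eq_iff hD a b).2 hc)).symm
  · simp only [dop, mul_assoc, mul_cancel_left hD.tt a.2]

theorem lines_eq {G : Type*} [Group G] {D : Set G} (hD : IsTT D) :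
    threeTranspositionLines D = qlines (dop hD) := by
  ext l
  constructor
  · rintro ⟨x, y, h, rfl⟩
    refine ⟨y, x, fun e => h ((dop_eq_iff hD y x).1 e).symm, ?_⟩
    ext z
    simp only [Set.mem_setOf_eq, Set.mem_insert_iff, Set.mem_singleton_iff, Subtype.ext_iff, dop,
      inv_eq hD.tt y.2]
    tauto
  · rintro ⟨y, x, h, rfl⟩
    refine ⟨x, y, fun e => h ((dop_eq_iff hD y x).2 e.symm), ?_⟩
    ext z
    simp only [Set.mem_setOf_eq, Set.mem_insert_iff, Set.mem_singleton_iff, Subtype.ext_iff, dop,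
      inv_eq hD.tt y.2]
    tauto

/-- The transposition attached to a two-element subset. -/
def sw (s : DualAffinePoint) : Perm (Fin 4) :=
  if 0 ∈ s.1 then (if 1 ∈ s.1 then swap 0 1 else if 2 ∈ s.1 then swap 0 2 else swap 0 3)
  else if 1 ∈ s.1 then (if 2 ∈ s.1 then swap 1 2 else swap 1 3) else swap 2 3

theorem sw_op : ∀ s t, sw (dualOp s t) = sw s * sw t * sw s := by decide +kernel

theorem sw_inj : ∀ s t, sw s = sw t → s = t := by decide +kernel

theorem sw_swap : ∀ s, ∃ i j, i ≠ j ∧ sw s = swap i j := by decide +kernel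

theorem sw_gen : ∃ a b c, sw a = swap 0 1 ∧ sw b = swap 1 2 ∧ sw c = swap 2 3 ∧
    ∀ s, s = a ∨ s = b ∨ s = c ∨ s = dualOp b a ∨ s = dualOp b c ∨ s = dualOp a (dualOp b c) := by
  decide +kernel

theorem dual_case {G : Type*} [Group G] {D : Set G} (hD : IsTT D) {x y z : D}
    (hxy : ¬ Commute (x : G) y) (hxz : ¬ Commute (x : G) z) (hyz : Commute (y : G) z)
    (hne : y ≠ z) : Isomorphic (restrict (qlines (dop hD)) (span (qlines (dop hD))
      ({x, y, dop hD x y} ∪ {x, z, dop hD x z}))) dualAffinePlaneTwo := by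
  obtain ⟨φ, hφ⟩ := KSG.exists_hom_perm_of_rels (n := 3) ![(y : G), x, z]
    (by intro i; fin_cases i <;> exact mul_self hD.tt (Subtype.prop _))
    (by
      intro i j hij
      fin_cases i <;> fin_cases j <;> simp at hij
      exact hyz)
    (by
      intro i j hij
      fin_cases i <;> fin_cases j <;> simp at hij
      · exact braid hD.tt y.2 x.2 (fun h => hxy h.symm)
      · exact braid hD.tt x.2 z.2 hxz)
  have h0 : φ (swap 0 1) = y := hφ 0
  have h1 : φ (swap 1 2) = x := hφ 1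
  have h2 : φ (swap 2 3) = z := hφ 2
  have hadj : ∀ i : Fin 3, φ (swap i.castSucc i.succ) ∈ D := fun i => by
    rw [hφ]; fin_cases i <;> exact Subtype.prop _
  have hinj : Function.Injective φ :=
    perm_hom_injective φ (a := 0) (b := 1) (c := 2) (d := 3) (by decide) (by decide) (by decide)
      (by decide) (by decide) (by decide)
      (by rw [h0, h1]; intro e; exact hxy (e ▸ Commute.refl _))
      (by rw [h0, h2]; exact Subtype.coe_injective.ne hne)
  have hmem : ∀ s, φ (sw s) ∈ D := fun s => by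
    obtain ⟨i, j, hij, e⟩ := sw_swap s
    rw [e]; exact hD.perm_hom_swap_mem φ hadj hij
  let f : DualAffinePoint → D := fun s => ⟨φ (sw s), hmem s⟩
  have hop : ∀ a b, f (dualOp a b) = dop hD (f a) (f b) := fun a b =>
    Subtype.ext (by simp only [f, dop, sw_op, map_mul])
  obtain ⟨a, b, c, ha, hb, hc, hall⟩ := sw_gen
  have fa : f a = y := Subtype.ext (by simp only [f, ha, h0])
  have fb : f b = x := Subtype.ext (by simp only [f, hb, h1])
  have fc : f c = z := Subtype.ext (by simp only [f, hc, h2])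
  rw [dualAffinePlaneTwo_eq]
  refine (qd_dop hD).isomorphic_span f
    (fun s t e => sw_inj s t (hinj (congrArg Subtype.val e))) hop ?_ ?_
  · rintro p ((rfl | rfl | rfl) | (rfl | rfl | rfl))
    exacts [⟨b, fb⟩, ⟨a, fa⟩, ⟨dualOp b a, by rw [hop, fa, fb]⟩, ⟨b, fb⟩, ⟨c, fc⟩,
      ⟨dualOp b c, by rw [hop, fb, fc]⟩]
  · intro T hT hcl p
    have h1 : f a ∈ T := hT (by simp [fa])
    have h2 : f b ∈ T := hT (by simp [fb])
    have h3 : f c ∈ T := hT (by simp [fc])
    rcases hall p with rfl | rfl | rfl | rfl | rfl | rfl <;> (try simp only [hop]) <;>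
      first | assumption | exact hcl _ h2 _ ‹_› | exact hcl _ h1 _ (hcl _ h2 _ h3)

theorem aff_gen (T : Set (Fin 2 → ZMod 3)) (h0 : 0 ∈ T) (h1 : ![1, 0] ∈ T) (h2 : ![0, 1] ∈ T)
    (hT : ∀ a ∈ T, ∀ b ∈ T, affOp a b ∈ T) (p : Fin 2 → ZMod 3) : p ∈ T := by
  have : ∀ p : Fin 2 → ZMod 3, p = 0 ∨ p = ![1, 0] ∨ p = ![0, 1] ∨ p = affOp 0 ![1, 0] ∨
      p = affOp 0 ![0, 1] ∨ p = affOp ![1, 0] ![0, 1] ∨ p = affOp 0 (affOp ![1, 0] ![0, 1]) ∨
      p = affOp ![1, 0] (affOp 0 ![0, 1]) ∨ p = affOp ![0, 1] (affOp 0 ![1, 0]) := by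
    decide +kernel
  rcases this p with rfl | rfl | rfl | rfl | rfl | rfl | rfl | rfl | rfl
  exacts [h0, h1, h2, hT _ h0 _ h1, hT _ h0 _ h2, hT _ h1 _ h2, hT _ h0 _ (hT _ h1 _ h2),
    hT _ h1 _ (hT _ h0 _ h2), hT _ h2 _ (hT _ h0 _ h1)]

theorem aff_case {G : Type*} [Group G] {D : Set G} (hD : IsTT D) {x y z : D}
    (hxy : ¬ Commute (x : G) y) (hxz : ¬ Commute (x : G) z) (hyz : ¬ Commute (y : G) z)
    (h4 : ¬ Commute ((x : G) * y * x) z) :
    Isomorphic (restrict (qlines (dop hD)) (span (qlines (dop hD))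
      ({x, y, dop hD x y} ∪ {x, z, dop hD x z}))) affinePlaneThree := by
  obtain ⟨g, g0, g1, g2, hg⟩ := exists_affine_coords (mul_self hD.tt x.2) (mul_self hD.tt y.2)
    (mul_self hD.tt z.2) (cube hD.tt x.2 y.2 hxy) (cube hD.tt x.2 z.2 hxz)
    (cube hD.tt y.2 z.2 hyz) (cube hD.tt (hD.conj x x.2 y y.2) z.2 h4)
  have hmem : ∀ p, g p ∈ D := aff_gen (g ⁻¹' D) (by simp [g0]) (by simp [g1]) (by simp [g2])
    fun a ha b hb => by rw [Set.mem_preimage, hg]; exact hD.conj _ ha _ hb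
  let f : (Fin 2 → ZMod 3) → D := fun p => ⟨g p, hmem p⟩
  have hop : ∀ a b, f (affOp a b) = dop hD (f a) (f b) := fun a b => Subtype.ext (hg a b)
  have f0 : f 0 = x := Subtype.ext g0
  have f1 : f ![1, 0] = y := Subtype.ext g1
  have f2 : f ![0, 1] = z := Subtype.ext g2
  rw [affinePlaneThree_eq]
  refine (qd_dop hD).isomorphic_span f (fun u v e => ?_) hop ?_ ?_
  · by_contra huv
    have e' : g u = g v := congrArg Subtype.val e
    have htr : ∀ τ, g (affOp 0 (affOp τ u)) = g (affOp 0 (affOp τ v)) := fun τ => by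
      simp only [hg, e']
    have : ∀ u v : Fin 2 → ZMod 3, u ≠ v → ∃ τ,
        (affOp 0 (affOp τ u) = 0 ∧ affOp 0 (affOp τ v) = ![1, 0]) ∨
        (affOp 0 (affOp τ v) = 0 ∧ affOp 0 (affOp τ u) = ![1, 0]) ∨
        (affOp 0 (affOp τ u) = 0 ∧ affOp 0 (affOp τ v) = ![0, 1]) ∨
        (affOp 0 (affOp τ v) = 0 ∧ affOp 0 (affOp τ u) = ![0, 1]) ∨
        (affOp 0 (affOp τ u) = ![1, 0] ∧ affOp 0 (affOp τ v) = ![0, 1]) ∨
        (affOp 0 (affOp τ v) = ![1, 0] ∧ affOp 0 (affOp τ u) = ![0, 1]) ∨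
        (affOp 0 (affOp τ u) = affOp 0 ![1, 0] ∧ affOp 0 (affOp τ v) = ![0, 1]) ∨
        (affOp 0 (affOp τ v) = affOp 0 ![1, 0] ∧ affOp 0 (affOp τ u) = ![0, 1]) := by
      decide +kernel
    obtain ⟨τ, h⟩ := this u v huv
    have := htr τ
    rcases h with h | h | h | h | h | h | h | h <;> rw [h.1, h.2] at this <;>
      simp only [hg, g0, g1, g2] at this
    · exact hxy (this ▸ Commute.refl _)
    · exact hxy (this ▸ Commute.refl _)
    · exact hxz (this ▸ Commute.refl _)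
    · exact hxz (this ▸ Commute.refl _)
    · exact hyz (this ▸ Commute.refl _)
    · exact hyz (this ▸ Commute.refl _)
    · exact h4 (this ▸ Commute.refl _)
    · exact h4 (this ▸ Commute.refl _)
  · rintro p ((rfl | rfl | rfl) | (rfl | rfl | rfl))
    exacts [⟨_, f0⟩, ⟨_, f1⟩, ⟨affOp 0 ![1, 0], by rw [hop, f0, f1]⟩, ⟨_, f0⟩, ⟨_, f2⟩,
      ⟨affOp 0 ![0, 1], by rw [hop, f0, f2]⟩]
  · intro T hT hcl
    exact aff_gen (f ⁻¹' T) (hT (by simp [f0])) (hT (by simp [f1])) (hT (by simp [f2]))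
      fun a ha b hb => by rw [Set.mem_preimage, hop]; exact hcl _ ha _ hb

/-- Let D be a conjugation-invariant generating set of 3-transpositions of a finite group G. Then the line system on D whose lines are the triples {x, y, y x y⁻¹} for non-commuting members x, y of D is a Fischer space: two points lie on at most one line, lines have three points, and two different meeting lines generate a subspace isomorphic to the dual affine plane of order two or to the affine plane of order three. -/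
theorem result {G : Type*} [Group G] [Finite G] {D : Set G} (hD : Cfsg.IsThreeTranspositionGroup D) : Cfsg.IsFischerSpace (Cfsg.threeTranspositionLines D) := by
  have hI := isTT_of_group hD
  have hq := qd_dop hI
  rw [lines_eq hI]
  refine ⟨hq.partialLinear, fun l hl => hq.ncard_line hl, ?_⟩
  rintro l hl m hm hlm ⟨x, hxl, hxm⟩
  by_cases h : ∃ y ∈ l, ∃ z ∈ m, y ≠ x ∧ z ≠ x ∧ Commute (y : G) z
  · obtain ⟨y, hy, z, hz, hyx, hzx, hc⟩ := h
    obtain ⟨h1, e1⟩ := hq.line_eq hl hyx.symm hxl hy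
    obtain ⟨h2, e2⟩ := hq.line_eq hm hzx.symm hxm hz
    left
    rw [e1, e2]
    refine dual_case hI (fun h => h1 ((dop_eq_iff hI x y).2 h))
      (fun h => h2 ((dop_eq_iff hI x z).2 h)) hc ?_
    rintro rfl
    exact hlm (e1.trans e2.symm)
  · push Not at h
    have hex : ∀ l ∈ qlines (dop hI), ∃ y ∈ l, y ≠ x := fun l hl => by
      obtain ⟨a, b, hab, rfl⟩ := hl
      by_cases ha : a = x
      · exact ⟨b, by simp, fun e => hq.ne hab (ha.trans e.symm)⟩
      · exact ⟨a, by simp, ha⟩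
    obtain ⟨y, hy, hyx⟩ := hex l hl
    obtain ⟨z, hz, hzx⟩ := hex m hm
    obtain ⟨h1, e1⟩ := hq.line_eq hl hyx.symm hxl hy
    obtain ⟨h2, e2⟩ := hq.line_eq hm hzx.symm hxm hz
    right
    have h4 := h (dop hI x y) (by rw [e1]; simp) z hz (hq.op_ne_left h1) hzx
    rw [e1, e2]
    exact aff_case hI (fun h => h1 ((dop_eq_iff hI x y).2 h))
      (fun h => h2 ((dop_eq_iff hI x z).2 h)) (h y hy z hz hyx hzx) h4

end Cfsg.Agent.S5367
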