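import Cfsg.Statements.S5392
import Cfsg.Agent.Spor.Co0Simple

set_option autoImplicit false
open Cfsg

namespace Cfsg.Agent.S5392

open Cfsg.Agent.Spor Cfsg.Agent.Spor.Leech

/-- The kernel of the action on the lattice modulo two. -/
def kerTwo : Subgroup Co0 where
  carrier := {g | ∀ v : leechLattice, ∃ w : leechLattice, g • v - v = 2 • w}
  one_mem' := fun v => ⟨0, by simp⟩
  mul_mem' := fun {a b} ha hb v => by
    obtain ⟨w, hw⟩ := ha (b • v)
    obtain ⟨w', hw'⟩ := hb v
    exact ⟨w + w', by rw [smul_add, ← hw, ← hw', mul_smul]; abel⟩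
  inv_mem' := fun {a} ha v => by
    obtain ⟨w, hw⟩ := ha (a⁻¹ • v)
    exact ⟨-w, by rw [smul_neg, ← hw, smul_inv_smul]; abel⟩

theorem kerTwo_normal : kerTwo.Normal := ⟨fun a ha g v => by
  obtain ⟨w, hw⟩ := ha (g⁻¹ • v)
  refine ⟨g • w, ?_⟩
  rw [two_nsmul, ← smul_add, ← two_nsmul, ← hw, smul_sub, smul_inv_smul, mul_smul, mul_smul]⟩

theorem center_le : Subgroup.center Co0 ≤ kerTwo := fun z hz v => by
  rcases mem_center_iff.1 hz with rfl | rfl
  · exact ⟨0, by simp⟩
  · exact ⟨-v, by rw [negOne_smul, two_nsmul]; abel⟩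

theorem kerTwo_le : kerTwo ≤ Subgroup.center Co0 := by
  have := simple_co1
  have := kerTwo_normal
  have hn := kerTwo_normal.map _ (QuotientGroup.mk'_surjective (Subgroup.center Co0))
  rcases hn.eq_bot_or_eq_top with h | h
  · rwa [Subgroup.map_eq_bot_iff, QuotientGroup.ker_mk'] at h
  · have h1 := congrArg (Subgroup.comap (QuotientGroup.mk' (Subgroup.center Co0))) h
    rw [Subgroup.comap_map_eq, QuotientGroup.ker_mk', sup_eq_left.2 center_le,
      Subgroup.comap_top] at h1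
    obtain ⟨g, hg⟩ := trans_32 sqNorm_leechU' sqNorm_leechU
    obtain ⟨w, hw⟩ := (h1 ▸ Subgroup.mem_top g : g ∈ kerTwo) Spor.leechU'
    rw [hg] at hw
    have := (short_congr (Spor.leechU').2 (by decide) (by decide) (by rw [sqNorm_leechU]; norm_num)
      (by rw [sqNorm_leechU']; norm_num) w.2 (congrArg Subtype.val hw)).1
    rw [sqNorm_leechU] at this
    omega

/-- A vector of shape `(4, 4, 4, 4)`. -/
def v4 : leechLattice := ⟨fun i => if i = none ∨ i = some 1 ∨ i = some 2 ∨ i = some 3 then 4 else 0,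
  mem_leech_of_four_dvd (by decide) (by decide)⟩

/-- The Leech lattice modulo twice itself is a faithful irreducible module for the first Conway group: an automorphism of the rank-24 lattice built from the length-24 code that moves every lattice vector only by twice a lattice vector lies in the centre of the automorphism group (the centre consists of ±1, which act trivially there, so the kernel is exactly the centre), and an additive subgroup lying between twice the lattice and the lattice that is invariant under all lattice automorphisms is one of the two. -/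
theorem result : (∀ g : ↥Cfsg.Co0, (∀ v : ↥Cfsg.leechLattice, ∃ w : ↥Cfsg.leechLattice, ((g • v : ↥Cfsg.leechLattice) : Cfsg.GolayPt → ℤ) - (v : Cfsg.GolayPt → ℤ) = 2 • (w : Cfsg.GolayPt → ℤ)) → g ∈ Subgroup.center ↥Cfsg.Co0) ∧ ∀ M : AddSubgroup (Cfsg.GolayPt → ℤ), (∀ v ∈ Cfsg.leechLattice, (2 : ℤ) • v ∈ M) → M ≤ Cfsg.leechLattice → (∀ g : ↥Cfsg.Co0, ∀ v : ↥Cfsg.leechLattice, (v : Cfsg.GolayPt → ℤ) ∈ M → ((g • v : ↥Cfsg.leechLattice) : Cfsg.GolayPt → ℤ) ∈ M) → (∀ x ∈ M, ∃ w ∈ Cfsg.leechLattice, x = (2 : ℤ) • w) ∨ M = Cfsg.leechLattice := by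
  refine ⟨fun g hg => kerTwo_le fun v => ?_, fun M h2 hM hg => ?_⟩
  · obtain ⟨w, hw⟩ := hg v
    exact ⟨w, Subtype.ext hw⟩
  rw [or_iff_not_imp_left]
  intro h
  push Not at h
  obtain ⟨x, hx, hx2⟩ := h
  have short : ∀ x : leechLattice, ∃ y : leechLattice, (y = 0 ∨ sqNorm (y : GolayPt → ℤ) = 32 ∨
      sqNorm (y : GolayPt → ℤ) = 48 ∨ sqNorm (y : GolayPt → ℤ) = 64) ∧
      ∃ z : leechLattice, (x : GolayPt → ℤ) = y + (2 : ℤ) • (z : GolayPt → ℤ) := fun x => by
    obtain ⟨y, hy, z, hz⟩ := isLeechForm.exists_short x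
    rw [dotForm_apply, dotInt_self] at hy
    refine ⟨y, ?_, z, ?_⟩
    · rw [or_iff_not_imp_left]
      intro h0
      have := min_norm y.2 fun h => h0 (Subtype.ext h)
      have := sixteen_dvd_sqNorm y.2
      omega
    · have := congrArg Subtype.val hz
      rw [two_zsmul, ← two_nsmul]
      exact sub_eq_iff_eq_add'.1 this
  have t32 : ∀ v w : leechLattice, sqNorm (v : GolayPt → ℤ) = 32 → sqNorm (w : GolayPt → ℤ) = 32 →
      (v : GolayPt → ℤ) ∈ M → (w : GolayPt → ℤ) ∈ M := fun v w hv hw h => by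
    obtain ⟨g, rfl⟩ := trans_32 hv hw
    exact hg g v h
  have t48 : ∀ v w : leechLattice, sqNorm (v : GolayPt → ℤ) = 48 → sqNorm (w : GolayPt → ℤ) = 48 →
      (v : GolayPt → ℤ) ∈ M → (w : GolayPt → ℤ) ∈ M := fun v w hv hw h => by
    obtain ⟨g, rfl⟩ := trans_48 hv hw
    exact hg g v h
  have t64 : ∀ v w : leechLattice, sqNorm (v : GolayPt → ℤ) = 64 → sqNorm (w : GolayPt → ℤ) = 64 →
      (v : GolayPt → ℤ) ∈ M → (w : GolayPt → ℤ) ∈ M := fun v w hv hw h => by
    obtain ⟨g, rfl⟩ := trans_64 hv hw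
    exact hg g v h
  have hU : ((Spor.leechU' : leechLattice) : GolayPt → ℤ) ∈ M := by
    obtain ⟨y, hy, z, hz⟩ := short ⟨x, hM hx⟩
    have hyM : (y : GolayPt → ℤ) ∈ M := by
      have := M.sub_mem hx (h2 z z.2)
      rwa [show x = _ from hz, add_sub_cancel_right] at this
    rcases hy with rfl | hy | hy | hy
    · exact absurd (by simpa using hz) (hx2 z z.2)
    · exact t32 _ _ hy sqNorm_leechU' hyM
    · simpa using M.sub_mem (t48 _ _ hy sqNorm_u5 hyM)
        (t48 _ (u5 - Spor.leechU') hy (by decide) hyM)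
    · simpa using M.sub_mem (t64 _ v4 hy (by decide) hyM)
        (t64 _ (v4 - Spor.leechU') hy (by decide) hyM)
  have h8 : ((e8 none : leechLattice) : GolayPt → ℤ) ∈ M := by
    rw [← leechU_add]
    exact M.add_mem (t32 _ _ sqNorm_leechU' sqNorm_leechU hU) hU
  have h5 : ((u5 : leechLattice) : GolayPt → ℤ) ∈ M := by
    simpa [v3] using M.add_mem (t32 _ _ sqNorm_leechU' sqNorm_v3 hU) h8
  refine le_antisymm hM fun x hx => ?_
  obtain ⟨y, hy, z, hz⟩ := short ⟨x, hx⟩
  rw [show x = _ from hz]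
  refine M.add_mem ?_ (h2 z z.2)
  rcases hy with rfl | hy | hy | hy
  · exact M.zero_mem
  · exact t32 _ _ sqNorm_leechU' hy hU
  · exact t48 _ _ sqNorm_u5 hy h5
  · exact t64 _ _ (sqNorm_e8 _) hy h8

end Cfsg.Agent.S5392
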