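import Cfsg.Statements.S5394
import Cfsg.Agent.Spor.M24FixCount

set_option autoImplicit false
open Cfsg

namespace Cfsg.Agent.S5394

open Cfsg.Agent.Spor Cfsg.Agent.Spor.M24C Cfsg.Agent.Comp
open scoped Pointwise

/-- The automorphism group of the length-24 code built from the squares modulo 23 has exactly two conjugacy classes of involutions: an involution either fixes exactly the eight points of an octad or has no fixed points, both kinds occur, and any two involutions of the same kind are conjugate in the group. -/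
theorem result : (∀ g ∈ Cfsg.M24, orderOf g = 2 → (Finset.univ.filter fun p => g p = p) ∈ Cfsg.octads ∨ ∀ p, g p ≠ p) ∧ (∃ g ∈ Cfsg.M24, orderOf g = 2 ∧ (Finset.univ.filter fun p => g p = p) ∈ Cfsg.octads) ∧ (∃ g ∈ Cfsg.M24, orderOf g = 2 ∧ ∀ p, g p ≠ p) ∧ ∀ g ∈ Cfsg.M24, ∀ h ∈ Cfsg.M24, orderOf g = 2 → orderOf h = 2 → ((∀ p, g p ≠ p) ↔ (∀ p, h p ≠ p)) → ∃ k ∈ Cfsg.M24, k * g * k⁻¹ = h := by
  refine ⟨fun g hg h2 => ?_, ⟨mc z1, (mc z1).2, by rw [Subgroup.orderOf_coe, orderOf_z1],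
    fixSet_z1_mem⟩, ⟨mc z2, (mc z2).2, by rw [Subgroup.orderOf_coe, orderOf_z2],
    fixSet_eq_empty_iff.1 (Finset.card_eq_zero.1 card_fixSet_z2)⟩, fun g hg h hh h2 h2' hiff => ?_⟩
  · lift g to M24 using hg
    rw [Subgroup.orderOf_coe] at h2
    by_cases h0 : (fixSet g).card = 0
    · exact Or.inr (fixSet_eq_empty_iff.1 (Finset.card_eq_zero.1 h0))
    · obtain ⟨k, rfl⟩ := conj_z1 h2 h0
      left
      have : fixSet (k * mc z1 * k⁻¹ : M24) = k • fixSet (mc z1) := fixSet_conj _ _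
      change fixSet _ ∈ _
      rw [this, smul_mem_octads_iff]
      exact fixSet_z1_mem
  · lift g to M24 using hg
    lift h to M24 using hh
    rw [Subgroup.orderOf_coe] at h2 h2'
    rw [← fixSet_eq_empty_iff, ← fixSet_eq_empty_iff, ← Finset.card_eq_zero,
      ← Finset.card_eq_zero] at hiff
    have key : ∀ z : M24, (∃ k : M24, g = k * z * k⁻¹) → (∃ k : M24, h = k * z * k⁻¹) →
        ∃ k ∈ M24, k * g * k⁻¹ = h := by
      rintro z ⟨k, rfl⟩ ⟨k', rfl⟩
      refine ⟨(k' * k⁻¹ : M24), Subtype.prop _, ?_⟩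
      simp [mul_assoc]
    by_cases h0 : (fixSet g).card = 0
    · exact key _ (conj_z2 h2 (by omega)) (conj_z2 h2' (by rw [hiff.1 h0]; norm_num))
    · exact key _ (conj_z1 h2 h0) (conj_z1 h2' (mt hiff.2 h0))

end Cfsg.Agent.S5394
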