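import Cfsg.Statements.S5396
import Cfsg.Agent.TT.ESType

set_option autoImplicit false
open Cfsg

namespace Cfsg.Agent.S5396

open Subgroup

theorem sSup_eq {E : Type*} [Group E] {r : ℕ} (h1 : PRankLE 2 r E)
    (h2 : ∃ A : Subgroup E, IsElementaryAbelian 2 A ∧ Nat.card A = 2 ^ r) :
    sSup {k : ℕ | ∃ A : Subgroup E, IsElementaryAbelian 2 A ∧ Nat.card A = 2 ^ k} = r := by
  refine IsGreatest.csSup_eq ⟨h2, ?_⟩
  rintro k ⟨A, hA, hk⟩
  have := h1 A hA.1 hA.2
  rwa [hk, Nat.pow_le_pow_iff_right one_lt_two] at this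

/-- For every n ≥ 1 there exist finite extraspecial 2-groups of order 2^(2n+1) whose 2-rank (the largest rank of an elementary abelian subgroup) is n, and ones whose 2-rank is n + 1 (so for each such order there are two non-isomorphic extraspecial 2-groups, told apart by their 2-rank). -/
theorem result (n : ℕ) (hn : 1 ≤ n) : ∀ r ∈ ({n, n + 1} : Set ℕ), ∃ (E : Type) (_ : Group E) (_ : Finite E), Cfsg.IsExtraspecial 2 E ∧ Nat.card E = 2 ^ (2 * n + 1) ∧ sSup {k : ℕ | ∃ A : Subgroup E, Cfsg.IsElementaryAbelian 2 A ∧ Nat.card A = 2 ^ k} = r := by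
  obtain ⟨m, rfl⟩ : ∃ m, n = m + 1 := ⟨n - 1, by omega⟩
  rintro r (rfl | rfl)
  · exact ⟨TT.ESM (TT.bMinus m), inferInstance, inferInstance,
      (TT.xs_minus m).isExtraspecial_of_top, TT.card_minus m,
      sSup_eq (TT.pRankLE_minus m) (TT.exists_elab_minus m)⟩
  · exact ⟨TT.ESM (TT.bPlus (m + 1)), inferInstance, inferInstance,
      (TT.xs_plus hn).isExtraspecial_of_top, TT.card_plus _,
      sSup_eq ((TT.xs_plus hn).pRankLE (TT.card_plus _)) (TT.exists_elab_plus _)⟩


end Cfsg.Agent.S5396
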