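import Cfsg.Statements.S5408
import Cfsg.Agent.LES.Monster

set_option autoImplicit false
open Cfsg

namespace Cfsg.Agent.S5408

/-- Let G be a finite group of Monster type at the involution z with Q the extraspecial normal subgroup of order 2^25 of C = C_G(z) (so C/Q is identified with the first Conway group with Q modulo its centre the Leech lattice modulo 2, and z is not weakly closed in Q). Then Q is of plus type: it contains an elementary abelian subgroup of order 2^13. -/
theorem result {G : Type*} [Group G] [Finite G] (z : G) (Q : Subgroup (Subgroup.centralizer ({z} : Set G))) [Q.Normal] (hM : Cfsg.IsOfMonsterType z Q) : ∃ E : Subgroup Q, Cfsg.IsElementaryAbelian 2 E ∧ Nat.card E = 2 ^ 13 := by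
  obtain ⟨hs0, e, ψ, hψ⟩ := hM
  obtain ⟨φ, d, -⟩ := LES.monData_of Q hs0 e ψ hψ
  obtain ⟨g, h1, h2⟩ := LES.nwc_of_setting hs0
  have hp := d.pair h1 h2
  have hc := d.card_E hp (d.card_conj g)
  set f : Q →* G := (Subgroup.centralizer ({z} : Set G)).subtype.comp Q.subtype with hf
  have hinj : Function.Injective f := fun a b h => Subtype.ext (Subtype.ext h)
  set E := Q.map (Subgroup.centralizer ({z} : Set G)).subtype ⊓
    (Q.map (Subgroup.centralizer ({z} : Set G)).subtype).map (MulAut.conj g).toMonoidHom
  have hle : E ≤ f.range := by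
    rintro x ⟨⟨y, hy, rfl⟩, -⟩
    exact ⟨⟨y, hy⟩, rfl⟩
  refine ⟨E.comap f, ⟨⟨⟨fun x y => Subtype.ext (hinj ?_)⟩⟩, fun x hx => hinj ?_⟩, ?_⟩
  · rw [Subgroup.coe_mul, Subgroup.coe_mul, map_mul, map_mul]; exact LES.E_comm hp x.2 y.2
  · rw [map_pow, map_one, pow_two]; exact LES.E_sq hp hx
  · rw [← hc, ← Subgroup.card_map_of_injective (f := f) hinj, Subgroup.map_comap_eq_self hle]
end Cfsg.Agent.S5408
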