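import Cfsg.Statements.S5410
import Cfsg.Agent.LES.Monster

set_option autoImplicit false
open Cfsg

namespace Cfsg.Agent.S5410

/-- Let G be a finite group of Monster type at the involution z with Q the extraspecial normal subgroup of order 2^25 of C = C_G(z) (so C/Q is identified with the first Conway group with Q modulo its centre the Leech lattice modulo 2, and z is not weakly closed in Q). Let g in G with s = g z g⁻¹ a member of Q other than z, let X be the image in C/Q of the centralizer of s in C, and let E be the image in C/Q of the intersection of g Q g⁻¹ with C. Then E is a normal subgroup of X, elementary abelian of order 2^11, and it has a complement in X isomorphic to the Mathieu group of degree 24 (the automorphism group of the length-24 binary Golay code). -/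
theorem result {G : Type*} [Group G] [Finite G] (z : G) (Q : Subgroup (Subgroup.centralizer ({z} : Set G))) [Q.Normal] (hM : Cfsg.IsOfMonsterType z Q) (s : G) (hsQ : ∃ hsc : s ∈ Subgroup.centralizer ({z} : Set G), (⟨s, hsc⟩ : Subgroup.centralizer ({z} : Set G)) ∈ Q) (hs : IsConj z s) (hs1 : s ≠ z) (g : G) (hg : g * z * g⁻¹ = s) (X E : Subgroup ((Subgroup.centralizer ({z} : Set G)) ⧸ Q)) (hX : X = ((Subgroup.centralizer ({z} : Set G) ⊓ Subgroup.centralizer ({s} : Set G)).subgroupOf (Subgroup.centralizer ({z} : Set G))).map (QuotientGroup.mk' Q)) (hE : E = (((Q.map (Subgroup.centralizer ({z} : Set G)).subtype).map (MulAut.conj g).toMonoidHom ⊓ Subgroup.centralizer ({z} : Set G)).subgroupOf (Subgroup.centralizer ({z} : Set G))).map (QuotientGroup.mk' Q)) : E ≤ X ∧ (∀ x ∈ X, ∀ y ∈ E, x * y * x⁻¹ ∈ E) ∧ Cfsg.IsElementaryAbelian 2 E ∧ Nat.card E = 2 ^ 11 ∧ ∃ K : Subgroup ((Subgroup.centralizer ({z} : Set G)) ⧸ Q), K ≤ X ∧ E ⊓ K = ⊥ ∧ E ⊔ K = X ∧ Nonempty (K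 ≃* Cfsg.M24) := by
  obtain ⟨hs0, e, ψ, hψ⟩ := hM
  obtain ⟨φ, d₀, -⟩ := LES.monData_of Q hs0 e ψ hψ
  subst hg
  have hp := d₀.pair (LES.mem_map_subtype_iff.mpr hsQ) hs1
  have hP := d₀.card_conj g
  obtain ⟨g₀, hg₀⟩ := d₀.exists_twist hp hP
  have d := d₀.twist g₀
  set e' := e.trans (MulAut.conj (g₀ : Spor.Co1)) with he'
  set π := (MulAut.conj (g₀ : Spor.Co1)).toMonoidHom.comp (e.toMonoidHom.comp (QuotientGroup.mk' Q))
  have hπ : ∀ h, π h = e' (h : _ ⧸ Q) := fun h => rfl
  set f : Co0 →* (Subgroup.centralizer ({z} : Set G)) ⧸ Q :=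
    e'.symm.toMonoidHom.comp (QuotientGroup.mk' (Subgroup.center Co0)) with hf
  have hfk : ∀ a, f a = 1 → a ∈ LES.Co.sgnSub := fun a ha =>
    LES.Co.center_le_sgnSub ((QuotientGroup.eq_one_iff a).mp (e'.symm.map_eq_one_iff.mp ha))
  have key : ∀ W : Subgroup G, (W.subgroupOf (Subgroup.centralizer ({z} : Set G))).map
      (QuotientGroup.mk' Q) = (LES.MonData.preim π W).map f := by
    intro W
    ext x
    constructor
    · rintro ⟨h, h1, rfl⟩
      obtain ⟨a, ha⟩ := QuotientGroup.mk_surjective (π h)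
      refine ⟨a, LES.MonData.mem_preim.mpr ⟨h, h1, ha⟩, ?_⟩
      change e'.symm (a : Spor.Co1) = _
      rw [ha, hπ, MulEquiv.symm_apply_apply]; rfl
    · rintro ⟨a, ha, rfl⟩
      obtain ⟨h, h1, h2⟩ := LES.MonData.mem_preim.mp ha
      refine ⟨h, h1, ?_⟩
      change _ = e'.symm (a : Spor.Co1)
      rw [h2, hπ, MulEquiv.symm_apply_apply]; rfl
  have hX1 : LES.MonData.preim π (Subgroup.centralizer ({z} : Set G) ⊓
      Subgroup.centralizer ({g * z * g⁻¹} : Set G)) = Spor.Leech.monoSub := by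
    ext a
    rw [LES.MonData.mem_preim, LES.mem_monoSub_iff_congr (p := none)]
    constructor
    · rintro ⟨h, h1, h2⟩
      exact d.congr_of_comm h2 hg₀ (Subgroup.mem_centralizer_singleton_iff.mp h1.2)
    · intro ha
      obtain ⟨h, h1, h2⟩ := d.exists_comm_of_congr hg₀ hp.hP.z_ne hp.ne ha
      exact ⟨h, ⟨h.2, Subgroup.mem_centralizer_singleton_iff.mpr h2⟩, h1⟩
  have hE1 := d.preim_eq hp hP hg₀
  rw [Subgroup.inf_subgroupOf_right] at hE
  have hcard : Nat.card E = 2 ^ 11 := by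
    have h1 := LES.MonData.card_preim (π := π)
      ((Q.map (Subgroup.centralizer ({z} : Set G)).subtype).map (MulAut.conj g).toMonoidHom)
    rw [hE1, LES.Co.card_sgnSub, show π = e'.toMonoidHom.comp (QuotientGroup.mk' Q) from rfl,
      ← Subgroup.map_map, Subgroup.card_map_of_injective e'.injective, ← hE] at h1
    omega
  rw [key, hX1] at hX
  rw [key, hE1] at hE
  subst hX hE
  have hsq : ∀ y ∈ LES.Co.sgnSub.map f, y * y = 1 := by
    rintro _ ⟨b, hb, rfl⟩
    rw [← map_mul, LES.Co.sgnSub_sq hb, map_one]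
  have hinj : Function.Injective (f.comp Spor.Leech.permHom) :=
    (injective_iff_map_eq_one _).mpr fun σ h => LES.Co.eq_one_of_permHom_mem_sgnSub (hfk _ h)
  refine ⟨Subgroup.map_mono LES.Co.sgnSub_le, ?_,
    ⟨⟨⟨fun x y => Subtype.ext (TT.comm_of_sq_eq_one hsq x.2 y.2)⟩⟩,
      fun a ha => by rw [pow_two]; exact hsq a ha⟩, hcard, Spor.Leech.permHom.range.map f, ?_, ?_, ?_, ?_⟩
  · rintro _ ⟨a, ha, rfl⟩ _ ⟨b, hb, rfl⟩
    exact ⟨a * b * a⁻¹, LES.Co.conj_mem_sgnSub ha hb, by simp⟩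
  · rw [← LES.Co.sgnSub_sup_range]
    exact Subgroup.map_mono le_sup_right
  · rw [eq_bot_iff]
    rintro _ ⟨⟨a, ha, h1⟩, _, ⟨σ, rfl⟩, rfl⟩
    have h2 : a⁻¹ * Spor.Leech.permHom σ ∈ LES.Co.sgnSub := hfk _ (by rw [map_mul, map_inv, h1]; simp)
    have h3 := LES.Co.eq_one_of_permHom_mem_sgnSub (σ := σ) (by simpa using mul_mem ha h2)
    simp [h3]
  · rw [← Subgroup.map_sup, LES.Co.sgnSub_sup_range]
  · rw [← MonoidHom.range_comp]
    exact ⟨(MonoidHom.ofInjective hinj).symm⟩
end Cfsg.Agent.S5410
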