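import Cfsg.Statements.S5416
import Mathlib
import Cfsg.Agent.Mont.Std
import Cfsg.Agent.Mont.C7

set_option autoImplicit false
open Cfsg

namespace Cfsg.Agent.S5416

/-- Let G be a finite group of Monster type at the involution z with Q the extraspecial normal subgroup of order 2^25 of C = C_G(z) (so C/Q is identified with the first Conway group with Q modulo its centre the Leech lattice modulo 2, and z is not weakly closed in Q). Let s be a conjugate of z in Q other than z and let B be a Sylow 7-subgroup of the joint centralizer of z and s. Then the centralizer of B modulo B is a group of Held type (an involution whose centralizer D has generalized Fitting subgroup R extraspecial of order 2^7 with D/R isomorphic to SL(3, 2), exactly 29 of its conjugates lying in R, and the involution not weakly closed in R). -/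
theorem result {G : Type*} [Group G] [Finite G] (z : G) (Q : Subgroup (Subgroup.centralizer ({z} : Set G))) [Q.Normal] (hM : Cfsg.IsOfMonsterType z Q) (s : G) (hsQ : ∃ hsc : s ∈ Subgroup.centralizer ({z} : Set G), (⟨s, hsc⟩ : Subgroup.centralizer ({z} : Set G)) ∈ Q) (hs : IsConj z s) (hs1 : s ≠ z) (B : Subgroup G) (hB : B ≤ Subgroup.centralizer ({z, s} : Set G)) (hBp : Nat.card B = 7 ^ (Nat.card ↥(Subgroup.centralizer ({z, s} : Set G))).factorization 7) [hn : (B.subgroupOf (Subgroup.centralizer (B : Set G))).Normal] : Cfsg.IsOfHeldType (↥(Subgroup.centralizer (B : Set G)) ⧸ B.subgroupOf (Subgroup.centralizer (B : Set G))) := by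
  obtain ⟨θ, t⟩ := Mont.exists_th' hM hsQ hs hs1
  obtain ⟨b, h1, h2, h3⟩ := t.sylow (by norm_num : Nat.Prime 7) (by norm_num) Mont.ord_y7
    Mont.fact_M24_seven hB hBp
  obtain ⟨ρ, c⟩ := Mont.C7.cdata
  have q := Mont.oq_mk (by norm_num : Nat.Prime 7) (by norm_num) h1 h2
  obtain ⟨π, φ, d, hx, γ, r⟩ := t.main h3 q c
  obtain ⟨_, h4, h5⟩ := r.setting (w := 3) (by norm_num)
  refine ⟨_, _, inferInstance, h4, h5, ?_⟩
  have h6 := Mont.ncard_conj d q t.nwc hx
  rw [Mont.C7.nT] at h6
  rw [← Set.ncard_image_of_injective _ Subtype.val_injective]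
  refine Eq.trans (congrArg _ (Set.ext fun y => ?_)) h6
  exact ⟨fun ⟨_, a, e⟩ => e ▸ a, fun a => ⟨⟨y, LES.LX_le_centralizer r.lx a.1⟩, a, rfl⟩⟩

end Cfsg.Agent.S5416
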