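import Cfsg.Statements.S5418
import Mathlib
import Cfsg.Agent.Mont.Seven
import Cfsg.Agent.FGS.Conj

set_option autoImplicit false
open Cfsg

namespace Cfsg.Agent.S5418

/-- Let G be a finite group of Monster type at the involution z with Q the extraspecial normal subgroup of order 2^25 of C = C_G(z) (so C/Q is identified with the first Conway group with Q modulo its centre the Leech lattice modulo 2, and z is not weakly closed in Q). Let s be a conjugate of z in Q other than z and let B be a Sylow 7-subgroup of the joint centralizer of z and s. Then the centralizer of B has index 6 in the normalizer of B; and some involution inverting B induces, by conjugation, a non-inner automorphism of the layer of the centralizer of B. -/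
theorem result {G : Type*} [Group G] [Finite G] (z : G) (Q : Subgroup (Subgroup.centralizer ({z} : Set G))) [Q.Normal] (hM : Cfsg.IsOfMonsterType z Q) (s : G) (hsQ : ∃ hsc : s ∈ Subgroup.centralizer ({z} : Set G), (⟨s, hsc⟩ : Subgroup.centralizer ({z} : Set G)) ∈ Q) (hs : IsConj z s) (hs1 : s ≠ z) (B : Subgroup G) (hB : B ≤ Subgroup.centralizer ({z, s} : Set G)) (hBp : Nat.card B = 7 ^ (Nat.card ↥(Subgroup.centralizer ({z, s} : Set G))).factorization 7) : (Subgroup.centralizer (B : Set G)).relIndex (Subgroup.normalizer (B : Set G)) = 6 ∧ ∃ t : G, orderOf t = 2 ∧ (∀ b ∈ B, t * b * t⁻¹ = b⁻¹) ∧ (∀ x ∈ (Cfsg.layer ↥(Subgroup.centralizer (B : Set G))).map (Subgroup.centralizer (B : Set G)).subtype, t * x * t⁻¹ ∈ (Cfsg.layer ↥(Subgroup.centralizer (B : Set G))).map (Subgroup.centralizer (B : Set G)).subtype) ∧ ¬ ∃ l ∈ (Cfsg.layer ↥(Subgroup.centralizer (B : Set G))).map (Subgroup.centralizer (B : Set G)).subtype, ∀ x ∈ (Cfsg.layer ↥(Subgroup.centralizer (B : Set G))).map (Subgroup.centralizer (B : Set G)).subtype,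 t * x * t⁻¹ = l * x * l⁻¹ := by
  obtain ⟨θ, t⟩ := Mont.exists_th' hM hsQ hs hs1
  obtain ⟨b, h1, h2, h3⟩ := t.sylow (by norm_num : Nat.Prime 7) (by norm_num) Mont.ord_y7
    Mont.fact_M24_seven hB hBp
  have := Subgroup.normal_subgroupOf_of_le_normalizer (N := B)
    (Subgroup.centralizer_le_normalizer (B : Set G))
  obtain ⟨h4, u, h5, h6, h7⟩ := Mont.seven t h3 (Mont.oq_mk (by norm_num) (by norm_num) h1 h2)
  have h8 : ∀ y ∈ B, u * y * u⁻¹ = y⁻¹ := by
    rw [h2]
    rintro _ ⟨i, rfl⟩
    rw [← conj_zpow, h6, inv_zpow]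
  refine ⟨h2 ▸ Mont.relIndex_eq_of_conj (by norm_num : Nat.Prime 7) h1 h4, u,
    orderOf_eq_prime (by rw [pow_two, h5]) ?_, h8, fun x hx => ?_, h7⟩
  · rintro rfl
    have := orderOf_dvd_of_pow_eq_one (n := 2) (x := (b : G)) (by
      rw [pow_two, mul_eq_one_iff_eq_inv]; simpa using h6)
    rw [h1] at this
    omega
  · exact (Subgroup.mem_normalizer_iff.1 (PLocal.normalizer_le_normalizer_map_layer _
      (FGS.normalizer_le_normalizer_centralizer B (Subgroup.mem_normalizer_fintype
        fun y hy => (h8 y hy).symm ▸ inv_mem hy))) x).1 hx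

end Cfsg.Agent.S5418
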