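import Cfsg.Statements.S5421
import Cfsg.Agent.TT.LX

set_option autoImplicit false
open Cfsg

namespace Cfsg.Agent.S5421



/-- Let Q be an extraspecial 2-subgroup of the finite group G whose centralizer in G is its centre Z and which is normal in the centralizer of Z. If some involution b of Q outside Z has Z inside the largest normal 2-subgroup of the centralizer of b, then Q is a large extraspecial 2-subgroup of G. -/
theorem result {G : Type*} [Group G] [Finite G] (Q : Subgroup G) (hL1 : Cfsg.IsExtraspecial 2 ↥Q) (hL2 : Subgroup.centralizer (Q : Set G) = ((Subgroup.center ↥Q).map Q.subtype)) (hL3 : Subgroup.centralizer (((Subgroup.center ↥Q).map Q.subtype) : Set G) ≤ Subgroup.normalizer (Q : Set G)) (b : G) (hbQ : b ∈ Q) (hbZ : b ∉ ((Subgroup.center ↥Q).map Q.subtype)) (hb : orderOf b = 2) (hZ : ((Subgroup.center ↥Q).map Q.subtype) ≤ (Cfsg.pCore 2 ↥(Subgroup.centralizer ({b} : Set G))).map (Subgroup.centralizer ({b} : Set G)).subtype) : Cfsg.IsLargeExtraspecial Q := by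
  obtain ⟨z, h⟩ := TT.exists_LX hL1 hL2 hL3
  rw [h.toXS.center_eq] at hZ hbZ
  have hz := hZ (Subgroup.mem_zpowers z)
  refine h.isLarge_of_two_subgroup hbQ (TT.mul_self_of_orderOf_two hb)
    (fun e => hbZ (e ▸ Subgroup.mem_zpowers z)) (Grp.map_pCore_isPGroup 2 _) hz fun c hc => ?_
  obtain ⟨z', hz', rfl⟩ := hz
  exact ⟨_, (Cfsg.pCore_normal 2 _).conj_mem z' hz'
    ⟨c, Subgroup.mem_centralizer_singleton_iff.2 hc⟩, rfl⟩


end Cfsg.Agent.S5421
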