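import Cfsg.Statements.S5423
import Cfsg.Agent.TT.Hol

set_option autoImplicit false
open Cfsg

namespace Cfsg.Agent.S5423

open Subgroup

/-- Let G be a finite group that is the split extension of an elementary abelian normal subgroup U of order 2^(n+1), n ≥ 1, by its full automorphism group: U has a complement M in G whose conjugation action on U is faithful and realizes every automorphism of U. Let Z be a subgroup of U of order 2 and Q the largest normal 2-subgroup of the centralizer C of Z. Then Q is extraspecial of order 2^(2n+1) with an elementary abelian subgroup of order 2^(n+1) (plus type), Q is a large extraspecial 2-subgroup of G, and C is the split extension of Q by the general linear group of degree n over the field with two elements. -/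
theorem result {G : Type*} [Group G] [Finite G] (n : ℕ) (hn : 1 ≤ n) (U M : Subgroup G) [U.Normal] (hU : Cfsg.IsElementaryAbelian 2 U) (hUcard : Nat.card ↥U = 2 ^ (n + 1)) (hUM : U ⊓ M = ⊥) (hUM' : U ⊔ M = ⊤) (hfaith : ∀ m ∈ M, (∀ u ∈ U, m * u * m⁻¹ = u) → m = 1) (hfull : ∀ φ : ↥U ≃* ↥U, ∃ m ∈ M, ∀ u : ↥U, ((φ u : ↥U) : G) = m * u * m⁻¹) (Z : Subgroup G) (hZU : Z ≤ U) (hZ : Nat.card ↥Z = 2) (Q : Subgroup G) (hQ : Q = (Cfsg.pCore 2 ↥(Subgroup.centralizer (Z : Set G))).map (Subgroup.centralizer (Z : Set G)).subtype) : Cfsg.IsExtraspecial 2 ↥Q ∧ Nat.card ↥Q = 2 ^ (2 * n + 1) ∧ (∃ E : Subgroup G, E ≤ Q ∧ Cfsg.IsElementaryAbelian 2 E ∧ Nat.card ↥E = 2 ^ (n + 1)) ∧ Cfsg.IsLargeExtraspecial Q ∧ ∃ K : Subgroup G, K ≤ Subgroup.centralizer (Z : Set G) ∧ Q ⊓ K = ⊥ ∧ Q ⊔ K = Subgroup.centralizer (Z : Set G) ∧ Nonempty (↥K ≃* Matrix.GeneralLinearGroup (Fin n) (ZMod 2)) := by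
  obtain ⟨m, h, hm⟩ := TT.exists_Hol hU (M := M) (by rw [normalizer_eq_top]; exact le_top) hfaith (by
    intro A
    let φ : U ≃* U :=
      { toFun := fun x => ⟨(A (PLocal.EA.of hU x x.2)).val, PLocal.EA.val_mem _⟩
        invFun := fun x => ⟨(A.symm (PLocal.EA.of hU x x.2)).val, PLocal.EA.val_mem _⟩
        left_inv := fun x => Subtype.ext (by simp)
        right_inv := fun x => Subtype.ext (by simp)
        map_mul' := fun x y => Subtype.ext (by
          have : PLocal.EA.of hU ((x * y : U) : G) (x * y).2 =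
              PLocal.EA.of hU x x.2 + PLocal.EA.of hU y y.2 := PLocal.EA.ext (by simp)
          show (A _).val = (A _).val * (A _).val
          rw [this, map_add, PLocal.EA.val_add]) }
    obtain ⟨x, hx, hφ⟩ := hfull φ
    exact ⟨x, hx, fun v => hφ ⟨v.val, v.val_mem⟩⟩)
  obtain ⟨z, hz1, hzZ⟩ : ∃ z : G, z ≠ 1 ∧ Z = zpowers z := by
    have : Fact (Nat.Prime 2) := ⟨Nat.prime_two⟩
    obtain ⟨⟨z, hz⟩, hz1⟩ := (Nat.card_eq_two_iff' (1 : Z)).1 hZ
    refine ⟨z, fun e => hz1.1 (Subtype.ext e), ?_⟩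
    symm
    apply Subgroup.eq_of_le_of_card_ge (zpowers_le.2 hz)
    rw [hZ, Nat.card_zpowers]
    have : orderOf z ≠ 1 := fun e => hz1.1 (Subtype.ext (orderOf_eq_one_iff.1 e))
    have := orderOf_pos z
    omega
  subst hzZ
  have hzU : z ∈ U := hZU (mem_zpowers z)
  rw [TT.centralizer_zpowers_eq] at hQ ⊢
  have := h.main (e := PLocal.EA.of hU z hzU) hn (by rw [PLocal.EA.card_eq, hUcard])
    (fun e => hz1 (by simpa using congrArg PLocal.EA.val e)) (by
      intro c _
      have hc : c ∈ ((U ⊔ M : Subgroup G) : Set G) := by rw [hUM']; trivial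
      rw [Subgroup.normal_mul] at hc
      obtain ⟨a, ha, b, hb, rfl⟩ := hc
      rw [← hm] at hb
      obtain ⟨A, rfl⟩ := hb
      exact ⟨PLocal.EA.of hU a ha, A, rfl⟩)
  subst hQ
  exact this


end Cfsg.Agent.S5423
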