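import Cfsg.Statements.S5425
import Cfsg.Agent.TT.Hol
import Cfsg.Agent.Spor.M24Class
import Cfsg.Agent.S5424

set_option autoImplicit false
open Cfsg

namespace Cfsg.Agent.S5425

open Subgroup Spor.M24C
open scoped Pointwise

theorem full_of_card {G : Type*} [Group G] [Finite G] {U M : Subgroup G}
    (hU : Cfsg.IsElementaryAbelian 2 U) (hM : M ≤ normalizer (U : Set G))
    (hfaith : ∀ m ∈ M, (∀ u ∈ U, m * u * m⁻¹ = u) → m = 1) (hUc : Nat.card U = 2 ^ 4)
    (hMc : Nat.card M = 20160) (A : PLocal.EA hU ≃ₗ[ZMod 2] PLocal.EA hU) :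
    ∃ m ∈ M, ∀ v, (A v).val = m * v.val * m⁻¹ := by
  let ρ : M → (PLocal.EA hU ≃ₗ[ZMod 2] PLocal.EA hU) := fun x =>
    LinearEquiv.ofLinearMap (PLocal.EA.conjMap hU x (hM x.2))
      (PLocal.EA.conjMap hU (x : G)⁻¹ (hM (M.inv_mem x.2))) (by ext v; simp [mul_assoc])
      (by ext v; simp [mul_assoc])
  have hρ : ∀ x v, (ρ x v).val = x * v.val * (x : G)⁻¹ := fun x v => by simp [ρ]
  have inj : Function.Injective ρ := by
    intro x y e
    have := hfaith ((y : G)⁻¹ * x) (M.mul_mem (M.inv_mem y.2) x.2) (fun u hu => by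
      have e1 := hρ x (PLocal.EA.of hU u hu)
      have e2 := hρ y (PLocal.EA.of hU u hu)
      rw [PLocal.EA.val_of] at e1 e2
      calc (y : G)⁻¹ * x * u * ((y : G)⁻¹ * x)⁻¹ = (y : G)⁻¹ * (x * u * (x : G)⁻¹) * y := by group
        _ = u := by rw [← e1, e, e2]; group)
    exact Subtype.ext (inv_mul_eq_one.1 this).symm
  have hr : Module.finrank (ZMod 2) (PLocal.EA hU) = 4 := by
    have := Module.natCard_eq_pow_finrank (K := ZMod 2) (V := PLocal.EA hU)
    rw [PLocal.EA.card_eq, hUc, Nat.card_zmod] at this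
    exact (Nat.pow_right_injective le_rfl this).symm
  let L : (Fin 4 → ZMod 2) ≃ₗ[ZMod 2] PLocal.EA hU := LinearEquiv.ofFinrankEq _ _ (by simp [hr])
  let e : GL (Fin 4) (ZMod 2) ≃* (PLocal.EA hU ≃ₗ[ZMod 2] PLocal.EA hU) :=
    (Matrix.GeneralLinearGroup.toLin.trans
      (LinearMap.GeneralLinearGroup.generalLinearEquiv _ _)).trans (TT.linConj L)
  have hc : Nat.card (PLocal.EA hU ≃ₗ[ZMod 2] PLocal.EA hU) = 20160 := by
    rw [← Nat.card_congr e.toEquiv, Matrix.card_GL_field]; simp [Fin.prod_univ_succ]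
  have : Finite (PLocal.EA hU ≃ₗ[ZMod 2] PLocal.EA hU) :=
    Nat.finite_of_card_ne_zero (by rw [hc]; norm_num)
  have bij := inj.bijective_of_nat_card_le (by rw [hc, hMc])
  obtain ⟨x, rfl⟩ := bij.2 A
  exact ⟨x, x.2, hρ x⟩

/-- In the Mathieu group of degree 24 (the automorphism group of the length-24 binary Golay code, acting on the 24 coordinates), let z be an involution whose fixed points form an octad (the support of a code word of weight 8), and let Q be the largest normal 2-subgroup of the centralizer C of z. Then Q is extraspecial of order 2^7 with an elementary abelian subgroup of order 16 (plus type), Q is a large extraspecial 2-subgroup, and C is the split extension of Q by the special linear group of degree 3 over the field with two elements. -/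
theorem result (z : ↥Cfsg.M24) (hz : orderOf z = 2) (hfix : (Finset.univ.filter fun p : Cfsg.GolayPt => (z : Equiv.Perm Cfsg.GolayPt) p = p) ∈ Cfsg.octads) (Q : Subgroup ↥Cfsg.M24) (hQ : Q = (Cfsg.pCore 2 ↥(Subgroup.centralizer ({z} : Set ↥Cfsg.M24))).map (Subgroup.centralizer ({z} : Set ↥Cfsg.M24)).subtype) : Cfsg.IsExtraspecial 2 ↥Q ∧ Nat.card ↥Q = 2 ^ 7 ∧ (∃ E : Subgroup ↥Cfsg.M24, E ≤ Q ∧ Cfsg.IsElementaryAbelian 2 E ∧ Nat.card ↥E = 2 ^ 4) ∧ Cfsg.IsLargeExtraspecial Q ∧ ∃ K : Subgroup ↥Cfsg.M24, K ≤ Subgroup.centralizer ({z} : Set ↥Cfsg.M24) ∧ Q ⊓ K = ⊥ ∧ Q ⊔ K = Subgroup.centralizer ({z} : Set ↥Cfsg.M24) ∧ Nonempty (↥K ≃* Matrix.SpecialLinearGroup (Fin 3) (ZMod 2)) := by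
  change fixSet (z : Equiv.Perm GolayPt) ∈ octads at hfix
  set o := fixSet (z : Equiv.Perm GolayPt) with ho
  have hzU : z ∈ fixS o := mem_fixS.2 fun p hp => mem_fixSet.1 hp
  have hz1 : z ≠ 1 := TT.ne_one_of_orderOf_two hz
  have hsq : ∀ u ∈ fixS o, u * u = 1 := fun u hu => mul_self_of_mem_fixS_octad hfix hu
  have hU : Cfsg.IsElementaryAbelian 2 (fixS o) :=
    ⟨⟨⟨fun a b => Subtype.ext (TT.comm_of_sq_eq_one hsq a.2 b.2)⟩⟩,
      fun a ha => by rw [pow_two, hsq a ha]⟩
  obtain ⟨p, hp⟩ : ∃ p, p ∉ o := by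
    obtain ⟨p, -, hp⟩ := exists_moved z hz1 ∅ (by simp)
    exact ⟨p, fun h => hp (mem_fixSet.1 h)⟩
  set M := MulAction.stabilizer M24 o ⊓ MulAction.stabilizer M24 p with hMdef
  have hN : MulAction.stabilizer M24 o ≤ normalizer (fixS o : Set M24) := by
    have key : ∀ g ∈ MulAction.stabilizer M24 o, ∀ u ∈ fixS o, g * u * g⁻¹ ∈ fixS o := by
      intro g hg u hu
      rw [mem_fixS] at hu ⊢
      intro q hq
      have : g⁻¹ • q ∈ o := (smul_mem_of_mem_stabilizer (inv_mem hg) q).2 hq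
      rw [mul_smul, mul_smul, hu _ this, smul_inv_smul]
    intro g hg
    rw [mem_normalizer_iff]
    refine fun u => ⟨key g hg u, fun hu => ?_⟩
    simpa [mul_assoc] using key g⁻¹ (inv_mem hg) _ hu
  have hM : M ≤ normalizer (fixS o : Set M24) := inf_le_left.trans hN
  have hfaith : ∀ m ∈ M, (∀ u ∈ fixS o, m * u * m⁻¹ = u) → m = 1 := by
    intro m hm hc
    by_contra h1
    obtain ⟨q, hq, hmq⟩ := exists_moved m h1 o (by rw [hfix.2]; norm_num)
    obtain ⟨u, hu, rfl⟩ := exists_fixS_octad hfix hp hq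
    apply hmq
    have hmp : m • p = p := hm.2
    rw [← mul_smul, TT.comm_of_conj_eq (hc u hu), mul_smul, hmp]
  have hMc : Nat.card M = 20160 := by
    have h1 := card_eq_orbit_mul (MulAction.stabilizer M24 o) p
    have h3 : MulAction.orbit (MulAction.stabilizer M24 o) p =
        ((oᶜ : Finset GolayPt) : Set GolayPt) := by
      ext q
      rw [Finset.mem_coe, Finset.mem_compl]
      constructor
      · rintro ⟨g, rfl⟩ h
        exact hp ((smul_mem_of_mem_stabilizer g.2 p).1 h)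
      · intro hq
        obtain ⟨u, hu, rfl⟩ := exists_fixS_octad hfix hp hq
        exact ⟨⟨u, fixS_le_stabilizer o hu⟩, rfl⟩
    rw [h3, card_stabilizer_octad hfix, Set.ncard_coe_finset, Finset.card_compl, hfix.2,
      Spor.card_golayPt, ← hMdef] at h1
    omega
  have hUc : Nat.card (fixS o) = 2 ^ 4 := card_fixS_octad hfix
  obtain ⟨m, h, hm⟩ := TT.exists_Hol hU hM hfaith (full_of_card hU hM hfaith hUc hMc)
  have := h.main (n := 3) (e := PLocal.EA.of hU z hzU) (by norm_num)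
    (by rw [PLocal.EA.card_eq, hUc])
    (fun e => hz1 (by simpa using congrArg PLocal.EA.val e)) (by
      intro c hc
      rw [PLocal.EA.val_of] at hc
      have hco : c ∈ MulAction.stabilizer M24 o := by
        have := fixSet_conj (c : Equiv.Perm GolayPt) z
        rw [← Subgroup.coe_inv, ← Subgroup.coe_mul, ← Subgroup.coe_mul, TT.conj_eq_of_comm hc] at this
        exact this.symm
      have hq : c • p ∉ o := fun h => hp ((smul_mem_of_mem_stabilizer hco p).1 h)
      obtain ⟨u, hu, hup⟩ := exists_fixS_octad hfix hp hq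
      have : u⁻¹ * c ∈ M := ⟨Subgroup.mul_mem _ (Subgroup.inv_mem _ (fixS_le_stabilizer o hu)) hco, by
        show (u⁻¹ * c) • p = p
        rw [mul_smul, ← hup, inv_smul_smul]⟩
      rw [← hm] at this
      obtain ⟨A, hA⟩ := this
      exact ⟨PLocal.EA.of hU u hu, A, by rw [hA, PLocal.EA.val_of, mul_inv_cancel_left]⟩)
  rw [PLocal.EA.val_of] at this
  subst hQ
  obtain ⟨a1, a2, a3, a4, K, b1, b2, b3, ⟨b4⟩⟩ := this
  exact ⟨a1, a2, a3, a4, K, b1, b2, b3, ⟨(b4.trans (Matrix.GeneralLinearGroup.toLin.trans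
    (LinearMap.GeneralLinearGroup.generalLinearEquiv _ _))).trans (S5424.slEquiv 3).symm⟩⟩


end Cfsg.Agent.S5425
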