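import Cfsg.Statements.S5427
import Cfsg.Agent.TT.LXSimple

set_option autoImplicit false
open Cfsg

namespace Cfsg.Agent.S5427

open Subgroup

/-- Let z be an involution of the finite group G whose centralizer C has generalized Fitting subgroup Q, an extraspecial 2-group of width at least 2 (order 2^(2w+1), w ≥ 2). Let K be a subgroup of G such that the subgroup U generated by the K-conjugates of z is abelian and C is generated by the C-conjugates of U. Suppose that either some K-conjugate of z other than z lies in Q, or some element u of U ∩ Q outside the subgroup generated by z has z in the largest normal 2-subgroup of its centralizer. Then G is simple and Q is a large extraspecial 2-subgroup of G. -/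
theorem result {G : Type*} [Group G] [Finite G] (z : G) (hz : orderOf z = 2) (Q : Subgroup G) (hQC : Q ≤ Subgroup.centralizer ({z} : Set G)) (hF : (Cfsg.generalizedFittingSubgroup ↥(Subgroup.centralizer ({z} : Set G))).map (Subgroup.centralizer ({z} : Set G)).subtype = Q) (hQ : Cfsg.IsExtraspecial 2 ↥Q) (w : ℕ) (hw : 2 ≤ w) (hcard : Nat.card ↥Q = 2 ^ (2 * w + 1)) (K U : Subgroup G) (hU : U = Subgroup.closure {x : G | ∃ k ∈ K, x = k * z * k⁻¹}) (hUab : IsMulCommutative ↥U) (hgen : Subgroup.closure {x : G | ∃ c ∈ Subgroup.centralizer ({z} : Set G), ∃ u ∈ U, x = c * u * c⁻¹} = Subgroup.centralizer ({z} : Set G)) (h3 : (∃ k ∈ K, k * z * k⁻¹ ∈ Q ∧ k * z * k⁻¹ ≠ z) ∨ ∃ u ∈ U ⊓ Q, u ∉ Subgroup.zpowers z ∧ (∃ hz' : z ∈ Subgroup.centralizer ({u} : Set G), (⟨z, hz'⟩ : ↥(Subgroup.centralizer ({u} : Set G))) ∈ Cfsg.pCore 2 ↥(Subgroup.centralizer ({u} : Set G)))) : IsSimpleGroup G ∧ Cfsg.IsLargeExtraspecial Q := by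
  obtain ⟨h, hO⟩ := TT.LX_of_fstar hz hF hQ
  have h8 := TT.eight_lt_of_width hw hcard
  have hlarge : IsLargeExtraspecial Q := by
    rcases h3 with ⟨k, -, hk, hne⟩ | ⟨u, ⟨huU, huQ⟩, huz, hz', hzu⟩
    · exact h.isLarge_of_mem_map_conj hk hne (h.mem_map_conj_of_card h8 hk)
    · have hzu' : z ∈ TT.O2C u := ⟨_, hzu, rfl⟩
      have hsq : ∀ x ∈ U, x * x = 1 := by
        intro x hx
        have hx' := hx
        rw [hU] at hx'
        induction hx' using closure_induction with
        | mem x hx' =>
          obtain ⟨k, -, rfl⟩ := hx'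
          exact (h.map_conj k).z_sq
        | one => exact one_mul 1
        | mul x y hx' hy' ihx ihy =>
          rw [← hU] at hx' hy'
          have e : x * y = y * x := congrArg Subtype.val (hUab.is_comm.comm ⟨x, hx'⟩ ⟨y, hy'⟩)
          rw [mul_assoc, ← mul_assoc y, ← e, mul_assoc, ihy hy', mul_one, ihx hx']
        | inv x hx' ih =>
          rw [← hU] at hx'
          rw [← mul_inv_rev, ih hx', inv_one]
      exact h.isLarge_of_two_subgroup huQ (hsq u huU) (fun e => huz (e ▸ mem_zpowers u))
        (TT.O2C_isPGroup u) hzu' fun c hc => TT.conj_mem_O2C hzu' hc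
  refine ⟨h.isSimpleGroup hlarge.2.2.2 hO ?_, hlarge⟩
  have hUM : U ≤ normalClosure ({z} : Set G) := by
    rw [hU, closure_le]
    rintro _ ⟨k, -, rfl⟩
    exact (normalClosure_normal).conj_mem z (subset_normalClosure (Set.mem_singleton z)) k
  rw [← hgen, closure_le]
  rintro _ ⟨c, -, u, hu, rfl⟩
  exact (normalClosure_normal).conj_mem u (hUM hu) c


end Cfsg.Agent.S5427
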