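import Cfsg.Statements.S5428
import Cfsg.Agent.TT.LXSimple
import Cfsg.Agent.PLocal.CoprimeQuot

set_option autoImplicit false
open Cfsg

namespace Cfsg.Agent.S5428

open Subgroup

theorem xs_subgroupOf {G : Type*} [Group G] {Q M : Subgroup G} {z : G} (h : TT.XS Q z)
    (hQM : Q ≤ M) : TT.XS (Q.subgroupOf M) ⟨z, hQM h.z_mem⟩ := by
  have := h.top.map (inclusion hQM) fun x _ e => inclusion_injective hQM (by rw [e, map_one])
  rwa [← MonoidHom.range_eq_map, inclusion_range] at this

theorem mem_or_of_not_four {G : Type*} [Group G] [Finite G] (h4 : ¬ 4 ∣ Nat.card G) {z : G}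
    (hz : orderOf z = 2) (c : G) : c ∈ oddCore G ∨ c * z ∈ oddCore G := by
  haveI : Fact (Nat.Prime 2) := ⟨Nat.prime_two⟩
  have h2 : 2 ∣ Nat.card G := hz ▸ orderOf_dvd_natCard z
  have hp : IsPGroup 2 (zpowers z) := IsPGroup.of_card (n := 1) (by rw [Nat.card_zpowers, hz]; rfl)
  have hi : ¬ 2 ∣ (zpowers z).index := fun e => h4 (by
    rw [← (zpowers z).card_mul_index, Nat.card_zpowers, hz]
    exact Nat.mul_dvd_mul_left 2 e)
  obtain ⟨H, hH⟩ := S0219.result (even_iff_two_dvd.2 h2) (hp.toSylow hi)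
    (inferInstanceAs (IsCyclic (zpowers z)))
  have hodd : ¬ 2 ∣ Nat.card H := fun e => h4 (by
    rw [← H.card_mul_index, hH]
    exact Nat.mul_dvd_mul_right e 2)
  have hle : H ≤ oddCore G := Grp.le_pPrimeCore (normal_of_index_eq_two hH)
    ((Nat.Prime.coprime_iff_not_dvd Nat.prime_two).2 hodd).symm
  have hzH : z ∉ H := fun e => hodd (hz ▸ H.orderOf_dvd_natCard e)
  by_cases hc : c ∈ H
  · exact Or.inl (hle hc)
  · exact Or.inr (hle ((mul_mem_iff_of_index_two hH).2 (iff_of_false hc hzH)))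

theorem exists_lift {G : Type*} [Group G] [Finite G] {A M P : Subgroup G} (hAodd : Odd (Nat.card A))
    (hM : M = centralizer (A : Set G) ⊔ A) [hn : (A.subgroupOf M).Normal]
    (hP : IsPGroup 2 P) (hPA : P ≤ centralizer (A : Set G)) {c : M ⧸ A.subgroupOf M}
    (hc : ∀ x : M, (x : G) ∈ P → QuotientGroup.mk' _ x * c = c * QuotientGroup.mk' _ x) :
    ∃ d : M, (d : G) ∈ centralizer (A : Set G) ∧ (∀ x ∈ P, x * d = d * x) ∧
      QuotientGroup.mk' _ d = c := by
  haveI : Fact (Nat.Prime 2) := ⟨Nat.prime_two⟩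
  have hAM : A ≤ M := hM ▸ le_sup_right
  have hCM : centralizer (A : Set G) ≤ M := hM ▸ le_sup_left
  have h1 := PLocal.map_centralizer_of_isPGroup (QuotientGroup.mk' (A.subgroupOf M))
    (QuotientGroup.mk'_surjective _) (P.subgroupOf M) hP.comap_subtype
    (by rw [QuotientGroup.ker_mk', Nat.card_congr (subgroupOfEquivOfLe hAM).toEquiv]
        exact Nat.coprime_two_right.2 hAodd)
  have h2 : c ∈ (centralizer ((P.subgroupOf M : Subgroup M) : Set M)).map
      (QuotientGroup.mk' (A.subgroupOf M)) := by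
    rw [h1]
    rintro _ ⟨x, hx, rfl⟩
    exact hc x hx
  obtain ⟨e, he, rfl⟩ := h2
  have he' : (e : G) ∈ ((centralizer (A : Set G) ⊔ A : Subgroup G) : Set G) := hM ▸ e.2
  rw [coe_mul_of_left_le_normalizer_right _ _ (centralizer_le_normalizer _)] at he'
  obtain ⟨d, hd, a, ha, hda⟩ := he'
  refine ⟨⟨d, hCM hd⟩, hd, fun x hx => ?_, ?_⟩
  · have e1 : x * e = e * x := congrArg Subtype.val (he ⟨x, hCM (hPA hx)⟩ hx)
    have e2 : a * x = x * a := hPA hx a ha
    have hda' : d * a = e := hda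
    rw [← hda', mul_assoc, e2, ← mul_assoc, ← mul_assoc] at e1
    exact mul_right_cancel e1
  · rw [QuotientGroup.mk'_eq_mk']
    exact ⟨⟨a, hAM ha⟩, ha, Subtype.ext hda⟩

/-- Let z be an involution of the finite group G whose centralizer C has generalized Fitting subgroup Q extraspecial (as a 2-group), let A be a subgroup of C of odd order, and let R be the centralizer of A in Q; suppose R has order at least 32, the largest normal subgroup of odd order of the centralizer of the subgroup generated by A and R lies in A, the order of that centralizer is not divisible by 4, and g is an element of G with g z g⁻¹ in R but outside the centre Z of Q. Let M be the subgroup generated by A and the centralizer of A (A is normal in it). Then: the centralizer in M of the subgroup generated by R and A, joined with A, equals the subgroup generated by A and Z; the image of R in M/A is a large extraspecial 2-subgroup of M/A; and g z g⁻¹ is conjugate to z inside the subgroup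 generated by R and the centralizer of A in g Q g⁻¹. -/
theorem result {G : Type*} [Group G] [Finite G] (z : G) (hz : orderOf z = 2) (Q : Subgroup G) (hQC : Q ≤ Subgroup.centralizer ({z} : Set G)) (hF : (Cfsg.generalizedFittingSubgroup ↥(Subgroup.centralizer ({z} : Set G))).map (Subgroup.centralizer ({z} : Set G)).subtype = Q) (hQ : Cfsg.IsExtraspecial 2 ↥Q) (A : Subgroup G) (hA : A ≤ Subgroup.centralizer ({z} : Set G)) (hAodd : Odd (Nat.card ↥A)) (R : Subgroup G) (hR : R = Q ⊓ Subgroup.centralizer (A : Set G)) (hR32 : 32 ≤ Nat.card ↥R) (hO : (Cfsg.oddCore ↥(Subgroup.centralizer ((A ⊔ R : Subgroup G) : Set G))).map (Subgroup.centralizer ((A ⊔ R : Subgroup G) : Set G)).subtype ≤ A) (h4 : ¬ 4 ∣ Nat.card ↥(Subgroup.centralizer ((A ⊔ R : Subgroup G) : Set G))) (g : G) (hgR : g * z * g⁻¹ ∈ R) (hgZ : g * z * g⁻¹ ∉ ((Subgroup.center ↥Q).map Q.subtype)) (M : Subgroup G) (hM : M = Subgroup.centralizer (A : Set G) ⊔ A) [hn : (A.subgroupOf M).Normal] : (M ⊓ Subgroup.centralizer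 ((R ⊔ A : Subgroup G) : Set G)) ⊔ A = A ⊔ ((Subgroup.center ↥Q).map Q.subtype) ∧ Cfsg.IsLargeExtraspecial ((R.subgroupOf M).map (QuotientGroup.mk' (A.subgroupOf M))) ∧ ∃ x ∈ R ⊔ ((Q).map (MulAut.conj g).toMonoidHom ⊓ Subgroup.centralizer (A : Set G)), x * (g * z * g⁻¹) * x⁻¹ = z := by
  obtain ⟨h, -⟩ := TT.LX_of_fstar hz hF hQ
  rw [h.toXS.center_eq] at hgZ ⊢
  have hAM : A ≤ M := hM ▸ le_sup_right
  have hCM : centralizer (A : Set G) ≤ M := hM ▸ le_sup_left
  have hRQ : R ≤ Q := hR ▸ inf_le_left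
  have hRA : R ≤ centralizer (A : Set G) := hR ▸ inf_le_right
  have h8 : 8 < Nat.card Q := lt_of_lt_of_le (by omega) (hR32.trans (card_le_of_le hRQ))
  have hs1 : g * z * g⁻¹ ≠ 1 := fun e => hgZ (e ▸ one_mem _)
  have hsz : g * z * g⁻¹ ≠ z := fun e => hgZ (e.symm ▸ mem_zpowers z)
  have hzP := h.mem_map_conj_of_card h8 (hRQ hgR)
  have hP := h.map_conj g
  have hsz' := h.z_comm _ (hRQ hgR)
  generalize g * z * g⁻¹ = s at *
  generalize Q.map (MulAut.conj g).toMonoidHom = P at *
  have hAQ : A ≤ normalizer (Q : Set G) := hA.trans h.centralizer_le_normalizer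
  have hAP : A ≤ normalizer (P : Set G) := fun a ha => hP.mem_normalizer (hRA hgR a ha)
  have hzA : z ∈ centralizer (A : Set G) := fun a ha => mem_centralizer_singleton_iff.1 (hA ha)
  have hX : TT.XS R z := hR ▸ h.toXS.fixed hAQ hAodd ⟨s, hR ▸ hgR, hs1, hsz⟩
  have hX' : TT.XS (P ⊓ centralizer (A : Set G)) s :=
    hP.toXS.fixed hAP hAodd ⟨z, ⟨hzP, hzA⟩, h.z_ne, hsz.symm⟩
  have hK : ∀ c : G, c ∈ centralizer (A : Set G) → (∀ x ∈ R, x * c = c * x) →
      c ∈ A ∨ c * z ∈ A := by
    have hm : ∀ c : G, c ∈ centralizer (A : Set G) → (∀ x ∈ R, x * c = c * x) →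
        c ∈ centralizer ((A ⊔ R : Subgroup G) : Set G) := fun c h1 h2 =>
      le_centralizer_iff.1 (sup_le (le_centralizer_iff.1 (zpowers_le.2 h1))
        (le_centralizer_iff.1 (zpowers_le.2 h2))) (mem_zpowers c)
    intro c h1 h2
    have hzm := hm z hzA hX.z_comm
    have := mem_or_of_not_four h4 (z := ⟨z, hzm⟩)
      (TT.orderOf_eq_two_of (fun e => h.z_ne (congrArg Subtype.val e)) (Subtype.ext h.z_sq))
      ⟨c, hm c h1 h2⟩
    exact this.imp (fun e => hO ⟨_, e, rfl⟩) fun e => hO ⟨_, e, rfl⟩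
  refine ⟨le_antisymm (sup_le (fun c hc => ?_) le_sup_left) (sup_le le_sup_right
    (le_sup_of_le_left (zpowers_le.2 ⟨hCM hzA, ?_⟩))), ?_, ?_⟩
  · rcases hK c (centralizer_le (le_sup_right (a := R) (b := A)) hc.2)
      (centralizer_le (le_sup_left (a := R) (b := A)) hc.2) with e | e
    · exact mem_sup_left e
    · rw [← h.toXS.mul_z_z c]
      exact mul_mem (mem_sup_left e) (mem_sup_right (mem_zpowers z))
  · exact le_centralizer_iff.1 (sup_le (le_centralizer_iff.1 (zpowers_le.2 hX.z_comm))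
        (le_centralizer_iff.1 (zpowers_le.2 hzA))) (mem_zpowers z)
  · have hRM : R ≤ M := hRA.trans hCM
    have hinj : ∀ x ∈ R.subgroupOf M, QuotientGroup.mk' (A.subgroupOf M) x = 1 → x = 1 :=
      fun x hx e => Subtype.ext (TT.eq_one_of_mem_odd_of_isPGroup hAodd hX.isPGroup
        ((QuotientGroup.eq_one_iff x).1 e) hx)
    have hY := (xs_subgroupOf hX hRM).map _ hinj
    have hlift : ∀ (y : G) (hy : y ∈ R) (c : M ⧸ A.subgroupOf M),
        c * QuotientGroup.mk' _ (⟨y, hRM hy⟩ : M) = QuotientGroup.mk' _ (⟨y, hRM hy⟩ : M) * c →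
        ∃ d : M, (d : G) ∈ centralizer (A : Set G) ∧ d * y = y * d ∧
          QuotientGroup.mk' _ d = c := by
      intro y hy c hc
      obtain ⟨d, h1, h2, h3⟩ := exists_lift hAodd hM (hX.isPGroup.to_le (zpowers_le.2 hy))
        ((zpowers_le.2 hy).trans hRA) (c := c) (by
          rintro ⟨x, hx⟩ ⟨n, rfl⟩
          have e : (⟨y ^ n, hx⟩ : M) = (⟨y, hRM hy⟩ : M) ^ n := rfl
          simp only [e, map_zpow]
          exact (Commute.zpow_right hc n).symm)
      exact ⟨d, h1, (h2 y (mem_zpowers y)).symm, h3⟩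
    have hL : TT.LX ((R.subgroupOf M).map (QuotientGroup.mk' (A.subgroupOf M)))
        (QuotientGroup.mk' _ (⟨z, hRM hX.z_mem⟩ : M)) :=
      { hY with
        cent_mem := by
          intro c hc
          obtain ⟨d, h1, h2, rfl⟩ := exists_lift hAodd hM hX.isPGroup hRA (c := c)
            fun x hx => hc _ ⟨x, hx, rfl⟩
          rcases hK d h1 h2 with e | e
          · rw [show QuotientGroup.mk' (A.subgroupOf M) d = 1 from
              (QuotientGroup.eq_one_iff d).2 e]
            exact one_mem _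
          · have e' : QuotientGroup.mk' (A.subgroupOf M) (d * ⟨z, hRM hX.z_mem⟩) = 1 :=
              (QuotientGroup.eq_one_iff _).2 e
            rw [map_mul, mul_eq_one_iff_eq_inv] at e'
            rw [e']
            exact inv_mem hY.z_mem
        norm := by
          rintro c hc _ ⟨x, hx, rfl⟩
          obtain ⟨d, h1, h2, rfl⟩ := hlift z hX.z_mem c hc
          refine ⟨d * x * d⁻¹, ?_, by simp⟩
          show (d : G) * x * (d : G)⁻¹ ∈ R
          rw [hR]
          exact ⟨h.norm d h2 x (hRQ hx), Subgroup.mul_mem _ (Subgroup.mul_mem _ h1 (hRA hx))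
            (Subgroup.inv_mem _ h1)⟩ }
    refine hL.isLarge_of_two_subgroup (b := QuotientGroup.mk' _ (⟨s, hRM hgR⟩ : M))
      ⟨_, hgR, rfl⟩ (by rw [← map_mul, ← map_one (QuotientGroup.mk' (A.subgroupOf M))]
                        exact congrArg _ (Subtype.ext hP.z_sq)) (fun e => hsz ?_)
      (D := ((P ⊓ centralizer (A : Set G)).subgroupOf M).map (QuotientGroup.mk' (A.subgroupOf M)))
      (hX'.isPGroup.comap_subtype.map _) ⟨_, ⟨hzP, hzA⟩, rfl⟩ fun c hc => ?_
    · have := hinj ((⟨s, hRM hgR⟩ : M) * (⟨z, hRM hX.z_mem⟩ : M)⁻¹)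
        (R.mul_mem hgR (R.inv_mem hX.z_mem)) (by rw [map_mul, map_inv, e, mul_inv_cancel])
      exact congrArg Subtype.val (mul_inv_eq_one.1 this)
    · obtain ⟨d, h1, h2, rfl⟩ := hlift s hgR c hc
      refine ⟨d * ⟨z, hRM hX.z_mem⟩ * d⁻¹, ⟨hP.norm d h2 z hzP, ?_⟩, by simp⟩
      exact Subgroup.mul_mem _ (Subgroup.mul_mem _ h1 hzA) (Subgroup.inv_mem _ h1)
  · obtain ⟨r, hr, e1⟩ := hX.exists_conj_eq hgR hs1 hsz
    obtain ⟨p, hp, e2⟩ := hX'.exists_conj_eq ⟨hzP, hzA⟩ h.z_ne hsz.symm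
    refine ⟨p * r, mul_mem (mem_sup_right hp) (mem_sup_left hr), ?_⟩
    calc p * r * s * (p * r)⁻¹ = p * (r * s * r⁻¹) * p⁻¹ := by group
      _ = (p * s * p⁻¹) * (p * z * p⁻¹) := by rw [e1]; group
      _ = z := by
        rw [e2, TT.conj_eq_of_comm (hX'.z_comm p hp), ← mul_assoc, hsz', hP.toXS.mul_z_z]


end Cfsg.Agent.S5428
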