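import Cfsg.Statements.S5429
import Cfsg.Agent.TT.LXSimple

set_option autoImplicit false
open Cfsg

namespace Cfsg.Agent.S5429

open Subgroup

theorem exists_conj {G : Type*} [Group G] [Finite G] {Q : Subgroup G} {z t s : G} (h : TT.XS Q z)
    (ht : t ∈ Q) (hs : s ∈ Q) (h1 : s ≠ 1) (h2 : s ≠ z) (h3 : s ≠ t) (h4 : s ≠ t * z) :
    ∃ r ∈ Q ⊓ centralizer ({t} : Set G), r * s * r⁻¹ = s * z := by
  by_contra hcon
  push Not at hcon
  rcases h.eq_of_comm_centralizer ht hs (fun q hq e => by
    by_contra hne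
    exact hcon q ⟨hq, mem_centralizer_singleton_iff.2 e⟩ (h.conj_of_ne hq hs hne)) with
    e | e | e | e
  exacts [h1 e, h2 e, h3 e, h4 e]

theorem eqv_of_mk {G : Type*} [Group G] {t : G} (ht : t * t = 1)
    [((zpowers t).subgroupOf (centralizer ({t} : Set G))).Normal] {x y : centralizer ({t} : Set G)}
    (e : QuotientGroup.mk' ((zpowers t).subgroupOf (centralizer ({t} : Set G))) x =
      QuotientGroup.mk' _ y) : (x : G) = y ∨ (x : G) = y * t := by
  obtain ⟨u, hu, e'⟩ := (QuotientGroup.mk'_eq_mk' _).1 e.symm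
  rw [← e']
  rcases (TT.mem_zpowers_invol ht).1 hu with e1 | e1
  · left; simp [show (u : G) = 1 from e1]
  · right; simp [show (u : G) = t from e1]

/-- Let z be an involution of the finite group G with centralizer C whose generalized Fitting subgroup Q is extraspecial of width at least 3 (order 2^(2w+1), w ≥ 3); let g be an element of G with g z g⁻¹ in Q but outside the centre Z of Q, and t an involution lying in both Q and g Q g⁻¹ that is not conjugate to z; write P for the centralizer of t in Q and suppose that the elements of C acting trivially by conjugation on P modulo the subgroup generated by t and z are exactly the elements of Q. Then the image of P in the centralizer of t modulo the subgroup generated by t is a large extraspecial 2-subgroup there, and g z g⁻¹ is conjugate to z inside the subgroup generated by P and the centralizer of t in g Q g⁻¹. -/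
theorem result {G : Type*} [Group G] [Finite G] (z : G) (hz : orderOf z = 2) (Q : Subgroup G) (hQC : Q ≤ Subgroup.centralizer ({z} : Set G)) (hF : (Cfsg.generalizedFittingSubgroup ↥(Subgroup.centralizer ({z} : Set G))).map (Subgroup.centralizer ({z} : Set G)).subtype = Q) (hQ : Cfsg.IsExtraspecial 2 ↥Q) (w : ℕ) (hw : 3 ≤ w) (hcard : Nat.card ↥Q = 2 ^ (2 * w + 1)) (g : G) (hgQ : g * z * g⁻¹ ∈ Q) (hgZ : g * z * g⁻¹ ∉ ((Subgroup.center ↥Q).map Q.subtype)) (t : G) (ht : orderOf t = 2) (htQ : t ∈ Q ⊓ (Q).map (MulAut.conj g).toMonoidHom) (htz : ¬ IsConj z t) (P : Subgroup G) (hP : P = Q ⊓ Subgroup.centralizer ({t} : Set G)) (hCP : ∀ c ∈ Subgroup.centralizer ({z} : Set G), (∀ x ∈ P, ∃ y ∈ Subgroup.closure ({t, z} : Set G), c * x * c⁻¹ = x * y) ↔ c ∈ Q) [hn : ((Subgroup.zpowers t).subgroupOf (Subgroup.centralizer ({t} : Set G))).Normal] : Cfsg.IsLargeExtraspecial ((P.subgroupOf (Subgroup.centralizer ({t} : Set G))).map (QuotientGroup.mk' ((Subgroup.zpowers t).subgroupOf (Subgroup.centralizer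 ({t} : Set G))))) ∧ ∃ x ∈ P ⊔ ((Q).map (MulAut.conj g).toMonoidHom ⊓ Subgroup.centralizer ({t} : Set G)), x * (g * z * g⁻¹) * x⁻¹ = z := by
  obtain ⟨h, -⟩ := TT.LX_of_fstar hz hF hQ
  rw [h.toXS.center_eq] at hgZ
  have h8 : 8 < Nat.card Q := TT.eight_lt_of_width (by omega) hcard
  have hs1 : g * z * g⁻¹ ≠ 1 := fun e => hgZ (e ▸ one_mem _)
  have hsz : g * z * g⁻¹ ≠ z := fun e => hgZ (e.symm ▸ mem_zpowers z)
  have hzP := h.mem_map_conj_of_card h8 hgQ
  have hP' := h.map_conj g
  have hsz' := h.z_comm _ hgQ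
  have hzs : IsConj z (g * z * g⁻¹) := isConj_iff.2 ⟨g, rfl⟩
  generalize g * z * g⁻¹ = s at *
  generalize Q.map (MulAut.conj g).toMonoidHom = P' at *
  have ht2 := TT.mul_self_of_orderOf_two ht
  have ht1 := TT.ne_one_of_orderOf_two ht
  have htz1 : t ≠ z := fun e => htz (e ▸ IsConj.refl _)
  have hts1 : t ≠ s := fun e => htz (e ▸ hzs)
  have htz2 : ¬ IsConj z (t * z) := fun e => by
    obtain ⟨q, -, hq⟩ := h.toXS.exists_conj_eq htQ.1 ht1 htz1
    exact htz (e.trans (isConj_iff.2 ⟨q, hq⟩).symm)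
  have hts2 : ¬ IsConj z (t * s) := fun e => by
    obtain ⟨q, -, hq⟩ := hP'.toXS.exists_conj_eq htQ.2 ht1 hts1
    exact htz (e.trans (isConj_iff.2 ⟨q, hq⟩).symm)
  have hzt := h.z_comm t htQ.1
  have hst := hP'.z_comm t htQ.2
  have hzC : z ∈ centralizer ({t} : Set G) := mem_centralizer_singleton_iff.2 hzt.symm
  have hsC : s ∈ centralizer ({t} : Set G) := mem_centralizer_singleton_iff.2 hst.symm
  subst hP
  refine ⟨?_, ?_⟩
  · set f := QuotientGroup.mk' ((zpowers t).subgroupOf (centralizer ({t} : Set G))) with hf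
    have hft : f ⟨t, mem_centralizer_singleton_iff.2 rfl⟩ = 1 :=
      (QuotientGroup.eq_one_iff _).2 (mem_zpowers t)
    have hlift : ∀ (y : G) (hy : y ∈ centralizer ({t} : Set G)), IsConj z y →
        ¬ IsConj z (t * y) → ∀ c : centralizer ({t} : Set G),
        f c * f ⟨y, hy⟩ = f ⟨y, hy⟩ * f c → (c : G) * y = y * c := by
      intro y hy h1 h2 c hc
      have e : f (c * ⟨y, hy⟩ * c⁻¹) = f ⟨y, hy⟩ := by
        rw [map_mul, map_mul, hc, map_inv, mul_inv_cancel_right]
      rcases eqv_of_mk ht2 e with e' | e'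
      · exact TT.comm_of_conj_eq e'
      · refine absurd (h1.trans (isConj_iff.2 ⟨c, ?_⟩)) h2
        rw [← mem_centralizer_singleton_iff.1 hy]
        exact e'
    have hsz2 : f ⟨s, hsC⟩ ≠ f ⟨z, hzC⟩ := fun e => by
      rcases eqv_of_mk ht2 e with e' | e'
      · exact hsz e'
      · exact htz2 (hzt ▸ (show s = z * t from e') ▸ hzs)
    have hL : TT.LX (((Q ⊓ centralizer ({t} : Set G)).subgroupOf
        (centralizer ({t} : Set G))).map f) (f ⟨z, hzC⟩) :=
      { z_mem := ⟨_, ⟨h.z_mem, hzC⟩, rfl⟩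
        z_ne := fun e => by
          rcases eqv_of_mk ht2 (e.trans (map_one f).symm) with e' | e'
          · exact h.z_ne e'
          · exact htz1 (by simpa using e'.symm)
        z_sq := by
          rw [← map_mul, ← map_one f]; exact congrArg _ (Subtype.ext h.z_sq)
        z_comm := by
          rintro _ ⟨x, hx, rfl⟩
          rw [← map_mul, ← map_mul]; exact congrArg _ (Subtype.ext (h.z_comm x hx.1))
        comm := by
          rintro _ ⟨x, hx, rfl⟩ _ ⟨y, hy, rfl⟩
          simp only [← map_mul]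
          exact (h.comm x hx.1 y hy.1).imp (fun e => congrArg _ (Subtype.ext e))
            fun e => congrArg _ (Subtype.ext e)
        cent := by
          rintro _ ⟨x, hx, rfl⟩ hc
          have := h.toXS.eq_of_comm_centralizer htQ.1 hx.1 fun q hq e => by
            have hq' := mem_centralizer_singleton_iff.2 e
            have e1 := hc _ ⟨⟨q, hq'⟩, ⟨hq, hq'⟩, rfl⟩
            rw [← map_mul, ← map_mul] at e1
            by_contra hne
            have e2 := h.toXS.comm_of_ne hx.1 hq (Ne.symm hne)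
            rcases eqv_of_mk ht2 e1 with e' | e'
            · exact hne e'.symm
            · exact htz1 (mul_left_cancel (e'.symm.trans e2))
          rcases this with e | e | e | e
          · left; rw [← map_one f]; exact congrArg _ (Subtype.ext e)
          · right; exact congrArg _ (Subtype.ext e)
          · left; rw [← hft]; exact congrArg _ (Subtype.ext e)
          · right
            rw [← one_mul (f ⟨z, hzC⟩), ← hft, ← map_mul]; exact congrArg _ (Subtype.ext e)
        nonab := ⟨_, ⟨⟨s, hsC⟩, ⟨hgQ, hsC⟩, rfl⟩, fun e => by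
          rcases eqv_of_mk ht2 (e.trans (map_one f).symm) with e' | e'
          · exact hs1 e'
          · exact hts1 (by simpa using e'.symm), hsz2⟩
        cent_mem := by
          intro c hc
          obtain ⟨c, rfl⟩ := QuotientGroup.mk'_surjective _ c
          have hcz := hlift z hzC (IsConj.refl z) htz2 c (hc _ ⟨_, ⟨h.z_mem, hzC⟩, rfl⟩).symm
          refine ⟨c, ⟨(hCP c (mem_centralizer_singleton_iff.2 hcz)).1 fun x hx => ?_, c.2⟩, rfl⟩
          have e : f (c * ⟨x, hx.2⟩ * c⁻¹) = f ⟨x, hx.2⟩ := by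
            rw [map_mul, map_mul, ← hc _ ⟨⟨x, hx.2⟩, hx, rfl⟩, map_inv, mul_inv_cancel_right]
          rcases eqv_of_mk ht2 e with e' | e'
          · exact ⟨1, one_mem _, by rw [mul_one]; exact e'⟩
          · exact ⟨t, subset_closure (by simp), e'⟩
        norm := by
          rintro c hc _ ⟨x, hx, rfl⟩
          obtain ⟨c, rfl⟩ := QuotientGroup.mk'_surjective _ c
          have hcz := hlift z hzC (IsConj.refl z) htz2 c hc
          exact ⟨c * x * c⁻¹, ⟨h.norm c hcz x hx.1, (c * x * c⁻¹).2⟩, by simp [hf]⟩ }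
    refine hL.isLarge_of_two_subgroup (b := f ⟨s, hsC⟩) ⟨_, ⟨hgQ, hsC⟩, rfl⟩
      (by rw [← map_mul, ← map_one f]; exact congrArg _ (Subtype.ext hP'.z_sq)) hsz2
      (D := (P'.subgroupOf (centralizer ({t} : Set G))).map f)
      (hP'.toXS.isPGroup.comap_subtype.map _) ⟨_, hzP, rfl⟩ fun c hc => ?_
    obtain ⟨c, rfl⟩ := QuotientGroup.mk'_surjective _ c
    exact ⟨c * ⟨z, hzC⟩ * c⁻¹, hP'.norm c (hlift s hsC hzs hts2 c hc) z hzP, by simp [hf]⟩
  · obtain ⟨r, hr, e1⟩ := exists_conj h.toXS htQ.1 hgQ hs1 hsz hts1.symm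
      fun e => htz2 (e ▸ hzs)
    obtain ⟨p, hp, e2⟩ := exists_conj hP'.toXS htQ.2 hzP h.z_ne hsz.symm htz1.symm
      fun e => hts2 (e ▸ IsConj.refl _)
    refine ⟨p * r, mul_mem (mem_sup_right hp) (mem_sup_left hr), ?_⟩
    calc p * r * s * (p * r)⁻¹ = p * (r * s * r⁻¹) * p⁻¹ := by group
      _ = (p * s * p⁻¹) * (p * z * p⁻¹) := by rw [e1]; group
      _ = z := by
        rw [e2, TT.conj_eq_of_comm (hP'.z_comm p hp.1), ← mul_assoc, hsz', hP'.toXS.mul_z_z]


end Cfsg.Agent.S5429
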