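import Cfsg.Statements.S5430
import Cfsg.Agent.TT.LXPair

set_option autoImplicit false
open Cfsg

namespace Cfsg.Agent.S5430

open Subgroup

/-- Let Q be a large extraspecial 2-subgroup of the finite group G (extraspecial; centralizer equal to its centre; normal in the centralizer of its centre; normalizing no non-trivial subgroup of odd order) with centre generated by z, an involution, of width w ≥ 2 (order 2^(2w+1)); let g be an element outside the centralizer H of z with g z g⁻¹ in Q; write V for the subgroup generated by z and g z g⁻¹, X for the subgroup generated by Q and g Q g⁻¹, R for the subgroup generated by the centralizer of z in g Q g⁻¹ and the centralizer of g z g⁻¹ in Q, and E for the intersection of Q and g Q g⁻¹. Then R is the centralizer of V in X and is the largest normal 2-subgroup of X, and X/R is isomorphic to the symmetric group of degree 3; moreover the normalizer of V is the product of X and the centralizer of V in H, X is normal in it, and modulo R it is the direct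 product of X/R and of the centralizer of V in H modulo R. -/
theorem result {G : Type*} [Group G] [Finite G] (Q : Subgroup G) (hQ : Cfsg.IsLargeExtraspecial Q) (z : G) (hz : ((Subgroup.center ↥Q).map Q.subtype) = Subgroup.zpowers z) (hz2 : orderOf z = 2) (w : ℕ) (hw : 2 ≤ w) (hcard : Nat.card ↥Q = 2 ^ (2 * w + 1)) (g : G) (hgH : g ∉ Subgroup.centralizer ({z} : Set G)) (hgQ : g * z * g⁻¹ ∈ Q) (V X R E : Subgroup G) (hV : V = Subgroup.closure ({z, g * z * g⁻¹} : Set G)) (hX : X = Q ⊔ (Q).map (MulAut.conj g).toMonoidHom) (hR : R = ((Q).map (MulAut.conj g).toMonoidHom ⊓ Subgroup.centralizer ({z} : Set G)) ⊔ (Q ⊓ Subgroup.centralizer ({g * z * g⁻¹} : Set G))) (hE : E = Q ⊓ (Q).map (MulAut.conj g).toMonoidHom) : R = X ⊓ Subgroup.centralizer (V : Set G) ∧ R = (Cfsg.pCore 2 ↥X).map X.subtype ∧ (∃ h : (R.subgroupOf X).Normal, Nonempty (↥X ⧸ R.subgroupOf X ≃* Equiv.Perm (Fin 3))) ∧ Subgroup.normalizer (V : Set G) = X ⊔ (Subgroup.centralizer ({z} : Set G) ⊓ Subgroup.centralizer (V : Set G)) ∧ (∀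 y ∈ Subgroup.normalizer (V : Set G), ∀ x ∈ X, y * x * y⁻¹ ∈ X) ∧ R ≤ Subgroup.centralizer ({z} : Set G) ⊓ Subgroup.centralizer (V : Set G) ∧ (∀ x ∈ X, ∀ c ∈ Subgroup.centralizer ({z} : Set G) ⊓ Subgroup.centralizer (V : Set G), x * c * x⁻¹ * c⁻¹ ∈ R) ∧ X ⊓ (Subgroup.centralizer ({z} : Set G) ⊓ Subgroup.centralizer (V : Set G)) = R := by
  have h := TT.LX.of_isLarge hQ hz
  have hne : g * z * g⁻¹ ≠ z := fun e =>
    hgH (mem_centralizer_singleton_iff.2 (TT.comm_of_conj_eq e))
  have hp := h.pair hgQ hne (h.mem_map_conj_of_card (TT.eight_lt_of_width hw hcard) hgQ)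
  subst hV hX hR hE
  generalize g * z * g⁻¹ = s at *
  generalize Q.map (MulAut.conj g).toMonoidHom = P at *
  obtain ⟨ψ, hsurj, hψ, hker⟩ := hp.exists_hom_X
  have hRX := TT.LXPair.R_le_X (Q := Q) (P := P) (z := z) (s := s)
  have key : ∀ x ∈ Q ⊔ P, x * z = z * x → x * s = s * x →
      x ∈ (P ⊓ centralizer ({z} : Set G)) ⊔ (Q ⊓ centralizer ({s} : Set G)) := by
    intro x hx h1 h2
    have : (⟨x, hx⟩ : (Q ⊔ P : Subgroup G)) ∈ ψ.ker := (hψ _).2 ⟨h1, h2⟩
    rwa [hker] at this
  have hCX : ∀ c : G, c * z = z * c → c * s = s * c → ∀ x ∈ Q ⊔ P, c * x * c⁻¹ ∈ Q ⊔ P := by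
    intro c h1 h2 x hx
    have := mul_mem (inv_mem (hRX (hp.comm_mem_R hx h1 h2))) hx
    convert this using 1
    group
  have hN : normalizer ((closure ({z, s} : Set G) : Subgroup G) : Set G) = (Q ⊔ P) ⊔
      (centralizer ({z} : Set G) ⊓ centralizer ((closure ({z, s} : Set G) : Subgroup G) : Set G)) := by
    refine le_antisymm (fun n hn => ?_) (sup_le hp.X_le_normalizer
      (inf_le_right.trans (centralizer_le_normalizer _)))
    obtain ⟨φ, h1, h2⟩ := hp.exists_hom_surj
    obtain ⟨x, hx, e⟩ := h2 (φ ⟨n, hn⟩)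
    have := (h1 (x⁻¹ * ⟨n, hn⟩)).1 (by rw [map_mul, map_inv, e, inv_mul_cancel])
    have h3 : (x : G)⁻¹ * n ∈ centralizer ({z} : Set G) ⊓
        centralizer ((closure ({z, s} : Set G) : Subgroup G) : Set G) :=
      ⟨mem_centralizer_singleton_iff.2 this.1, TT.mem_centralizer_closure_pair.2 this⟩
    have := mul_mem (mem_sup_left hx) (mem_sup_right (S := Q ⊔ P) h3)
    simpa using this
  refine ⟨?_, ?_, ⟨hp.R_normal, ?_⟩, hN, ?_, ?_, ?_, ?_⟩
  · refine le_antisymm (fun r hr => ⟨hRX hr, TT.mem_centralizer_closure_pair.2 (hp.R_comm hr)⟩)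
      fun x hx => ?_
    have := TT.mem_centralizer_closure_pair.1 hx.2
    exact key x hx.1 this.1 this.2
  · refine le_antisymm (Grp.le_map_pCore hRX (sup_le hp.Q_le_normalizer_R hp.P_le_normalizer_R)
      hp.R_isPGroup) ?_
    rintro _ ⟨x, hx, rfl⟩
    have h1 := Grp.map_pCore_le_of_surjective 2 ψ hsurj ⟨x, hx, rfl⟩
    rw [TT.pCore_two_perm_three, mem_bot] at h1
    have : x ∈ ψ.ker := h1
    rwa [hker] at this
  · have := hp.R_normal
    exact ⟨(QuotientGroup.quotientMulEquivOfEq hker.symm).trans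
      (QuotientGroup.quotientKerEquivOfSurjective ψ hsurj)⟩
  · intro y hy
    rw [hN] at hy
    have : (Q ⊔ P) ⊔ (centralizer ({z} : Set G) ⊓
        centralizer ((closure ({z, s} : Set G) : Subgroup G) : Set G)) ≤
        normalizer ((Q ⊔ P : Subgroup G) : Set G) := by
      refine sup_le le_normalizer fun c hc => mem_normalizer_fintype ?_
      have := TT.mem_centralizer_closure_pair.1 hc.2
      exact hCX c this.1 this.2
    exact fun x hx => (mem_normalizer_iff.1 (this hy) x).1 hx
  · exact fun r hr => ⟨mem_centralizer_singleton_iff.2 (hp.R_comm hr).1,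
      TT.mem_centralizer_closure_pair.2 (hp.R_comm hr)⟩
  · intro x hx c hc
    have := TT.mem_centralizer_closure_pair.1 hc.2
    exact hp.comm_mem_R hx this.1 this.2
  · refine le_antisymm (fun x hx => ?_) fun r hr => ⟨hRX hr,
      mem_centralizer_singleton_iff.2 (hp.R_comm hr).1,
      TT.mem_centralizer_closure_pair.2 (hp.R_comm hr)⟩
    have := TT.mem_centralizer_closure_pair.1 hx.2.2
    exact key x hx.1 this.1 this.2


end Cfsg.Agent.S5430
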