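import Cfsg.Statements.S5431
import Cfsg.Agent.TT.LXPair

set_option autoImplicit false
open Cfsg

namespace Cfsg.Agent.S5431

open Subgroup

/-- Let Q be a large extraspecial 2-subgroup of the finite group G (extraspecial; centralizer equal to its centre; normal in the centralizer of its centre; normalizing no non-trivial subgroup of odd order) with centre generated by z, an involution, of width w ≥ 2 (order 2^(2w+1)); let g be an element outside the centralizer H of z with g z g⁻¹ in Q; write V for the subgroup generated by z and g z g⁻¹, X for the subgroup generated by Q and g Q g⁻¹, R for the subgroup generated by the centralizer of z in g Q g⁻¹ and the centralizer of g z g⁻¹ in Q, and E for the intersection of Q and g Q g⁻¹. Then V is the centre of R, E lies in the second centre of R, R is nilpotent of class at most 3, E and R/E are elementary abelian, R/E is the direct product of the images of the centralizer of g z g⁻¹ in Q and of the centralizer of z in g Q g⁻¹ (R is their product and they meet in E), and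 the commutator subgroup of X and E lies in V. -/
theorem result {G : Type*} [Group G] [Finite G] (Q : Subgroup G) (hQ : Cfsg.IsLargeExtraspecial Q) (z : G) (hz : ((Subgroup.center ↥Q).map Q.subtype) = Subgroup.zpowers z) (hz2 : orderOf z = 2) (w : ℕ) (hw : 2 ≤ w) (hcard : Nat.card ↥Q = 2 ^ (2 * w + 1)) (g : G) (hgH : g ∉ Subgroup.centralizer ({z} : Set G)) (hgQ : g * z * g⁻¹ ∈ Q) (V X R E : Subgroup G) (hV : V = Subgroup.closure ({z, g * z * g⁻¹} : Set G)) (hX : X = Q ⊔ (Q).map (MulAut.conj g).toMonoidHom) (hR : R = ((Q).map (MulAut.conj g).toMonoidHom ⊓ Subgroup.centralizer ({z} : Set G)) ⊔ (Q ⊓ Subgroup.centralizer ({g * z * g⁻¹} : Set G))) (hE : E = Q ⊓ (Q).map (MulAut.conj g).toMonoidHom) : (Subgroup.center ↥R).map R.subtype = V ∧ E ≤ (Subgroup.upperCentralSeries ↥R 2).map R.subtype ∧ Subgroup.upperCentralSeries ↥R 3 = ⊤ ∧ Cfsg.IsElementaryAbelian 2 E ∧ (∀ x ∈ R, ∀ y ∈ R, x * y * x⁻¹ * y⁻¹ ∈ E ∧ x ^ 2 ∈ E) ∧ ((Q).map (MulAut.conj g).toMonoidHom ⊓ Subgroup.centralizer ({z} : Set G)) ⊓ (Q ⊓ Subgroup.centralizer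 ({g * z * g⁻¹} : Set G)) = E ∧ ⁅X, E⁆ ≤ V := by
  have h := TT.LX.of_isLarge hQ hz
  have hne : g * z * g⁻¹ ≠ z := fun e =>
    hgH (mem_centralizer_singleton_iff.2 (TT.comm_of_conj_eq e))
  have hp := h.pair hgQ hne (h.mem_map_conj_of_card (TT.eight_lt_of_width hw hcard) hgQ)
  generalize g * z * g⁻¹ = s at *
  generalize Q.map (MulAut.conj g).toMonoidHom = P at *
  have hP := hp.hP
  have hRX : R ≤ X := by rw [hR, hX]; exact TT.LXPair.R_le_X
  have hVE : V ≤ E := by rw [hV, hE]; exact hp.V_le
  have hzV : z ∈ V := by rw [hV, hp.mem_V]; simp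
  have hsV : s ∈ V := by rw [hV, hp.mem_V]; simp
  have hRc : ∀ r ∈ R, r * z = z * r ∧ r * s = s * r := fun r hr => hp.R_comm (hR ▸ hr)
  have hAB : (P ⊓ centralizer ({z} : Set G)) ⊓ (Q ⊓ centralizer ({s} : Set G)) = E := by
    rw [hE]
    exact le_antisymm (fun x hx => ⟨hx.2.1, hx.1.1⟩) fun x hx =>
      ⟨⟨hx.2, mem_centralizer_singleton_iff.2 (h.z_comm x hx.1)⟩,
        hx.1, mem_centralizer_singleton_iff.2 (hP.z_comm x hx.2)⟩
  have hER : E ≤ R := by rw [← hAB, hR]; exact inf_le_left.trans le_sup_left
  have hXV : X ≤ normalizer (V : Set G) := by rw [hX, hV]; exact hp.X_le_normalizer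
  have hXE : ⁅X, E⁆ ≤ V := by
    rw [hX] at hXV ⊢
    refine PLocal.CommMod.commutator_sup_le (le_sup_left.trans hXV) (le_sup_right.trans hXV)
      (commutator_le.2 fun q hq e he => ?_) (commutator_le.2 fun q hq e he => ?_)
    · rw [commutatorElement_def]
      rw [hE] at he
      rcases h.toXS.conj hq he.1 with e' | e' <;> rw [e']
      · simp
      · rw [h.z_comm e he.1]; simpa using hzV
    · rw [commutatorElement_def]
      rw [hE] at he
      rcases hP.toXS.conj hq he.2 with e' | e' <;> rw [e']
      · simp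
      · rw [hP.z_comm e he.2]; simpa using hsV
  have hXnE : X ≤ normalizer (E : Set G) := fun x hx => mem_normalizer_fintype fun e he => by
    have := mul_mem (hVE (commutator_le.1 hXE x hx e he)) he
    simpa [commutatorElement_def] using this
  have hA : Q ⊓ centralizer ({s} : Set G) ≤ R := by rw [hR]; exact le_sup_right
  have hB : P ⊓ centralizer ({z} : Set G) ≤ R := by rw [hR]; exact le_sup_left
  have hRnE := hRX.trans hXnE
  have hABc : ⁅Q ⊓ centralizer ({s} : Set G), P ⊓ centralizer ({z} : Set G)⁆ ≤ E := by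
    refine commutator_le.2 fun a ha b hb => ?_
    rw [commutatorElement_def, hE]
    refine ⟨?_, mul_mem (hP.norm a (mem_centralizer_singleton_iff.1 ha.2) b hb.1) (P.inv_mem hb.1)⟩
    have := Q.mul_mem ha.1 (h.norm b (mem_centralizer_singleton_iff.1 hb.2) _ (Q.inv_mem ha.1))
    simpa [mul_assoc] using this
  have hRR : ⁅R, R⁆ ≤ E := by
    conv_lhs => rw [hR]
    refine PLocal.CommMod.commutator_sup_le (hB.trans hRnE) (hA.trans hRnE)
      (PLocal.CommMod.commutator_sup_le' (hB.trans hRnE) (hA.trans hRnE) ?_ ?_)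
      (PLocal.CommMod.commutator_sup_le' (hB.trans hRnE) (hA.trans hRnE) hABc ?_)
    · refine commutator_le.2 fun a ha b hb => ?_
      rw [commutatorElement_def]
      rcases hP.toXS.conj ha.1 hb.1 with e' | e' <;> rw [e']
      · simp
      · rw [hP.z_comm b hb.1]; simpa using hVE hsV
    · rw [commutator_comm]; exact hABc
    · refine commutator_le.2 fun a ha b hb => ?_
      rw [commutatorElement_def]
      rcases h.toXS.conj ha.1 hb.1 with e' | e' <;> rw [e']
      · simp
      · rw [h.z_comm b hb.1]; simpa using hVE hzV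
  have hcm : ∀ x ∈ R, ∀ y ∈ R, x * y * x⁻¹ * y⁻¹ ∈ E := fun x hx y hy =>
    commutator_le.1 hRR x hx y hy
  have hsq : ∀ x ∈ R, x ^ 2 ∈ E := by
    let S : Subgroup G :=
      { carrier := {x | x ∈ R ∧ x ^ 2 ∈ E}
        one_mem' := ⟨one_mem _, by simp⟩
        mul_mem' := by
          rintro a b ⟨ha, ha2⟩ ⟨hb, hb2⟩
          refine ⟨mul_mem ha hb, ?_⟩
          have := mul_mem (mul_mem ha2 (hcm _ (inv_mem ha) _ hb)) hb2
          convert this using 1
          simp only [pow_two]; group
        inv_mem' := by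
          rintro a ⟨ha, ha2⟩
          exact ⟨inv_mem ha, by rw [inv_pow]; exact inv_mem ha2⟩ }
    have : R ≤ S := by
      conv_lhs => rw [hR]
      refine sup_le (fun x hx => ⟨hB hx, ?_⟩) (fun x hx => ⟨hA hx, ?_⟩)
      · rcases hP.toXS.sq hx.1 with e | e <;> rw [pow_two, e]
        · exact one_mem _
        · exact hVE hsV
      · rcases h.toXS.sq hx.1 with e | e <;> rw [pow_two, e]
        · exact one_mem _
        · exact hVE hzV
    exact fun x hx => (this hx).2
  have hcent : ∀ x : R, x ∈ center R ↔ (x : G) ∈ V := by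
    intro r
    constructor
    · intro hr
      have hr' : ∀ a ∈ Q, a * s = s * a → a * r = r * a := fun a ha e =>
        congrArg Subtype.val (mem_center_iff.1 hr ⟨a, hA ⟨ha, mem_centralizer_singleton_iff.2 e⟩⟩)
      have hrz := (hRc r r.2).1
      have hrQ : (r : G) ∈ Q := by
        refine h.mem_of_trivial fun q hq => ?_
        by_cases hqs : q * s = s * q
        · exact Or.inl (TT.conj_eq_of_comm (hr' q hq hqs).symm)
        have hd : q⁻¹ * (r * q * (r : G)⁻¹) ∈ Q := mul_mem (inv_mem hq) (h.norm r hrz q hq)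
        have := h.toXS.eq_of_comm_centralizer hp.s_mem hd fun a ha e => by
          have h1 : q * a * q⁻¹ * s = s * (q * a * q⁻¹) := by
            rcases h.toXS.conj hq ha with e' | e' <;> rw [e']
            · exact e
            · exact TT.comm_mul_left e hp.sz.symm
          have h2 := hr' _ (mul_mem (mul_mem hq ha) (inv_mem hq)) h1
          have h3 := hr' a ha e
          calc a * (q⁻¹ * (r * q * (r : G)⁻¹)) = q⁻¹ * (q * a * q⁻¹ * r) * q * (r : G)⁻¹ := by group
            _ = q⁻¹ * r * q * (r : G)⁻¹ * (r * a) * (r : G)⁻¹ := by rw [h2]; group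
            _ = _ := by rw [← h3]; group
        have hsq' : (r * q * (r : G)⁻¹) * (r * q * (r : G)⁻¹) = q * q := by
          have : (r * q * (r : G)⁻¹) * (r * q * (r : G)⁻¹) = r * (q * q) * (r : G)⁻¹ := by group
          rw [this]
          rcases h.toXS.sq hq with e | e <;> rw [e]
          · simp
          · exact TT.conj_eq_of_comm hrz
        have hsq2 : s * q = q * s * z := h.toXS.comm_of_ne hp.s_mem hq (Ne.symm hqs)
        rcases this with e | e | e | e
        · left; exact (inv_mul_eq_one.1 e).symm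
        · right; rw [← e]; group
        · exfalso
          have e' : r * q * (r : G)⁻¹ = q * s := by rw [← e]; group
          rw [e', mul_assoc, ← mul_assoc s, hsq2, mul_assoc (q * s), ← hp.sz, ← mul_assoc (q * s),
            hP.toXS.mul_z_z, ← mul_assoc] at hsq'
          exact h.z_ne (by simpa using hsq')
        · exfalso
          have e' : r * q * (r : G)⁻¹ = q * s * z := by rw [mul_assoc q, ← e]; group
          rw [e', mul_assoc (q * s), ← h.z_comm _ (mul_mem (mul_mem hq hp.s_mem) h.z_mem),
            h.toXS.mul_z_z, mul_assoc, ← mul_assoc s, hsq2, mul_assoc (q * s), ← hp.sz,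
            ← mul_assoc (q * s), hP.toXS.mul_z_z, ← mul_assoc] at hsq'
          exact h.z_ne (by simpa using hsq')
      rw [hV, hp.mem_V, ← hp.sz]
      exact h.toXS.eq_of_comm_centralizer hp.s_mem hrQ hr'
    · intro hr
      rw [mem_center_iff]
      intro x
      apply Subtype.ext
      have := hRc x x.2
      show (x : G) * r = r * x
      rw [hV, hp.mem_V] at hr
      rcases hr with e | e | e | e <;> rw [e]
      · simp
      · exact this.1
      · exact this.2
      · exact Commute.mul_right this.1 this.2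
  have hE2 : ∀ x : R, (x : G) ∈ E → x ∈ Subgroup.upperCentralSeries R 2 := by
    intro x hx
    rw [Subgroup.mem_upperCentralSeries_succ_iff]
    intro y
    rw [Subgroup.upperCentralSeries_one, hcent]
    have := inv_mem (commutator_le.1 hXE y (hRX y.2) x hx)
    rw [commutatorElement_inv] at this
    exact this
  refine ⟨?_, fun e he => ⟨⟨e, hER he⟩, hE2 _ he, rfl⟩, ?_, ⟨⟨⟨fun a b => Subtype.ext ?_⟩⟩, ?_⟩,
    fun x hx y hy => ⟨hcm x hx y hy, hsq x hx⟩, hAB, hXE⟩
  · ext x
    constructor
    · rintro ⟨y, hy, rfl⟩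
      exact (hcent y).1 hy
    · intro hx
      exact ⟨⟨x, hER (hVE hx)⟩, (hcent _).2 hx, rfl⟩
  · rw [eq_top_iff]
    intro x _
    rw [Subgroup.mem_upperCentralSeries_succ_iff]
    intro y
    exact hE2 _ (hcm x x.2 y y.2)
  · have ha := a.2
    have hb := b.2
    simp only [hE] at ha hb
    show (a : G) * b = b * a
    by_contra hc
    have e1 := h.toXS.comm_of_ne ha.1 hb.1 hc
    have e2 := hP.toXS.comm_of_ne ha.2 hb.2 hc
    exact hp.ne (mul_left_cancel (e2.symm.trans e1))
  · intro a ha
    rw [hE] at ha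
    rw [pow_two]
    by_contra hc
    exact hp.ne (((hP.toXS.sq ha.2).resolve_left hc).symm.trans ((h.toXS.sq ha.1).resolve_left hc))


end Cfsg.Agent.S5431
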