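import Cfsg.Statements.S5432
import Cfsg.Agent.TT.ESType

set_option autoImplicit false
open Cfsg

namespace Cfsg.Agent.S5432

open Subgroup

/-- Let E be an extraspecial 2-group of order 2^(2n+1), n ≥ 1. If E contains an elementary abelian subgroup of order 2^(n+1) (plus type), then its outer automorphism group is isomorphic to the full isometry group of the hyperbolic quadratic form in dimension 2n over the field with two elements; otherwise (minus type) it is isomorphic to the full isometry group of the elliptic quadratic form in dimension 2n over that field. -/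
theorem result {E : Type*} [Group E] [Finite E] (hE : Cfsg.IsExtraspecial 2 E) (n : ℕ) (hn : 1 ≤ n) (hcard : Nat.card E = 2 ^ (2 * n + 1)) : ((∃ A : Subgroup E, Cfsg.IsElementaryAbelian 2 A ∧ Nat.card ↥A = 2 ^ (n + 1)) → Nonempty (Cfsg.Out E ≃* Cfsg.isometryGroup (ZMod 2) (Cfsg.quadFormPlus n (ZMod 2)))) ∧ ((¬ ∃ A : Subgroup E, Cfsg.IsElementaryAbelian 2 A ∧ Nat.card ↥A = 2 ^ (n + 1)) → Nonempty (Cfsg.Out E ≃* Cfsg.isometryGroup (ZMod 2) (Cfsg.quadFormMinus (n - 1) (ZMod 2) 1 1))) := by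
  obtain ⟨m, rfl⟩ : ∃ m, n = m + 1 := ⟨n - 1, by omega⟩
  obtain ⟨-, ⟨⟨φ⟩⟩ | ⟨⟨φ⟩⟩⟩ := TT.exists_equiv_plus_or_minus hE hcard
  · exact ⟨fun _ => ⟨(TT.outCongr φ).trans (TT.ESM.outEquiv (TT.xs_plus hn))⟩,
      fun h => absurd (TT.exists_elab_congr φ.symm (TT.exists_elab_plus _)) h⟩
  · refine ⟨fun h => absurd (TT.pRankLE_congr φ (TT.pRankLE_minus m)) (TT.not_pRankLE_of h),
      fun _ => ?_⟩
    rw [← TT.bMinus_quad]
    exact ⟨(TT.outCongr φ).trans (TT.ESM.outEquiv (TT.xs_minus _))⟩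


end Cfsg.Agent.S5432
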