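import Cfsg.Statements.S5433
import Cfsg.Agent.TT.LX

set_option autoImplicit false
open Cfsg

namespace Cfsg.Agent.S5433



/-- Let Q be a large extraspecial 2-subgroup of the finite group G (extraspecial; centralizer equal to its centre; normal in the centralizer of its centre; normalizing no non-trivial subgroup of odd order), and L a normal subgroup of G containing Q. Then G is the product of L and the normalizer of Q. -/
theorem result {G : Type*} [Group G] [Finite G] (Q : Subgroup G) (hQ : Cfsg.IsLargeExtraspecial Q) (L : Subgroup G) [L.Normal] (hQL : Q ≤ L) : L ⊔ Subgroup.normalizer (Q : Set G) = ⊤ := by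
  obtain ⟨z, h⟩ := TT.exists_LX hQ.1 hQ.2.1 hQ.2.2.1
  have hp : IsPGroup 2 (Q.subgroupOf L) := h.toXS.isPGroup.comap_of_injective _ L.subtype_injective
  obtain ⟨T, hT⟩ := hp.exists_le_sylow
  have hF := Sylow.normalizer_sup_eq_top T
  rw [eq_top_iff, ← hF, sup_comm]
  refine sup_le_sup_left ?_ _
  set T' : Subgroup G := (T : Subgroup L).map L.subtype with hT'
  have hQT : Q ≤ T' := fun x hx => ⟨⟨x, hQL hx⟩, hT hx, rfl⟩
  have hT'p : IsPGroup 2 T' := T.isPGroup'.map _
  have hnt : Nontrivial T' := ⟨⟨⟨z, hQT h.z_mem⟩, 1, fun e => h.z_ne (congrArg Subtype.val e)⟩⟩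
  have := hT'p.center_nontrivial
  obtain ⟨⟨c, hc⟩, hc1⟩ := exists_ne (1 : Subgroup.center T')
  have hcz : (c : G) = z := by
    refine (h.eq_of_comm fun x hx => ?_).resolve_left fun e => hc1 (Subtype.ext (Subtype.ext e))
    exact congrArg Subtype.val (Subgroup.mem_center_iff.1 hc ⟨x, hQT hx⟩)
  have hzT : ∀ x ∈ T', x * z = z * x := fun x hx => by
    rw [← hcz]; exact congrArg Subtype.val (Subgroup.mem_center_iff.1 hc ⟨x, hx⟩)
  intro n hn
  apply h.mem_normalizer
  apply TT.comm_of_conj_eq
  refine (h.eq_of_comm fun x hx => ?_).resolve_left fun e => h.z_ne (by simpa using e)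
  have := hzT _ ((Subgroup.mem_normalizer_iff''.1 hn x).1 (hQT hx))
  calc x * (n * z * n⁻¹) = n * (n⁻¹ * x * n * z) * n⁻¹ := by group
    _ = _ := by rw [this]; group


end Cfsg.Agent.S5433
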