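import Cfsg.Statements.S5435
import Cfsg.Agent.TT.LX
import Cfsg.Agent.S0206

set_option autoImplicit false
open Cfsg

namespace Cfsg.Agent.S5435

open Subgroup
open scoped commutatorElement

section
variable {G : Type*} [Group G]

/-- The centraliser of the involution `z` has Frattini subgroup `⟨z⟩`, elementwise. -/
structure W (z : G) : Prop where
  ne : z ≠ 1
  z2 : z * z = 1
  sq : ∀ x, x * z = z * x → x * x = 1 ∨ x * x = z
  cm : ∀ x y, x * z = z * x → y * z = z * y → x * y = y * x ∨ x * y = y * x * z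
  ex : ∃ x, x * z = z * x ∧ x * x = z

theorem conj_comm {g a b : G} (h : a * (g * b * g⁻¹) = g * b * g⁻¹ * a) :
    g⁻¹ * a * g * b = b * (g⁻¹ * a * g) := by
  calc _ = g⁻¹ * (a * (g * b * g⁻¹)) * g := by group
    _ = _ := by rw [h]; group

theorem W.conj {z : G} (h : W z) (g : G) : W (g * z * g⁻¹) := by
  refine ⟨fun e => h.ne (by simpa using e), by
    calc _ = g * (z * z) * g⁻¹ := by group
      _ = 1 := by rw [h.z2]; group, fun x hx => ?_, fun x y hx hy => ?_, ?_⟩
  · have e : x * x = g * (g⁻¹ * x * g * (g⁻¹ * x * g)) * g⁻¹ := by group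
    rcases h.sq _ (conj_comm hx) with e' | e' <;> rw [e, e']
    · left; group
    · right; rfl
  · have e : x * y = g * (g⁻¹ * x * g * (g⁻¹ * y * g)) * g⁻¹ := by group
    rcases h.cm _ _ (conj_comm hx) (conj_comm hy) with e' | e' <;> rw [e, e']
    · left; group
    · right; group
  · obtain ⟨x, hx, e⟩ := h.ex
    refine ⟨g * x * g⁻¹, ?_, by rw [← e]; group⟩
    calc _ = g * (x * z) * g⁻¹ := by group
      _ = _ := by rw [hx]; group

theorem W.of_isConj {z d : G} (h : W z) (hd : IsConj z d) : W d := by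
  obtain ⟨g, rfl⟩ := isConj_iff.1 hd
  exact h.conj g

theorem W.eq_of_le {z d : G} (h : W z) (hd : W d) (hle : ∀ x, x * z = z * x → x * d = d * x) :
    d = z := by
  obtain ⟨x, hx, e⟩ := h.ex
  exact ((hd.sq x (hle x hx)).resolve_left (e ▸ h.ne)).symm.trans e

theorem W.conj_of_ne {z x y : G} (h : W z) (hx : x * z = z * x) (hy : y * z = z * y)
    (hne : x * y ≠ y * x) : x * y * x⁻¹ = y * z := by
  rw [(h.cm x y hx hy).resolve_left hne, mul_assoc y, hx]; group

theorem W.exists_conj {z d : G} (h : W z) (hd : W d) (hdz : d * z = z * d) (hne : d ≠ z) :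
    ∃ r, r * z = z * r ∧ r * d * r⁻¹ = d * z := by
  by_contra hcon
  push Not at hcon
  refine hne (h.eq_of_le hd fun x hx => ?_)
  by_contra hne'
  exact hcon x hx (h.conj_of_ne hx hdz hne')

theorem W.sq_eq_one {z d x : G} (h : W z) (hd : W d) (hne : d ≠ z) (h1 : x * z = z * x)
    (h2 : x * d = d * x) : x * x = 1 := by
  by_contra hc
  exact hne (((hd.sq x h2).resolve_left hc).symm.trans ((h.sq x h1).resolve_left hc))

theorem W.comm_of {z d x y : G} (h : W z) (hd : W d) (hne : d ≠ z) (h1 : x * z = z * x)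
    (h2 : x * d = d * x) (h3 : y * z = z * y) (h4 : y * d = d * y) : x * y = y * x := by
  by_contra hc
  exact hne (mul_left_cancel (((hd.cm x y h2 h4).resolve_left hc).symm.trans
    ((h.cm x y h1 h3).resolve_left hc)))

theorem W.mul_comm_of {z d x y : G} (h : W z) (hd : d * z = z * d) (hx : x * z = z * x)
    (hy : y * z = z * y) (h1 : x * d ≠ d * x) (h2 : y * d ≠ d * y) : x * y * d = d * (x * y) := by
  apply TT.comm_of_conj_eq
  calc _ = x * (y * d * y⁻¹) * x⁻¹ := by group
    _ = (x * d * x⁻¹) * (x * z * x⁻¹) := by rw [h.conj_of_ne hy hd h2]; group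
    _ = d := by rw [h.conj_of_ne hx hd h1, TT.conj_eq_of_comm hx, mul_assoc, h.z2, mul_one]

theorem W.inv_conj {z x y : G} (h : W z) (hx : x * z = z * x) (hy : y * z = z * y) :
    y⁻¹ * (x⁻¹ * y * x) = 1 ∨ y⁻¹ * (x⁻¹ * y * x) = z := by
  rcases h.cm y x hy hx with e | e <;> rw [mul_assoc x⁻¹, e]
  · left; group
  · right; group

/-- The subgroup generated by the conjugates of `z` commuting with `z`. -/
def F (z : G) : Subgroup G := closure {d | IsConj z d ∧ d * z = z * d}

theorem F_le (z : G) : F z ≤ centralizer ({z} : Set G) :=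
  (closure_le _).2 fun _ hd => mem_centralizer_singleton_iff.2 hd.2

theorem self_mem_F (z : G) : z ∈ F z := subset_closure ⟨IsConj.refl z, rfl⟩

theorem W.inv_conj_mem {z x y : G} (h : W z) (hx : x * z = z * x) (hy : y * z = z * y) :
    y⁻¹ * (x⁻¹ * y * x) ∈ F z := by
  rcases h.inv_conj hx hy with e | e <;> rw [e]
  exacts [one_mem _, self_mem_F z]

theorem W.step {z g y : G} (h : W z) (hd : g * z * g⁻¹ * z = z * (g * z * g⁻¹))
    (h1 : y * z = z * y) (h2 : y * (g * z * g⁻¹) = g * z * g⁻¹ * y) :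
    y⁻¹ * (g⁻¹ * y * g) ∈ F z := by
  by_cases hne : g * z * g⁻¹ = z
  · exact h.inv_conj_mem (TT.comm_of_conj_eq hne) h1
  have hW := h.conj g
  have hdF : g * z * g⁻¹ ∈ F z := subset_closure ⟨isConj_iff.2 ⟨g, rfl⟩, hd⟩
  generalize hdd : g * z * g⁻¹ = d at *
  obtain ⟨r, hr, e1⟩ := h.exists_conj hW hd hne
  obtain ⟨s, hs, e2⟩ := hW.exists_conj h hd.symm (Ne.symm hne)
  have e3 : r * s * z * (r * s)⁻¹ = d := by
    calc _ = r * (s * z * s⁻¹) * r⁻¹ := by group
      _ = (r * z * r⁻¹) * (r * d * r⁻¹) := by rw [e2]; group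
      _ = d := by rw [e1, TT.conj_eq_of_comm hr, hd, ← mul_assoc, h.z2, one_mul]
  have e4 : y⁻¹ * ((r * s)⁻¹ * y * (r * s)) ∈ F z := by
    have e : y⁻¹ * ((r * s)⁻¹ * y * (r * s)) =
        (y⁻¹ * (s⁻¹ * y * s)) * (s⁻¹ * (y⁻¹ * (r⁻¹ * y * r)) * s) := by group
    rw [e]
    refine mul_mem ?_ ?_
    · rcases hW.inv_conj hs h2 with e' | e' <;> rw [e']
      exacts [one_mem _, hdF]
    · rcases h.inv_conj hr h1 with e' | e' <;> rw [e']
      · simp
      · rw [← mul_inv_cancel_left z (s⁻¹ * z * s)]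
        refine mul_mem (self_mem_F z) ?_
        rcases hW.inv_conj hs hd.symm with e'' | e'' <;> rw [e'']
        exacts [one_mem _, hdF]
  have hc : (r * s)⁻¹ * g * z = z * ((r * s)⁻¹ * g) := by
    apply TT.comm_of_conj_eq
    calc _ = (r * s)⁻¹ * (g * z * g⁻¹) * (r * s) := by group
      _ = z := by rw [hdd, ← e3]; group
  have hy' : (r * s)⁻¹ * y * (r * s) * z = z * ((r * s)⁻¹ * y * (r * s)) :=
    conj_comm (by rw [e3]; exact h2)
  have := mul_mem e4 (h.inv_conj_mem hc hy')
  convert this using 1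
  group

theorem W.fusion [Finite G] {z : G} (h : W z)
    (hsyl : ∀ T : Subgroup G, IsPGroup 2 T → ∃ k : G, ∀ t ∈ T,
      t * (k * z * k⁻¹) = k * z * k⁻¹ * t)
    {g y : G} (h1 : y * z = z * y) (h2 : g⁻¹ * y * g * z = z * (g⁻¹ * y * g)) :
    y⁻¹ * (g⁻¹ * y * g) ∈ F z := by
  haveI : Fact (Nat.Prime 2) := ⟨Nat.prime_two⟩
  have hd : y * (g * z * g⁻¹) = g * z * g⁻¹ * y := by
    calc _ = g * (g⁻¹ * y * g * z) * g⁻¹ := by group
      _ = _ := by rw [h2]; group
  let C := centralizer ({y} : Set G)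
  have hp : ∀ x : C, (x : G) ^ 4 = 1 → IsPGroup 2 (zpowers x) := by
    rintro x hx ⟨_, n, rfl⟩
    refine ⟨2, Subtype.ext (Subtype.ext ?_)⟩
    show ((x : G) ^ n) ^ 4 = 1
    rw [← zpow_natCast, ← zpow_mul, mul_comm, zpow_mul, zpow_natCast, hx, one_zpow]
  have h4 : ∀ x : G, x * x = 1 → x ^ 4 = 1 := fun x hx => by
    simp only [pow_succ, pow_zero, one_mul, mul_assoc, hx, mul_one]
  let z' : C := ⟨z, mem_centralizer_singleton_iff.2 h1.symm⟩
  let d' : C := ⟨g * z * g⁻¹, mem_centralizer_singleton_iff.2 hd.symm⟩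
  let y' : C := ⟨y, mem_centralizer_singleton_iff.2 rfl⟩
  obtain ⟨T, hT⟩ := (hp z' (h4 _ h.z2)).exists_le_sylow
  obtain ⟨T', hT'⟩ := (hp d' (h4 _ (h.conj g).z2)).exists_le_sylow
  obtain ⟨c, hc⟩ := MulAction.exists_smul_eq C T' T
  have hcd : c * d' * c⁻¹ ∈ (T : Subgroup C) := by
    rw [← hc]
    exact smul_mem_pointwise_smul _ (MulAut.conj c) _ (hT' (mem_zpowers d'))
  have hy4 : y ^ 4 = 1 := by
    have : y ^ 4 = y * y * (y * y) := by simp only [pow_succ, pow_zero, one_mul, mul_assoc]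
    rcases h.sq y h1 with e | e <;> rw [this, e]
    exacts [one_mul 1, h.z2]
  have hyT : y' ∈ (T : Subgroup C) := by
    haveI : (zpowers y').Normal := by
      refine ⟨fun x hx a => ?_⟩
      obtain ⟨n, rfl⟩ := hx
      have : a * y' = y' * a := Subtype.ext (mem_centralizer_singleton_iff.1 a.2)
      rw [TT.conj_eq_of_comm (Commute.zpow_right this n)]
      exact ⟨n, rfl⟩
    exact (hp y' hy4).le_sylow_of_normal T (mem_zpowers y')
  obtain ⟨k, hk⟩ := hsyl _ (T.isPGroup'.map C.subtype)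
  have k1 : z * (k * z * k⁻¹) = k * z * k⁻¹ * z := hk _ ⟨_, hT (mem_zpowers z'), rfl⟩
  have k2 : y * (k * z * k⁻¹) = k * z * k⁻¹ * y := hk _ ⟨_, hyT, rfl⟩
  have k3 : (c : G) * (g * z * g⁻¹) * (c : G)⁻¹ * (k * z * k⁻¹) =
      k * z * k⁻¹ * (c * (g * z * g⁻¹) * (c : G)⁻¹) := hk _ ⟨_, hcd, rfl⟩
  have hcy : (c : G) * y = y * c := mem_centralizer_singleton_iff.1 c.2
  have s1 := h.step k1.symm h1 k2
  have s2 := h.step (g := k⁻¹ * c * g) (y := k⁻¹ * y * k) (by
    have := conj_comm k3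
    convert this using 1 <;> group) (conj_comm k2) (by
    calc _ = k⁻¹ * c * ((c : G)⁻¹ * y * c⁻¹⁻¹ * (g * z * g⁻¹)) * (c : G)⁻¹ * k := by
          simp only [Subgroup.coe_inv]; group
      _ = k⁻¹ * c * ((g * z * g⁻¹) * ((c : G)⁻¹ * y * c⁻¹⁻¹)) * (c : G)⁻¹ * k := by
          simp only [Subgroup.coe_inv]
          rw [TT.conj_eq_of_comm (TT.comm_inv_left hcy), hd]
      _ = _ := by simp only [Subgroup.coe_inv]; group)
  have := mul_mem s1 s2
  convert this using 1
  calc _ = y⁻¹ * (g⁻¹ * ((c : G)⁻¹ * y * (c : G)⁻¹⁻¹) * g) := by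
        rw [TT.conj_eq_of_comm (TT.comm_inv_left hcy)]
    _ = _ := by group

theorem W.eq_of_comm {z d e : G} (h : W z) (hd : IsConj z d) (he : IsConj z e)
    (h1 : d * z = z * d) (h2 : e * z = z * e) (h3 : e * d = d * e) (hdz : d ≠ z) (hez : e ≠ z)
    (hed : e ≠ d) : e = d * z := by
  have hWd := h.of_isConj hd
  have hWe := h.of_isConj he
  obtain ⟨r, -, hr⟩ := h.exists_conj hWe h2 hez
  have hW := hWe.conj r
  rw [hr] at hW
  have : e * z = d := by
    refine hWd.eq_of_le hW fun x hx => ?_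
    have hiff : x * z = z * x ↔ x * e = e * x :=
      ⟨fun hz => hWd.comm_of h hdz.symm hx hz h3 h2, fun hz =>
        hWd.comm_of hWe hed hx hz h1.symm h2.symm⟩
    by_cases hz : x * z = z * x
    · exact (TT.comm_mul_left (hiff.1 hz).symm hz.symm).symm
    · apply TT.comm_of_conj_eq
      calc _ = (x * e * x⁻¹) * (x * z * x⁻¹) := by group
        _ = e * z := by
          rw [hWd.conj_of_ne hx h3 (fun e' => hz (hiff.2 e')), hWd.conj_of_ne hx h1.symm hz,
            ← h1, mul_assoc, ← mul_assoc d, hWd.z2, one_mul]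
  rw [← this, mul_assoc, h.z2, mul_one]

end

/-- Let L be a finite non-abelian simple group with an involution z whose centralizer R is a Sylow 2-subgroup of L whose Frattini subgroup is the subgroup generated by z. Then R is dihedral of order 8. -/
theorem result {L : Type*} [Group L] [Finite L] [IsSimpleGroup L] (hL : ¬ IsMulCommutative L) (z : L) (hz : orderOf z = 2) (R : Sylow 2 L) (hR : (R : Subgroup L) = Subgroup.centralizer ({z} : Set L)) (hΦ : (frattini ↥(R : Subgroup L)).map (R : Subgroup L).subtype = Subgroup.zpowers z) : Nonempty (↥(R : Subgroup L) ≃* DihedralGroup 4) := by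
  haveI : Fact (Nat.Prime 2) := ⟨Nat.prime_two⟩
  have hz2 := TT.mul_self_of_orderOf_two hz
  have hz1 := TT.ne_one_of_orderOf_two hz
  have hmem : ∀ x, x ∈ (R : Subgroup L) ↔ x * z = z * x := fun x => by
    rw [hR, mem_centralizer_singleton_iff]
  have hfr : ∀ x : (R : Subgroup L), x ∈ frattini (R : Subgroup L) → (x : L) = 1 ∨ (x : L) = z :=
    fun x hx => (TT.mem_zpowers_invol hz2).1 (hΦ ▸ ⟨x, hx, rfl⟩)
  have h : W z := by
    refine ⟨hz1, hz2, fun x hx => ?_, fun x y hx hy => ?_, ?_⟩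
    · simpa [pow_two] using hfr _
        (Grp.PFrattini.pow_mem_frattini R.isPGroup' ⟨x, (hmem x).2 hx⟩)
    · have := hfr _ (Grp.PFrattini.commutator_le_frattini R.isPGroup' (commutator_mem_commutator
        (mem_top (⟨x, (hmem x).2 hx⟩ : (R : Subgroup L))) (mem_top ⟨y, (hmem y).2 hy⟩)))
      refine this.imp (fun e => ?_) fun e => ?_
      · exact commutatorElement_eq_one_iff_mul_comm.1 e
      · have e' : x * y * x⁻¹ * y⁻¹ = z := e
        rw [mul_assoc y, hx, ← mul_assoc, hy, ← e']; group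
    · by_contra hcon
      push Not at hcon
      have hsq : ∀ x ∈ (R : Subgroup L), x * x = 1 := fun x hx => by
        have := hfr _ (Grp.PFrattini.pow_mem_frattini R.isPGroup' ⟨x, hx⟩)
        simp only [pow_two, Subgroup.coe_mul] at this
        exact this.resolve_right (hcon x ((hmem x).1 hx))
      have hb : frattini (R : Subgroup L) ≤ ⊥ :=
        Grp.PFrattini.frattini_le (p := 2) (commutator_le.2 fun x _ y _ => by
          rw [mem_bot, commutatorElement_eq_one_iff_mul_comm]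
          apply Subtype.ext
          show (x : L) * y = y * x
          rw [← TT.inv_eq_of_mul_self (hsq _ (mul_mem x.2 y.2)), mul_inv_rev,
            TT.inv_eq_of_mul_self (hsq _ x.2), TT.inv_eq_of_mul_self (hsq _ y.2)])
          fun x => Subtype.ext (by simpa [pow_two] using hsq x x.2)
      rw [le_bot_iff.1 hb, Subgroup.map_bot] at hΦ
      exact hz1 (mem_bot.1 (hΦ ▸ mem_zpowers z))
  have hsyl : ∀ T : Subgroup L, IsPGroup 2 T → ∃ k : L, ∀ t ∈ T,
      t * (k * z * k⁻¹) = k * z * k⁻¹ * t := by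
    intro T hT
    obtain ⟨S, hS⟩ := hT.exists_le_sylow
    obtain ⟨k, hk⟩ := MulAction.exists_smul_eq L R S
    refine ⟨k, fun t ht => ?_⟩
    have := hS ht
    rw [← hk] at this
    obtain ⟨x, hx, rfl⟩ := this
    have e := (hmem x).1 hx
    show k * x * k⁻¹ * (k * z * k⁻¹) = k * z * k⁻¹ * (k * x * k⁻¹)
    calc _ = k * (x * z) * k⁻¹ := by group
      _ = _ := by rw [e]; group
  have hcomm : commutator L = ⊤ := by
    refine (IsSimpleGroup.eq_bot_or_eq_top_of_normal _ inferInstance).resolve_left fun e => hL ?_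
    exact ⟨⟨fun a b => commutatorElement_eq_one_iff_mul_comm.1
      (mem_bot.1 (e ▸ commutator_mem_commutator (mem_top a) (mem_top b)))⟩⟩
  have hRF : (R : Subgroup L) ≤ F z := by
    have := commutator_inf_eq_focalSubgroup R
    rw [hcomm, top_inf_eq] at this
    rw [this, focalSubgroup_def, closure_le]
    rintro _ ⟨h1, x, hx, u, rfl⟩
    have e : ⁅x, u⁆ = x⁻¹⁻¹ * (u⁻¹⁻¹ * x⁻¹ * u⁻¹) := by rw [commutatorElement_def]; group
    have h2 := mul_mem (inv_mem hx) h1
    rw [e] at h2 ⊢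
    rw [inv_inv x, inv_mul_cancel_left] at h2
    exact h.fusion hsyl ((hmem _).1 (inv_mem hx)) ((hmem _).1 h2)
  obtain ⟨d, ⟨hd, hdz⟩, e, ⟨he, hez⟩, hde⟩ : ∃ d ∈ {d | IsConj z d ∧ d * z = z * d},
      ∃ e ∈ {d | IsConj z d ∧ d * z = z * d}, d * e ≠ e * d := by
    by_contra hcon
    push Not at hcon
    have hc : ∀ x ∈ F z, ∀ y ∈ F z, x * y = y * x := by
      have h1 : F z ≤ centralizer (F z : Set L) := by
        rw [F, centralizer_closure, closure_le]
        exact fun x hx y hy => hcon y hy x hx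
      exact fun x hx y hy => (h1 hx y hy).symm
    have hsq : ∀ x ∈ F z, x * x = 1 := by
      intro x hx
      induction hx using closure_induction with
      | mem x hx => exact (h.of_isConj hx.1).z2
      | one => exact one_mul 1
      | mul x y hx hy ihx ihy =>
        rw [mul_assoc, ← mul_assoc y, ← hc x hx y hy, mul_assoc, ihy, mul_one, ihx]
      | inv x hx ih => rw [← mul_inv_rev, ih, inv_one]
    obtain ⟨x, hx, e⟩ := h.ex
    exact hz1 (e.symm.trans (hsq x (hRF ((hmem x).2 hx))))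
  have hWd := h.of_isConj hd
  have hWe := h.of_isConj he
  have hdz' : d ≠ z := fun e' => hde (e' ▸ hez.symm)
  have hez' : e ≠ z := fun e' => hde (e' ▸ hdz)
  have hcm := (h.cm d e hdz hez).resolve_left hde
  have hsq : d * e * (d * e) = z := by
    calc _ = d * (e * (e * d * z)) := by rw [← hcm]; group
      _ = z := by rw [mul_assoc e d, ← mul_assoc e e, hWe.z2, one_mul, ← mul_assoc, hWd.z2, one_mul]
  have hd' : d ∈ closure ({d, e} : Set L) := subset_closure (by simp)
  have he' : e ∈ closure ({d, e} : Set L) := subset_closure (by simp)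
  have hz' : z ∈ closure ({d, e} : Set L) := hsq ▸ mul_mem (mul_mem hd' he') (mul_mem hd' he')
  have hReq : (R : Subgroup L) = closure ({d, e} : Set L) := by
    refine le_antisymm (hRF.trans ((closure_le _).2 ?_)) ((closure_le _).2 ?_)
    · rintro x ⟨hx, hxz⟩
      by_cases h0 : x = z
      · exact h0 ▸ hz'
      by_cases h1 : x * d = d * x
      · by_cases h2 : x = d
        · exact h2 ▸ hd'
        · exact h.eq_of_comm hd hx hdz hxz h1 hdz' h0 h2 ▸ mul_mem hd' hz'
      by_cases h2 : x * e = e * x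
      · by_cases h3 : x = e
        · exact h3 ▸ he'
        · exact h.eq_of_comm he hx hez hxz h2 hez' h0 h3 ▸ mul_mem he' hz'
      exfalso
      have h3 := h.sq_eq_one hWd hdz' (TT.comm_mul_left hxz hez)
        (h.mul_comm_of hdz hxz hez h1 (Ne.symm hde))
      apply h2
      rw [← TT.inv_eq_of_mul_self h3, mul_inv_rev, TT.inv_eq_of_mul_self hWe.z2,
        TT.inv_eq_of_mul_self (h.of_isConj hx).z2]
    · rintro x (rfl | rfl)
      exacts [(hmem _).2 hdz, (hmem _).2 hez]
  have ho : orderOf (d * e) = 4 := by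
    have := orderOf_eq_prime_pow (x := d * e) (p := 2) (n := 1) (by rw [pow_one, pow_two, hsq]; exact hz1)
      (by rw [show 2 ^ (1 + 1) = 2 * 2 from rfl, pow_mul, pow_two (d * e), hsq, pow_two, hz2])
    exact this
  obtain ⟨φ⟩ := S0206.result d e (TT.orderOf_eq_two_of hWd.ne hWd.z2)
    (TT.orderOf_eq_two_of hWe.ne hWe.z2) (fun e' => hde (e' ▸ rfl))
  rw [ho] at φ
  exact ⟨(MulEquiv.subgroupCongr hReq).trans φ⟩


end Cfsg.Agent.S5435
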