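import Cfsg.Statements.S5436
import Cfsg.Agent.TT.LXSimple

set_option autoImplicit false
open Cfsg

namespace Cfsg.Agent.S5436

open Subgroup

/-- Let z be an involution of the finite group G with centralizer H whose generalized Fitting subgroup Q is extraspecial of width at least 2 (order 2^(2w+1), w ≥ 2); suppose some conjugate of z other than z lies in Q, H/Q is a non-abelian simple group, H acts irreducibly by conjugation on Q modulo the subgroup generated by z (the only H-invariant subgroups of Q containing z are that subgroup and Q), and Q is not the subgroup generated by the conjugates of z lying in H. Then G is simple. -/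
theorem result {G : Type*} [Group G] [Finite G] (z : G) (hz : orderOf z = 2) (Q : Subgroup (Subgroup.centralizer ({z} : Set G))) [Q.Normal] (hF : Cfsg.generalizedFittingSubgroup ↥(Subgroup.centralizer ({z} : Set G)) = Q) (hQ : Cfsg.IsExtraspecial 2 ↥Q) (w : ℕ) (hw : 2 ≤ w) (hcard : Nat.card ↥Q = 2 ^ (2 * w + 1)) (hnwc : ∃ g : G, (∃ hq : g * z * g⁻¹ ∈ Subgroup.centralizer ({z} : Set G), (⟨g * z * g⁻¹, hq⟩ : Subgroup.centralizer ({z} : Set G)) ∈ Q) ∧ g * z * g⁻¹ ≠ z) (hsimp : IsSimpleGroup (↥(Subgroup.centralizer ({z} : Set G)) ⧸ Q)) (hna : ¬ IsMulCommutative (↥(Subgroup.centralizer ({z} : Set G)) ⧸ Q)) (hirr : ∀ W : Subgroup (Subgroup.centralizer ({z} : Set G)), W.Normal → W ≤ Q → (W = Q ∨ ∀ x ∈ W, (x : G) ∈ Subgroup.zpowers z)) (hwcl : Subgroup.closure {x : Subgroup.centralizer ({z} : Set G) | IsConj z (x : G)} ≠ Q) : IsSimpleGroup G := by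
  obtain ⟨y, hy⟩ := TT.exists_XS_of_isExtraspecial hQ
  have hQ' : IsExtraspecial 2 (Q.map (centralizer ({z} : Set G)).subtype) :=
    (hy.map _ fun x _ e => Subtype.ext e).isExtraspecial
  obtain ⟨h, hO⟩ := TT.LX_of_fstar hz (by rw [hF]) hQ'
  have h8 : 8 < Nat.card (Q.map (centralizer ({z} : Set G)).subtype) := by
    rw [card_map_of_injective (subtype_injective _)]
    exact TT.eight_lt_of_width hw hcard
  obtain ⟨g, ⟨hg, hgQ⟩, hne⟩ := hnwc
  have hk : g * z * g⁻¹ ∈ Q.map (centralizer ({z} : Set G)).subtype := ⟨_, hgQ, rfl⟩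
  have hlarge := h.isLarge_of_mem_map_conj hk hne (h.mem_map_conj_of_card h8 hk)
  refine h.isSimpleGroup hlarge.2.2.2 hO ?_
  set W := closure {x : centralizer ({z} : Set G) | IsConj z (x : G)} with hW
  haveI hWn : W.Normal := by
    refine ⟨fun x hx c => ?_⟩
    have : W ≤ W.comap (MulAut.conj c).toMonoidHom := by
      rw [hW, closure_le]
      intro x hx
      exact subset_closure (IsConj.trans hx (isConj_iff.2 ⟨c, rfl⟩))
    exact this hx
  have hQW : Q ≤ W := by
    rcases hirr (W ⊓ Q) inferInstance inf_le_right with e | e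
    · exact e.ge.trans inf_le_left
    · have := e ⟨_, hg⟩ ⟨subset_closure (isConj_iff.2 ⟨g, rfl⟩), hgQ⟩
      rcases (TT.mem_zpowers_invol h.z_sq).1 this with e' | e'
      exacts [absurd e' (h.map_conj g).z_ne, absurd e' hne]
  have hWt : W = ⊤ := by
    rcases hsimp.eq_bot_or_eq_top_of_normal (W.map (QuotientGroup.mk' Q))
      (hWn.map _ (QuotientGroup.mk'_surjective Q)) with e | e
    · rw [Subgroup.map_eq_bot_iff, QuotientGroup.ker_mk'] at e
      exact absurd (le_antisymm e hQW) hwcl
    · have := congrArg (comap (QuotientGroup.mk' Q)) e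
      rwa [comap_map_eq, QuotientGroup.ker_mk', sup_eq_left.2 hQW, comap_top] at this
  have : W ≤ (normalClosure ({z} : Set G)).comap (centralizer ({z} : Set G)).subtype := by
    rw [hW, closure_le]
    intro x hx
    obtain ⟨c, hc⟩ := isConj_iff.1 hx
    show (x : G) ∈ normalClosure ({z} : Set G)
    rw [← hc]
    exact (normalClosure_normal).conj_mem z (subset_normalClosure (Set.mem_singleton z)) c
  intro c hc
  exact this (hWt ▸ mem_top (⟨c, hc⟩ : centralizer ({z} : Set G)))


end Cfsg.Agent.S5436
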