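import Cfsg.Statements.S5437
import Cfsg.Agent.TT.InvUtil

set_option autoImplicit false
open Cfsg

namespace Cfsg.Agent.S5437



/-- Let I be a set of involutions of the finite group G closed under conjugation, and H a subgroup of G. The following are equivalent: (1) for every member x of I lying in H, the conjugates of x lying in H form a single H-class and the centralizer of x lies in H; (2) for every g outside H, no member of I lies in both H and g H g⁻¹; (3) every member of I lying in H fixes exactly one coset in the action of G on the cosets of H. -/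
theorem result {G : Type*} [Group G] [Finite G] (I : Set G) (hI : ∀ x ∈ I, orderOf x = 2) (hIc : ∀ g : G, ∀ x ∈ I, g * x * g⁻¹ ∈ I) (H : Subgroup G) : ((∀ x ∈ I, x ∈ H → (∀ g : G, g * x * g⁻¹ ∈ H → ∃ h ∈ H, h * x * h⁻¹ = g * x * g⁻¹) ∧ Subgroup.centralizer ({x} : Set G) ≤ H) ↔ (∀ g : G, g ∉ H → ∀ x ∈ I, ¬ (x ∈ H ∧ x ∈ (H : Subgroup G).map (MulAut.conj g).toMonoidHom))) ∧ ((∀ g : G, g ∉ H → ∀ x ∈ I, ¬ (x ∈ H ∧ x ∈ (H : Subgroup G).map (MulAut.conj g).toMonoidHom)) ↔ ∀ x ∈ I, x ∈ H → ∃! c : G ⧸ H, x • c = c) := by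
  constructor
  · constructor
    · intro h g hg x hx ⟨hxH, hxg⟩
      rw [TT.mem_map_conj_iff] at hxg
      obtain ⟨h1, h2⟩ := h x hx hxH
      obtain ⟨k, hk, e⟩ := h1 g⁻¹ (by simpa using hxg)
      have : g * k ∈ Subgroup.centralizer ({x} : Set G) := by
        rw [Subgroup.mem_centralizer_singleton_iff]
        have : x = (g * k) * x * (g * k)⁻¹ := by
          calc x = g * (g⁻¹ * x * g⁻¹⁻¹) * g⁻¹ := by group
            _ = _ := by rw [← e]; group
        calc g * k * x = (g * k * x * (g * k)⁻¹) * (g * k) := by group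
          _ = x * (g * k) := by rw [← this]
      exact hg ((H.mul_mem_cancel_right hk).1 (h2 this))
    · intro h x hx hxH
      have key : ∀ g : G, g * x * g⁻¹ ∈ H → g ∈ H := by
        intro g hg
        by_contra hgH
        refine h g⁻¹ (fun h' => hgH (by simpa using H.inv_mem h')) x hx ⟨hxH, ?_⟩
        rw [TT.mem_map_conj_iff]; simpa using hg
      refine ⟨fun g hg => ⟨g, key g hg, rfl⟩, fun c hc => key c ?_⟩
      rw [Subgroup.mem_centralizer_singleton_iff] at hc
      rw [hc]; simpa using hxH
  · constructor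
    · intro h x hx hxH
      refine ⟨((1 : G) : G ⧸ H), TT.smul_coset_eq_iff.2 (by simpa using hxH), ?_⟩
      intro c hc
      induction c using QuotientGroup.induction_on with
      | H g =>
        have hc' := TT.smul_coset_eq_iff.1 hc
        have hg : g ∈ H := by
          by_contra hg
          exact h g hg x hx ⟨hxH, TT.mem_map_conj_iff.2 hc'⟩
        rw [QuotientGroup.eq]; simpa using hg
    · intro h g hg x hx ⟨hxH, hxg⟩
      obtain ⟨c, -, hc⟩ := h x hx hxH
      have e1 := hc ((1 : G) : G ⧸ H) (TT.smul_coset_eq_iff.2 (by simpa using hxH))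
      have e2 := hc (g : G ⧸ H) (TT.smul_coset_eq_iff.2 (TT.mem_map_conj_iff.1 hxg))
      have := e1.trans e2.symm
      rw [QuotientGroup.eq] at this
      exact hg (by simpa using this)


end Cfsg.Agent.S5437
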