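import Cfsg.Statements.S5459
import Cfsg.Agent.Inv.Isolated
import Cfsg.Agent.FT.Cj

set_option autoImplicit false
open Cfsg

namespace Cfsg.Agent.S5459

open scoped commutatorElement

/-- Let G be a finite group with a quasisimple normal subgroup L and an involution d such that G is generated by L and d, the centre of L has odd order, and d inverts every element of the centre of L. If the commuting graph on the conjugacy class of the image of d in G modulo the centre of L is connected, then the commuting graph on the conjugacy class of d is connected. -/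
theorem result {G : Type*} [Group G] [Finite G] (L : Subgroup G) [L.Normal] (hL : Cfsg.IsQuasisimple ↥L) (d : G) (hd : orderOf d = 2) (hgen : L ⊔ Subgroup.zpowers d = ⊤) (hodd : Odd (Nat.card ↥(Subgroup.center ↥L))) (hinv : ∀ c ∈ (Subgroup.center ↥L).map L.subtype, d * c * d⁻¹ = c⁻¹) [hn : ((Subgroup.center ↥L).map L.subtype).Normal] (hconn : (Cfsg.commutingGraph (conjugatesOf (QuotientGroup.mk d : G ⧸ (Subgroup.center ↥L).map L.subtype))).Connected) : (Cfsg.commutingGraph (conjugatesOf d)).Connected := by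
  set Z := (Subgroup.center ↥L).map L.subtype with hZ
  have hD : ∀ g : G, ∀ e ∈ conjugatesOf d, g * e * g⁻¹ ∈ conjugatesOf d := fun g e he =>
    IsConj.trans he (isConj_iff.2 ⟨g, rfl⟩)
  have hd' : d ∈ conjugatesOf d := mem_conjugatesOf_self
  have hsq : ∀ a ∈ conjugatesOf d, a * a = 1 := fun a ha => by
    obtain ⟨g, rfl⟩ := isConj_iff.1 ha
    exact Inv.conj_mul_self (Inv.mul_self_of_orderOf_eq_two hd) g
  have hi : ∀ e ∈ conjugatesOf d, ∀ c ∈ Z, e * c = c⁻¹ * e := fun e he c hc => by
    obtain ⟨g, rfl⟩ := isConj_iff.1 he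
    have := hinv _ (hn.conj_mem c hc g⁻¹)
    calc g * d * g⁻¹ * c = g * (d * (g⁻¹ * c * g⁻¹⁻¹) * d⁻¹) * d * g⁻¹ := by group
      _ = _ := by rw [this]; group
  have hroot : ∀ c ∈ Z, ∃ z ∈ Z, z * z = c := fun c hc => by
    have h1 : Odd (orderOf c) := hodd.of_dvd_nat (by
      rw [← Subgroup.card_map_of_injective (K := Subgroup.center L) L.subtype_injective]
      exact Subgroup.orderOf_dvd_natCard _ hc)
    obtain ⟨m, hm⟩ := exists_pow_eq_self_of_coprime (Nat.coprime_two_left.2 h1)
    exact ⟨c ^ m, Z.pow_mem hc m, by rw [← sq, ← pow_mul, mul_comm, pow_mul, hm]⟩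
  have hcj : ∀ e ∈ conjugatesOf d, ∀ c ∈ Z, ∃ z ∈ Z, z * e * z⁻¹ = c * e := fun e he c hc => by
    obtain ⟨z, hz, rfl⟩ := hroot c hc
    exact ⟨z, hz, by rw [mul_assoc, hi e he _ (Z.inv_mem hz), inv_inv, mul_assoc]⟩
  let r : G → G → Prop := fun a b => a ∈ conjugatesOf d ∧ b ∈ conjugatesOf d ∧ Commute a b
  have hsymm : ∀ {a b}, Relation.ReflTransGen r a b → Relation.ReflTransGen r b a := fun h => by
    induction h with
    | refl => exact Relation.ReflTransGen.refl
    | tail _ h ih => exact Relation.ReflTransGen.head ⟨h.2.1, h.1, h.2.2.symm⟩ ih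
  have hconj : ∀ (g : G) {a b}, Relation.ReflTransGen r a b →
      Relation.ReflTransGen r (g * a * g⁻¹) (g * b * g⁻¹) := fun g _ _ h => by
    induction h with
    | refl => exact Relation.ReflTransGen.refl
    | tail _ h ih => exact ih.tail ⟨hD g _ h.1, hD g _ h.2.1, h.2.2.map (MulAut.conj g)⟩
  let H : Subgroup G :=
    { carrier := {g | Relation.ReflTransGen r d (g * d * g⁻¹)}
      one_mem' := by simpa using Relation.ReflTransGen.refl
      mul_mem' := fun {a b} ha hb => Relation.ReflTransGen.trans ha (by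
        simpa [mul_assoc] using hconj a hb)
      inv_mem' := fun {a} ha => hsymm (by simpa [mul_assoc] using hconj a⁻¹ ha) }
  have lift : ∀ x : conjugatesOf (d : G ⧸ Z), ∃ e ∈ conjugatesOf d,
      Relation.ReflTransGen r d e ∧ (e : G ⧸ Z) = x := fun x => by
    have h := (SimpleGraph.reachable_iff_reflTransGen _ _).1
      (hconn.preconnected ⟨d, mem_conjugatesOf_self⟩ x)
    induction h with
    | refl => exact ⟨d, hd', Relation.ReflTransGen.refl, rfl⟩
    | @tail y y' _ h ih =>
      obtain ⟨e, he, h1, h2⟩ := ih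
      obtain ⟨g, hg⟩ := isConj_iff.1 y'.2
      obtain ⟨g, rfl⟩ := QuotientGroup.mk_surjective g
      obtain ⟨f, hf, h3⟩ : ∃ f ∈ conjugatesOf d, (f : G ⧸ Z) = y' := ⟨_, hD g d hd', hg⟩
      have h4 : Commute (e : G ⧸ Z) f := by
        rw [h2, h3]
        rcases ((SimpleGraph.fromRel_adj _ _ _).1 h).2 with h | h
        exacts [h, h.symm]
      have h5 : e * f * (e * f) ∈ Z := by
        rw [← QuotientGroup.eq_one_iff, QuotientGroup.mk_mul, QuotientGroup.mk_mul, ← sq,
          h4.mul_pow, sq, sq, ← QuotientGroup.mk_mul, ← QuotientGroup.mk_mul, hsq e he, hsq f hf]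
        simp
      obtain ⟨c, hc, e1⟩ := hroot _ h5
      obtain ⟨z, hz, e2⟩ := hcj f hf c hc
      have hf' : c * f ∈ conjugatesOf d := e2 ▸ hD z f hf
      refine ⟨c * f, hf', h1.tail ⟨he, hf', ?_⟩, ?_⟩
      · have h6 : e * (c * f) * (e * (c * f)) = 1 := by
          calc e * (c * f) * (e * (c * f)) = (e * c) * (f * (e * c)) * f := by group
            _ = c⁻¹ * (e * (f * c⁻¹)) * (e * f) := by rw [hi e he c hc]; group
            _ = c⁻¹ * (e * c) * (f * (e * f)) := by rw [hi f hf _ (Z.inv_mem hc)]; group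
            _ = (c * c)⁻¹ * (e * f * (e * f)) := by rw [hi e he c hc]; group
            _ = 1 := by rw [e1, inv_mul_cancel]
        have h7 := inv_eq_of_mul_eq_one_right h6
        rw [mul_inv_rev, inv_eq_of_mul_eq_one_right (hsq e he),
          inv_eq_of_mul_eq_one_right (hsq _ hf')] at h7
        exact h7.symm
      · rw [QuotientGroup.mk_mul, (QuotientGroup.eq_one_iff c).2 hc, one_mul, h3]
  have hH : ∀ g : G, ∃ z ∈ Z, z * g ∈ H := fun g => by
    obtain ⟨e, he, h1, h2⟩ := lift ⟨(g * d * g⁻¹ : G), isConj_iff.2 ⟨(g : G ⧸ Z), rfl⟩⟩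
    have h3 : e * (g * d * g⁻¹)⁻¹ ∈ Z := by
      rw [← QuotientGroup.eq_one_iff, QuotientGroup.mk_mul, QuotientGroup.mk_inv, h2]
      simp
    obtain ⟨z, hz, e2⟩ := hcj _ (hD g d hd') _ h3
    refine ⟨z, hz, ?_⟩
    have : z * g * d * (z * g)⁻¹ = e := by
      rw [inv_mul_cancel_right] at e2
      rw [← e2]
      group
    rwa [← this] at h1
  have hcent : ∀ z ∈ Z, z ∈ L ∧ ∀ a ∈ L, a * z = z * a := by
    rintro _ ⟨z, hz, rfl⟩
    exact ⟨z.2, fun a ha => congrArg Subtype.val (Subgroup.mem_center_iff.1 hz ⟨a, ha⟩)⟩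
  have hLH : L ≤ H := by
    have h1 : ⁅L, L⁆ = L := by
      rw [← FT.commutator_map_subtype, hL.1.commutator_eq_top, ← MonoidHom.range_eq_map,
        Subgroup.range_subtype]
    rw [← h1, Subgroup.commutator_le]
    intro a ha b hb
    obtain ⟨z, hz, h2⟩ := hH a
    obtain ⟨y, hy, h3⟩ := hH b
    have : ⁅a, b⁆ = ⁅z * a, y * b⁆ := by
      have e1 := (hcent z hz).2 _ (L.mul_mem (L.mul_mem ha (L.mul_mem (hcent y hy).1 hb))
        (L.inv_mem ha))
      have e2 := (hcent y hy).2 _ (L.mul_mem (L.mul_mem hb (L.inv_mem ha)) (L.inv_mem hb))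
      have e3 := (hcent y hy).2 _ ha
      calc ⁅a, b⁆ = a * (b * a⁻¹ * b⁻¹ * y) * y⁻¹ := by rw [commutatorElement_def]; group
        _ = (a * (y * b) * a⁻¹ * z) * z⁻¹ * (y * b)⁻¹ := by rw [e2]; group
        _ = _ := by rw [e1, commutatorElement_def]; group
    rw [this, commutatorElement_def]
    exact H.mul_mem (H.mul_mem (H.mul_mem h2 h3) (H.inv_mem h2)) (H.inv_mem h3)
  have hall : ∀ e ∈ conjugatesOf d, Relation.ReflTransGen r d e := fun e he => by
    obtain ⟨g, rfl⟩ := isConj_iff.1 he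
    obtain ⟨z, hz, h2⟩ := hH g
    exact (H.mul_mem_cancel_left (hLH (hcent z hz).1)).1 h2
  have hreach : ∀ e, Relation.ReflTransGen r d e → ∀ he : e ∈ conjugatesOf d,
      (commutingGraph (conjugatesOf d)).Reachable ⟨d, hd'⟩ ⟨e, he⟩ := fun e h => by
    induction h with
    | refl => exact fun _ => SimpleGraph.Reachable.refl _
    | @tail a b _ h ih =>
      intro hb
      by_cases hab : a = b
      · subst hab
        exact ih hb
      · exact (ih h.1).trans (SimpleGraph.Adj.reachable ((SimpleGraph.fromRel_adj _ _ _).2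
          ⟨fun e => hab (congrArg Subtype.val e), Or.inl h.2.2⟩))
  exact (SimpleGraph.connected_iff_exists_forall_reachable _).2
    ⟨⟨d, hd'⟩, fun e => hreach e (hall e e.2) e.2⟩

end Cfsg.Agent.S5459
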