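import Cfsg.Statements.S5514
import Cfsg.Agent.WG.F22b
import Cfsg.Agent.S1686
-- import your own Cfsg.Agent.* helpers here

set_option autoImplicit false
open Cfsg

namespace Cfsg.Agent.S5514
open Cfsg.Agent.Comp.BN Cfsg.Agent.Spor.FiC Cfsg.Agent.TT.Pt Cfsg.Agent.WG in
theorem gen_eq : cl (F22.d.xs TT.Pt.M22.π TT.Pt.M22.M0) F22.lg = gen (subT L22.x Spor.FiC.M22.ws7) := by
  have key : ∀ (j q : ℕ) (u : List ℕ), cjC Spor.FiC.M22.act1 Spor.FiC.M22.act1 4096 12 j u 0 0 12 = true →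
      Nat.beq (ptW Spor.FiC.M22.act1 u 0) q = true → q < 3510 →
      el (F22.d.xs TT.Pt.M22.π TT.Pt.M22.M0) [128 + 2 * q] = ev L22.x [j] := fun j q u h1 h2 h3 => by
    have h4 : (128 + 2 * q) / 2 - 64 = q := by omega
    refine TT.Pt.M22.M0.inj ((F22.dok.ρ_el TT.Pt.M22.M0 _).trans ?_)
    rw [el_cons, el_nil, mul_one, F22.dok.xp_tau (by omega) (h4.symm ▸ h3), h4,
      TT.Pt.M22.M0_ρ, Spor.FiC.M22.model.map_ev, ev_cons, ev_nil, mul_one]
    exact (((CjTo.zero _ _ 4096 12 j u 0).step h1).root (by norm_num) Spor.FiC.M22.spec1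
      Spor.FiC.M22.spec1 (TT.Pt.M22.ev_aut _) (by norm_num) TT.Pt.M22.T0 h2).symm
  have e1 := key 1 9 [0, 1] (by decide +kernel) (by decide +kernel) (by norm_num)
  have e2 := key 2 11 [1, 2, 0, 1] (by decide +kernel) (by decide +kernel) (by norm_num)
  have e3 := key 3 13 [2, 3, 1, 2, 0, 1] (by decide +kernel) (by decide +kernel) (by norm_num)
  have e4 := key 4 59 [3, 4, 2, 3, 1, 2, 0, 1] (by decide +kernel) (by decide +kernel) (by norm_num)
  have e5 := key 5 110 [4, 5, 3, 4, 2, 3, 1, 2, 0, 1] (by decide +kernel) (by decide +kernel) (by norm_num)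
  have e6 := key 6 173 [5, 6, 4, 5, 3, 4, 2, 3, 1, 2, 0, 1] (by decide +kernel) (by decide +kernel) (by norm_num)
  have e7 := key 7 54 [3, 7, 2, 3, 1, 2, 0, 1] (by decide +kernel) (by decide +kernel) (by norm_num)
  have e8 := key 8 108 [7, 8, 3, 7, 2, 3, 1, 2, 0, 1] (by decide +kernel) (by decide +kernel) (by norm_num)
  refine le_antisymm (cl_le_iff.2 ?_) ((Subgroup.closure_le _).2 ?_)
  · simp only [F22.lg, List.forall_mem_cons, List.not_mem_nil, false_imp_iff, implies_true, and_true]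
    exact ⟨e1 ▸ mem_gen _ 0, e2 ▸ mem_gen _ 1, e3 ▸ mem_gen _ 2, e4 ▸ mem_gen _ 3, e5 ▸ mem_gen _ 4, e6 ▸ mem_gen _ 5, e7 ▸ mem_gen _ 6, e8 ▸ mem_gen _ 7⟩
  · rintro _ ⟨k, rfl⟩
    refine nth_prop (fun w => ev L22.x w ∈ cl _ F22.lg) [] _ (one_mem _) ?_ k
    simp only [Spor.FiC.M22.ws7, List.forall_mem_cons, List.not_mem_nil, false_imp_iff, implies_true,
      and_true]
    exact ⟨e1 ▸ el_mem_cl (by decide), e2 ▸ el_mem_cl (by decide), e3 ▸ el_mem_cl (by decide), e4 ▸ el_mem_cl (by decide), e5 ▸ el_mem_cl (by decide), e6 ▸ el_mem_cl (by decide), e7 ▸ el_mem_cl (by decide), e8 ▸ el_mem_cl (by decide)⟩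


/-- The commutator subgroup of the isometry group of a non-degenerate 7-dimensional quadratic form over the field with three elements, modulo its (trivial) centre — the simple group Ω(7, 3) — has exactly seven conjugacy classes of subgroups of order 3. -/
theorem result : ∃ Y : Fin 7 → Subgroup (Cfsg.POmega (ZMod 3) (Cfsg.quadFormOdd 3 (ZMod 3))), (∀ i, Nat.card (Y i) = 3) ∧ (∀ i j, (∃ g : Cfsg.POmega (ZMod 3) (Cfsg.quadFormOdd 3 (ZMod 3)), (Y i).map (MulAut.conj g).toMonoidHom = Y j) → i = j) ∧ (∀ X : Subgroup (Cfsg.POmega (ZMod 3) (Cfsg.quadFormOdd 3 (ZMod 3))), Nat.card X = 3 → ∃ i, ∃ g : Cfsg.POmega (ZMod 3) (Cfsg.quadFormOdd 3 (ZMod 3)), X.map (MulAut.conj g).toMonoidHom = Y i) := by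
  have := TT.Pt.M22.M0.finite
  obtain ⟨e⟩ := S1686.result
  rw [Spor.FiC.M22.subeq7, ← gen_eq] at e
  have h := WG.F22.dok.wd TT.Pt.M22.M0
  have hL := WG.F22.knL TT.Pt.M22.M0
  exact WG.classes_of_equiv e rfl
    (fun r hr => ⟨hL.cl_le (ws := WG.F22.rs7) (by decide +kernel) (WG.el_mem_cl hr), WG.F22.ord7 _ r hr⟩)
    (WG.F22.ne7 _) ((WG.sylIn_of_card (m := 232960) Nat.prime_three (hL.cl_le (by decide +kernel))
      ((WG.F22.pc _).card Nat.prime_three h) (by rw [gen_eq, Spor.FiC.M22.card7]; rfl)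
      (by norm_num)).cls (WG.F22.cls7 _))

end Cfsg.Agent.S5514
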