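import Cfsg.Statements.S5515
import Mathlib
import Cfsg.Agent.PLocal.FStar
import Cfsg.Agent.Class.Orth.Simple
import Cfsg.Agent.S0293
import Cfsg.Agent.S2608

set_option autoImplicit false
open Cfsg

namespace Cfsg.Agent.S5515

open Subgroup

theorem eq_stab (H : Subgroup (Equiv.Perm (Fin 4))) (h : Nat.card H = 6) :
    ∃ i : Fin 4, H = MulAction.stabilizer _ i := by
  haveI : Fact (Nat.Prime 3) := ⟨Nat.prime_three⟩
  obtain ⟨x, hx⟩ := exists_prime_orderOf_dvd_card' (G := H) 3 (by rw [h]; decide)
  have hi : (zpowers x).index = 2 := by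
    have := (zpowers x).card_mul_index
    rw [Nat.card_zpowers, hx, h] at this
    omega
  have hn := normal_of_index_eq_two hi
  obtain ⟨i, h1, h2⟩ := (by decide : ∀ x : Equiv.Perm (Fin 4), x ^ 3 = 1 → x ≠ 1 →
      ∃ i, x i = i ∧ ∀ j, x j = j → j = i) x
    (congrArg Subtype.val (hx ▸ pow_orderOf_eq_one x)) fun e => by
      rw [show x = 1 from Subtype.ext e, orderOf_one] at hx; omega
  refine ⟨i, eq_of_le_of_card_ge (fun g hg => ?_) ?_⟩
  · obtain ⟨k, hk⟩ := hn.conj_mem' x (mem_zpowers x) ⟨g, hg⟩
    have h3 : (x : Equiv.Perm (Fin 4)) ^ k ∈ MulAction.stabilizer (Equiv.Perm (Fin 4)) i :=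
      zpow_mem (MulAction.mem_stabilizer_iff.2 h1) k
    have h4 : (x : Equiv.Perm (Fin 4)) ^ k = g⁻¹ * x * g := congrArg Subtype.val hk
    rw [h4] at h3
    exact h2 _ (Equiv.Perm.inv_eq_iff_eq.1 h3)
  · have := (MulAction.stabilizer (Equiv.Perm (Fin 4)) i).card_mul_index
    rw [MulAction.index_stabilizer_of_transitive, Nat.card_perm] at this
    simp only [Nat.card_eq_fintype_card, Fintype.card_fin, Nat.factorial] at this h ⊢
    omega

theorem conj_six {O : Type*} [Group O] (e : O ≃* Equiv.Perm (Fin 4)) (A B : Subgroup O)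
    (hA : Nat.card A = 6) (hB : Nat.card B = 6) :
    ∃ g : O, A.map (MulAut.conj g).toMonoidHom = B := by
  obtain ⟨i, hi⟩ := eq_stab (A.map e.toMonoidHom) (by rw [card_map_of_injective e.injective, hA])
  obtain ⟨j, hj⟩ := eq_stab (B.map e.toMonoidHom) (by rw [card_map_of_injective e.injective, hB])
  obtain ⟨g, rfl⟩ := MulAction.exists_smul_eq (Equiv.Perm (Fin 4)) i j
  refine ⟨e.symm g, map_injective (f := e.toMonoidHom) e.injective ?_⟩
  rw [hj, MulAction.stabilizer_smul_eq_stabilizer_map_conj, ← hi, map_map, map_map]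
  congr 1
  ext x : 1
  simp

theorem exists_embed {G P : Type*} [Group G] [Finite G] [Group P] (hP : center P = ⊥)
    (e : generalizedFittingSubgroup G ≃* P) [(generalizedFittingSubgroup G).Normal]
    (q : G ⧸ generalizedFittingSubgroup G ≃* Equiv.Perm (Fin 3)) :
    ∃ A : Subgroup (Out P), Nat.card A = 6 ∧
      Nonempty (G ≃* A.comap (QuotientGroup.mk' (Inn P))) := by
  have : Finite P := Finite.of_equiv _ e.toEquiv
  let f : G →* MulAut P := (MulAut.congr e).toMonoidHom.comp MulAut.conjNormal
  have hf : ∀ l, f (l : generalizedFittingSubgroup G) = MulAut.conj (e l) := fun l => by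
    ext p
    obtain ⟨p, rfl⟩ := e.surjective p
    simp only [f, MulAut.conj_apply, ← map_mul, ← map_inv]
    simp only [MulEquiv.toMonoidHom_eq_coe, MonoidHom.comp_apply, MonoidHom.coe_coe,
      MulAut.congr_apply, MulEquiv.trans_apply, MulEquiv.symm_apply_apply]
    rfl
  have hc : Function.Injective (MulAut.conj : P →* MulAut P) := by
    rw [injective_iff_map_eq_one]
    intro p hp
    rw [← mem_bot, ← hP, mem_center_iff]
    intro g
    have := DFunLike.congr_fun hp g
    rw [MulAut.conj_apply, MulAut.one_apply, mul_inv_eq_iff_eq_mul] at this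
    exact this.symm
  have hinj : Function.Injective f := by
    rw [injective_iff_map_eq_one]
    intro g hg
    have h1 : g ∈ generalizedFittingSubgroup G := PLocal.centralizer_fstar_le G fun y hy => by
      have h2 : MulAut.conjNormal (H := generalizedFittingSubgroup G) g = 1 :=
        (MulAut.congr e).injective (hg.trans (map_one _).symm)
      have := congrArg (fun σ : MulAut (generalizedFittingSubgroup G) => ((σ ⟨y, hy⟩ : _) : G)) h2
      simp only [MulAut.conjNormal_apply, MulAut.one_apply] at this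
      exact (mul_inv_eq_iff_eq_mul.1 this).symm
    have := hc ((hf ⟨g, h1⟩).symm.trans (hg.trans (map_one _).symm))
    exact congrArg Subtype.val (e.map_eq_one_iff.1 this)
  have hle : Inn P ≤ f.range := by
    rintro _ ⟨p, rfl⟩
    obtain ⟨p, rfl⟩ := e.surjective p
    exact ⟨p, hf p⟩
  have he : (f.range.map (QuotientGroup.mk' (Inn P))).comap (QuotientGroup.mk' (Inn P)) =
      f.range := by rw [comap_map_eq_self (by rwa [QuotientGroup.ker_mk'])]
  refine ⟨f.range.map (QuotientGroup.mk' _), ?_, ⟨(MonoidHom.ofInjective hinj).trans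
    (MulEquiv.subgroupCongr he.symm)⟩⟩
  rw [← relIndex_ker, QuotientGroup.ker_mk']
  have h1 := card_mul_index ((Inn P).subgroupOf f.range)
  rw [Nat.card_congr (subgroupOfEquivOfLe hle).toEquiv,
    ← Nat.card_congr (MonoidHom.ofInjective hc).toEquiv,
    ← Nat.card_congr (MonoidHom.ofInjective hinj).toEquiv,
    card_eq_card_quotient_mul_card_subgroup (generalizedFittingSubgroup G),
    Nat.card_congr q.toEquiv, Nat.card_congr e.toEquiv, Nat.card_perm, mul_comm] at h1
  exact (Nat.eq_of_mul_eq_mul_right Nat.card_pos h1).trans (by simp; rfl)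

theorem center_eq_bot {P : Type*} [Group P] [IsSimpleGroup P] (hP : ¬ (Nat.card P).Prime) :
    center P = ⊥ :=
  (IsSimpleGroup.eq_bot_or_eq_top_of_normal _ inferInstance).resolve_right fun h =>
    letI : CommGroup P := Group.commGroupOfCenterEqTop h
    hP IsSimpleGroup.prime_card

theorem main {G G' P : Type*} [Group G] [Finite G] [Group G'] [Finite G'] [Group P]
    (hP : center P = ⊥) (e : Out P ≃* Equiv.Perm (Fin 4))
    (f : generalizedFittingSubgroup G ≃* P) [(generalizedFittingSubgroup G).Normal]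
    (q : G ⧸ generalizedFittingSubgroup G ≃* Equiv.Perm (Fin 3))
    (f' : generalizedFittingSubgroup G' ≃* P) [(generalizedFittingSubgroup G').Normal]
    (q' : G' ⧸ generalizedFittingSubgroup G' ≃* Equiv.Perm (Fin 3)) : Nonempty (G ≃* G') := by
  obtain ⟨A, hA, ⟨a⟩⟩ := exists_embed hP f q
  obtain ⟨B, hB, ⟨b⟩⟩ := exists_embed hP f' q'
  obtain ⟨g, rfl⟩ := conj_six e A B hA hB
  obtain ⟨g, rfl⟩ := QuotientGroup.mk'_surjective _ g
  refine ⟨a.trans (((MulAut.conj g).subgroupMap _).trans
    ((MulEquiv.subgroupCongr ?_).trans b.symm))⟩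
  ext x
  rw [mem_comap, ← MulEquiv.toMonoidHom_eq_coe, mem_map_equiv, mem_map_equiv, mem_comap]
  simp

theorem center_eq : center (POmega (ZMod 3) (quadFormPlus 4 (ZMod 3))) = ⊥ := by
  have := Class.Orth.isSimpleGroup_POmega _ _ (Class.Orth.plusQF_apply 4 (ZMod 3))
    (Class.Orth.nd_plusQF 4 _) (by simp)
  have h1 := S0293.result (ZMod.card 3) 4 le_rfl
  have h3 : Nat.card (POmega (ZMod 3) (quadFormPlus 4 (ZMod 3))) = 4952179814400 := by
    norm_num [Finset.prod_range_succ] at h1
    omega
  exact center_eq_bot (by rw [h3]; norm_num)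

/-- Let G and G′ be finite groups whose generalized Fitting subgroups are isomorphic to PΩ⁺(8, 3) (the commutator subgroup of the isometry group of the hyperbolic quadratic form in dimension 8 over the field with three elements, modulo its centre) with quotients isomorphic to the symmetric group of degree 3. Then G and G′ are isomorphic. -/
theorem result {G G' : Type*} [Group G] [Finite G] [Group G'] [Finite G'] (hF : Nonempty (↥(Cfsg.generalizedFittingSubgroup G) ≃* Cfsg.POmega (ZMod 3) (Cfsg.quadFormPlus 4 (ZMod 3)))) (hF' : Nonempty (↥(Cfsg.generalizedFittingSubgroup G') ≃* Cfsg.POmega (ZMod 3) (Cfsg.quadFormPlus 4 (ZMod 3)))) [hn : (Cfsg.generalizedFittingSubgroup G).Normal] [hn' : (Cfsg.generalizedFittingSubgroup G').Normal] (hq : Nonempty (G ⧸ Cfsg.generalizedFittingSubgroup G ≃* Equiv.Perm (Fin 3))) (hq' : Nonempty (G' ⧸ Cfsg.generalizedFittingSubgroup G' ≃* Equiv.Perm (Fin 3))) : Nonempty (G ≃* G') := by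
  haveI : Fact (Nat.Prime 3) := ⟨Nat.prime_three⟩
  have e := S2608.result (F := ZMod 3) (p := 3) (f := 1) (m := 4) le_rfl (by simp) (by decide)
    le_rfl
  rw [if_pos rfl] at e
  obtain ⟨e⟩ := e
  exact main center_eq (e.trans MulEquiv.prodUnique) hF.some hq.some hF'.some hq'.some

end Cfsg.Agent.S5515
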