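import Cfsg.Statements.S5516
import Cfsg.Agent.O83.Cls
import Cfsg.Agent.S5515


set_option autoImplicit false
open Cfsg

namespace Cfsg.Agent.S5516

open Subgroup Cfsg.Agent.Comp Cfsg.Agent.O83

theorem classes {H ι : Type*} [Group H] [Finite H] (S : Subgroup H) (y : ι → H)
    (hS : ∀ i, y i ∈ S) (o3 : ∀ i, orderOf (y i) = 3) (inv : ∀ i, IsConj (y i)⁻¹ (y i))
    (uq : ∀ i j, IsConj (y i) (y j) → i = j)
    (cov : ∀ x ∈ S, orderOf x = 3 → ∃ i, IsConj x (y i)) :
    ∃ Y : ι → Subgroup H, (∀ i, Y i ≤ S ∧ Nat.card (Y i) = 3) ∧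
      (∀ i j, (∃ g : H, (Y i).map (MulAut.conj g).toMonoidHom = Y j) → i = j) ∧
      ∀ X : Subgroup H, X ≤ S → Nat.card X = 3 →
        ∃ i, ∃ g : H, X.map (MulAut.conj g).toMonoidHom = Y i := by
  haveI : Fact (Nat.Prime 3) := ⟨Nat.prime_three⟩
  refine ⟨fun i => zpowers (y i), fun i => ⟨zpowers_le.2 (hS i), by rw [Nat.card_zpowers, o3]⟩,
    ?_, ?_⟩
  · rintro i j ⟨g, hg⟩
    rw [MonoidHom.map_zpowers] at hg
    have h1 : (MulAut.conj g).toMonoidHom (y i) ∈ zpowers (y j) := hg.le (mem_zpowers _)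
    obtain ⟨k, hk⟩ := (mem_powers_iff_mem_zpowers).2 h1
    have hc : IsConj (y i) (y j ^ (k % 3)) := by
      rw [← o3 j, pow_mod_orderOf]
      exact isConj_iff.2 ⟨g, hk.symm⟩
    have h3 : k % 3 = 0 ∨ k % 3 = 1 ∨ k % 3 = 2 := by omega
    rcases h3 with h | h | h <;> rw [h] at hc
    · rw [pow_zero, isConj_one_left] at hc
      have := o3 i
      rw [hc, orderOf_one] at this
      omega
    · exact uq i j (by rwa [pow_one] at hc)
    · have : y j ^ 2 = (y j)⁻¹ := by
        rw [eq_inv_iff_mul_eq_one, ← pow_succ]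
        exact orderOf_dvd_iff_pow_eq_one.1 (o3 j).dvd
      exact uq i j ((this ▸ hc).trans (inv j))
  · intro X hX h3
    obtain ⟨x, hx⟩ := exists_prime_orderOf_dvd_card' (G := X) 3 (by rw [h3])
    have hx' : orderOf (x : H) = 3 := by rw [orderOf_coe, hx]
    obtain ⟨i, hi⟩ := cov x (hX x.2) hx'
    obtain ⟨g, hg⟩ := isConj_iff.1 hi
    refine ⟨i, g, ?_⟩
    rw [← eq_of_le_of_card_ge (zpowers_le.2 x.2) (by rw [h3, Nat.card_zpowers, hx']),
      MonoidHom.map_zpowers]
    exact congrArg zpowers hg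

/-- the representatives -/
noncomputable def r (i : Fin 13) : O83.PO := ev e ns (rp i)

/-- the generators -/
noncomputable def x (j : Fin 8) : O83.PO := ev e ns [2 * j]

theorem o3 (i : Fin 13) : orderOf (r i) = 3 :=
  haveI : Fact (Nat.Prime 3) := ⟨Nat.prime_three⟩
  mo.orderOf e 3 _ (t3 i)

theorem conj_cw (g : List ℕ) (i : Fin 13) : IsConj (ev e ns (cw g (rp i))) (r i) :=
  isConj_iff.2 ⟨ev e ns g, by simp only [cw, ev_appendR, ev_invW, r]; group⟩

theorem rinv (i : Fin 13) : IsConj (r i)⁻¹ (r i) := by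
  have := hqs _ _ (ti i)
  rw [ev_invW] at this
  exact (show (r i)⁻¹ = _ from this) ▸ conj_cw _ i

theorem cov (y : O83.PO) (hy : orderOf y = 3) : ∃ i, IsConj y (r i) := by
  obtain ⟨i, hi⟩ := cover y (orderOf_dvd_iff_pow_eq_one.1 hy.dvd)
  by_cases h : i < 13
  · exact ⟨⟨i, h⟩, hi⟩
  · rw [List.getD_eq_default _ _ (not_lt.1 h), ev_nil, isConj_one_left] at hi
    rw [hi, orderOf_one] at hy
    omega

theorem aut_ext {φ ψ : MulAut O83.PO} (h : ∀ j, φ (x j) = ψ (x j)) : φ = ψ := by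
  have := (mo.k.sub_le_iff e (ws := gs) (by decide +kernel)
    (H := MonoidHom.eqLocus φ.toMonoidHom ψ.toMonoidHom)).2 (by
      simp only [gs, List.forall_mem_cons, List.not_mem_nil, false_imp_iff, implies_true, and_true]
      exact ⟨h 0, h 1, h 2, h 3, h 4, h 5, h 6, h 7⟩)
  exact MulEquiv.ext fun y => this (pm_mem e y)

/-- triality -/
noncomputable def α : MulAut O83.PO := ex_a.choose

/-- a reflection -/
noncomputable def β : MulAut O83.PO := ex_b.choose

theorem xa (j : Fin 8) : α (x j) = x (ra j) := ex_a.choose_spec.ev mo hE blk (sa j)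

theorem xb (j : Fin 8) : β (x j) = x (rb j) := ex_b.choose_spec.ev mo hE blk (sb j)

theorem ca (i : Fin 13) : IsConj (α (r i)) (r (pa i)) :=
  (show α (r i) = _ from ex_a.choose_spec.ev mo hE blk (ta i)) ▸ conj_cw _ _

theorem cb (i : Fin 13) : IsConj (β (r i)) (r (pb i)) :=
  (show β (r i) = _ from ex_b.choose_spec.ev mo hE blk (O83.tb i)) ▸ conj_cw _ _

theorem uq (i j : Fin 13) (h : IsConj (r i) (r j)) : i = j := by
  have k : ∀ {i j}, IsConj (r i) (r j) → IsConj (r (pa i)) (r (pa j)) := fun h =>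
    (ca _).symm.trans ((α.toMonoidHom.map_isConj h).trans (ca _))
  have k1 : ∀ {i j}, IsConj (r i) (r j) → c1 j = c1 i := fun {i j} h => by
    rw [← (tc i).2.1, ← (tc j).2.1]; exact mo.cnt_eq e (tc i).1 (tc j).1 h
  have k2 : c2 j = c2 i := by
    rw [← (tc i).2.2, ← (tc j).2.2]; exact CT.cntB_eq mo e blk (tc i).1 (tc j).1 h
  exact (by decide +kernel : ∀ i j, c2 j = c2 i → c1 j = c1 i → c1 (pa j) = c1 (pa i) →
    c1 (pa (pa j)) = c1 (pa (pa i)) → i = j) i j k2 (k1 h) (k1 (k h)) (k1 (k (k h)))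

/-- the automorphisms that preserve the fused classes -/
def T : Submonoid (MulAut O83.PO) where
  carrier := {ψ | ∀ i, ∃ j, ob j = ob i ∧ IsConj (ψ (r i)) (r j)}
  one_mem' i := ⟨i, rfl, IsConj.refl _⟩
  mul_mem' {φ ψ} h h' i := by
    obtain ⟨j, a, b⟩ := h' i
    obtain ⟨k, c, d⟩ := h j
    exact ⟨k, c.trans a, (φ.toMonoidHom.map_isConj b).trans d⟩

theorem mem_T {ψ w : MulAut O83.PO} (hw : w ∈ T)
    (h : QuotientGroup.mk' (Inn O83.PO) ψ = QuotientGroup.mk' (Inn O83.PO) w) : ψ ∈ T := by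
  obtain ⟨_, ⟨p, rfl⟩, rfl⟩ := (QuotientGroup.mk'_eq_mk' _).1 h.symm
  exact mul_mem hw fun i => ⟨i, rfl, (isConj_iff.2 ⟨p, rfl⟩).symm⟩

theorem ne_one {ψ : MulAut O83.PO} {i j : Fin 13} (h : IsConj (ψ (r i)) (r j)) (hn : i ≠ j) :
    QuotientGroup.mk' (Inn O83.PO) ψ ≠ 1 := fun h1 => by
  obtain ⟨p, rfl⟩ := (QuotientGroup.eq_one_iff _).1 h1
  exact hn (uq i j ((isConj_iff.2 ⟨p, rfl⟩).trans h))

theorem exists_six : ∃ B : Subgroup (Out O83.PO), Nat.card B = 6 ∧
    QuotientGroup.mk' (Inn O83.PO) α ∈ B ∧ ∀ ψ, QuotientGroup.mk' (Inn O83.PO) ψ ∈ B → ψ ∈ T := by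
  haveI : Fact (Nat.Prime 3) := ⟨Nat.prime_three⟩
  have ε := S2608.result (F := ZMod 3) (p := 3) (f := 1) (m := 4) le_rfl (by simp) (by decide)
    le_rfl
  rw [if_pos rfl] at ε
  obtain ⟨ε⟩ := ε
  replace ε := ε.trans MulEquiv.prodUnique
  let π : MulAut O83.PO →* Equiv.Perm (Fin 4) := ε.toMonoidHom.comp (QuotientGroup.mk' (Inn O83.PO))
  have h1 : α ^ 3 = 1 := aut_ext fun j => by
    simp only [pow_succ, pow_zero, one_mul, MulAut.mul_apply, xa, MulAut.one_apply]
    revert j; exact fun j => congrArg x (by revert j; decide)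
  have h2 : β ^ 2 = 1 := aut_ext fun j => by
    simp only [pow_succ, pow_zero, one_mul, MulAut.mul_apply, xb, MulAut.one_apply]
    revert j; exact fun j => congrArg x (by revert j; decide)
  have h3 : (α * β) ^ 2 = 1 := aut_ext fun j => by
    simp only [pow_succ, pow_zero, one_mul, MulAut.mul_apply, xa, xb, MulAut.one_apply]
    revert j; exact fun j => congrArg x (by revert j; decide)
  obtain ⟨i, ha, hs⟩ := (by decide +kernel : ∀ a : Equiv.Perm (Fin 4), a ^ 3 = 1 → a ≠ 1 →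
      ∀ b : Equiv.Perm (Fin 4), b ^ 2 = 1 → b ≠ 1 → (a * b) ^ 2 = 1 → ∃ i, a i = i ∧
        ∀ c : Equiv.Perm (Fin 4), c i = i → c = 1 ∨ c = a ∨ c = a * a ∨ c = b ∨ c = a * b ∨
          c = a * a * b) (π α) (by rw [← map_pow, h1, map_one])
    (fun h => ne_one (ca 1) (by decide) (ε.map_eq_one_iff.1 h)) (π β)
    (by rw [← map_pow, h2, map_one]) (fun h => ne_one (cb 3) (by decide) (ε.map_eq_one_iff.1 h))
    (by rw [← map_mul, ← map_pow, h3, map_one])
  have hα : α ∈ T := fun i => ⟨pa i, by revert i; decide, ca i⟩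
  have hβ : β ∈ T := fun i => ⟨pb i, by revert i; decide, cb i⟩
  refine ⟨(MulAction.stabilizer _ i).comap ε.toMonoidHom, ?_, ha, fun ψ hψ => ?_⟩
  · rw [MulEquiv.toMonoidHom_eq_coe, comap_equiv_eq_map_symm,
      card_map_of_injective ε.symm.injective]
    have := (MulAction.stabilizer (Equiv.Perm (Fin 4)) i).card_mul_index
    rw [MulAction.index_stabilizer_of_transitive, Nat.card_perm] at this
    simp only [Nat.card_eq_fintype_card, Fintype.card_fin, Nat.factorial] at this ⊢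
    omega
  · have k : ∀ w ∈ T, π ψ = π w → ψ ∈ T := fun w hw h => mem_T hw (ε.injective h)
    rcases hs (π ψ) hψ with h | h | h | h | h | h
    · exact k 1 (one_mem _) (by rw [h, map_one])
    · exact k _ hα h
    · exact k _ (mul_mem hα hα) (by rw [h, map_mul])
    · exact k _ hβ h
    · exact k _ (mul_mem hα hβ) (by rw [h, map_mul])
    · exact k _ (mul_mem (mul_mem hα hα) hβ) (by rw [h, map_mul, map_mul])

section
variable {G P : Type*} [Group G] [Group P] {L : Subgroup G} [L.Normal]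

/-- the action on the normal subgroup -/
def act (e : L ≃* P) : G →* MulAut P := (MulAut.congr e).toMonoidHom.comp MulAut.conjNormal

theorem act_apply (e : L ≃* P) (g : G) (p : P) :
    (e.symm (act e g p) : G) = g * e.symm p * g⁻¹ := by
  simp [act, MulAut.congr_apply]

theorem act_coe (e : L ≃* P) (l : L) : act e l = MulAut.conj (e l) := by
  ext p
  refine e.symm.injective (Subtype.ext ?_)
  rw [act_apply]
  simp

theorem inn_le (e : L ≃* P) : Inn P ≤ (act e).range := by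
  rintro _ ⟨p, rfl⟩
  obtain ⟨p, rfl⟩ := e.surjective p
  exact ⟨p, act_coe e p⟩

theorem act_trans (e : L ≃* P) (γ : MulAut P) (g : G) :
    act (e.trans γ) g = γ * act e g * γ⁻¹ := by
  ext p
  simp [act, MulAut.congr_apply]

end

theorem card_six {G P : Type*} [Group G] [Finite G] [Group P] (hP : center P = ⊥)
    [(generalizedFittingSubgroup G).Normal] (e : generalizedFittingSubgroup G ≃* P)
    (q : G ⧸ generalizedFittingSubgroup G ≃* Equiv.Perm (Fin 3)) :
    Nat.card ((act e).range.map (QuotientGroup.mk' (Inn P))) = 6 := by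
  have : Finite P := Finite.of_equiv _ e.toEquiv
  have hc : Function.Injective (MulAut.conj : P →* MulAut P) := by
    rw [injective_iff_map_eq_one]
    intro p hp
    rw [← mem_bot, ← hP, mem_center_iff]
    intro g
    have := DFunLike.congr_fun hp g
    rw [MulAut.conj_apply, MulAut.one_apply, mul_inv_eq_iff_eq_mul] at this
    exact this.symm
  have hinj : Function.Injective (act e) := by
    rw [injective_iff_map_eq_one]
    intro g hg
    have h1 : g ∈ generalizedFittingSubgroup G := PLocal.centralizer_fstar_le G fun y hy => by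
      have := act_apply e g (e ⟨y, hy⟩)
      rw [hg, MulAut.one_apply, e.symm_apply_apply] at this
      exact eq_mul_inv_iff_mul_eq.1 this
    have := hc ((act_coe e ⟨g, h1⟩).symm.trans (hg.trans (map_one _).symm))
    exact congrArg Subtype.val (e.map_eq_one_iff.1 this)
  rw [← relIndex_ker, QuotientGroup.ker_mk']
  have h1 := card_mul_index ((Inn P).subgroupOf (act e).range)
  rw [Nat.card_congr (subgroupOfEquivOfLe (inn_le e)).toEquiv,
    ← Nat.card_congr (MonoidHom.ofInjective hc).toEquiv,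
    ← Nat.card_congr (MonoidHom.ofInjective hinj).toEquiv,
    card_eq_card_quotient_mul_card_subgroup (generalizedFittingSubgroup G),
    Nat.card_congr q.toEquiv, Nat.card_congr e.toEquiv, Nat.card_perm, mul_comm] at h1
  exact (Nat.eq_of_mul_eq_mul_right Nat.card_pos h1).trans (by simp; rfl)

/-- PΩ⁺(8, 3) (the commutator subgroup of the isometry group of the hyperbolic quadratic form in dimension 8 over the field with three elements, modulo its centre) has exactly 13 conjugacy classes of subgroups of order 3; and a finite group G whose generalized Fitting subgroup L is isomorphic to PΩ⁺(8, 3) with G/L the symmetric group of degree 3 has exactly 7 orbits, under conjugation, on the subgroups of L of order 3. -/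
theorem result {G : Type*} [Group G] [Finite G] (L : Subgroup G) (hL : L = Cfsg.generalizedFittingSubgroup G) (hF : Nonempty (↥L ≃* Cfsg.POmega (ZMod 3) (Cfsg.quadFormPlus 4 (ZMod 3)))) [hn : L.Normal] (hq : Nonempty (G ⧸ L ≃* Equiv.Perm (Fin 3))) : (∃ Y : Fin 13 → Subgroup (Cfsg.POmega (ZMod 3) (Cfsg.quadFormPlus 4 (ZMod 3))), (∀ i, Nat.card (Y i) = 3) ∧ (∀ i j, (∃ g : Cfsg.POmega (ZMod 3) (Cfsg.quadFormPlus 4 (ZMod 3)), (Y i).map (MulAut.conj g).toMonoidHom = Y j) → i = j) ∧ (∀ X : Subgroup (Cfsg.POmega (ZMod 3) (Cfsg.quadFormPlus 4 (ZMod 3))), Nat.card X = 3 → ∃ i, ∃ g : Cfsg.POmega (ZMod 3) (Cfsg.quadFormPlus 4 (ZMod 3)), X.map (MulAut.conj g).toMonoidHom = Y i)) ∧ ∃ Y : Fin 7 → Subgroup G, (∀ i, Y i ≤ L ∧ Nat.card (Y i) = 3) ∧ (∀ i j, (∃ g : G, (Y i).map (MulAut.conj g).toMonoidHom = Y j) → i = j) ∧ ∀ X : Subgroup G, X ≤ L → Nat.card X = 3 → ∃ i, ∃ g : G, X.map (MulAut.conj g).toMonoidHom = Y i := by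
  subst hL
  have : Finite O83.PO := mo.finite e
  refine ⟨?_, ?_⟩
  · obtain ⟨Y, a, b, c⟩ := classes ⊤ r (fun _ => trivial) o3 rinv uq fun y _ => cov y
    exact ⟨Y, fun i => (a i).2, b, fun X => c X le_top⟩
  obtain ⟨e0⟩ := hF
  obtain ⟨B, hB, hα, hT⟩ := exists_six
  obtain ⟨γ, rfl⟩ := S5515.conj_six (by
    haveI : Fact (Nat.Prime 3) := ⟨Nat.prime_three⟩
    have ε := S2608.result (F := ZMod 3) (p := 3) (f := 1) (m := 4) le_rfl (by simp) (by decide)
      le_rfl
    rw [if_pos rfl] at ε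
    exact ε.some.trans MulEquiv.prodUnique) _ B (card_six S5515.center_eq e0 hq.some) hB
  obtain ⟨γ, rfl⟩ := QuotientGroup.mk'_surjective _ γ
  set e1 := e0.trans γ with he1
  have hm : ∀ g, (MulAut.conj (QuotientGroup.mk' (Inn O83.PO) γ)).toMonoidHom
      (QuotientGroup.mk' (Inn O83.PO) (act e0 g)) = QuotientGroup.mk' (Inn O83.PO) (act e1 g) := fun g => by
    rw [he1, act_trans, map_mul, map_mul, map_inv]; rfl
  have h1 : ∀ g, act e1 g ∈ T := fun g => hT _ ⟨_, ⟨_, ⟨g, rfl⟩, rfl⟩, hm g⟩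
  obtain ⟨a, ha⟩ : α ∈ (act e1).range := by
    obtain ⟨_, ⟨_, ⟨g, rfl⟩, rfl⟩, h⟩ := hα
    obtain ⟨z, hz, h⟩ := (QuotientGroup.mk'_eq_mk' _).1 ((hm g).symm.trans h)
    exact h ▸ mul_mem ⟨g, rfl⟩ (inn_le e1 hz)
  let ι : O83.PO →* G := (generalizedFittingSubgroup G).subtype.comp e1.symm.toMonoidHom
  have hι : Function.Injective ι := Subtype.val_injective.comp e1.symm.injective
  have hg : ∀ g p, ι (act e1 g p) = g * ι p * g⁻¹ := act_apply e1
  have h2 : ∀ i, IsConj (ι (r i)) (ι (r (pa i))) := fun i =>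
    (isConj_iff.2 ⟨a, by rw [← hg, ha]⟩).trans (ι.map_isConj (ca i))
  refine classes _ (fun k => ι (r (rh k))) (fun k => (e1.symm _).2)
    (fun k => by rw [orderOf_injective ι hι, o3])
    (fun k => by rw [← map_inv]; exact ι.map_isConj (rinv _)) (fun k l h => ?_) fun y hy h3 => ?_
  · obtain ⟨g, h⟩ := isConj_iff.1 h
    obtain ⟨j, b, c⟩ := h1 g (rh k)
    rw [hι ((hg g _).trans h)] at c
    rw [← uq _ _ c] at b
    exact (by decide : ∀ k l, ob (rh l) = ob (rh k) → k = l) k l b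
  · obtain ⟨p, rfl⟩ : ∃ p, ι p = y := ⟨e1 ⟨y, hy⟩, by simp [ι]⟩
    obtain ⟨i, hi⟩ := cov p (by rwa [orderOf_injective ι hι] at h3)
    refine ⟨ob i, (ι.map_isConj hi).trans ?_⟩
    rcases (by decide : ∀ i, rh (ob i) = i ∨ rh (ob i) = pa i ∨ rh (ob i) = pa (pa i)) i with
      h | h | h <;> simp only [h]
    · exact IsConj.refl _
    · exact h2 i
    · exact (h2 i).trans (h2 _)

end Cfsg.Agent.S5516
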