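import Cfsg.Statements.S5541


set_option autoImplicit false
open Cfsg

namespace Cfsg.Agent.S5541



/-- Let ρ be a representation of a group H on a finite-dimensional real vector space U whose only ρ-invariant subspaces are the zero subspace and U, and suppose U carries a non-zero ρ-invariant symmetric bilinear form. Then the following are equivalent: (1) there is a non-zero ρ-equivariant commutative bilinear product on U of which every ρ-equivariant bilinear product is a scalar multiple; (2) there is a non-zero ρ-invariant trilinear form on U that is symmetric under all permutations of its arguments and of which every ρ-invariant trilinear form is a scalar multiple. -/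
theorem result {H : Type*} [Group H] {U : Type*} [AddCommGroup U] [Module ℝ U] [FiniteDimensional ℝ U] (ρ : Representation ℝ H U) (hirr : ∀ W : Submodule ℝ U, (∀ g : H, W.map (ρ g) ≤ W) → W = ⊥ ∨ W = ⊤) (B : LinearMap.BilinForm ℝ U) (hB0 : B ≠ 0) (hBs : ∀ u v, B u v = B v u) (hBi : ∀ (g : H) (u v : U), B (ρ g u) (ρ g v) = B u v) : (∃ m : U →ₗ[ℝ] U →ₗ[ℝ] U, m ≠ 0 ∧ (∀ u v, m u v = m v u) ∧ (∀ (g : H) (u v : U), m (ρ g u) (ρ g v) = ρ g (m u v)) ∧ ∀ m' : U →ₗ[ℝ] U →ₗ[ℝ] U, (∀ (g : H) (u v : U), m' (ρ g u) (ρ g v) = ρ g (m' u v)) → ∃ c : ℝ, m' = c • m) ↔ (∃ t : U →ₗ[ℝ] U →ₗ[ℝ] U →ₗ[ℝ] ℝ, t ≠ 0 ∧ (∀ u v w, t u v w = t v u w ∧ t u v w = t u w v) ∧ (∀ (g : H) (u v w : U), t (ρ g u) (ρ g v) (ρ g w) = t u v w) ∧ ∀ t' : U →ₗ[ℝ] U →ₗ[ℝ] U →ₗ[ℝ] ℝ, (∀ (g : H) (u v w : U), t' (ρ g u) (ρ g v) (ρ g w) = t' u v w) → ∃ c : ℝ, t' = c • t) := by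
  classical
  -- nondegeneracy
  have hnd : ∀ u, (∀ w, B u w = 0) → u = 0 := by
    rcases hirr (LinearMap.ker B) (by
      intro g
      rintro _ ⟨u, hu, rfl⟩
      rw [SetLike.mem_coe, LinearMap.mem_ker] at hu
      rw [LinearMap.mem_ker]
      ext w
      have : w = ρ g (ρ g⁻¹ w) := by simp
      rw [this, hBi, hu]; rfl) with h | h
    · intro u hu
      have : u ∈ LinearMap.ker B := by rw [LinearMap.mem_ker]; ext w; exact hu w
      rw [h] at this; simpa using this
    · exact absurd (LinearMap.ker_eq_top.1 h) hB0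
  have hinj : Function.Injective B := by
    rw [← LinearMap.ker_eq_bot, LinearMap.ker_eq_bot']
    intro u hu
    exact hnd u (fun w => by rw [hu]; rfl)
  have hsurj : Function.Surjective B :=
    (LinearMap.injective_iff_surjective_of_finrank_eq_finrank (Subspace.dual_finrank_eq).symm).1 hinj
  let e : U ≃ₗ[ℝ] (U →ₗ[ℝ] ℝ) := LinearEquiv.ofBijective B ⟨hinj, hsurj⟩
  have he : ∀ f : U →ₗ[ℝ] ℝ, B (e.symm f) = f := fun f => e.apply_symm_apply f
  have ext' : ∀ a b : U, (∀ w, B a w = B b w) → a = b := fun a b h => hinj (LinearMap.ext h)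
  -- product attached to an invariant trilinear form
  have prod : ∀ t : U →ₗ[ℝ] U →ₗ[ℝ] U →ₗ[ℝ] ℝ,
      (∀ (g : H) (u v w : U), t (ρ g u) (ρ g v) (ρ g w) = t u v w) →
      ∃ m : U →ₗ[ℝ] U →ₗ[ℝ] U, (∀ u v w, B (m u v) w = t u v w) ∧
        ∀ (g : H) (u v : U), m (ρ g u) (ρ g v) = ρ g (m u v) := by
    intro t ht
    refine ⟨t.compr₂ (e.symm : (U →ₗ[ℝ] ℝ) →ₗ[ℝ] U), fun u v w => ?_, fun g u v => ?_⟩
    · simp [he]
    · apply ext'
      intro w
      have : w = ρ g (ρ g⁻¹ w) := by simp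
      rw [this, hBi]
      simp only [LinearMap.compr₂_apply, LinearEquiv.coe_coe, he, ht]
  have form : ∀ m : U →ₗ[ℝ] U →ₗ[ℝ] U, (∀ (g : H) (u v : U), m (ρ g u) (ρ g v) = ρ g (m u v)) →
      ∀ (g : H) (u v w : U), (m.compr₂ B) (ρ g u) (ρ g v) (ρ g w) = (m.compr₂ B) u v w := by
    intro m hm g u v w
    simp only [LinearMap.compr₂_apply, hm, hBi]
  constructor
  · rintro ⟨m, hm0, hmc, hmi, hu⟩
    have uniq : ∀ t' : U →ₗ[ℝ] U →ₗ[ℝ] U →ₗ[ℝ] ℝ,
        (∀ (g : H) (u v w : U), t' (ρ g u) (ρ g v) (ρ g w) = t' u v w) →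
        ∃ c : ℝ, t' = c • m.compr₂ B := by
      intro t' ht'
      obtain ⟨m', h1, h2⟩ := prod t' ht'
      obtain ⟨c, hc⟩ := hu m' h2
      refine ⟨c, ?_⟩
      ext u v w
      rw [← h1, hc]; simp
    have t0 : m.compr₂ B ≠ 0 := by
      intro h
      apply hm0
      ext u v
      apply hnd
      intro w
      have := congrArg (fun t : U →ₗ[ℝ] U →ₗ[ℝ] U →ₗ[ℝ] ℝ => t u v w) h
      simpa using this
    set t := m.compr₂ B with ht
    have s1 : ∀ u v w, t u v w = t v u w := by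
      intro u v w; simp only [ht, LinearMap.compr₂_apply, hmc u v]
    obtain ⟨c, hc⟩ := uniq ((LinearMap.lflip : (U →ₗ[ℝ] U →ₗ[ℝ] ℝ) ≃ₗ[ℝ] _).toLinearMap ∘ₗ t) (by
      intro g u v w
      exact form m hmi g u w v)
    have hc' : ∀ u v w, t u w v = c * t u v w := fun u v w =>
      congrArg (fun t : U →ₗ[ℝ] U →ₗ[ℝ] U →ₗ[ℝ] ℝ => t u v w) hc
    obtain ⟨u, v, w, hne⟩ : ∃ u v w, t u v w ≠ 0 := by
      by_contra hall
      push Not at hall
      exact t0 (by ext u v w; exact hall u v w)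
    have c2 : c * c = 1 := by
      have := hc' u w v
      rw [hc' u v w, ← mul_assoc] at this
      exact (mul_eq_right₀ hne).1 this.symm
    have c3 : c * c * c = 1 := by
      have a1 : t u v w = c * t u w v := hc' u w v
      have a2 : t w u v = c * t w v u := hc' w v u
      have a3 : t v w u = c * t v u w := hc' v u w
      rw [s1 u w v, a2, s1 w v u, a3, s1 v u w, ← mul_assoc, ← mul_assoc] at a1
      exact (mul_eq_right₀ hne).1 a1.symm
    have c1 : c = 1 := by rw [c2, one_mul] at c3; exact c3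
    refine ⟨t, t0, fun u v w => ⟨s1 u v w, ?_⟩, form m hmi, uniq⟩
    rw [hc' u v w, c1, one_mul]
  · rintro ⟨t, ht0, hts, hti, hu⟩
    obtain ⟨m, h1, h2⟩ := prod t hti
    refine ⟨m, ?_, fun u v => ext' _ _ fun w => by rw [h1, h1, (hts u v w).1], h2, ?_⟩
    · intro h
      apply ht0
      ext u v w
      rw [← h1, h]; simp
    · intro m' hm'
      obtain ⟨c, hc⟩ := hu _ (form m' hm')
      refine ⟨c, ?_⟩
      ext u v
      apply ext'
      intro w
      have := congrArg (fun t : U →ₗ[ℝ] U →ₗ[ℝ] U →ₗ[ℝ] ℝ => t u v w) hc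
      simp only [LinearMap.compr₂_apply, LinearMap.smul_apply, smul_eq_mul] at this
      simp only [LinearMap.smul_apply, map_smul, smul_eq_mul, h1, this]


end Cfsg.Agent.S5541
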