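import Cfsg.Statements.S5543
import Cfsg.Agent.TT.Axial

set_option autoImplicit false
open Cfsg

namespace Cfsg.Agent.S5543



/-- Let V be a finite-dimensional real vector space with a commutative bilinear product and a positive-definite symmetric bilinear form that associates with the product and satisfies the Norton inequality (the Majorana setting of the definitions). Let X be a group of linear automorphisms of V in which every element squares to the identity, and suppose every non-identity element x of X is a Majorana involution with an axial vector a(x) of squared length 1, such that for any two distinct non-identity x, y the product a(x) ∘ a(y) equals (1/8)(a(x) + a(y) − a(xy)) (the dihedral subalgebra of type 2A whose third axis belongs to the involution xy). Then X has order at most 4. -/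
theorem result {V : Type*} [AddCommGroup V] [Module ℝ V] [FiniteDimensional ℝ V] (mul : V →ₗ[ℝ] V →ₗ[ℝ] V) (B : LinearMap.BilinForm ℝ V) (hV : Cfsg.Axial.IsMajoranaAmbient mul B) (X : Subgroup (V ≃ₗ[ℝ] V)) (hX : ∀ x ∈ X, x * x = 1) (ax : (V ≃ₗ[ℝ] V) → V) (hax : ∀ x ∈ X, x ≠ 1 → Cfsg.Axial.IsMajoranaPair mul B x (ax x)) (h1 : ∀ x ∈ X, x ≠ 1 → B (ax x) (ax x) = 1) (h2A : ∀ x ∈ X, ∀ y ∈ X, x ≠ 1 → y ≠ 1 → x ≠ y → mul (ax x) (ax y) = (1 / 8 : ℝ) • (ax x + ax y - ax (x * y))) : Nat.card ↥X ≤ 4 := by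
  classical
  by_contra hlt
  push Not at hlt
  have hfin : Finite X := Nat.finite_of_card_ne_zero (by omega)
  obtain ⟨hcm, hBs, hBp, hBa, -⟩ := hV
  have hcomm : ∀ x ∈ X, ∀ y ∈ X, x * y = y * x := by
    intro x hx y hy
    have h1 := hX _ (X.mul_mem hx hy)
    have h2 := hX x hx
    have h3 := hX y hy
    calc x * y = x * (x * y * (x * y)) * y * 1 * 1 * (1 : V ≃ₗ[ℝ] V) := by rw [h1]; simp
      _ = (x * x) * (y * x) * (y * y) := by simp only [mul_assoc, mul_one]
      _ = y * x := by rw [h2, h3]; simp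
  have pick : ∀ s : Finset X, s.card ≤ 4 → ∃ z : X, z ∉ s := by
    intro s hs
    by_contra hall
    push Not at hall
    have := Fintype.ofFinite X
    have : s = Finset.univ := Finset.eq_univ_iff_forall.2 hall
    rw [this, Finset.card_univ, ← Nat.card_eq_fintype_card] at hs
    omega
  obtain ⟨x, hx⟩ := pick {1} (by simp)
  obtain ⟨y, hy⟩ := pick {1, x} (Finset.card_le_two.trans (by norm_num))
  obtain ⟨z, hz⟩ := pick {1, x, y, x * y} Finset.card_le_four
  simp only [Finset.mem_insert, Finset.mem_singleton, not_or] at hx hy hz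
  obtain ⟨x, hxX⟩ := x
  obtain ⟨y, hyX⟩ := y
  obtain ⟨z, hzX⟩ := z
  have x1 : x ≠ 1 := fun h => hx (Subtype.ext h)
  have y1 : y ≠ 1 := fun h => hy.1 (Subtype.ext h)
  have yx : y ≠ x := fun h => hy.2 (Subtype.ext h)
  have z1 : z ≠ 1 := fun h => hz.1 (Subtype.ext h)
  have zx : z ≠ x := fun h => hz.2.1 (Subtype.ext h)
  have zy : z ≠ y := fun h => hz.2.2.1 (Subtype.ext h)
  have zxy : z ≠ x * y := fun h => hz.2.2.2 (Subtype.ext h)
  -- products are nontrivial
  have ne1 : ∀ a ∈ X, ∀ b ∈ X, a ≠ b → a * b ≠ 1 := by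
    intro a ha b hb hab h
    apply hab
    calc a = a * (b * b) := by rw [hX b hb, mul_one]
      _ = b := by rw [← mul_assoc, h, one_mul]
  have cancel : ∀ a ∈ X, ∀ b, a * (a * b) = b := by
    intro a ha b; rw [← mul_assoc, hX a ha, one_mul]
  -- the quarter eigenvectors
  have quarter : ∀ a ∈ X, ∀ b ∈ X, a ≠ 1 → b ≠ 1 → a ≠ b →
      mul (ax a) (ax b - ax (a * b)) = (1 / 4 : ℝ) • (ax b - ax (a * b)) := by
    intro a ha b hb a1 b1 hab
    have h2 : a ≠ a * b := fun h => b1 (by simpa using h)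
    rw [map_sub, h2A a ha b hb a1 b1 hab, h2A a ha _ (X.mul_mem ha hb) a1 (ne1 a ha b hb hab) h2,
      cancel a ha]
    module
  have inner : ∀ a ∈ X, ∀ b ∈ X, a ≠ 1 → b ≠ 1 → a ≠ b → B (ax a) (ax b) = 1 / 8 := by
    intro a ha b hb a1 b1 hab
    have h2 : a ≠ a * b := fun h => b1 (by simpa using h)
    have idem : mul (ax a) (ax a) = ax a := (hax a ha a1).2.2.1.1.2.1
    have e1 := hBa (ax a) (ax a) (ax b)
    have e2 := hBa (ax a) (ax a) (ax (a * b))
    rw [idem, h2A a ha b hb a1 b1 hab] at e1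
    rw [idem, h2A a ha _ (X.mul_mem ha hb) a1 (ne1 a ha b hb hab) h2, cancel a ha] at e2
    simp only [map_smul, map_add, map_sub, h1 a ha a1, smul_eq_mul] at e1 e2
    linarith
  have hxy := X.mul_mem hxX hyX
  have hxz := X.mul_mem hxX hzX
  have hyz := X.mul_mem hyX hzX
  have xy1 := ne1 x hxX y hyX yx.symm
  have xz1 := ne1 x hxX z hzX zx.symm
  have yz1 := ne1 y hyX z hzX zy.symm
  have x_yz : x ≠ y * z := by
    intro h
    apply zxy
    rw [hcomm x hxX y hyX, h, cancel y hyX]
  have y_xz : y ≠ x * z := by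
    intro h
    apply zxy
    rw [h, cancel x hxX]
  have xy_xz : x * y ≠ x * z := fun h => zy (mul_left_cancel h).symm
  have key := TT.IsMajoranaPair_q_q (hax x hxX x1) (quarter x hxX y hyX x1 y1 yx.symm)
    (quarter x hxX z hzX x1 z1 zx.symm)
  have e1 : y * (x * z) = x * (y * z) := by rw [← mul_assoc, ← hcomm x hxX y hyX, mul_assoc]
  have e2 : x * y * z = x * (y * z) := mul_assoc _ _ _
  have e3 : x * y * (x * z) = y * z := by
    rw [hcomm x hxX y hyX, mul_assoc, cancel x hxX]
  have prod : mul (ax y - ax (x * y)) (ax z - ax (x * z)) =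
      (-1 / 4 : ℝ) • (ax (y * z) - ax (x * (y * z))) := by
    simp only [map_sub, LinearMap.sub_apply]
    rw [h2A y hyX z hzX y1 z1 zy.symm, h2A y hyX _ hxz y1 xz1 y_xz,
      h2A _ hxy z hzX xy1 z1 zxy.symm, h2A _ hxy _ hxz xy1 xz1 xy_xz, e1, e2, e3]
    module
  have q := quarter x hxX _ hyz x1 yz1 x_yz
  rw [prod] at key
  simp only [map_smul, q] at key
  have hw : ax (y * z) - ax (x * (y * z)) = 0 := by
    have : (3 / 64 : ℝ) • (ax (y * z) - ax (x * (y * z))) = 0 := by
      have h := sub_eq_zero.2 key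
      rw [← h]; module
    simpa using this
  have h8 := inner _ hyz _ (X.mul_mem hxX hyz) yz1 (ne1 x hxX _ hyz x_yz)
    (fun h => x1 (by simpa using h))
  rw [← sub_eq_zero.1 hw, h1 _ hyz yz1] at h8
  norm_num at h8


end Cfsg.Agent.S5543
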