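import Cfsg.Statements.S5544
import Cfsg.Agent.TT.Sakuma

set_option autoImplicit false
open Cfsg

namespace Cfsg.Agent.S5544



/-- Let V be a finite-dimensional real vector space with a commutative bilinear product and a positive-definite symmetric bilinear form that associates with the product and satisfies the Norton inequality (the Majorana setting of the definitions). Let μ₀ and μ₁ be Majorana involutions with axial vectors a₀ and a₁ of squared length 1, each involution having no other axial vector. Then the product μ₀μ₁ has order at most 6: some power (μ₀μ₁)^n with 1 ≤ n ≤ 6 is the identity (so the two involutions generate a dihedral group of order at most 12). This is the 6-transposition property of Majorana involutions. -/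
theorem result {V : Type*} [AddCommGroup V] [Module ℝ V] [FiniteDimensional ℝ V] (mul : V →ₗ[ℝ] V →ₗ[ℝ] V) (B : LinearMap.BilinForm ℝ V) (hV : Cfsg.Axial.IsMajoranaAmbient mul B) (μ₀ μ₁ : V ≃ₗ[ℝ] V) (a₀ a₁ : V) (h₀ : Cfsg.Axial.IsMajoranaPair mul B μ₀ a₀) (h₁ : Cfsg.Axial.IsMajoranaPair mul B μ₁ a₁) (hu₀ : ∀ a : V, Cfsg.Axial.IsMajoranaPair mul B μ₀ a → a = a₀) (hu₁ : ∀ a : V, Cfsg.Axial.IsMajoranaPair mul B μ₁ a → a = a₁) (hn₀ : B a₀ a₀ = 1) (hn₁ : B a₁ a₁ = 1) : ∃ n : ℕ, 1 ≤ n ∧ n ≤ 6 ∧ (μ₀ * μ₁) ^ n = 1 := by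
  by_contra hcon
  push Not at hcon
  have s0 := TT.maj_sq h₀
  have s1 := TT.maj_sq h₁
  have i0 : μ₀⁻¹ = μ₀ := inv_eq_of_mul_eq_one_right s0
  have i1 : μ₁⁻¹ = μ₁ := inv_eq_of_mul_eq_one_right s1
  have c0 : ∀ x, μ₀ * (μ₀ * x) = x := fun x => by rw [← mul_assoc, s0, one_mul]
  have c1 : ∀ x, μ₁ * (μ₁ * x) = x := fun x => by rw [← mul_assoc, s1, one_mul]
  set ρ := μ₀ * μ₁ with hρ
  have hρi : ρ⁻¹ = μ₁ * μ₀ := by rw [hρ, mul_inv_rev, i0, i1]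
  -- the axes
  let P : ℤ → V → Prop := fun k v => Cfsg.Axial.IsMajoranaPair mul B (μ₀ * ρ ^ k) v ∧ B v v = 1
  have refl0 : ∀ k v, P k v → P (-k) (μ₀ v) := by
    rintro k v ⟨h, hn⟩
    refine ⟨?_, by rw [h₀.2.1, hn]⟩
    have := TT.maj_conj h h₀.1 h₀.2.1
    convert this using 1
    have e : μ₀ * ρ * μ₀⁻¹ = ρ⁻¹ := by rw [hρi, hρ, c0, i0]
    have e2 : μ₀ * ρ ^ k * μ₀⁻¹ = ρ ^ (-k) := by
      rw [← conj_zpow, e, inv_zpow']
    rw [← e2]; simp only [mul_assoc]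
  have refl1 : ∀ k v, P k v → P (2 - k) (μ₁ v) := by
    rintro k v ⟨h, hn⟩
    refine ⟨?_, by rw [h₁.2.1, hn]⟩
    have := TT.maj_conj h h₁.1 h₁.2.1
    convert this using 1
    have e : μ₁ * ρ⁻¹ * μ₁⁻¹ = ρ := by rw [hρi, hρ, c1, i1]
    have e2 : μ₁ * ρ ^ (k - 1) * μ₁⁻¹ = ρ ^ (1 - k) := by
      have : ρ ^ (k - 1) = ρ⁻¹ ^ (1 - k) := by rw [inv_zpow']; congr 1; ring
      rw [this, ← conj_zpow, e]
    have e3 : μ₀ * ρ = μ₁ := by rw [hρ, c0]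
    calc μ₀ * ρ ^ (2 - k) = μ₀ * ρ * ρ ^ (1 - k) := by
          rw [mul_assoc, ← zpow_one_add]; congr 2; ring
      _ = μ₁ * (μ₀ * ρ * ρ ^ (k - 1)) * μ₁⁻¹ := by rw [← e2, e3]; simp only [mul_assoc]
      _ = μ₁ * (μ₀ * ρ ^ k) * μ₁⁻¹ := by
          rw [mul_assoc μ₀ ρ, ← zpow_one_add]; congr 4; ring
  have ne : ∀ i j u v, P i u → P j v → i < j → j ≤ i + 6 → u ≠ v := by
    rintro i j u v ⟨hu, -⟩ ⟨hv, -⟩ hij hji rfl
    have := mul_left_cancel (TT.maj_unique hu hv)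
    apply hcon (j - i).toNat (by omega) (by omega)
    rw [← zpow_natCast, Int.toNat_of_nonneg (by omega), zpow_sub, ← this, mul_inv_cancel]
  have bd : ∀ i j u v, P i u → P j v → i < j → j ≤ i + 6 →
      (0 ≤ B u v ∧ B u v ≤ 1 / 3) ∧ B v u = B u v := fun i j u v hu hv h1 h2 =>
    ⟨TT.maj_le_third hV hu.1 hu.2 (TT.maj_idem hv.1) hv.2 (ne i j u v hu hv h1 h2), hV.2.1 _ _⟩
  have p0 : P 0 a₀ := ⟨by simpa using h₀, hn₀⟩
  have p1 : P 1 a₁ := ⟨by simpa [hρ, c0] using h₁, hn₁⟩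
  have pm1 : P (-1) (μ₀ a₁) := refl0 _ _ p1
  have p2 : P 2 (μ₁ a₀) := refl1 _ _ p0
  have pm2 : P (-2) (μ₀ (μ₁ a₀)) := refl0 _ _ p2
  have p3 : P 3 (μ₁ (μ₀ a₁)) := refl1 _ _ pm1
  have p4 : P 4 (μ₁ (μ₀ (μ₁ a₀))) := refl1 _ _ pm2
  obtain ⟨c₀, c₁, e, hs⟩ := TT.sig_sq hV h₀ h₁ hn₀ hn₁
  have hs' := congrArg μ₁ hs
  have m11 : μ₁ (μ₁ a₀) = a₀ := congrArg (fun f : V ≃ₗ[ℝ] V => f a₀) s1
  have f1 : μ₁ (TT.sig mul a₀ a₁) = TT.sig mul a₀ a₁ := by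
    rw [TT.sig_comm hV a₀ a₁, TT.map_sig h₁.1, TT.maj_fix h₁, (TT.maj_facts hV h₁ hn₁ a₀).1]
  have f2 : μ₁ (TT.sig mul a₀ (μ₁ a₀)) = TT.sig mul a₀ (μ₁ a₀) := by
    rw [TT.map_sig h₁.1, m11, TT.sig_comm hV]
  have f3 : μ₁ (TT.sig mul a₁ (μ₀ a₁)) = TT.sig mul a₁ (μ₀ a₁) := by
    rw [TT.map_sig h₁.1, TT.maj_fix h₁, (TT.maj_facts hV h₁ hn₁ _).1]
  simp only [h₁.1, map_add, map_sub, map_smul, f1, f2, f3, m11, TT.maj_fix h₁] at hs'
  have strict := TT.maj_bounds hV h₀ hn₀ (TT.maj_idem h₁) hn₁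
  have hl : B (μ₀ a₁) a₀ = B a₀ a₁ := by
    rw [hV.2.1]; conv_lhs => rw [← TT.maj_fix h₀]
    exact h₀.2.1 _ _
  have bm11 := bd _ _ _ _ pm1 p1 (by norm_num) (by norm_num)
  have b01 := bd _ _ _ _ p0 p1 (by norm_num) (by norm_num)
  have l0 : 0 < B a₀ a₁ := by
    rcases b01.1.1.lt_or_eq with h | h
    · exact h
    · have := strict.2.1
      rw [← h, bm11.2] at this
      linarith [bm11.1.2]
  have l1 : B a₀ a₁ < 1 / 3 := by
    rcases b01.1.2.lt_or_eq with h | h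
    · exact h
    · have := strict.2.2
      rw [h, bm11.2] at this
      linarith [bm11.1.2]
  have n0 := hn₀
  have nm1 := pm1.2
  have nm2 := pm2.2
  have n2 := p2.2
  have n3 := p3.2
  have n4 := p4.2
  have b1 := bd _ _ _ _ pm2 pm1 (by norm_num) (by norm_num)
  have b2 := bd _ _ _ _ pm2 p0 (by norm_num) (by norm_num)
  have b3 := bd _ _ _ _ pm2 p2 (by norm_num) (by norm_num)
  have b4 := bd _ _ _ _ pm2 p3 (by norm_num) (by norm_num)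
  have b5 := bd _ _ _ _ pm2 p4 (by norm_num) (by norm_num)
  have b6 := bd _ _ _ _ pm1 p0 (by norm_num) (by norm_num)
  have b7 := bd _ _ _ _ pm1 p2 (by norm_num) (by norm_num)
  have b8 := bd _ _ _ _ pm1 p3 (by norm_num) (by norm_num)
  have b9 := bd _ _ _ _ pm1 p4 (by norm_num) (by norm_num)
  have b10 := bd _ _ _ _ p0 p2 (by norm_num) (by norm_num)
  have b11 := bd _ _ _ _ p0 p3 (by norm_num) (by norm_num)
  have b12 := bd _ _ _ _ p0 p4 (by norm_num) (by norm_num)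
  have b13 := bd _ _ _ _ p2 p3 (by norm_num) (by norm_num)
  have b14 := bd _ _ _ _ p2 p4 (by norm_num) (by norm_num)
  have b15 := bd _ _ _ _ p3 p4 (by norm_num) (by norm_num)
  generalize μ₁ (μ₀ (μ₁ a₀)) = a₄ at *
  generalize μ₁ (μ₀ a₁) = a₃ at *
  generalize μ₀ (μ₁ a₀) = n₂ at *
  generalize μ₀ a₁ = n₁ at *
  generalize μ₁ a₀ = a₂ at *
  have rel : (c₀ * (196608 / 49) - 1) • (a₂ - a₀) + (c₁ * (196608 / 49)) • (a₃ - n₁) +
      (a₄ - n₂) = 0 := by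
    linear_combination (norm := module) (196608 / 49 : ℝ) • hs - (196608 / 49 : ℝ) • hs'
  generalize c₀ * (196608 / 49) - 1 = x at rel
  generalize c₁ * (196608 / 49) = y at rel
  have q : B (x • (a₂ - a₀) + y • (a₃ - n₁) + (a₄ - n₂))
      (x • (a₂ - a₀) + y • (a₃ - n₁) + (a₄ - n₂)) = 0 := by rw [rel]; simp
  simp only [map_add, map_sub, map_smul, LinearMap.add_apply, LinearMap.sub_apply,
    LinearMap.smul_apply, smul_eq_mul, n0, nm1, nm2, n2, n3, n4, b1.2, b2.2, b3.2, b4.2, b5.2, b6.2,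
    b7.2, b8.2, b9.2, b10.2, b11.2, b12.2, b13.2, b14.2, b15.2] at q
  refine TT.gram_contra (x := x) (y := y) (a := 2 - 2 * B a₀ a₂) (b := 2 - 2 * B n₁ a₃)
    (c := 2 - 2 * B n₂ a₄) (d := B a₂ a₃ - B n₁ a₂ - B a₀ a₃ + B n₁ a₀)
    (e := B a₂ a₄ - B n₂ a₂ - B a₀ a₄ + B n₂ a₀) (f := B a₃ a₄ - B n₂ a₃ - B n₁ a₄ + B n₂ n₁)
    (by linarith [b10.1.2]) (by linarith [b8.1.2]) (by linarith [b5.1.2]) ?_ ?_ ?_ ?_
  · rw [abs_lt, hl]
    constructor <;> linarith [b13.1.1, b13.1.2, b7.1.1, b7.1.2, b11.1.1, b11.1.2]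
  · rw [abs_le]
    constructor <;> linarith [b14.1.1, b14.1.2, b3.1.1, b3.1.2, b12.1.1, b12.1.2, b2.1.1, b2.1.2]
  · rw [abs_le]
    constructor <;> linarith [b15.1.1, b15.1.2, b4.1.1, b4.1.2, b9.1.1, b9.1.2, b1.1.1, b1.1.2]
  · linear_combination q


end Cfsg.Agent.S5544
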