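import Cfsg.Statements.S5545
import Cfsg.Agent.TT.Axial

set_option autoImplicit false
open Cfsg

namespace Cfsg.Agent.S5545

theorem half {V : Type*} [AddCommGroup V] [Module ℝ V] {mul : V →ₗ[ℝ] V →ₗ[ℝ] V}
    {B : LinearMap.BilinForm ℝ V} (hV : Cfsg.Axial.IsMajoranaAmbient mul B) {μ₀ : V ≃ₗ[ℝ] V}
    {a₀ a₁ : V} (h₀ : Cfsg.Axial.IsMajoranaPair mul B μ₀ a₀) (hfix : μ₀ a₁ = a₁)
    (hn₀ : B a₀ a₀ = 1) :
    mul a₀ (mul a₀ a₁) = (3 / 4 * B a₀ a₁) • a₀ + (1 / 4 : ℝ) • mul a₀ a₁ ∧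
    (mul a₁ a₁ = a₁ → mul a₁ (mul a₀ a₁) = (3 / 4 * B a₀ a₁) • a₁ + (1 / 4 : ℝ) • mul a₀ a₁ →
      (4 : ℝ) • mul (mul a₀ a₁) (mul a₀ a₁) = (3 / 4 * B a₀ a₁) • a₁ +
        (B a₀ a₁ - 1 / 4) • mul a₀ a₁ + (2 * B a₀ a₁ ^ 2 + B a₀ a₁ / 2) • a₀) := by
  obtain ⟨hcm, hBs, hBp, hBa, -⟩ := hV
  obtain ⟨l, x, y, hx, hy, hd⟩ := TT.IsMajoranaPair_decomp h₀ hfix
  have idem : mul a₀ a₀ = a₀ := h₀.2.2.1.1.2.1
  have bx : B a₀ x = 0 := by
    have := hBa a₀ a₀ x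
    rw [hx, idem] at this; simpa using this.symm
  have by' : B a₀ y = 0 := by
    have := hBa a₀ a₀ y
    rw [hy, idem] at this
    simp only [map_smul, smul_eq_mul] at this
    linarith
  have hl : B a₀ a₁ = l := by rw [hd]; simp [bx, by', hn₀]
  have hs : mul a₀ a₁ = l • a₀ + (1 / 4 : ℝ) • y := by rw [hd]; simp [hx, hy, idem]
  rw [hl]
  have first : mul a₀ (mul a₀ a₁) = (3 / 4 * l) • a₀ + (1 / 4 : ℝ) • mul a₀ a₁ := by
    rw [hs]; simp only [map_add, map_smul, idem, hy]; module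
  refine ⟨first, fun i1 h1 => ?_⟩
  have xx := TT.IsMajoranaPair_0_0 h₀ hx hx
  have xy := TT.IsMajoranaPair_0_q h₀ hx hy
  have yy := TT.IsMajoranaPair_q_q h₀ hy hy
  have sq : mul a₁ a₁ = (l * l) • a₀ + mul x x + mul y y + (l / 2) • y + (2 : ℝ) • mul x y := by
    rw [hd]
    simp only [map_add, map_smul, LinearMap.add_apply, LinearMap.smul_apply, idem, hx, hy,
      hcm x a₀, hcm y a₀, hcm y x]
    module
  have hxy : mul x y = (1 / 2 - l / 4) • y := by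
    have e : mul a₀ (mul a₀ (mul a₁ a₁)) - mul a₀ (mul a₁ a₁) = mul a₀ (mul a₀ a₁) - mul a₀ a₁ := by
      rw [i1]
    rw [sq, hs] at e
    simp only [map_add, map_smul, idem, hy, xx, xy, yy, map_zero] at e
    have e' := sub_eq_zero.2 e
    have : (3 / 8 : ℝ) • (mul x y - (1 / 2 - l / 4) • y) = 0 := by
      rw [← neg_eq_zero, ← e']; module
    rw [← sub_eq_zero]
    simpa using this
  have hy' : y = (4 : ℝ) • (mul a₀ a₁ - l • a₀) := by rw [hs]; module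
  have hx' : x = a₁ + (3 * l) • a₀ - (4 : ℝ) • mul a₀ a₁ := by rw [hs, hd]; module
  set s := mul a₀ a₁ with hsdef
  rw [hx', hy'] at hxy
  simp only [map_add, map_sub, map_smul, LinearMap.add_apply, LinearMap.sub_apply,
    LinearMap.smul_apply, idem, hcm s a₀, first, h1, hcm a₁ a₀, ← hsdef] at hxy
  have e' := sub_eq_zero.2 hxy
  rw [← sub_eq_zero]
  have : (-4 : ℝ) • ((4 : ℝ) • mul s s - ((3 / 4 * l) • a₁ + (l - 1 / 4) • s +
      (2 * l ^ 2 + l / 2) • a₀)) = 0 := by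
    rw [← e']; module
  simpa using this

/-- Let V be a finite-dimensional real vector space with a commutative bilinear product and a positive-definite symmetric bilinear form that associates with the product and satisfies the Norton inequality (the Majorana setting of the definitions). Let μ₀, μ₁ be commuting Majorana involutions with distinct axial vectors a₀ ≠ a₁ of squared length 1, each involution having no other axial vector. Then either a₀ and a₁ are orthogonal with a₀ ∘ a₁ = 0 (type 2B), or their inner product is 1/8 and, with a₂ = a₀ + a₁ − 8 a₀ ∘ a₁, the vector a₂ is an idempotent and a₀ ∘ a₂ = (1/8)(a₀ + a₂ − a₁), a₁ ∘ a₂ = (1/8)(a₁ + a₂ − a₀) (type 2A: the three idempotents span a subalgebra with aᵢ ∘ aⱼ = (1/8)(aᵢ + aⱼ − aₖ)). -/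
theorem result {V : Type*} [AddCommGroup V] [Module ℝ V] [FiniteDimensional ℝ V] (mul : V →ₗ[ℝ] V →ₗ[ℝ] V) (B : LinearMap.BilinForm ℝ V) (hV : Cfsg.Axial.IsMajoranaAmbient mul B) (μ₀ μ₁ : V ≃ₗ[ℝ] V) (a₀ a₁ : V) (h₀ : Cfsg.Axial.IsMajoranaPair mul B μ₀ a₀) (h₁ : Cfsg.Axial.IsMajoranaPair mul B μ₁ a₁) (hu₀ : ∀ a : V, Cfsg.Axial.IsMajoranaPair mul B μ₀ a → a = a₀) (hu₁ : ∀ a : V, Cfsg.Axial.IsMajoranaPair mul B μ₁ a → a = a₁) (hn₀ : B a₀ a₀ = 1) (hn₁ : B a₁ a₁ = 1) (hc : μ₀ * μ₁ = μ₁ * μ₀) (hne : a₀ ≠ a₁) : (B a₀ a₁ = 0 ∧ mul a₀ a₁ = 0) ∨ (B a₀ a₁ = 1 / 8 ∧ mul (a₀ + a₁ - (8 : ℝ) • mul a₀ a₁) (a₀ + a₁ - (8 : ℝ) • mul a₀ a₁) = a₀ + a₁ - (8 : ℝ) • mul a₀ a₁ ∧ mul a₀ (a₀ + a₁ - (8 : ℝ) • mul a₀ a₁) = (1 / 8 : ℝ) • (a₀ + (a₀ + a₁ - (8 : ℝ) • mul a₀ a₁) - a₁) ∧ mul a₁ (a₀ + a₁ - (8 : ℝ) • mul a₀ a₁) = (1 / 8 : ℝ) • (a₁ + (a₀ + a₁ - (8 : ℝ) • mul a₀ a₁) - a₀)) := by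
  have f01 : μ₀ a₁ = a₁ := hu₁ _ (TT.IsMajoranaPair_of_comm h₁ h₀.1 hc)
  have f10 : μ₁ a₀ = a₀ := hu₀ _ (TT.IsMajoranaPair_of_comm h₀ h₁.1 hc.symm)
  have i0 : mul a₀ a₀ = a₀ := h₀.2.2.1.1.2.1
  have i1 : mul a₁ a₁ = a₁ := h₁.2.2.1.1.2.1
  obtain ⟨p0, q0⟩ := half hV h₀ f01 hn₀
  obtain ⟨p1, q1⟩ := half hV h₁ f10 hn₁
  obtain ⟨hcm, hBs, hBp, hBa, hN⟩ := hV
  rw [hcm a₁ a₀, hBs a₁ a₀] at p1 q1
  have r0 := q0 i1 p1
  have r1 := q1 i0 p0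
  have hz : (B a₀ a₁ * (2 * B a₀ a₁ - 1 / 4)) • (a₀ - a₁) = 0 := by
    have := sub_eq_zero.2 (r0.symm.trans r1)
    rw [← this]; module
  rcases smul_eq_zero.1 hz with h | h
  · rcases mul_eq_zero.1 h with h | h
    · left
      refine ⟨h, ?_⟩
      by_contra hne'
      have := hN a₀ a₁
      rw [i0, i1, h] at this
      exact absurd (hBp _ hne') (not_lt.2 this)
    · right
      have h8 : B a₀ a₁ = 1 / 8 := by linarith
      rw [h8] at p0 p1 r0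
      set s := mul a₀ a₁ with hsdef
      have ss : mul s s = (1 / 4 : ℝ) • ((4 : ℝ) • mul s s) := by module
      refine ⟨h8, ?_, ?_, ?_⟩
      · simp only [map_add, map_sub, map_smul, LinearMap.add_apply, LinearMap.sub_apply,
          LinearMap.smul_apply, i0, i1, hcm s a₀, hcm s a₁, p0, p1, hcm a₁ a₀, ← hsdef]
        rw [ss, r0]; module
      · simp only [map_add, map_sub, map_smul, i0, p0, ← hsdef]; module
      · simp only [map_add, map_sub, map_smul, i1, p1, hcm a₁ a₀, ← hsdef]; module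
  · exact absurd (sub_eq_zero.1 h) hne


end Cfsg.Agent.S5545
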