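import Cfsg.Statements.S5546
import Cfsg.Agent.Spor.ModRep
import Cfsg.Agent.Spor.LeechModel
import Cfsg.Agent.Spor.Co0Simple
-- import your own Cfsg.Agent.* helpers here

set_option autoImplicit false
open Cfsg

namespace Cfsg.Agent.S5546

/-- The second Conway group (the stabilizer in the Leech lattice automorphism group of the short vector fixed in the definitions) is isomorphic to a subgroup of the general linear group of degree 23 over the field with 13 elements: there is an injective homomorphism into it. -/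
theorem result : ∃ f : ↥Cfsg.Spor.Co2 →* GL (Fin 23) (ZMod 13), Function.Injective f := by
  let c := Spor.Leech.toF Spor.Leech.cU
  have hc : c 12 = -1 := by decide +kernel
  let ψ : leechLattice →+ (Fin 23 → ZMod 13) :=
    { toFun := fun x k => ((Spor.Leech.embEquiv.symm x ((12 : Fin 24).succAbove k) +
        Spor.Leech.embEquiv.symm x 12 * c ((12 : Fin 24).succAbove k) : ℤ))
      map_zero' := by funext k; simp
      map_add' := fun x y => by funext k; simp; ring }
  have hψ : ∀ a k, ψ (Spor.Leech.embEquiv a) k =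
      ((a ((12 : Fin 24).succAbove k) + a 12 * c ((12 : Fin 24).succAbove k) : ℤ)) := fun a k => by
    simp [ψ]
  have hs : Function.Surjective ψ := fun t =>
    ⟨Spor.Leech.embEquiv (Fin.insertNth (α := fun _ => ℤ) (12 : Fin 24) 0 fun k => ((t k).val : ℤ)),
      funext fun k => by rw [hψ]; simp⟩
  have hU : ψ Spor.leechU = 0 := by
    rw [← Spor.Leech.emb_cU]
    funext k
    refine (hψ c k).trans ?_
    rw [hc]; simp
  have hk : ∀ x, ψ x = 0 → ∃ (a : ℤ) (z : leechLattice), x = a • Spor.leechU + (13 : ℤ) • z := by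
    intro x hx
    obtain ⟨a, rfl⟩ := Spor.Leech.embEquiv.surjective x
    have h : ∀ k, (13 : ℤ) ∣ a k + a 12 * c k := by
      refine (Fin.forall_iff_succAbove (12 : Fin 24)).2 ⟨by rw [hc]; simp, fun k => ?_⟩
      have := congrFun hx k
      rw [hψ] at this
      exact (ZMod.intCast_zmod_eq_zero_iff_dvd _ 13).1 this
    choose z hz using h
    refine ⟨-a 12, Spor.Leech.emb z, ?_⟩
    rw [← Spor.Leech.emb_cU, ← map_smul, ← map_smul, ← map_add]
    refine congrArg Spor.Leech.emb (funext fun k => ?_)
    have := hz k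
    simp only [Pi.add_apply, Pi.smul_apply, smul_eq_mul]
    linarith
  obtain ⟨f, hf⟩ := Spor.exists_GL_of_surj (G := MulAction.stabilizer Co0 Spor.leechU) ψ hs (by
    intro g x hx
    obtain ⟨a, z, rfl⟩ := hk x hx
    change ψ ((g : Co0) • _) = 0
    rw [smul_add, Spor.Leech.co0_smul_zsmul, Spor.Leech.co0_smul_zsmul, g.2, map_add, map_zsmul,
      map_zsmul, hU, smul_zero, zero_add]
    funext k
    rw [Pi.smul_apply, zsmul_eq_mul, show ((13 : ℤ) : ZMod 13) = 0 from rfl, zero_mul]; rfl)
  haveI := Spor.Leech.simple_co2 Spor.Leech.sqNorm_leechU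
  refine ⟨f.comp Spor.Leech.co2Equiv.toMonoidHom,
    ((MonoidHom.ker_eq_bot_iff f).1 ?_).comp Spor.Leech.co2Equiv.injective⟩
  refine (f.normal_ker.eq_bot_or_eq_top).resolve_right fun h => ?_
  let g : MulAction.stabilizer Co0 Spor.leechU :=
    ⟨_, (Spor.Leech.mem_M22'.1 Spor.Leech.t11_mem).2.1⟩
  have h1 : f g = 1 := by rw [← MonoidHom.mem_ker, h]; trivial
  have h2 := hf g (Spor.Leech.e8 (some 1))
  rw [h1, Units.val_one, Matrix.one_mulVec, ← sub_eq_zero, ← map_sub] at h2
  obtain ⟨a, z, e⟩ := hk _ h2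
  change _ - Spor.Leech.permHom Spor.Leech.t11 • Spor.Leech.e8 (some 1) = _ at e
  rw [Spor.Leech.permHom_e8, Spor.Leech.t11_some] at e
  have := congrFun (congrArg Subtype.val e) (some 1)
  simp only [AddSubgroup.coe_sub, AddSubgroup.coe_add, AddSubgroup.coe_zsmul, Spor.Leech.coe_e8,
    Pi.sub_apply, Pi.add_apply, Pi.smul_apply, Spor.Leech.leechU_apply, Pi.single_eq_same, smul_eq_mul] at this
  rw [Pi.single_eq_of_ne (by decide), if_neg (by decide)] at this
  omega

end Cfsg.Agent.S5546
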