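import Cfsg.Statements.S5548
import Cfsg.Agent.Spor.M24Mod

set_option autoImplicit false
open Cfsg

namespace Cfsg.Agent.S5548

open Cfsg.Agent.Spor Cfsg.Agent.Spor.M24C Cfsg.Agent.Comp
open scoped Pointwise

/-- For the automorphism group of the length-24 binary Golay code of the definitions (the Mathieu group of degree 24) acting on binary words of length 24 by permuting coordinates, the only invariant subspaces of the space of all words are: zero, the span of the all-ones word, the code itself, the even-weight words, and the whole space. (So the permutation module has a unique composition series.) -/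
theorem result (W : Submodule (ZMod 2) (Cfsg.GolayPt → ZMod 2)) (hW : ∀ σ ∈ Cfsg.M24, ∀ w ∈ W, (fun p => w (σ.symm p)) ∈ W) : W = ⊥ ∨ W = Submodule.span (ZMod 2) {fun _ => (1 : ZMod 2)} ∨ W = Cfsg.golayCode ∨ (W : Set (Cfsg.GolayPt → ZMod 2)) = {w | ∑ p, w p = 0} ∨ W = ⊤ := by
  by_cases hle : W ≤ golayCode
  · rcases invariant_le_code W hW hle with h | h
    · by_cases h1 : (fun _ => (1 : ZMod 2)) ∈ W
      · refine Or.inr (Or.inl (le_antisymm h ?_))
        rw [Submodule.span_le, Set.singleton_subset_iff]
        exact h1
      · refine Or.inl (eq_bot_iff.2 fun w hw => ?_)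
        obtain ⟨a, rfl⟩ := Submodule.mem_span_singleton.1 (h hw)
        rcases zmod2_cases a with rfl | rfl
        · simp
        · rw [one_smul] at hw; exact absurd hw h1
    · exact Or.inr (Or.inr (Or.inl h))
  · have hF := invFam_supports W hW
    obtain ⟨w, hw, hn⟩ := SetLike.not_le_iff_exists.1 hle
    have h2 := hF.even_of_pair fun t ht => hF.pair_of_not_code ⟨w, hw, rfl⟩
      (fun h => hn (support₂_mem_supports_iff.1 h)) ht
    have hs : ∀ v : GolayPt → ZMod 2, ∑ p, v p = 0 ↔ Even (support₂ v).card := by
      intro v
      have := sum_mul_eq_zero_iff v (fun _ => 1)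
      simpa [support₂_one] using this
    have h3 : ∀ v : GolayPt → ZMod 2, ∑ p, v p = 0 → v ∈ W := fun v hv => by
      obtain ⟨n, hn⟩ := (hs v).1 hv
      exact support₂_mem_supports_iff.1 (h2 n _ (by omega))
    by_cases h4 : ∀ v ∈ W, ∑ p, v p = 0
    · exact Or.inr (Or.inr (Or.inr (Or.inl (Set.ext fun v => ⟨h4 v, h3 v⟩))))
    · push Not at h4
      obtain ⟨v, hv, hv1⟩ := h4
      refine Or.inr (Or.inr (Or.inr (Or.inr (eq_top_iff.2 fun u _ => ?_))))
      rcases zmod2_cases (∑ p, u p) with h | h
      · exact h3 u h
      · have := W.sub_mem (h3 (u + v) (by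
          simp only [Pi.add_apply, Finset.sum_add_distrib, h,
            (zmod2_cases _).resolve_left hv1]; rfl)) hv
        simpa using this

end Cfsg.Agent.S5548
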