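import Cfsg.Statements.S5549
import Cfsg.Agent.Spor.M24Idx
import Cfsg.Agent.Spor.AbstractGolay

set_option autoImplicit false
open Cfsg

namespace Cfsg.Agent.S5549

open Spor Spor.M24C _root_.Cfsg.Agent.Comp Finset
open scoped Pointwise

/-- The parity of a word on a set. -/
def par (t : Finset GolayPt) (c : GolayPt → ZMod 2) : ZMod 2 := ∑ i, c i * indWord t i

theorem par_eq (t : Finset GolayPt) (c : GolayPt → ZMod 2) :
    par t c = ((support₂ c ∩ t).card : ZMod 2) := by
  rw [par, sum_mul_eq_card_inter, support₂_indWord]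

theorem par_symmDiff (t u : Finset GolayPt) (c : GolayPt → ZMod 2) :
    par (symmDiff t u) c = par t c + par u c := by
  simp only [par, indWord_symmDiff, Pi.add_apply, mul_add, sum_add_distrib]

theorem par_pair {a b : GolayPt} (h : a ≠ b) (c : GolayPt → ZMod 2) :
    par {a, b} c = c a + c b := by
  simp only [par, indWord, mul_ite, mul_one, mul_zero, sum_ite_mem, univ_inter, sum_pair h]

theorem exists_par (ψ : golayCode →ₗ[ZMod 2] ZMod 2) :
    ∃ t : Finset GolayPt, t.card ≤ 4 ∧ ∀ c : golayCode, ψ c = par t c := by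
  obtain ⟨g, hg⟩ := ψ.exists_extend
  let w : GolayPt → ZMod 2 := fun i => g fun j => if i = j then 1 else 0
  obtain ⟨t, h4, hc⟩ := exists_short_set (support₂ w)
  refine ⟨t, h4, fun c => ?_⟩
  have h1 : ψ c = par (support₂ w) c := by
    rw [← hg, par, indWord_support₂]
    exact g.pi_apply_eq_sum_univ c
  have h2 : par (symmDiff t (support₂ w)) c = 0 := by
    rw [par_eq]
    exact (ZMod.natCast_eq_zero_iff_even).2
      (even_card_inter ((support_mem_codeSets_iff _).2 c.2) hc)
  rw [par_symmDiff, ← h1] at h2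
  clear h1
  generalize ψ c = a at *
  generalize par t c = b at *
  revert a b; decide

/-- Octads and their complements. -/
def P (s : Finset GolayPt) : Prop := s.card = 8 ∨ s.card = 16

/-- The number of octads and complements of octads on which a function is nonzero. -/
noncomputable def N (φ : golayCode → ZMod 2) : ℕ :=
  {c : golayCode | P (support₂ (c : GolayPt → ZMod 2)) ∧ φ c = 1}.ncard

theorem N_par (t : Finset GolayPt) : N (fun c => par t c) =
    {s | s ∈ codeSets ∧ P s ∧ (s ∩ t).card % 2 = 1}.ncard := by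
  refine Set.ncard_congr (fun c _ => support₂ (c : GolayPt → ZMod 2)) ?_ ?_ ?_
  · rintro c ⟨h1, h2⟩
    refine ⟨(support_mem_codeSets_iff _).2 c.2, h1, ?_⟩
    beta_reduce at h2
    rw [par_eq, ZMod.natCast_eq_one_iff_odd] at h2
    exact Nat.odd_iff.1 h2
  · intro a b _ _ h
    exact Subtype.ext (supp2_injective h)
  · rintro s ⟨⟨c, hc, rfl⟩, h1, h2⟩
    refine ⟨⟨c, hc⟩, ⟨h1, ?_⟩, rfl⟩
    beta_reduce
    rw [par_eq, ZMod.natCast_eq_one_iff_odd]
    exact Nat.odd_iff.2 h2

theorem N_mask {t : Finset GolayPt} (ht : t.card ≤ 5) (m : ℕ) (h : t.card = pop 24 m) :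
    N (fun c => par t c) = cntPow 12 (fun a => force (enc a) fun x =>
      and' (or' (Nat.beq (pop 24 x) 8) (Nat.beq (pop 24 x) 16))
        (Nat.beq (pop 24 (Nat.land x m) % 2) 1)) := by
  obtain ⟨g, hg⟩ := exists_smul_finset ht (h.trans (card_setOf' m).symm)
  rw [N_par, ← ncard_codeSets (fun s => P s ∧ (s ∩ setOf' m).card % 2 = 1) _ fun x _ => by
    rw [and'_eq_true, or'_eq_true, beq_iff, beq_iff, beq_iff, card_inter_setOf', P, card_setOf']]
  refine (ncard_eq_of_smul g fun s => ?_).symm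
  rw [smul_mem_codeSets_iff, ← hg, card_smul_inter, P, P, card_smul_finset]

theorem N0 {t : Finset GolayPt} (h : t.card = 0) : N (fun c => par t c) = 0 :=
  (N_mask (by omega) 0 (h.trans (by decide +kernel))).trans (by decide +kernel)

theorem N2 {t : Finset GolayPt} (h : t.card = 2) : N (fun c => par t c) = 704 :=
  (N_mask (by omega) 3 (h.trans (by decide +kernel))).trans (by decide +kernel)

theorem N4 {t : Finset GolayPt} (h : t.card = 4) : N (fun c => par t c) = 768 :=
  (N_mask (by omega) 15 (h.trans (by decide +kernel))).trans (by decide +kernel)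

theorem card_two_of_N {t : Finset GolayPt} (h4 : t.card ≤ 4) (he : t.card % 2 = 0)
    (h : N (fun c => par t c) = 704) : t.card = 2 := by
  have : t.card = 0 ∨ t.card = 2 ∨ t.card = 4 := by omega
  rcases this with e | e | e
  · rw [N0 e] at h; omega
  · exact e
  · rw [N4 e] at h; omega

theorem N_comp (x : golayCode ≃ golayCode)
    (hx : ∀ c : golayCode, P (support₂ (x c : GolayPt → ZMod 2)) ↔
      P (support₂ (c : GolayPt → ZMod 2))) (φ : golayCode → ZMod 2) :
    N (fun c => φ (x c)) = N φ := by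
  refine Set.ncard_congr (fun c _ => x c) ?_ ?_ ?_
  · rintro c ⟨h1, h2⟩
    exact ⟨(hx c).2 h1, h2⟩
  · intro a b _ _ h
    exact x.injective h
  · rintro c ⟨h1, h2⟩
    obtain ⟨c, rfl⟩ := x.surjective c
    exact ⟨c, ⟨(hx c).1 h1, h2⟩, rfl⟩

theorem common_point {ι : Type} [DecidableEq ι] (I : Finset ι) (hI : 4 ≤ I.card)
    (D : ι → Finset GolayPt) (h2 : ∀ a ∈ I, (D a).card = 2)
    (h1 : ∀ a ∈ I, ∀ b ∈ I, a ≠ b → (D a ∩ D b).card = 1) : ∃ z, ∀ a ∈ I, z ∈ D a := by
  obtain ⟨a, ha, b, hb, hab⟩ := one_lt_card.1 (by omega : 1 < I.card)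
  obtain ⟨z, hz⟩ := card_eq_one.1 (h1 a ha b hb hab)
  have hza : z ∈ D a := (mem_inter.1 (hz ▸ mem_singleton_self z : z ∈ D a ∩ D b)).1
  have hzb : z ∈ D b := (mem_inter.1 (hz ▸ mem_singleton_self z : z ∈ D a ∩ D b)).2
  have key : ∀ c ∈ I, z ∉ D c → D c = (D a ∪ D b).erase z := fun c hc hzc => by
    have hca : c ≠ a := fun e => hzc (e ▸ hza)
    have hcb : c ≠ b := fun e => hzc (e ▸ hzb)
    have e1 := card_union_add_card_inter (D a) (D b)
    have e2 := card_union_add_card_inter (D c ∩ D a) (D c ∩ D b)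
    have e3 : D c ∩ D a ∩ (D c ∩ D b) = ∅ := by
      rw [inter_inter_inter_comm, hz, inter_self, inter_singleton_of_notMem hzc]
    rw [e3, h1 c hc a ha hca, h1 c hc b hb hcb, ← inter_union_distrib_left, card_empty] at e2
    have e4 := eq_of_subset_of_card_le (inter_subset_left (s₁ := D c) (s₂ := D a ∪ D b))
      (by rw [h2 c hc]; omega)
    refine eq_of_subset_of_card_le (fun y hy => mem_erase.2 ⟨fun e => hzc (e ▸ hy),
      (mem_inter.1 (e4.symm ▸ hy : y ∈ D c ∩ (D a ∪ D b))).2⟩) ?_
    rw [card_erase_of_mem (mem_union_left _ hza), h2 c hc]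
    rw [h2 a ha, h2 b hb, h1 a ha b hb hab] at e1
    omega
  refine ⟨z, fun c hc => ?_⟩
  by_contra hzc
  obtain ⟨d, hd, hd'⟩ := exists_mem_notMem_of_card_lt_card (s := {a, b, c}) (t := I)
    (lt_of_le_of_lt card_le_three (by omega))
  simp only [mem_insert, mem_singleton, not_or] at hd'
  have e := h1 d hd c hc hd'.2.2
  by_cases hzd : z ∈ D d
  · obtain ⟨y, hy⟩ := card_eq_one.1 e
    have hy' : y ∈ D d ∩ D c := hy ▸ mem_singleton_self y
    have hyd := (mem_inter.1 hy').1
    obtain ⟨hyz, hy2⟩ := mem_erase.1 (key c hc hzc ▸ (mem_inter.1 hy').2)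
    rcases mem_union.1 hy2 with h | h
    · have := one_lt_card.2 ⟨y, mem_inter.2 ⟨hyd, h⟩, z, mem_inter.2 ⟨hzd, hza⟩, hyz⟩
      rw [h1 d hd a ha hd'.1] at this
      omega
    · have := one_lt_card.2 ⟨y, mem_inter.2 ⟨hyd, h⟩, z, mem_inter.2 ⟨hzd, hzb⟩, hyz⟩
      rw [h1 d hd b hb hd'.2.1] at this
      omega
  · rw [key d hd hzd, ← key c hc hzc, inter_self, h2 c hc] at e
    omega

theorem main (x : golayCode ≃ₗ[ZMod 2] golayCode)
    (h1 : ∀ e : golayCode, (e : GolayPt → ZMod 2) = (fun _ => (1 : ZMod 2)) → x e = e)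
    (hx : ∀ c : golayCode, P (support₂ (x c : GolayPt → ZMod 2)) ↔
      P (support₂ (c : GolayPt → ZMod 2))) :
    ∃ τ : Equiv.Perm GolayPt, ∀ c : golayCode, ∃ k : ZMod 2,
      ∀ a, (x c : GolayPt → ZMod 2) a = (c : GolayPt → ZMod 2) (τ a) + k := by
  have hone : (fun _ => (1 : ZMod 2) : GolayPt → ZMod 2) ∈ golayCode :=
    Submodule.subset_span (Or.inr rfl)
  have hD : ∀ a : GolayPt, ∃ t : Finset GolayPt, t.card ≤ 4 ∧ ∀ c : golayCode,
      (x c : GolayPt → ZMod 2) a + (x c : GolayPt → ZMod 2) none = par t c := fun a => by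
    exact exists_par
      { toFun := fun c => (x c : GolayPt → ZMod 2) a + (x c : GolayPt → ZMod 2) none
        map_add' := fun c d => by simp only [map_add, Submodule.coe_add, Pi.add_apply]; ring
        map_smul' := fun r c => by
          simp only [map_smul, Submodule.coe_smul, Pi.smul_apply, smul_eq_mul, RingHom.id_apply]
          ring }
  choose D hD4 hD using hD
  have hN : ∀ a b : GolayPt, a ≠ b →
      N (fun c => (x c : GolayPt → ZMod 2) a + (x c : GolayPt → ZMod 2) b) = 704 := fun a b h => by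
    rw [← N2 (card_pair h), ← N_comp x.toEquiv hx fun c => par {a, b} c]
    simp only [par_pair h]
    rfl
  have h2 : ∀ a ∈ univ.erase (none : GolayPt), (D a).card = 2 := fun a ha => by
    refine card_two_of_N (hD4 a) ?_ ?_
    · have := hD a ⟨_, hone⟩
      rw [h1 _ rfl, par_eq, support₂_one, univ_inter] at this
      exact Nat.even_iff.1 ((ZMod.natCast_eq_zero_iff_even).1 (this.symm.trans rfl))
    · rw [← hN a none (mem_erase.1 ha).1]
      simp only [hD]
  have h3 : ∀ a ∈ univ.erase (none : GolayPt), ∀ b ∈ univ.erase (none : GolayPt), a ≠ b →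
      (D a ∩ D b).card = 1 := fun a ha b hb h => by
    have e := card_symmDiff' (D a) (D b)
    rw [h2 a ha, h2 b hb] at e
    have : (symmDiff (D a) (D b)).card = 2 := by
      refine card_two_of_N (by omega) (by omega) ?_
      rw [← hN a b h]
      refine congrArg N (funext fun c => ?_)
      rw [par_symmDiff, ← hD, ← hD]
      generalize (x c : GolayPt → ZMod 2) a = u
      generalize (x c : GolayPt → ZMod 2) b = v
      generalize (x c : GolayPt → ZMod 2) none = w
      revert u v w; decide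
    omega
  obtain ⟨z, hz⟩ := common_point _ (by decide) D h2 h3
  have hτ : ∀ a : GolayPt, ∃ y, (a = none → y = z) ∧ (a ≠ none → y ≠ z ∧ D a = {y, z}) := by
    intro a
    by_cases ha : a = none
    · exact ⟨z, fun _ => rfl, fun h => (h ha).elim⟩
    · have ha' : a ∈ univ.erase (none : GolayPt) := mem_erase.2 ⟨ha, mem_univ _⟩
      obtain ⟨y, hy⟩ := card_eq_one.1 (by rw [card_erase_of_mem (hz a ha'), h2 a ha'] :
        ((D a).erase z).card = 1)
      refine ⟨y, fun h => (ha h).elim, fun _ => ⟨(mem_erase.1 (hy ▸ mem_singleton_self y)).1, ?_⟩⟩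
      rw [← insert_erase (hz a ha'), hy, pair_comm]
  choose τ hτ0 hτ using hτ
  have hinj : Function.Injective τ := fun a b e => by
    by_contra hne
    by_cases ha : a = none
    · exact (hτ b fun h => hne (ha.trans h.symm)).1 (e ▸ hτ0 a ha)
    by_cases hb : b = none
    · exact (hτ a ha).1 (e.symm ▸ hτ0 b hb)
    have := h3 a (mem_erase.2 ⟨ha, mem_univ _⟩) b (mem_erase.2 ⟨hb, mem_univ _⟩) hne
    rw [(hτ a ha).2, (hτ b hb).2, e, inter_self, card_pair (hτ b hb).1] at this
    omega
  refine ⟨Equiv.ofBijective τ (Finite.injective_iff_bijective.1 hinj), fun c =>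
    ⟨(x c : GolayPt → ZMod 2) none + (c : GolayPt → ZMod 2) z, fun a => ?_⟩⟩
  rw [Equiv.ofBijective_apply]
  by_cases ha : a = none
  · rw [hτ0 a ha, ha]
    generalize (x c : GolayPt → ZMod 2) none = u
    generalize (c : GolayPt → ZMod 2) z = v
    revert u v; decide
  · have := hD a c
    rw [(hτ a ha).2, par_pair (hτ a ha).1] at this
    revert this
    generalize (x c : GolayPt → ZMod 2) none = u
    generalize (c : GolayPt → ZMod 2) z = v
    generalize (x c : GolayPt → ZMod 2) a = u'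
    generalize (c : GolayPt → ZMod 2) (τ a) = v'
    revert u v u' v'; decide

/-- Let X be a group of linear automorphisms of the length-24 binary Golay code of the definitions that fix the all-ones word, containing the coordinate-permutation action of every element of the code's automorphism group (the Mathieu group of degree 24), and such that every element of X sends each codeword into its orbit under that Mathieu group up to adding the all-ones word (X has the same orbits as the Mathieu group on the code modulo the all-ones word). Then every element of X agrees, modulo the all-ones word, with the action of a single element of the Mathieu group: X induces exactly the Mathieu group on the code modulo the all-ones word. -/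
theorem result (X : Subgroup (↥Cfsg.golayCode ≃ₗ[ZMod 2] ↥Cfsg.golayCode)) (h1 : ∀ x ∈ X, ∀ e : ↥Cfsg.golayCode, (e : (Cfsg.GolayPt → ZMod 2)) = (fun _ => (1 : ZMod 2)) → x e = e) (hM : ∀ σ ∈ Cfsg.M24, ∃ x ∈ X, ∀ c : ↥Cfsg.golayCode, ((x c : ↥Cfsg.golayCode) : (Cfsg.GolayPt → ZMod 2)) = fun p => (c : (Cfsg.GolayPt → ZMod 2)) (σ.symm p)) (horb : ∀ x ∈ X, ∀ c : ↥Cfsg.golayCode, ∃ σ ∈ Cfsg.M24, ((x c : ↥Cfsg.golayCode) : (Cfsg.GolayPt → ZMod 2)) = (fun p => (c : (Cfsg.GolayPt → ZMod 2)) (σ.symm p)) ∨ ((x c : ↥Cfsg.golayCode) : (Cfsg.GolayPt → ZMod 2)) = (fun p => (c : (Cfsg.GolayPt → ZMod 2)) (σ.symm p)) + fun _ => (1 : ZMod 2)) (x : ↥Cfsg.golayCode ≃ₗ[ZMod 2] ↥Cfsg.golayCode) (hx : x ∈ X) : ∃ σ ∈ Cfsg.M24, ∀ c : ↥Cfsg.golayCode, ((x c : ↥Cfsg.golayCode) : (Cfsg.GolayPt → ZMod 2)) = (fun p => (c : (Cfsg.GolayPt → ZMod 2)) (σ.symm p)) ∨ ((x c : ↥Cfsg.golayCode) : (Cfsg.GolayPt → ZMod 2)) = (fun p => (c : (Cfsg.GolayPt → ZMod 2)) (σ.symm p)) + fun _ => (1 : ZMod 2) := by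
  have hone : (fun _ => (1 : ZMod 2) : GolayPt → ZMod 2) ∈ golayCode :=
    Submodule.subset_span (Or.inr rfl)
  obtain ⟨τ, hτ⟩ := main x (h1 x hx) fun c => by
    obtain ⟨σ, -, h | h⟩ := horb x hx c
    · rw [h, support_comp_symm, P, P, card_smul_finset]
    · have e := card_symmDiff' (σ • support₂ (c : GolayPt → ZMod 2)) univ
      rw [inter_univ, card_univ, card_golayPt, card_smul_finset] at e
      rw [h, supp2_add, support_comp_symm, support₂_one, P, P]
      omega
  have key : ∀ c : golayCode, ((x c : golayCode) : GolayPt → ZMod 2) =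
      (fun p => (c : GolayPt → ZMod 2) (τ.symm.symm p)) ∨ ((x c : golayCode) : GolayPt → ZMod 2) =
      (fun p => (c : GolayPt → ZMod 2) (τ.symm.symm p)) + fun _ => (1 : ZMod 2) := fun c => by
    obtain ⟨k, hk⟩ := hτ c
    rcases zmod2_cases k with rfl | rfl
    · exact Or.inl (funext fun a => by simpa using hk a)
    · exact Or.inr (funext fun a => by simpa using hk a)
  refine ⟨τ.symm, mem_M24_iff.2 ?_, key⟩
  rintro s ⟨c, hc, rfl⟩
  rw [← support_comp_symm, support_mem_codeSets_iff]
  rcases key ⟨c, hc⟩ with h | h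
  · exact h ▸ (x ⟨c, hc⟩).2
  · exact (golayCode.add_mem_iff_left hone).1 (h ▸ (x ⟨c, hc⟩).2)

end Cfsg.Agent.S5549
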