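import Cfsg.Statements.S5550
import Cfsg.Agent.Spor.M24Mod

set_option autoImplicit false
open Cfsg

namespace Cfsg.Agent.S5550

open Cfsg.Agent.Spor Cfsg.Agent.Spor.M24C Cfsg.Agent.Comp
open scoped Pointwise

/-- Let u be a word of the length-24 binary Golay code of the definitions (possibly zero or all-ones) and w any binary word of length 24 outside the code. Then some automorphism of the code (a coordinate permutation preserving it) fixes u but moves w to a word not congruent to w modulo the code: the stabilizer of a codeword fixes no non-zero element of the quotient of the space of all words by the code. -/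
theorem result (u : (Cfsg.GolayPt → ZMod 2)) (hu : u ∈ Cfsg.golayCode) (w : (Cfsg.GolayPt → ZMod 2)) (hw : w ∉ Cfsg.golayCode) : ∃ σ ∈ Cfsg.M24, (fun p => u (σ.symm p)) = u ∧ (fun p => w (σ.symm p)) - w ∉ Cfsg.golayCode := by
  obtain ⟨s, hs4, hs⟩ := exists_short_set (support₂ w)
  have hU : support₂ u ∈ codeSets := ⟨u, hu, rfl⟩
  obtain ⟨b, hb⟩ : s.Nonempty := by
    rw [Finset.nonempty_iff_ne_empty]
    rintro rfl
    rw [← Finset.bot_eq_empty, bot_symmDiff] at hs
    exact hw (support₂_mem_supports_iff.1 hs)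
  have side : ∀ V ∈ codeSets, b ∈ V → ∃ b' ∈ V, b' ∉ s := by
    intro V hV hbV
    have h1 := card_of_mem_codeSets hV
    have h2 := Finset.card_pos.2 ⟨b, hbV⟩
    exact Finset.exists_mem_notMem_of_card_lt_card (by omega)
  obtain ⟨b', hb1, hb2⟩ : ∃ b', (b ∈ support₂ u ↔ b' ∈ support₂ u) ∧ b' ∉ s := by
    by_cases h : b ∈ support₂ u
    · obtain ⟨b', h1, h2⟩ := side _ hU h
      exact ⟨b', iff_of_true h h1, h2⟩
    · obtain ⟨b', h1, h2⟩ := side _ (compl_mem_codeSets hU) (Finset.mem_compl.2 h)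
      exact ⟨b', iff_of_false h (Finset.mem_compl.1 h1), h2⟩
  obtain ⟨a, hab, hab', ha⟩ : ∃ a, a ≠ b ∧ a ≠ b' ∧ (s.card ≤ 3 ∨ a ∈ s) := by
    by_cases h : s.card ≤ 3
    · obtain ⟨a, ha⟩ := exists_not_mem_of_card_lt (s := {b, b'})
        (lt_of_le_of_lt Finset.card_le_two (by norm_num))
      simp only [Finset.mem_insert, Finset.mem_singleton, not_or] at ha
      exact ⟨a, ha.1, ha.2, Or.inl h⟩
    · obtain ⟨a, ha, hne⟩ := Finset.exists_mem_ne (s := s) (by omega) b
      exact ⟨a, hne, fun e => hb2 (e ▸ ha), Or.inr ha⟩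
  obtain ⟨g, hg, g1, g2⟩ := exists_stab_fix_move hU hab hab' hb1
  refine ⟨g, g.2, support₂_injective ((support_comp_symm _ u).trans hg), fun h => ?_⟩
  have h1 : symmDiff (g • support₂ w) (support₂ w) ∈ codeSets :=
    ⟨_, h, by rw [word_sub_eq_add, support₂_add, support_comp_symm]; rfl⟩
  have h2 := symmDiff_mem_codeSets (symmDiff_mem_codeSets ((smul_mem_codeSets_iff g).2 hs) hs) h1
  rw [Subgroup.smul_def, smul_symmDiff', ← Subgroup.smul_def, ← Subgroup.smul_def,
    symmDiff_symmDiff_symmDiff_comm, symmDiff_symmDiff_cancel_right,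
    symmDiff_symmDiff_cancel_right] at h2
  have h3 := card_of_mem_codeSets (s := symmDiff (g • s) s) h2
  have h4 := card_symmDiff' (g • s) s
  rw [Finset.card_smul_finset] at h4
  have h5 : 0 < (symmDiff (g • s) s).card := Finset.card_pos.2 ⟨b', Finset.mem_symmDiff.2 (Or.inl
    ⟨g2 ▸ Finset.smul_mem_smul_finset (a := g) hb, hb2⟩)⟩
  rcases ha with ha | ha
  · omega
  · have : 0 < (g • s ∩ s).card := Finset.card_pos.2 ⟨a, Finset.mem_inter.2
      ⟨g1 ▸ Finset.smul_mem_smul_finset (a := g) ha, ha⟩⟩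
    omega

end Cfsg.Agent.S5550
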