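import Cfsg.Statements.S5553
import Cfsg.Agent.Spor.LeechBasis
-- import your own Cfsg.Agent.* helpers here

set_option autoImplicit false
open Cfsg

namespace Cfsg.Agent.S5553

/-- The Leech lattice of the definitions has an additive subgroup A containing twice the lattice, of index 2^12 in the lattice, all of whose vectors have squared length divisible by 32: the invariant quadratic form 'squared length over 16 modulo 2' on the lattice modulo twice the lattice (a 24-dimensional space over the field with two elements) vanishes on a 12-dimensional subspace, so it is of plus type. -/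
theorem result : ∃ A : AddSubgroup (Cfsg.GolayPt → ℤ), A ≤ Cfsg.leechLattice ∧ (∀ v ∈ Cfsg.leechLattice, (2 : ℤ) • v ∈ A) ∧ (A.addSubgroupOf Cfsg.leechLattice).index = 2 ^ 12 ∧ ∀ v ∈ A, (32 : ℤ) ∣ Cfsg.sqNorm v := by
  let φ : leechLattice →+ (Fin 12 → ZMod 2) :=
    { toFun := fun x k => (Spor.Leech.embEquiv.symm x (Fin.castAdd 12 k) : ℤ)
      map_zero' := by funext k; simp
      map_add' := fun x y => by funext k; simp }
  have hφ : ∀ a k, φ (Spor.Leech.embEquiv a) k = (a (Fin.castAdd 12 k) : ℤ) := fun a k => by simp [φ]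
  have hs : Function.Surjective φ := fun t =>
    ⟨Spor.Leech.embEquiv (Fin.append (fun k => ((t k).val : ℤ)) (0 : Fin 12 → ℤ)), funext fun k => by
      rw [hφ, Fin.append_left]; simp⟩
  refine ⟨φ.ker.map leechLattice.subtype, AddSubgroup.map_subtype_le _, fun v hv => ?_, ?_, ?_⟩
  · refine ⟨(2 : ℤ) • ⟨v, hv⟩, ?_, rfl⟩
    rw [SetLike.mem_coe, AddMonoidHom.mem_ker, map_zsmul]
    funext k
    rw [Pi.smul_apply, zsmul_eq_mul, show ((2 : ℤ) : ZMod 2) = 0 from rfl, zero_mul]; rfl
  · rw [AddSubgroup.addSubgroupOf, AddSubgroup.comap_map_eq_self_of_injective leechLattice.subtype_injective,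
      AddSubgroup.index_ker, AddMonoidHom.range_eq_top.2 hs]
    simp
  · rintro _ ⟨x, hx, rfl⟩
    obtain ⟨a, rfl⟩ := Spor.Leech.embEquiv.surjective x
    have ha : ∀ k : Fin 24, k.val < 12 → (2 : ℤ) ∣ a k := fun k hk => by
      have := congrFun (show φ _ = 0 from hx) ⟨k, hk⟩
      rw [hφ] at this
      exact (ZMod.intCast_zmod_eq_zero_iff_dvd _ 2).1 this
    let y : Fin 24 → ℤ := fun k => if k.val < 12 then 0 else a k
    let z : Fin 24 → ℤ := fun k => if k.val < 12 then a k / 2 else 0
    have e : a = y + 2 • z := funext fun k => by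
      simp only [y, z, Pi.add_apply, Pi.smul_apply]
      split_ifs with h
      · have := ha k h; simp only [nsmul_eq_mul]; omega
      · simp
    have hy : (32 : ℤ) ∣ sqNorm (Spor.Leech.emb y : GolayPt → ℤ) ∧
        ∀ i, (4 : ℤ) ∣ (Spor.Leech.emb y : GolayPt → ℤ) i := by
      rw [Spor.Leech.emb_apply]
      refine Finset.sum_induction _ (fun x : leechLattice => (32 : ℤ) ∣ sqNorm (x : GolayPt → ℤ) ∧
        ∀ i, (4 : ℤ) ∣ (x : GolayPt → ℤ) i) (fun u v hu hv => ⟨?_, fun i => dvd_add (hu.2 i) (hv.2 i)⟩)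
        ⟨by simp [sqNorm], by simp⟩ fun k _ => ?_
      · have : (16 : ℤ) ∣ dotInt (u : GolayPt → ℤ) v :=
          Finset.dvd_sum fun i _ => mul_dvd_mul (hu.2 i) (hv.2 i)
        rw [AddSubgroup.coe_add, Spor.Leech.sqNorm_add]
        have := hu.1; have := hv.1; omega
      · by_cases h : k.val < 12
        · simp [y, h, sqNorm]
        · have h1 : ∀ k : Fin 24, ¬ k.val < 12 → (4 : ℤ) ∣ Spor.Leech.ent Spor.Leech.Gm k k ∧
              ∀ i, (4 : ℤ) ∣ Spor.Leech.vecOf (Comp.getL [] Spor.Leech.Bm k) i := by decide +kernel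
          refine ⟨?_, fun i => Dvd.dvd.mul_left ((h1 k h).2 i) _⟩
          rw [AddSubgroup.coe_zsmul, Spor.Leech.sqNorm_zsmul, ← Spor.Leech.dotInt_self, Spor.Leech.dot_bas]
          exact Dvd.dvd.mul_left (mul_dvd_mul_left 8 (h1 k h).1) _
    change (32 : ℤ) ∣ sqNorm (Spor.Leech.emb a : GolayPt → ℤ)
    rw [e, map_add, map_nsmul, AddSubgroup.coe_add, Spor.Leech.sqNorm_add, AddSubgroup.coe_nsmul,
      Spor.Leech.sqNorm_two_nsmul, two_smul, Spor.Leech.dotInt_add_right]
    have := Spor.Leech.sixteen_dvd_sqNorm (Spor.Leech.emb z).2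
    have := Spor.Leech.eight_dvd_dotInt (Spor.Leech.emb y).2 (Spor.Leech.emb z).2
    have := hy.1
    omega

end Cfsg.Agent.S5553
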