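import Cfsg.Statements.S5594
import Cfsg.Agent.Spor.Co0Center
import Cfsg.Agent.Spor.M24Sub

set_option autoImplicit false
open Cfsg

namespace Cfsg.Agent.S5594

open Cfsg.Agent.Spor Cfsg.Agent.Spor.Leech
open scoped Pointwise

/-- The automorphism group of the Leech lattice contains the negation map, and the subgroup of order 2 it generates has no complement: the automorphism group is a non-split extension of its quotient by that subgroup (it is not the direct product of a group of order 2 with the first Conway group). -/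
theorem result :
    ∃ n : ↥Cfsg.Co0, (∀ v : ↥Cfsg.leechLattice, ((n • v : ↥Cfsg.leechLattice) : Cfsg.GolayPt → ℤ) = -(v : Cfsg.GolayPt → ℤ)) ∧
    ∀ K : Subgroup ↥Cfsg.Co0, ¬ (Subgroup.zpowers n).IsComplement' K := by
  refine ⟨negOne, fun v => rfl, fun K hK => ?_⟩
  have h2 : K.index = 2 := by
    rw [hK.index_eq_card, Nat.card_zpowers]
    exact orderOf_eq_prime (by rw [pow_two, negOne_mul_self]) negOne_ne_one
  have hn : K.Normal := K.normal_of_index_eq_two h2
  have hd := M24C.d0_mem
  generalize setOf' 340831 = d at hd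
  have hd' := M24C.compl_mem_dodecads hd
  obtain ⟨σ, hσ⟩ := M24C.exists_smul_dodecad hd hd'
  have h3 : permHom σ * sgn d hd.1 * (permHom σ)⁻¹ = sgn dᶜ hd'.1 := by
    rw [mul_inv_eq_iff_eq_mul]
    refine co0_ext fun v => Subtype.ext (funext fun i => ?_)
    rw [mul_smul, mul_smul, permHom_smul, sgn_smul, sgn_smul, permHom_smul, ← hσ]
    simp only [Subgroup.smul_def, mem_perm_smul]
    rfl
  have h4 : sgn d hd.1 * sgn dᶜ hd'.1 = negOne := by
    refine co0_ext fun v => Subtype.ext (funext fun i => ?_)
    rw [mul_smul, sgn_smul, sgn_smul]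
    by_cases h : i ∈ d <;> simp [h]
  have h5 : negOne ∈ K := by
    rw [← h4, Subgroup.mul_mem_iff_of_index_two h2, ← h3]
    exact ⟨fun h => hn.conj_mem _ h _, fun h => by simpa [mul_assoc] using hn.conj_mem _ h (permHom σ)⁻¹⟩
  exact negOne_ne_one (Subgroup.disjoint_def.1 hK.disjoint (Subgroup.mem_zpowers _) h5)

end Cfsg.Agent.S5594
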