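import Cfsg.Statements.S5599
import Cfsg.Agent.Spor.M24Mod

set_option autoImplicit false
open scoped Pointwise
open Cfsg

namespace Cfsg.Agent.S5599

open Cfsg.Agent.Spor Cfsg.Agent.Spor.M24C Cfsg.Agent.Comp
open scoped Pointwise

/-- In the automorphism group of the length-24 code, the two-point Mathieu group (permutations of the code's group fixing the extra point and the residue 0) has index 2 in the setwise stabiliser of that pair of points, and an element of the code's group interchanging the two points normalises the two-point group and induces on it, by conjugation, an automorphism that is not inner. -/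
theorem result (g : Equiv.Perm Cfsg.GolayPt) (hg : g ∈ Cfsg.M24) (h₁ : g none = some 0) (h₂ : g (some 0) = none) : Cfsg.Spor.M22.relIndex (Cfsg.M24 ⊓ MulAction.stabilizer (Equiv.Perm Cfsg.GolayPt) ({none, some 0} : Finset Cfsg.GolayPt)) = 2 ∧ (∀ x ∈ Cfsg.Spor.M22, g * x * g⁻¹ ∈ Cfsg.Spor.M22) ∧ ¬ ∃ h ∈ Cfsg.Spor.M22, ∀ x ∈ Cfsg.Spor.M22, g * x * g⁻¹ = h * x * h⁻¹ := by
  have hne : (none : GolayPt) ≠ some 0 := by simp
  have hm : ∀ x, x ∈ Spor.M22 ↔ x ∈ M24 ∧ x none = none ∧ x (some 0) = some 0 := fun x => by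
    simp [Spor.M22, Spor.M23, and_assoc]
  have h₁' : g⁻¹ (some 0) = none := by rw [Equiv.Perm.inv_eq_iff_eq, h₁]
  have h₂' : g⁻¹ none = some 0 := by rw [Equiv.Perm.inv_eq_iff_eq, h₂]
  refine ⟨?_, fun x hx => ?_, ?_⟩
  · rw [Subgroup.relIndex, Subgroup.index_eq_two_iff]
    refine ⟨⟨g, hg, ?_⟩, fun b => ?_⟩
    · change g • _ = _
      rw [Finset.smul_finset_insert, Finset.smul_finset_singleton, Equiv.Perm.smul_def,
        Equiv.Perm.smul_def, h₁, h₂, Finset.pair_comm]
    · have e1 := (smul_mem_iff_of_stab b.2.2 none).2 (by simp)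
      have e2 := (smul_mem_iff_of_stab b.2.2 (some 0)).2 (by simp)
      have e3 : (b : Equiv.Perm GolayPt) none ≠ (b : Equiv.Perm GolayPt) (some 0) :=
        fun e => hne ((b : Equiv.Perm GolayPt).injective e)
      simp only [Finset.mem_insert, Finset.mem_singleton, Equiv.Perm.smul_def] at e1 e2
      have e4 : (b : Equiv.Perm GolayPt) ∈ M24 := b.2.1
      simp only [Subgroup.mem_subgroupOf, hm, Subgroup.coe_mul, Equiv.Perm.mul_apply, h₁, h₂,
        e4, M24.mul_mem e4 hg, true_and]
      rcases e1 with e1 | e1 <;> rcases e2 with e2 | e2 <;> simp [e1, e2] at e3 ⊢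
  · rw [hm] at hx ⊢
    exact ⟨M24.mul_mem (M24.mul_mem hg hx.1) (M24.inv_mem hg), by
      simp only [Equiv.Perm.mul_apply, h₂', hx.2.2, h₂], by
      simp only [Equiv.Perm.mul_apply, h₁', hx.2.1, h₁]⟩
  · rintro ⟨h, hh, hc⟩
    rw [hm] at hh
    set c : M24 := (⟨h, hh.1⟩ : M24)⁻¹ * ⟨g, hg⟩ with hcd
    have c1 : c • (none : GolayPt) = some 0 := by
      rw [hcd, mul_smul, inv_smul_eq_iff]; exact h₁.trans hh.2.2.symm
    have c2 : c • (some 0 : GolayPt) = none := by
      rw [hcd, mul_smul, inv_smul_eq_iff]; exact h₂.trans hh.2.1.symm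
    have hc1 : c ≠ 1 := fun e => by rw [e, one_smul] at c1; exact hne c1
    obtain ⟨p, hp, hcp⟩ := exists_moved c hc1 {none, some 0}
      (lt_of_le_of_lt Finset.card_le_two (by norm_num))
    simp only [Finset.mem_insert, Finset.mem_singleton, not_or] at hp
    have q1 : c • p ≠ none := fun e => hp.2 (MulAction.injective c (e.trans c2.symm))
    have q2 : c • p ≠ some 0 := fun e => hp.1 (MulAction.injective c (e.trans c1.symm))
    obtain ⟨r, hr⟩ := exists_not_mem_of_card_lt (s := {none, some 0, p, c • p})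
      (lt_of_le_of_lt Finset.card_le_four (by norm_num))
    simp only [Finset.mem_insert, Finset.mem_singleton, not_or] at hr
    obtain ⟨x, hx⟩ := exists_map_tuple (k := 4) (by norm_num) ![none, some 0, p, c • p]
      ![none, some 0, p, r]
      (by simp [Function.Injective, Fin.forall_fin_succ, hp.1, hp.2, q1, q2, hcp, Ne.symm hp.1,
        Ne.symm hp.2, q1.symm, q2.symm, hcp.symm])
      (by simp [Function.Injective, Fin.forall_fin_succ, hp.1, hp.2, hr.1, hr.2.1, hr.2.2.1,
        Ne.symm hp.1, Ne.symm hp.2, Ne.symm hr.1, Ne.symm hr.2.1, Ne.symm hr.2.2.1])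
    have h1 := hc x ((hm x).2 ⟨x.2, hx 0, hx 1⟩)
    have h2 : c * x = x * c := by
      apply Subtype.ext
      change h⁻¹ * g * x = x * (h⁻¹ * g)
      calc h⁻¹ * g * x = h⁻¹ * (g * x * g⁻¹) * g := by group
        _ = _ := by rw [h1]; group
    have x2 : x • p = p := hx 2
    have x3 : x • c • p = r := hx 3
    rw [← mul_smul, ← h2, mul_smul, x2] at x3
    exact hr.2.2.2 x3.symm

end Cfsg.Agent.S5599
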