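import Cfsg.Statements.S5601
import Cfsg.Agent.Spor.M24FixCount

set_option autoImplicit false
open scoped Pointwise
open Cfsg

namespace Cfsg.Agent.S5601

open Cfsg.Agent.Spor Cfsg.Agent.Spor.M24C Cfsg.Agent.Comp
open scoped Pointwise

/-- The group of the length-24 code has exactly two conjugacy classes of subgroups of order 3: a subgroup of order 3 fixes either exactly 6 of the 24 points or none of them, both cases occur, and two subgroups of order 3 with the same number of fixed points are conjugate. -/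
theorem result : (∀ X : Subgroup ↥Cfsg.M24, Nat.card X = 3 → {p : Cfsg.GolayPt | ∀ x ∈ X, ((x : ↥Cfsg.M24) : Equiv.Perm Cfsg.GolayPt) p = p}.ncard = 6 ∨ {p : Cfsg.GolayPt | ∀ x ∈ X, ((x : ↥Cfsg.M24) : Equiv.Perm Cfsg.GolayPt) p = p}.ncard = 0) ∧ (∃ X : Subgroup ↥Cfsg.M24, Nat.card X = 3 ∧ {p : Cfsg.GolayPt | ∀ x ∈ X, ((x : ↥Cfsg.M24) : Equiv.Perm Cfsg.GolayPt) p = p}.ncard = 6) ∧ (∃ X : Subgroup ↥Cfsg.M24, Nat.card X = 3 ∧ {p : Cfsg.GolayPt | ∀ x ∈ X, ((x : ↥Cfsg.M24) : Equiv.Perm Cfsg.GolayPt) p = p}.ncard = 0) ∧ ∀ X Y : Subgroup ↥Cfsg.M24, Nat.card X = 3 → Nat.card Y = 3 → {p : Cfsg.GolayPt | ∀ x ∈ X, ((x : ↥Cfsg.M24) : Equiv.Perm Cfsg.GolayPt) p = p}.ncard = {p : Cfsg.GolayPt | ∀ x ∈ Y, ((x : ↥Cfsg.M24) : Equiv.Perm Cfsg.GolayPt) p = p}.ncard → ∃ k : ↥Cfsg.M24, MulAut.conj k • X = Y := by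
  have : Fact (Nat.Prime 3) := ⟨Nat.prime_three⟩
  have gen : ∀ X : Subgroup M24, Nat.card X = 3 → ∃ x : M24, orderOf x = 3 ∧ X = Subgroup.zpowers x := by
    intro X hX
    obtain ⟨x, hx⟩ := exists_prime_orderOf_dvd_card' (G := X) 3 (by rw [hX])
    refine ⟨x, by rw [Subgroup.orderOf_coe, hx], (Subgroup.eq_of_le_of_card_ge
      (Subgroup.zpowers_le_of_mem x.2) ?_).symm⟩
    rw [Nat.card_zpowers, Subgroup.orderOf_coe, hx, hX]
  have fix : ∀ x : M24, {p : GolayPt | ∀ y ∈ Subgroup.zpowers x,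
      ((y : M24) : Equiv.Perm GolayPt) p = p}.ncard = (fixSet x).card := by
    intro x
    rw [← Set.ncard_coe_finset]
    congr 1
    ext p
    rw [Finset.mem_coe, mem_fixSet]
    refine ⟨fun h => h x (Subgroup.mem_zpowers x), fun h y hy => ?_⟩
    exact (Subgroup.zpowers_le_of_mem (H := MulAction.stabilizer M24 p) h) hy
  have cf : ∀ k a : M24, (fixSet (k * a * k⁻¹ : M24)).card = (fixSet a).card := fun k a =>
    card_fixSet_of_conj (k := k⁻¹) (by group)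
  refine ⟨fun X hX => ?_, ⟨Subgroup.zpowers (mc x1), by rw [Nat.card_zpowers, orderOf_x1], by
    rw [fix, card_fixSet_x1]⟩, ⟨Subgroup.zpowers (mc x2), by rw [Nat.card_zpowers, orderOf_x2], by
    rw [fix, card_fixSet_x2]⟩, fun X Y hX hY h => ?_⟩
  · obtain ⟨x, hx, rfl⟩ := gen X hX
    rw [fix]
    by_cases h0 : (fixSet x).card = 0
    · exact Or.inr h0
    · obtain ⟨k, rfl⟩ := conj_x1 hx h0
      exact Or.inl ((cf _ _).trans card_fixSet_x1)
  · obtain ⟨x, hx, rfl⟩ := gen X hX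
    obtain ⟨y, hy, rfl⟩ := gen Y hY
    rw [fix, fix] at h
    have key : ∀ z : M24, (∃ k : M24, x = k * z * k⁻¹) → (∃ k : M24, y = k * z * k⁻¹) →
        ∃ k : M24, MulAut.conj k • Subgroup.zpowers x = Subgroup.zpowers y := by
      rintro z ⟨k, rfl⟩ ⟨k', rfl⟩
      refine ⟨k' * k⁻¹, ?_⟩
      refine (MonoidHom.map_zpowers (MulAut.conj (k' * k⁻¹)).toMonoidHom _).trans ?_
      congr 1
      simp [mul_assoc]
    by_cases h0 : (fixSet x).card = 0
    · exact key _ (conj_x2 hx (by omega)) (conj_x2 hy (by omega))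
    · exact key _ (conj_x1 hx h0) (conj_x1 hy (by omega))

end Cfsg.Agent.S5601
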