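import Cfsg.Statements.S5604
import Cfsg.Agent.Spor.M24Conj2

set_option autoImplicit false
open scoped Pointwise
open Cfsg

namespace Cfsg.Agent.S5604

open Cfsg.Agent.Spor Cfsg.Agent.Spor.M24C Cfsg.Agent.Comp
open scoped Pointwise

/-- An element of order seven. -/
def g7 : ℕ := 358535540859810273282569403223903297
/-- Its powers. -/
def pl : List ℕ := [984818244535754528103549039458486304, 358535540859810273282569403223903297, 813303330976258871338938605949390946, 892322762600053401742956452708228227, 268350758757027394351959119852744932, 720776929273619358240766446918467975, 561567022517466317974559415260480524]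

theorem ok7 : okM g7 = true := by decide +kernel

theorem padicValNat_eq_one : padicValNat 7 244823040 = 1 := by
  have : Fact (Nat.Prime 7) := ⟨by norm_num⟩
  rw [show 244823040 = 7 * 34974720 by norm_num, padicValNat.mul (by norm_num) (by norm_num),
    padicValNat.self (by norm_num), padicValNat.eq_zero_of_not_dvd (by norm_num)]

attribute [irreducible] g7 pl

/-- For a subgroup S of order 7 of the group of the length-24 code (a Sylow 7-subgroup): the normaliser of S has order 126, the centraliser of S has order 42 and is non-abelian, and the whole normaliser leaves some trio invariant. (These are the orders of a Frobenius group of order 21 times a symmetric group of degree 3; the isomorphism type itself is not asserted here.) -/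
theorem result (S : Subgroup ↥Cfsg.M24) (hS : Nat.card S = 7) : Nat.card ↥(Subgroup.normalizer (S : Set ↥Cfsg.M24)) = 126 ∧ Nat.card ↥(Subgroup.centralizer (S : Set ↥Cfsg.M24)) = 42 ∧ (∃ x ∈ Subgroup.centralizer (S : Set ↥Cfsg.M24), ∃ y ∈ Subgroup.centralizer (S : Set ↥Cfsg.M24), x * y ≠ y * x) ∧ ∃ T ∈ Cfsg.trios, ∀ n ∈ Subgroup.normalizer (S : Set ↥Cfsg.M24), ((n : ↥Cfsg.M24) : Equiv.Perm Cfsg.GolayPt) • T = T := by
  have ho : orderOf (mc g7) = 7 := orderOf_mc_prime (by norm_num) ok7 (by decide +kernel)
  have hf : (Nat.card M24).factorization 7 = 1 := by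
    rw [card_M24, Nat.factorization_def _ (by norm_num)]
    exact padicValNat_eq_one
  obtain ⟨k, hk⟩ := exists_conj_of_sylow (p := 7) (by norm_num) (S := S)
    (S0 := Subgroup.zpowers (mc g7)) (by rw [hf, hS]; rfl) (by rw [hf, Nat.card_zpowers, ho]; rfl)
  have hz := mem_zpowers_iff_list ok7 ho pl (by decide +kernel)
  have hC : ∀ c, and' (okM c) (Nat.beq (conjC c g7) g7) = true →
      k * mc c * k⁻¹ ∈ Subgroup.centralizer (S : Set M24) := by
    intro c hc
    rw [mem_centralizer_conj k hk, centralizer_zpowers]
    simpa [mul_assoc] using (inH_centralizer ok7 hc).mc_mem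
  refine ⟨?_, ?_, ⟨_, hC 944319304547998642267612847938832416 (by decide +kernel), _,
    hC 23506141934767947490337935548200486 (by decide +kernel), ?_⟩,
    k • famOf 3 0xaa234055c82000149f, smul_mem_trios k (famOf_mem_trios (by decide +kernel)),
    fun n hn => ?_⟩
  · rw [card_eq_of_conj k (mem_normalizer_conj k hk),
      ← chainM.ncard_conj_list2 ok7 pl (fun _ => true) (N := 126) (by decide +kernel)]
    exact card_subgroup_eq_ncard fun g => by simp [mem_normalizer_zpowers, hz]
  · rw [card_eq_of_conj k (mem_centralizer_conj k hk), centralizer_zpowers,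
      ← chainM.card_cent ok7 0 (by norm_num) (N := 42) (by decide +kernel), fixK_zero, top_inf_eq]
  · intro h
    have h1 : mc 944319304547998642267612847938832416 * mc 23506141934767947490337935548200486 =
        mc 23506141934767947490337935548200486 * mc 944319304547998642267612847938832416 := by
      rw [conj_mul, conj_mul] at h
      exact mul_left_cancel (mul_right_cancel h)
    rw [eq_iff_code, code_mul', code_mul', code_mc (by decide +kernel),
      code_mc (by decide +kernel)] at h1
    revert h1
    decide +kernel
  · rw [mem_normalizer_conj k hk, mem_normalizer_zpowers, hz] at hn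
    have := chainM.forall_conj_list2 ok7 pl (fun c => fixF 3 c 0xaa234055c82000149f) (by decide +kernel)
      _ trivial hn
    rw [fixF_iff] at this
    exact (mem_stabilizer_smul_iff k n _).2 this

end Cfsg.Agent.S5604
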