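import Cfsg.Statements.S5608
import Cfsg.Agent.Spor.M24FixCount

set_option autoImplicit false
open scoped Pointwise
open Cfsg

namespace Cfsg.Agent.S5608

open Cfsg.Agent.Spor Cfsg.Agent.Spor.M24C Cfsg.Agent.Comp
open scoped Pointwise

/-- If an element of order 3 and an involution of the group of the length-24 code commute, then either the element of order 3 has exactly 6 fixed points and the involution exactly 8, or both are fixed-point-free. -/
theorem result (x s : Equiv.Perm Cfsg.GolayPt) (hx : x ∈ Cfsg.M24) (hs : s ∈ Cfsg.M24) (h₃ : orderOf x = 3) (h₂ : orderOf s = 2) (hc : Commute x s) : ((Finset.univ.filter fun p => x p = p).card = 6 ∧ (Finset.univ.filter fun p => s p = p).card = 8) ∨ ((Finset.univ.filter fun p => x p = p).card = 0 ∧ (Finset.univ.filter fun p => s p = p).card = 0) := by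
  lift x to M24 using hx
  lift s to M24 using hs
  rw [Subgroup.orderOf_coe] at h₃ h₂
  have hc' : Commute x s := Subtype.ext hc
  have cf : ∀ k a : M24, (fixSet (k * a * k⁻¹ : M24)).card = (fixSet a).card := fun k a =>
    card_fixSet_of_conj (k := k⁻¹) (by group)
  have key : ∀ (c n : ℕ) (k : M24), x = k * mc c * k⁻¹ →
      (∀ g : M24, g * mc c * g⁻¹ = mc c → or' (Nat.beq (code g) oneC)
        (or' (not' (Nat.beq (mulC (code g) (code g)) oneC))
          (Nat.beq (pop 24 (fixC (code g))) n)) = true) → (fixSet s).card = n := by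
    rintro c n k rfl h
    have h1 := h (k⁻¹ * s * k) (by
      have := hc'.eq
      rw [mul_inv_eq_iff_eq_mul]
      calc k⁻¹ * s * k * mc c = k⁻¹ * (s * (k * mc c * k⁻¹)) * k := by group
        _ = mc c * (k⁻¹ * s * k) := by rw [← this]; group)
    have ho : orderOf (k⁻¹ * s * k) = 2 := by
      rw [← h₂]; simpa using (MulAut.conj k⁻¹).orderOf_eq s
    rw [orderOf_two_iff] at ho
    rw [or'_eq_true, or'_eq_true, not'_eq_true, beq_iff, beq_iff, beq_iff, ← code_mul', ← code_one',
      ← eq_iff_code, ← eq_iff_code, ← card_setOf', ← fixSet_eq] at h1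
    rw [← (h1.resolve_left ho.1).resolve_left (not_not.2 ho.2), ← cf k⁻¹ s, inv_inv]
  by_cases h0 : (fixSet x).card = 0
  · obtain ⟨k, hk⟩ := conj_x2 h₃ (by omega)
    exact Or.inr ⟨h0, key x2 0 k hk fun g hg => chainM'.forall_conj okM_x2 okM_x2
      (fun c => or' (Nat.beq c oneC) (or' (not' (Nat.beq (mulC c c) oneC))
          (Nat.beq (pop 24 (fixC c)) 0))) (by decide +kernel) g trivial hg⟩
  · obtain ⟨k, hk⟩ := conj_x1 h₃ h0
    refine Or.inl ⟨?_, key x1 8 k hk fun g hg => chainM.forall_conj okM_x1 okM_x1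
      (fun c => or' (Nat.beq c oneC) (or' (not' (Nat.beq (mulC c c) oneC))
          (Nat.beq (pop 24 (fixC c)) 8))) (by decide +kernel) g trivial hg⟩
    rw [hk]
    exact (cf _ _).trans card_fixSet_x1

end Cfsg.Agent.S5608
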