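import Cfsg.Statements.S5609
import Cfsg.Agent.Spor.M24Facts
import Cfsg.Agent.S1555

set_option autoImplicit false
open scoped Pointwise
open Cfsg

namespace Cfsg.Agent.S5609

open Cfsg.Agent.Spor Cfsg.Agent.Spor.M24C Finset

theorem adj_iff (a b : octads) : (blockGraph octads).Adj a b ↔ (a.1 ∩ b.1).card = 0 := by
  simp only [blockGraph, SimpleGraph.fromRel_adj, disjoint_comm, or_self, card_eq_zero,
    ← disjoint_iff_inter_eq_empty, and_iff_right_iff_imp]
  rintro h rfl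
  have := a.2.2
  rw [disjoint_self_iff_empty] at h
  simp [h] at this

theorem exists_common (a b : octads) (h : (a.1 ∩ b.1).card = 4) :
    ∃ c, (blockGraph octads).Adj a c ∧ (blockGraph octads).Adj c b := by
  have h1 := (S1555.result a.1 a.2 (a.1 ∩ b.1) inter_subset_left).2 h
  obtain ⟨x, hx, y, hy, hxy⟩ := (Set.one_lt_ncard (s := {o' : Finset GolayPt |
      o' ∈ octads ∧ a.1 ∩ o' = a.1 ∩ b.1} \ {b.1})).1 (by
    rw [Set.ncard_sdiff_singleton_of_mem (by exact ⟨b.2, rfl⟩), h1]; norm_num)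
  have key : ∀ u ∈ octads, ∀ v ∈ octads, u ≠ v → a.1 ∩ b.1 ⊆ u → a.1 ∩ b.1 ⊆ v →
      u ∩ v = a.1 ∩ b.1 := by
    intro u hu v hv huv h1 h2
    have := card_inter_octads hu hv huv
    exact (eq_of_subset_of_card_le (subset_inter h1 h2) (by omega)).symm
  have hx1 : a.1 ∩ b.1 ⊆ x := hx.1.2 ▸ inter_subset_right
  have hy1 : a.1 ∩ b.1 ⊆ y := hy.1.2 ▸ inter_subset_right
  have e1 := key x hx.1.1 y hy.1.1 hxy hx1 hy1
  have e2 := key x hx.1.1 b b.2 hx.2 hx1 inter_subset_right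
  have e3 := key y hy.1.1 b b.2 hy.2 hy1 inter_subset_right
  have e4 := hx.1.2
  have e5 := hy.1.2
  have key2 : ∀ u : Finset GolayPt, u ∩ x = u ∩ y → (u ∩ symmDiff x y).card = 0 := by
    intro u hu
    rw [← inf_eq_inter, inf_symmDiff_distrib_left, inf_eq_inter, inf_eq_inter, hu, symmDiff_self]
    rfl
  refine ⟨⟨symmDiff x y, symmDiff_mem_octads hx.1.1 hy.1.1 (by rw [e1, h])⟩, ?_, ?_⟩
  · exact (adj_iff _ _).2 (key2 _ (e4.trans e5.symm))
  · exact ((adj_iff _ _).2 (key2 _ (by rw [inter_comm _ x, e2, inter_comm _ y, e3]))).symm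

theorem not_common (a b c : octads) (h : (a.1 ∩ b.1).card = 2)
    (h1 : (blockGraph octads).Adj a c) (h2 : (blockGraph octads).Adj c b) : False := by
  rw [adj_iff, card_eq_zero, ← disjoint_iff_inter_eq_empty] at h1 h2
  exact not_disjoint_octad_dodecad c.2 (symmDiff_mem_dodecads a.2 b.2 h)
    ((disjoint_union_right.2 ⟨h1.symm, h2⟩).mono_right symmDiff_le_sup)

theorem exists_mid (a b : octads) (h : (a.1 ∩ b.1).card = 2) :
    ∃ c, (blockGraph octads).Adj a c ∧ (c.1 ∩ b.1).card = 4 := by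
  obtain ⟨c, hc, hac⟩ := exists_disjoint_octad a.2
  have hc' := compl_union_mem_octads a.2 hc hac
  have hac' : Disjoint a.1 (a.1 ∪ c)ᶜ := disjoint_compl_right.mono_left subset_union_left
  have h1 : (blockGraph octads).Adj a ⟨c, hc⟩ := by
    rw [adj_iff, card_eq_zero, ← disjoint_iff_inter_eq_empty]; exact hac
  have h2 : (blockGraph octads).Adj a ⟨_, hc'⟩ := by
    rw [adj_iff, card_eq_zero, ← disjoint_iff_inter_eq_empty]; exact hac'
  have h3 : (c ∩ b.1).card ≠ 0 := fun h' => not_common a b _ h h1 ((adj_iff _ _).2 h')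
  have h4 : ((a.1 ∪ c)ᶜ ∩ b.1).card ≠ 0 := fun h' => not_common a b _ h h2 ((adj_iff _ _).2 h')
  have h5 : (a.1 ∩ b.1).card + (c ∩ b.1).card + ((a.1 ∪ c)ᶜ ∩ b.1).card = 8 := by
    rw [← card_union_of_disjoint (hac.mono inter_subset_left inter_subset_left),
      ← union_inter_distrib_right, ← card_union_of_disjoint
        (disjoint_compl_right.mono inter_subset_left inter_subset_left),
      ← union_inter_distrib_right, union_compl, univ_inter, b.2.2]
  have h6 := Nat.even_iff.1 (even_card_inter hc.1 b.2.1)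
  by_cases h7 : (c ∩ b.1).card = 4
  · exact ⟨_, h1, h7⟩
  · exact ⟨_, h2, show ((a.1 ∪ c)ᶜ ∩ b.1).card = 4 by omega⟩

theorem walk_le (a b : octads) : ∃ w : (blockGraph octads).Walk a b, w.length ≤ 3 ∧
    ((a.1 ∩ b.1).card = 4 → w.length ≤ 2) := by
  by_cases hab : a = b
  · subst hab
    exact ⟨.nil, by simp, by simp⟩
  rcases card_inter_octads a.2 b.2 (fun h => hab (Subtype.ext h)) with h | h | h
  · exact ⟨.cons ((adj_iff a b).2 h) .nil, by simp, by simp⟩
  · obtain ⟨c, h1, h2⟩ := exists_mid a b h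
    obtain ⟨d, h3, h4⟩ := exists_common c b h2
    exact ⟨.cons h1 (.cons h3 (.cons h4 .nil)), by simp, by omega⟩
  · obtain ⟨d, h3, h4⟩ := exists_common a b h
    exact ⟨.cons h3 (.cons h4 .nil), by simp, by simp⟩

/-- In the graph on the 759 octads of the length-24 code in which two octads are adjacent when they are disjoint, the graph is connected (of diameter 3) and two distinct octads are at distance 1, 2 or 3 exactly when they meet in 0, 4 or 2 points respectively. -/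
theorem result (o o' : Finset Cfsg.GolayPt) (ho : o ∈ Cfsg.octads) (ho' : o' ∈ Cfsg.octads) (hne : o ≠ o') : (Cfsg.blockGraph Cfsg.octads).Connected ∧ ((Cfsg.blockGraph Cfsg.octads).dist ⟨o, ho⟩ ⟨o', ho'⟩ = 1 ↔ (o ∩ o').card = 0) ∧ ((Cfsg.blockGraph Cfsg.octads).dist ⟨o, ho⟩ ⟨o', ho'⟩ = 2 ↔ (o ∩ o').card = 4) ∧ ((Cfsg.blockGraph Cfsg.octads).dist ⟨o, ho⟩ ⟨o', ho'⟩ = 3 ↔ (o ∩ o').card = 2) := by
  have : Nonempty octads := ⟨⟨o, ho⟩⟩
  have hc : (blockGraph octads).Connected := ⟨fun a b => ⟨(walk_le a b).choose⟩⟩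
  have h1 : (blockGraph octads).dist ⟨o, ho⟩ ⟨o', ho'⟩ = 1 ↔ (o ∩ o').card = 0 := by
    rw [SimpleGraph.dist_eq_one_iff_adj, adj_iff]
  obtain ⟨w, hw1, hw2⟩ := walk_le ⟨o, ho⟩ ⟨o', ho'⟩
  have h2 := SimpleGraph.dist_le w
  have h3 := hc.pos_dist_of_ne (show (⟨o, ho⟩ : octads) ≠ ⟨o', ho'⟩ by simpa using hne)
  have h4 := card_inter_octads ho ho' hne
  have h5 : (o ∩ o').card = 2 → (blockGraph octads).dist ⟨o, ho⟩ ⟨o', ho'⟩ ≠ 2 := by
    intro h h'
    obtain ⟨p, hp⟩ := hc.exists_walk_length_eq_dist ⟨o, ho⟩ ⟨o', ho'⟩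
    rw [h'] at hp
    exact not_common ⟨o, ho⟩ ⟨o', ho'⟩ (p.getVert 1) h
      (by simpa using p.adj_getVert_succ (i := 0) (by omega))
      (by simpa [← hp] using p.adj_getVert_succ (i := 1) (by omega))
  simp only at hw2
  refine ⟨hc, h1, ?_, ?_⟩ <;> omega

end Cfsg.Agent.S5609
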