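import Cfsg.Statements.S5614
import Cfsg.Agent.Spor.M24Facts
import Cfsg.Agent.S5613

set_option autoImplicit false
open scoped Pointwise
open Cfsg

namespace Cfsg.Agent.S5614

open Cfsg.Agent.Spor Cfsg.Agent.Spor.M24C

/-- In the group of the length-24 code, the joint stabiliser of two octads meeting in exactly two points is isomorphic to the symmetric group of degree 6. -/
theorem result (o o' : Finset Cfsg.GolayPt) (ho : o ∈ Cfsg.octads) (ho' : o' ∈ Cfsg.octads) (h₂ : (o ∩ o').card = 2) : Nonempty (↥(MulAction.stabilizer Cfsg.M24 o ⊓ MulAction.stabilizer Cfsg.M24 o') ≃* Equiv.Perm (Fin 6)) := by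
  refine nonempty_equiv_perm_fin (T := o \ o') (fun g hg => ?_)
    (fun g hg h => eq_one_of_octad_pair ho ho' h₂ (Subgroup.mem_inf.1 hg).1
      (Subgroup.mem_inf.1 hg).2 h) ?_
    ((S5613.result o o' ho ho').2.2 h₂)
  · rw [MulAction.mem_stabilizer_iff, Finset.smul_finset_sdiff, (Subgroup.mem_inf.1 hg).1,
      (Subgroup.mem_inf.1 hg).2]
  · rw [Finset.card_sdiff, Finset.inter_comm, h₂, ho.2]

end Cfsg.Agent.S5614
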