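import Cfsg.Statements.S5615
import Cfsg.Agent.Spor.M24Facts
import Cfsg.Agent.Spor.M24OrbO
import Cfsg.Agent.Spor.M24Code
import Cfsg.Agent.Spor.M24Class

set_option autoImplicit false
open scoped Pointwise
open Cfsg

namespace Cfsg.Agent.S5615

open Cfsg.Agent.Spor Cfsg.Agent.Spor.M24C Cfsg.Agent.Comp Finset

theorem exists_smul_triple {o a b : Finset GolayPt} (ho : o ∈ octads) (ha : a ∈ octads)
    (hb : b ∈ octads) (hoa : Disjoint o a) (hob : Disjoint o b) (hab : (a ∩ b).card = 4) :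
    ∃ g : M24, g • setOf' 5279 = o ∧ g • setOf' 8694112 = a ∧ g • setOf' 11952160 = b := by
  obtain ⟨g, rfl⟩ := exists_smul_octad o0_mem ho
  obtain ⟨a, rfl⟩ := MulAction.surjective g a
  obtain ⟨b, rfl⟩ := MulAction.surjective g b
  rw [smul_mem_octads_iff] at ha hb
  rw [disjoint_iff_inter_eq_empty, ← card_eq_zero, card_smul_inter] at hoa hob
  rw [card_smul_inter] at hab
  obtain ⟨k, hk, rfl⟩ := exists_smul_octad_pair o0_mem (o' := setOf' 8694112)
    (setOf'_mem_octads (by decide +kernel)) ha (by rw [hoa, card_inter_setOf']; decide +kernel)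
  have hk : k • setOf' 5279 = setOf' 5279 := hk
  obtain ⟨b, rfl⟩ := MulAction.surjective k b
  rw [smul_mem_octads_iff] at hb
  rw [← hk, card_smul_inter, card_setOf'_inter _ (by norm_num)] at hob
  rw [card_smul_inter, card_setOf'_inter _ (by norm_num)] at hab
  obtain ⟨u, hu, e⟩ := cw_rep (inH_fixL (l := [5279, 8694112])
    (G := [234557771148252968370759279958957123, 226737759633362722735762723365226819])
    (by decide +kernel)) [32] 10 (fun m => and' (Nat.beq (pop 24 m) 8)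
      (and' (Nat.beq (pop 24 (Nat.land 5279 m)) 0) (Nat.beq (pop 24 (Nat.land 8694112 m)) 4)))
    (fun _ => 0) (by decide +kernel) hb.1
    (by simp only [and'_eq_true, beq_iff, hob, hab, pop_of_octad hb, and_self])
  refine ⟨g * k * u, ?_, ?_, ?_⟩
  · rw [mul_smul, mul_smul, hu _ (by simp), hk]
  · rw [mul_smul, mul_smul, hu _ (by simp)]
  · rw [mul_smul, mul_smul, ← e, show enc ([32].getD 0 0) = 11952160 by decide +kernel]

theorem exists_pair {o : Finset GolayPt} (ho : o ∈ octads) {T T' : Finset (Finset GolayPt)}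
    (hT : T ∈ trios) (hT' : T' ∈ trios) (h : o ∈ T) (h' : o ∈ T') (hne : T ≠ T') :
    ∃ a ∈ octads, ∃ b ∈ octads, Disjoint o a ∧ Disjoint o b ∧ (a ∩ b).card = 4 ∧
      T = {o, a, (o ∪ a)ᶜ} ∧ T' = {o, b, (o ∪ b)ᶜ} := by
  obtain ⟨a, ha, hoa⟩ := exists_ne_mem_trio hT o
  obtain ⟨b, hb, hob⟩ := exists_ne_mem_trio hT' o
  have h1 := hT.2.2 o h a ha hoa
  have h2 := hT'.2.2 o h' b hb hob
  have hbT : b ∉ T := fun hbT => hne ((trio_eq hT h hbT hob).trans (trio_eq hT' h' hb hob).symm)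
  refine ⟨a, hT.2.1 a ha, b, hT'.2.1 b hb, h1, h2, ?_, trio_eq hT h ha hoa, trio_eq hT' h' hb hob⟩
  rcases card_inter_octads (hT.2.1 a ha) (hT'.2.1 b hb) (fun e => hbT (e ▸ ha)) with h3 | h3 | h3
  · exfalso
    apply hbT
    rw [card_eq_zero, ← disjoint_iff_inter_eq_empty] at h3
    have : b = (o ∪ a)ᶜ := eq_of_subset_of_card_le
      (subset_compl_iff_disjoint_left.2 (disjoint_union_left.2 ⟨h2, h3⟩))
      (by rw [(compl_union_mem_octads ho (hT.2.1 a ha) h1).2, (hT'.2.1 b hb).2])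
    rw [trio_eq hT h ha hoa, this]
    simp
  · exact (not_disjoint_octad_dodecad ho (symmDiff_mem_dodecads (hT.2.1 a ha) (hT'.2.1 b hb) h3)
      ((disjoint_union_right.2 ⟨h1, h2⟩).mono_right symmDiff_le_sup)).elim
  · exact h3

theorem smul_trio (g : M24) (o a : Finset GolayPt) :
    g • ({o, a, (o ∪ a)ᶜ} : Finset (Finset GolayPt)) = {g • o, g • a, (g • o ∪ g • a)ᶜ} := by
  rw [smul_finset_insert, smul_finset_insert, smul_finset_singleton, smul_compl',
    smul_finset_union]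

theorem fix_trios_std {g : M24} (hg : g ∈ fixS (setOf' 5279)) :
    ∀ T ∈ trios, setOf' 5279 ∈ T → g • T = T := by
  intro T hT ho
  obtain ⟨x, hx, rfl⟩ := (enum_tri15.2 T).1 ⟨hT, ho⟩
  rw [← fixK_six] at hg
  have := chainM.forall_fixK (fun c => allL tri15 fun x => fixF 3 c x) 6 (by norm_num)
    (by decide +kernel) _ hg
  rw [allL_iff] at this
  exact (fixF_iff 3 _ x).1 (this x hx)

theorem sep_std {p q r : GolayPt} (hq : q ∉ setOf' 5279) (hr : r ∉ setOf' 5279) (hqr : q ≠ r)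
    (hp : p ∉ setOf' 5279) : ∃ T ∈ trios, setOf' 5279 ∈ T ∧ ∃ a ∈ T, p ∈ a ∧ ¬ (q ∈ a ↔ r ∈ a) := by
  have key : allLT 24 (fun i => allLT 24 fun j => allLT 24 fun k => or' (tb 5279 i) (or' (tb 5279 j)
      (or' (tb 5279 k) (or' (Nat.beq j k) (anyL tri15 fun x => anyLT 3 fun l =>
        and' (tb (mem24 x l) i) (or' (and' (tb (mem24 x l) j) (not' (tb (mem24 x l) k)))
          (and' (tb (mem24 x l) k) (not' (tb (mem24 x l) j))))))))) = true := by
    decide +kernel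
  simp only [allLT_iff, or'_eq_true, tb_eq, beq_iff, anyL_iff, anyLT_iff, and'_eq_true,
    not'_eq_true] at key
  rw [mem_setOf'] at hp hq hr
  obtain ⟨x, hx, l, hl, h1, h2⟩ := ((((key _ (ix_lt p) _ (ix_lt q) _ (ix_lt r)).resolve_left
    hp).resolve_left hq).resolve_left hr).resolve_left fun e => hqr (ix_injective e)
  have h3 := (enum_tri15.2 _).2 ⟨x, hx, rfl⟩
  refine ⟨_, h3.1, h3.2, setOf' (mem24 x l), mem_famOf.2 ⟨l, hl, rfl⟩, mem_setOf'.2 h1, ?_⟩
  rw [mem_setOf', mem_setOf']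
  tauto

theorem fix_of_trios_std {g : M24} (h0 : g • setOf' 5279 = setOf' 5279)
    (hg : ∀ T ∈ trios, setOf' 5279 ∈ T → g • T = T) : g ∈ fixS (setOf' 5279) := by
  have hp : pt 5 ∉ setOf' 5279 := by decide
  obtain ⟨t, ht, e⟩ := exists_fixS_octad o0_mem ((smul_mem_iff_of_smul_eq h0 _).not.2 hp) hp
  rw [← mul_smul] at e
  have h1 : t * g = 1 := by
    by_contra hne
    have h2 : (setOf' 5279)ᶜ ⊆ fixSet (t * g : M24) := by
      intro q hq
      rw [mem_compl] at hq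
      by_contra hq'
      have h3 : (t * g) • setOf' 5279 = setOf' 5279 := by
        rw [mul_smul, h0]; exact fixS_le_stabilizer _ ht
      obtain ⟨T, hT, hoT, a, ha, hpa, h4⟩ := sep_std ((smul_mem_iff_of_smul_eq h3 _).not.2 hq) hq
        (fun h => hq' (mem_fixSet.2 h)) hp
      have h5 : (t * g) • T = T := by rw [mul_smul, hg T hT hoT, fix_trios_std ht T hT hoT]
      have h6 : (t * g) • a = a := by
        by_contra h6
        exact disjoint_left.1 (hT.2.2 _ (h5 ▸ smul_mem_smul_finset ha) a ha h6)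
          (e ▸ smul_mem_smul_finset hpa) hpa
      exact h4 (smul_mem_iff_of_smul_eq h6 q)
    have h3 := (card_le_card h2).trans (card_fixSet_le _ hne)
    rw [card_compl, o0_mem.2, card_golayPt] at h3
    omega
  rw [eq_inv_of_mul_eq_one_right h1]
  exact (fixS _).inv_mem ht

/-- An octad of the length-24 code lies in exactly 15 trios; the stabiliser of the octad in the code's group acts doubly transitively on these 15 trios, and the kernel of this action is the pointwise stabiliser of the octad. -/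
theorem result (o : Finset Cfsg.GolayPt) (ho : o ∈ Cfsg.octads) : {T : Finset (Finset Cfsg.GolayPt) | T ∈ Cfsg.trios ∧ o ∈ T}.ncard = 15 ∧ (∀ T₁ T₂ T₁' T₂' : Finset (Finset Cfsg.GolayPt), T₁ ∈ Cfsg.trios → T₂ ∈ Cfsg.trios → T₁' ∈ Cfsg.trios → T₂' ∈ Cfsg.trios → o ∈ T₁ → o ∈ T₂ → o ∈ T₁' → o ∈ T₂' → T₁ ≠ T₂ → T₁' ≠ T₂' → ∃ g ∈ Cfsg.M24, g • o = o ∧ g • T₁ = T₁' ∧ g • T₂ = T₂') ∧ ∀ g ∈ Cfsg.M24, g • o = o → ((∀ T ∈ Cfsg.trios, o ∈ T → g • T = T) ↔ ∀ p ∈ o, g p = p) := by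
  refine ⟨ncard_trios_mem ho, fun T₁ T₂ T₁' T₂' h1 h2 h1' h2' m1 m2 m1' m2' hne hne' => ?_,
    fun g hg hgo => ?_⟩
  · obtain ⟨a, ha, b, hb, d1, d2, d3, rfl, rfl⟩ := exists_pair ho h1 h2 m1 m2 hne
    obtain ⟨a', ha', b', hb', d1', d2', d3', rfl, rfl⟩ := exists_pair ho h1' h2' m1' m2' hne'
    obtain ⟨g, e1, e2, e3⟩ := exists_smul_triple ho ha hb d1 d2 d3
    obtain ⟨g', e1', e2', e3'⟩ := exists_smul_triple ho ha' hb' d1' d2' d3'
    have f1 : (g' * g⁻¹) • o = o := by rw [mul_smul, inv_smul_eq_iff.2 e1.symm, e1']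
    have f2 : (g' * g⁻¹) • a = a' := by rw [mul_smul, inv_smul_eq_iff.2 e2.symm, e2']
    have f3 : (g' * g⁻¹) • b = b' := by rw [mul_smul, inv_smul_eq_iff.2 e3.symm, e3']
    exact ⟨(g' * g⁻¹ : M24), (g' * g⁻¹).2, f1, (smul_trio _ o a).trans (by rw [f1, f2]),
      (smul_trio _ o b).trans (by rw [f1, f3])⟩
  · obtain ⟨k, rfl⟩ := exists_smul_octad o0_mem ho
    lift g to M24 using hg
    have hgo : g • k • setOf' 5279 = k • setOf' 5279 := hgo
    rw [smul_smul_eq_iff] at hgo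
    refine Iff.trans ?_ ((mem_fixS_smul k g _).symm.trans mem_fixS)
    refine ⟨fun h => fix_of_trios_std hgo fun T hT hoT => ?_, fun h T hT hoT => ?_⟩
    · rw [← smul_smul_eq_iff]
      exact h _ (smul_mem_trios k hT) (smul_mem_smul_finset hoT)
    · obtain ⟨T, rfl⟩ := MulAction.surjective k T
      exact (smul_smul_eq_iff k g T T).2 (fix_trios_std h T ((smul_mem_trios_iff k).1 hT)
        ((smul_mem_smul_finset_iff k).1 hoT))

end Cfsg.Agent.S5615
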