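import Cfsg.Statements.S5616
import Cfsg.Agent.Spor.M24OrbD

set_option autoImplicit false
open scoped Pointwise
open Cfsg

namespace Cfsg.Agent.S5616

open Cfsg.Agent.Spor Cfsg.Agent.Spor.M24C Cfsg.Agent.Comp
open scoped Pointwise

/-- Let Y be a set of 3 of the 24 points. The sextets of the length-24 code whose tetrads meeting Y number 1, 2 or 3 are respectively 21, 630 and 1120 in number, and two sextets with the same number of tetrads meeting Y are conjugate under the setwise stabiliser of Y in the code's group. -/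
theorem result (Y : Finset Cfsg.GolayPt) (hY : Y.card = 3) : {S : Finset (Finset Cfsg.GolayPt) | S ∈ Cfsg.sextets ∧ (S.filter fun t => (t ∩ Y).Nonempty).card = 1}.ncard = 21 ∧ {S : Finset (Finset Cfsg.GolayPt) | S ∈ Cfsg.sextets ∧ (S.filter fun t => (t ∩ Y).Nonempty).card = 2}.ncard = 630 ∧ {S : Finset (Finset Cfsg.GolayPt) | S ∈ Cfsg.sextets ∧ (S.filter fun t => (t ∩ Y).Nonempty).card = 3}.ncard = 1120 ∧ ∀ S S' : Finset (Finset Cfsg.GolayPt), S ∈ Cfsg.sextets → S' ∈ Cfsg.sextets → (S.filter fun t => (t ∩ Y).Nonempty).card = (S'.filter fun t => (t ∩ Y).Nonempty).card → ∃ g ∈ Cfsg.M24, g • Y = Y ∧ g • S = S' := by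
  obtain ⟨y, hy, hc⟩ := orbY_sextets hY
  have hf : ∀ g ∈ MulAction.stabilizer M24 Y, ∀ S ∈ sextets,
      ((g • S).filter fun t => (t ∩ Y).Nonempty).card =
        (S.filter fun t => (t ∩ Y).Nonempty).card := fun g hg S _ => by
    conv_lhs => rw [← MulAction.mem_stabilizer_iff.1 hg, card_filter_meet_smul]
  have hi : Function.Injective fun i => ((y i).filter fun t => (t ∩ Y).Nonempty).card := by
    simp only [hc]; decide
  refine ⟨hy.ncard_fibre _ hf hi 0 (hc 0), hy.ncard_fibre _ hf hi 1 (hc 1),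
    hy.ncard_fibre _ hf hi 2 (hc 2), fun S S' hS hS' h => ?_⟩
  obtain ⟨g, hg, e⟩ := hy.exists_smul (fun S => (S.filter fun t => (t ∩ Y).Nonempty).card) hf hi hS hS' h
  exact ⟨g, g.2, hg, e⟩

end Cfsg.Agent.S5616
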