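import Cfsg.Statements.S5618
import Cfsg.Agent.Spor.M24Facts
import Cfsg.Agent.S5614

set_option autoImplicit false
open scoped Pointwise
open Cfsg

namespace Cfsg.Agent.S5618

open Cfsg.Agent.Spor Cfsg.Agent.Spor.M24C

/-- For a dodecad d of the length-24 code and a hexad C on it (a 6-point intersection of d with an octad): the joint stabiliser of d and C in the code's group is isomorphic to the symmetric group of degree 6, and it acts faithfully both on the six points of C and on the six points of d outside C. -/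
theorem result (d : Finset Cfsg.GolayPt) (hd : d ∈ Cfsg.dodecads) (C : Finset Cfsg.GolayPt) (hC : C ∈ Cfsg.hexadsOn d) : Nonempty (↥(MulAction.stabilizer Cfsg.M24 d ⊓ MulAction.stabilizer Cfsg.M24 C) ≃* Equiv.Perm (Fin 6)) ∧ (∀ g ∈ MulAction.stabilizer Cfsg.M24 d ⊓ MulAction.stabilizer Cfsg.M24 C, (∀ p ∈ C, ((g : ↥Cfsg.M24) : Equiv.Perm Cfsg.GolayPt) p = p) → g = 1) ∧ ∀ g ∈ MulAction.stabilizer Cfsg.M24 d ⊓ MulAction.stabilizer Cfsg.M24 C, (∀ p ∈ d \ C, ((g : ↥Cfsg.M24) : Equiv.Perm Cfsg.GolayPt) p = p) → g = 1 := by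
  obtain ⟨hC6, o, ho, rfl⟩ := hC
  have ho' : symmDiff o d ∈ octads := by
    refine ⟨symmDiff_mem_codeSets ho.1 hd.1, ?_⟩
    have := card_symmDiff' o d
    rw [ho.2, hd.2, hC6] at this
    omega
  have h2 : (o ∩ symmDiff o d).card = 2 := by
    have : o ∩ symmDiff o d = o \ d := by
      ext x; simp only [Finset.mem_inter, Finset.mem_symmDiff, Finset.mem_sdiff]; tauto
    rw [this, Finset.card_sdiff, Finset.inter_comm, hC6, ho.2]
  refine ⟨?_, fun g hg h => eq_one_of_dodecad_finset hd Finset.inter_subset_right (by omega) hg.1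
    (mem_fixS.2 h), fun g hg h => eq_one_of_dodecad_finset hd Finset.sdiff_subset ?_ hg.1
    (mem_fixS.2 h)⟩
  · obtain ⟨e⟩ := S5614.result o _ ho ho' h2
    refine ⟨(MulEquiv.subgroupCongr ?_).trans e⟩
    ext g
    simp only [Subgroup.mem_inf, MulAction.mem_stabilizer_iff]
    constructor
    · rintro ⟨h1, h3⟩
      have h4 : g • o = o := by
        refine octad_eq_of_five_le ((smul_mem_octads_iff g).2 ho) ho
          ((show 5 ≤ (o ∩ d).card by omega).trans (Finset.card_le_card ?_))
        refine Finset.subset_inter ?_ Finset.inter_subset_left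
        rw [← h3]
        exact Finset.smul_finset_subset_smul_finset Finset.inter_subset_left
      exact ⟨h4, by rw [smul_symmDiff_M, h1, h4]⟩
    · rintro ⟨h1, h3⟩
      rw [smul_symmDiff_M, h1, symmDiff_right_inj] at h3
      exact ⟨h3, by rw [Finset.smul_finset_inter, h1, h3]⟩
  · rw [Finset.card_sdiff_of_subset Finset.inter_subset_right, hd.2, hC6]
    norm_num

end Cfsg.Agent.S5618
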