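import Cfsg.Statements.S5619
import Cfsg.Agent.Spor.M24DodStd
import Cfsg.Agent.Class.SmallIso

set_option autoImplicit false
open scoped Pointwise
open Cfsg

namespace Cfsg.Agent.S5619

open Cfsg.Agent.Comp Cfsg.Agent.Spor Cfsg.Agent.Spor.M24C MulAction

/-- Codes of the quaternion group fixing four points. -/
def qc : QuaternionGroup 2 → ℕ
  | .a i => [984818244535754528103549039458486304, 609271311764373893382231684089481248,
      970499966350631336865513127433832480, 608405391266436187982588441666881568].getD i.val 0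
  | .xa i => [719923664328491199848526586197411872, 232652365823391711183829569059784736,
      715872302521680643580706198532491296, 227578386318009578406903204956702752].getD i.val 0

theorem qc_ok : ∀ t : QuaternionGroup 2, okS 340831 (qc t) = true ∧ (∀ j < 4, dg (qc t) j = j) ∧
    dg (qc t) 4 < 24 ∧ ∀ s, dg (qc (t * s)) 4 = dg (qc t) (dg (qc s) 4) := by decide +kernel

theorem qc_inj : ∀ t s : QuaternionGroup 2, dg (qc t) 4 = dg (qc s) 4 → t = s := by decide +kernel

theorem card4 : Nat.card (fixK (stabilizer M24 (setOf' 340831)) bD 4) = 8 :=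
  (chainD.card_fixK_eq (by norm_num)).trans (by decide +kernel)

theorem card3 : Nat.card (fixK (stabilizer M24 (setOf' 340831)) bD 3) = 72 :=
  (chainD.card_fixK_eq (by norm_num)).trans (by decide +kernel)

theorem quat : Nonempty (QuaternionGroup 2 ≃* fixK (stabilizer M24 (setOf' 340831)) bD 4) := by
  refine Class.nonempty_mulEquiv_of_intertwining (X := GolayPt) (Y := QuaternionGroup 2)
    (MonoidHom.id _) Function.surjective_id (fun v => pt (dg (qc v) 4)) Set.univ
    (Subgroup.closure_univ) (fun t _ => ?_) (fun s hs => ?_) ?_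
  · obtain ⟨h1, h2, -, h3⟩ := qc_ok t
    have h4 := inH_of_okS h1
    refine ⟨⟨mc (qc t), (mem_fixK_bD (by norm_num)).2 ⟨h4.mc_mem, fun j hj => ?_⟩⟩, fun v => ?_⟩
    · rw [smul_pt_eq _ (by omega), h4.code_mc, h2 j hj]
    · change pt _ = mc (qc t) • pt _
      rw [smul_pt_eq _ (qc_ok v).2.2.1, h4.code_mc, ← h3, smul_eq_mul]
  · simpa using qc_inj _ _ (pt_inj (qc_ok _).2.2.1 (qc_ok _).2.2.1 (hs 1))
  · rw [card4, Nat.card_eq_fintype_card, QuaternionGroup.card]

theorem ncard_cube :
    {g : fixK (stabilizer M24 (setOf' 340831)) bD 3 | g ^ 3 = 1}.ncard = 9 := by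
  have := chainD.ncard_eq_srch (fun g => g * (g * g) = 1) (fun _ _ _ => true)
    (fun c => Nat.beq (mulC c (mulC c c)) oneC) (fun g _ => by
      rw [beq_iff, eq_iff_code, code_mul', code_mul', code_one']) (fun _ _ _ _ _ _ _ _ => rfl)
    2 (by norm_num) 1 (one_mem _)
  rw [code_one', show srch 5 orbD uD (fun _ _ _ => true)
    (fun c => Nat.beq (mulC c (mulC c c)) oneC) 2 oneC = 9 by decide +kernel] at this
  rw [← this, ← Set.ncard_image_of_injective _ Subtype.val_injective]
  congr 1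
  ext g
  simp only [Set.mem_image, Set.mem_ofPred_eq, one_smul, pow_three]
  exact ⟨fun ⟨x, h1, h2⟩ => h2 ▸ ⟨x.2.1, x.2.2, congrArg Subtype.val h1⟩,
    fun ⟨h1, h2, h3⟩ => ⟨⟨g, h1, h2⟩, Subtype.ext h3, rfl⟩⟩

theorem pow_three_or (g : fixK (stabilizer M24 (setOf' 340831)) bD 3) : g ^ 3 = 1 ∨ g ^ 4 = 1 := by
  have := chainD.forall_fixK (fun c => or' (Nat.beq (mulC c (mulC c c)) oneC)
    (Nat.beq (mulC c (mulC c (mulC c c))) oneC)) 3 (by norm_num) (by decide +kernel) g g.2
  rw [or'_eq_true, beq_iff, beq_iff, ← code_mul', ← code_mul', ← code_mul', ← code_one',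
    ← eq_iff_code, ← eq_iff_code] at this
  refine this.imp (fun h => Subtype.ext ?_) (fun h => Subtype.ext ?_)
  · rw [pow_three]; exact h
  · rw [pow_succ', pow_three]; exact h

theorem gen {G : Type*} [Group G] [Finite G] (h72 : Nat.card G = 72)
    (h9 : {g : G | g ^ 3 = 1}.ncard = 9) (h : ∀ g : G, g ^ 3 = 1 ∨ g ^ 4 = 1) (Q : Sylow 3 G) :
    (Q : Subgroup G).Normal ∧ Nat.card Q = 9 ∧ ∀ x ∈ (Q : Subgroup G), x ^ 3 = 1 := by
  have : Fact (Nat.Prime 3) := ⟨Nat.prime_three⟩
  have h1 : Nat.card Q = 9 := by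
    rw [Sylow.card_eq_multiplicity, h72, show 72 = 3 ^ 2 * 8 by norm_num,
      Nat.factorization_mul (by norm_num) (by norm_num), Nat.Prime.factorization_pow Nat.prime_three]
    simp [Nat.factorization_eq_zero_of_not_dvd (show ¬ 3 ∣ 8 by norm_num)]
  have h2 : ∀ x ∈ (Q : Subgroup G), x ^ 3 = 1 := fun x hx => (h x).elim id fun h4 => by
    have h5 : x ^ 9 = 1 := by
      have := pow_card_eq_one' (G := Q) (x := ⟨x, hx⟩)
      rw [h1] at this
      exact congrArg Subtype.val this
    have : x = 1 := by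
      calc x = x ^ 9 * ((x ^ 4) ^ 2)⁻¹ := by group
        _ = 1 := by rw [h5, h4]; simp
    rw [this, one_pow]
  have h3 : ((Q : Subgroup G) : Set G) = {g : G | g ^ 3 = 1} :=
    Set.eq_of_subset_of_ncard_le h2 (by rw [h9, ← h1, ← Nat.card_coe_set_eq]; rfl)
  refine ⟨⟨fun x hx g => ?_⟩, h1, h2⟩
  rw [← SetLike.mem_coe, h3, Set.mem_ofPred_eq, conj_pow, h2 x hx]
  simp

/-- In the group of the length-24 code, the subgroup fixing a dodecad setwise and three of its points individually (a group of order 72) has a normal Sylow 3-subgroup that is elementary abelian of order 9, and its Sylow 2-subgroups are quaternion of order 8. -/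
theorem result (d : Finset Cfsg.GolayPt) (hd : d ∈ Cfsg.dodecads) (p q r : Cfsg.GolayPt) (hp : p ∈ d) (hq : q ∈ d) (hr : r ∈ d) (hpq : p ≠ q) (hpr : p ≠ r) (hqr : q ≠ r) : (∀ Q : Sylow 3 ↥(MulAction.stabilizer Cfsg.M24 d ⊓ MulAction.stabilizer Cfsg.M24 p ⊓ MulAction.stabilizer Cfsg.M24 q ⊓ MulAction.stabilizer Cfsg.M24 r), (Q : Subgroup ↥(MulAction.stabilizer Cfsg.M24 d ⊓ MulAction.stabilizer Cfsg.M24 p ⊓ MulAction.stabilizer Cfsg.M24 q ⊓ MulAction.stabilizer Cfsg.M24 r)).Normal ∧ Nat.card ↥Q = 9 ∧ ∀ x ∈ (Q : Subgroup ↥(MulAction.stabilizer Cfsg.M24 d ⊓ MulAction.stabilizer Cfsg.M24 p ⊓ MulAction.stabilizer Cfsg.M24 q ⊓ MulAction.stabilizer Cfsg.M24 r)), x ^ 3 = 1) ∧ ∀ P : Sylow 2 ↥(MulAction.stabilizer Cfsg.M24 d ⊓ MulAction.stabilizer Cfsg.M24 p ⊓ MulAction.stabilizer Cfsg.M24 q ⊓ MulAction.stabilizer Cfsg.M24 r), Nonempty (↥P ≃* QuaternionGroup 2) := by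
  obtain ⟨g, rfl, hg⟩ := exists_smul_d0_tuple hd (k := 3) (by norm_num) ![p, q, r]
    (by intro i; fin_cases i <;> simp [hp, hq, hr])
    (by intro i j; fin_cases i <;> fin_cases j <;>
      simp [hpq, hpr, hqr, hpq.symm, hpr.symm, hqr.symm])
  obtain rfl : g • pt 0 = p := hg 0
  obtain rfl : g • pt 1 = q := hg 1
  obtain rfl : g • pt 2 = r := hg 2
  have e := conjEquiv (H := fixK (stabilizer M24 (setOf' 340831)) bD 3)
    (K := stabilizer M24 (g • setOf' 340831) ⊓ stabilizer M24 (g • pt 0) ⊓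
      stabilizer M24 (g • pt 1) ⊓ stabilizer M24 (g • pt 2)) g fun k => by
    simp only [mem_fixK_bD (show 3 ≤ 5 by norm_num), Subgroup.mem_inf, mem_stabilizer_smul_iff,
      Nat.forall_lt_succ_right, Nat.not_lt_zero, false_imp_iff, implies_true, true_and, and_assoc]
    rfl
  have hc := (Nat.card_congr e.toEquiv).trans card3
  refine ⟨gen hc ?_ fun x => ?_, fun P => ?_⟩
  · rw [← ncard_cube, ← Set.ncard_image_of_injective _ e.injective]
    congr 1
    ext x
    obtain ⟨x, rfl⟩ := e.surjective x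
    simp only [e.injective.mem_set_image, Set.mem_ofPred_eq, ← map_pow, map_eq_one_iff e e.injective]
  · simpa only [← map_pow, map_eq_one_iff e e.injective] using pow_three_or (e x)
  · have hle : fixK (stabilizer M24 (setOf' 340831)) bD 4 ≤
        fixK (stabilizer M24 (setOf' 340831)) bD 3 := fun x hx =>
      ⟨hx.1, fun j hj => hx.2 j (by omega)⟩
    have e2 := Subgroup.subgroupOfEquivOfLe hle
    have h8 := (Nat.card_congr e2.toEquiv).trans card4
    let R := Sylow.ofCard (p := 2) ((fixK (stabilizer M24 (setOf' 340831)) bD 4).subgroupOf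
      (fixK (stabilizer M24 (setOf' 340831)) bD 3)) (by
        rw [h8, card3, show 72 = 2 ^ 3 * 9 by norm_num,
          Nat.factorization_mul (by norm_num) (by norm_num),
          Nat.Prime.factorization_pow Nat.prime_two]
        simp [Nat.factorization_eq_zero_of_not_dvd (show ¬ 2 ∣ 9 by norm_num)])
    obtain ⟨e3⟩ := quat
    let P' := P.mapSurjective (f := e.toMonoidHom) e.surjective
    exact ⟨(e.subgroupMap P).trans ((Sylow.equiv P' R).trans (e2.trans e3.symm))⟩

end Cfsg.Agent.S5619
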