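import Cfsg.Statements.S5620
import Cfsg.Agent.Spor.M24Facts

set_option autoImplicit false
open scoped Pointwise
open Cfsg

namespace Cfsg.Agent.S5620

open Cfsg.Agent.Spor Cfsg.Agent.Spor.M24C MulAction

theorem mem_conj_iff (k g : Equiv.Perm GolayPt) (H : Subgroup (Equiv.Perm GolayPt)) :
    g ∈ MulAut.conj k • H ↔ k⁻¹ * g * k ∈ H := by
  rw [Subgroup.mem_pointwise_smul_iff_inv_smul_mem]
  simp

theorem conj_M11 {k : Equiv.Perm GolayPt} (hk : k ∈ M24) :
    MulAut.conj k • Cfsg.Spor.M11 = M24 ⊓ stabilizer _ (k • Cfsg.Spor.squareDodecad) ⊓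
      stabilizer _ (k • (some 0 : GolayPt)) := by
  ext g
  rw [mem_conj_iff]
  simp only [Cfsg.Spor.M11, Cfsg.Spor.M12, Subgroup.mem_inf, mem_stabilizer_smul_iff]
  rw [M24.mul_mem_cancel_right hk, M24.mul_mem_cancel_left (M24.inv_mem hk)]

/-- Inside the stabiliser of the dodecad of squares (a Mathieu group of degree 12), the stabiliser of the residue 0 (a point of the dodecad) and the stabiliser of the extra point (a point outside the dodecad) are isomorphic but not conjugate; conjugation by a suitable element of the code's group that maps the dodecad of squares onto its complement carries the first onto the second. -/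
theorem result : Nonempty (↥(Cfsg.Spor.M12 ⊓ MulAction.stabilizer (Equiv.Perm Cfsg.GolayPt) (none : Cfsg.GolayPt)) ≃* ↥Cfsg.Spor.M11) ∧ (¬ ∃ k ∈ Cfsg.Spor.M12, MulAut.conj k • Cfsg.Spor.M11 = Cfsg.Spor.M12 ⊓ MulAction.stabilizer (Equiv.Perm Cfsg.GolayPt) (none : Cfsg.GolayPt)) ∧ ∃ g ∈ Cfsg.M24, g • Cfsg.Spor.squareDodecad = Finset.univ \ Cfsg.Spor.squareDodecad ∧ MulAut.conj g • Cfsg.Spor.M11 = Cfsg.Spor.M12 ⊓ MulAction.stabilizer (Equiv.Perm Cfsg.GolayPt) (none : Cfsg.GolayPt) := by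
  have hd : Cfsg.Spor.squareDodecad ∈ dodecads := squareDodecad_eq ▸ d0_mem
  have h0 : (some 0 : GolayPt) ∈ Cfsg.Spor.squareDodecad := by decide
  have hn : (none : GolayPt) ∉ Cfsg.Spor.squareDodecad := by decide
  obtain ⟨g, hg1, -, hg2⟩ := exists_smul_dodecad_pt hd (compl_mem_dodecads hd) h0 hn
    (Finset.mem_compl.2 hn) (Finset.notMem_compl.2 h0)
  have hg3 : MulAut.conj g.1 • Cfsg.Spor.M11 =
      Cfsg.Spor.M12 ⊓ stabilizer (Equiv.Perm GolayPt) (none : GolayPt) := by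
    rw [conj_M11 g.2, show g.1 • Cfsg.Spor.squareDodecad = _ from hg2,
      show g.1 • (some 0 : GolayPt) = _ from hg1, Cfsg.Spor.M12]
    generalize Cfsg.Spor.squareDodecad = d
    ext x
    have : x • dᶜ = (x • d)ᶜ := by
      ext p
      simp only [← Finset.inv_smul_mem_iff, Finset.mem_compl]
    simp only [Subgroup.mem_inf, mem_stabilizer_iff, this, compl_inj_iff]
  refine ⟨⟨(MulEquiv.subgroupCongr hg3.symm).trans
    (Subgroup.equivSMul (MulAut.conj g.1) Cfsg.Spor.M11).symm⟩, ?_,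
    g, g.2, by rw [← Finset.compl_eq_univ_sdiff]; exact hg2, hg3⟩
  rintro ⟨k, hk, e⟩
  rw [conj_M11 hk.1, show k • Cfsg.Spor.squareDodecad = _ from hk.2] at e
  have h1 : k • (some 0 : GolayPt) ∈ Cfsg.Spor.squareDodecad :=
    (smul_mem_iff_of_smul_eq hk.2 _).2 h0
  obtain ⟨u, hu, hu1, hu2⟩ := exists_dodecad_pt_map hd h1 ![none, some 5, some 7]
    ![some 5, none, some 7] (by decide) (by decide) (by decide) (by decide)
  have h2 : u.1 ∈ Cfsg.Spor.M12 ⊓ stabilizer (Equiv.Perm GolayPt) (none : GolayPt) :=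
    e ▸ ⟨⟨u.2, hu⟩, hu1⟩
  exact absurd ((hu2 0).symm.trans h2.2) (by decide)

end Cfsg.Agent.S5620
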