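import Cfsg.Statements.S5625
import Cfsg.Agent.Spor.SteinerBasic

set_option autoImplicit false
open Cfsg

namespace Cfsg.Agent.S5625

/-- In any Steiner system S(5, 8, 24) and for any set Y of three points, the blocks meeting Y in exactly 3, 2, 1 and 0 points number 21, 168, 360 and 210 respectively (so there are 759 blocks in all). -/
theorem result (α : Type*) [Fintype α] [DecidableEq α] (hα : Fintype.card α = 24) (B : Set (Finset α)) (hB : Cfsg.IsSteinerSystem 5 8 B) (Y : Finset α) (hY : Y.card = 3) : {b : Finset α | b ∈ B ∧ (b ∩ Y).card = 3}.ncard = 21 ∧ {b : Finset α | b ∈ B ∧ (b ∩ Y).card = 2}.ncard = 168 ∧ {b : Finset α | b ∈ B ∧ (b ∩ Y).card = 1}.ncard = 360 ∧ {b : Finset α | b ∈ B ∧ (b ∩ Y).card = 0}.ncard = 210 := by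
  classical
  have key : ∀ i : ℕ, {b : Finset α | b ∈ B ∧ (b ∩ Y).card = i}.ncard = Spor.nMeet B ∅ Y i := by
    intro i
    rw [Spor.ncard_sep_eq, Spor.nMeet]
    simp
  have h0 := Spor.steiner_moment0 hB Y 0 (by norm_num)
  have h1 := Spor.steiner_moment0 hB Y 1 (by norm_num)
  have h2 := Spor.steiner_moment0 hB Y 2 (by norm_num)
  have h3 := Spor.steiner_moment0 hB Y 3 (by norm_num)
  have z4 := Spor.nMeet_eq_zero_of_lt (B := B) (S := ∅) (X := Y) (i := 4) (by omega)
  have z5 := Spor.nMeet_eq_zero_of_lt (B := B) (S := ∅) (X := Y) (i := 5) (by omega)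
  have z6 := Spor.nMeet_eq_zero_of_lt (B := B) (S := ∅) (X := Y) (i := 6) (by omega)
  have z7 := Spor.nMeet_eq_zero_of_lt (B := B) (S := ∅) (X := Y) (i := 7) (by omega)
  have z8 := Spor.nMeet_eq_zero_of_lt (B := B) (S := ∅) (X := Y) (i := 8) (by omega)
  rw [hα, hY] at h0 h1 h2 h3
  simp only [Finset.sum_range_succ, Finset.range_zero, Finset.sum_empty, z4, z5, z6, z7, z8] at h0 h1 h2 h3
  norm_num [Nat.choose] at h0 h1 h2 h3
  simp only [key]
  omega

end Cfsg.Agent.S5625
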