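import Cfsg.Statements.S5632
import Mathlib
import Cfsg.Agent.Class.Max.Lin


set_option autoImplicit false
open Cfsg

namespace Cfsg.Agent.S5632

open Cfsg.Agent.Class.Max

/-- For a finite field F and subspaces 0 < W < U of F^n with dim W + dim U = n, the elements of SL_n(F) stabilising both W and U form a subgroup that is not maximal in SL_n(F): some subgroup lies strictly between it and SL_n(F). -/
theorem result {F : Type*} [Field F] [Fintype F] (n : ℕ) (W U : Submodule F (Fin n → F)) (hW0 : W ≠ ⊥) (hWU : W < U) (hdim : Module.finrank F W + Module.finrank F U = n) : ∃ K : Subgroup (Matrix.GeneralLinearGroup (Fin n) F), Cfsg.Geo.subspaceStabilizer W ⊓ Cfsg.Geo.subspaceStabilizer U ⊓ Cfsg.Geo.specialLinear (Fin n) F < K ∧ K < Cfsg.Geo.specialLinear (Fin n) F := by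
  refine exists_between_of_equiv (glEquiv (Fin n) F) (H' := stab W ⊓ stab U ⊓ SLV F _)
    mem_specialLinear_iff (fun g => ?_) ?_
  · simp only [Subgroup.mem_inf, mem_specialLinear_iff, mem_subspaceStabilizer_iff]
  have hU : U ≠ ⊤ := by
    rintro rfl
    rw [finrank_top, Module.finrank_fin_fun] at hdim
    exact hW0 (Submodule.finrank_eq_zero.1 (by omega))
  refine exists_between_of (L := stab W ⊓ SLV F _) (fun g hg => ⟨hg.1.1, hg.2⟩) inf_le_right ?_ ?_
  · obtain ⟨g, hg, h1, u, hu, h2⟩ := exists_SLV_fix_not_stab hWU hU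
    exact ⟨g, ⟨mem_stab_of_mapsTo fun x hx => by rwa [h1 x hx], hg⟩,
      fun c => h2 (stab_apply c.1.2 hu)⟩
  · obtain ⟨g, hg, -, u, hu, h2⟩ := exists_SLV_fix_not_stab (bot_lt_iff_ne_bot.2 hW0)
      (hWU.trans_le le_top).ne
    exact ⟨g, hg, fun c => h2 (stab_apply c.1 hu)⟩

end Cfsg.Agent.S5632
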