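import Cfsg.Statements.S5633
import Mathlib
import Cfsg.Agent.Class.Max.Lin


set_option autoImplicit false
open Cfsg

namespace Cfsg.Agent.S5633

open Cfsg.Agent.Class.Max

/-- For a finite field F and complementary non-zero subspaces W ⊕ U = F^n with dim W < dim U, the elements of SL_n(F) stabilising both W and U form a subgroup that is not maximal in SL_n(F): some subgroup lies strictly between it and SL_n(F). -/
theorem result {F : Type*} [Field F] [Fintype F] (n : ℕ) (W U : Submodule F (Fin n → F)) (hW0 : W ≠ ⊥) (hWU : W ⊓ U = ⊥) (hWU' : W ⊔ U = ⊤) (hdim : Module.finrank F W < Module.finrank F U) : ∃ K : Subgroup (Matrix.GeneralLinearGroup (Fin n) F), Cfsg.Geo.subspaceStabilizer W ⊓ Cfsg.Geo.subspaceStabilizer U ⊓ Cfsg.Geo.specialLinear (Fin n) F < K ∧ K < Cfsg.Geo.specialLinear (Fin n) F := by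
  refine exists_between_of_equiv (glEquiv (Fin n) F) (H' := stab W ⊓ stab U ⊓ SLV F _)
    mem_specialLinear_iff (fun g => ?_) ?_
  · simp only [Subgroup.mem_inf, mem_specialLinear_iff, mem_subspaceStabilizer_iff]
  have hU0 : U ≠ ⊥ := by
    rintro rfl
    simp at hdim
  have hW1 : W ≠ ⊤ := by
    rintro rfl
    exact hU0 (by simpa using hWU)
  refine exists_between_of (L := stab W ⊓ SLV F _) (fun g hg => ⟨hg.1.1, hg.2⟩) inf_le_right ?_ ?_
  · obtain ⟨u, hu, hu0⟩ := Submodule.exists_mem_ne_zero_of_ne_bot hU0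
    obtain ⟨w, hw, hw0⟩ := Submodule.exists_mem_ne_zero_of_ne_bot hW0
    have huW : u ∉ W := fun c => hu0 (by
      have : u ∈ W ⊓ U := ⟨c, hu⟩
      rwa [hWU] at this)
    obtain ⟨g, hg, h1, h2, -⟩ := exists_tv_fix W (u := u) (z := w) (by
      rwa [sup_eq_left.2 ((Submodule.span_singleton_le_iff_mem _ _).2 hw)])
    refine ⟨g, ⟨mem_stab_of_mapsTo fun x hx => by rwa [h1 x hx], hg⟩, fun c => hw0 ?_⟩
    have h3 := stab_apply c.1.2 hu
    rw [h2, U.add_mem_iff_right hu] at h3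
    have : w ∈ W ⊓ U := ⟨hw, h3⟩
    rwa [hWU] at this
  · obtain ⟨g, hg, -, u, hu, h2⟩ := exists_SLV_fix_not_stab (bot_lt_iff_ne_bot.2 hW0) hW1
    exact ⟨g, hg, fun c => h2 (stab_apply c.1 hu)⟩

end Cfsg.Agent.S5633
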