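import Cfsg.Statements.S5635
import Cfsg.Agent.Class.Asch.NotMax

set_option autoImplicit false
open Cfsg

namespace Cfsg.Agent.S5635

open Cfsg.Agent.Class.Asch

/-- For a finite field F with q elements and n ≥ 13, let D be a decomposition of F^n into t ≥ 2 independent subspaces of equal dimension m spanning F^n, where m = 1 and q ≤ 4, or m = 2 and q = 2. Then the elements of SL_n(F) permuting the members of D form a subgroup that is not maximal: some subgroup lies strictly between it and SL_n(F). -/
theorem result {F : Type*} [Field F] [Fintype F] (n : ℕ) (hn : 13 ≤ n) {t : ℕ} (m : ℕ) (D : Fin t → Submodule F (Fin n → F)) (hD : Cfsg.Geo.IsMDecomposition m D) (h : (m = 1 ∧ Fintype.card F ≤ 4) ∨ (m = 2 ∧ Fintype.card F = 2)) : ∃ K : Subgroup (Matrix.GeneralLinearGroup (Fin n) F), Cfsg.Geo.decompositionStabilizer D ⊓ Cfsg.Geo.specialLinear (Fin n) F < K ∧ K < Cfsg.Geo.specialLinear (Fin n) F := by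
  have hι : n = m * t := by simpa using IsMDecomposition.card_eq' hD
  rcases h with ⟨rfl, h⟩ | ⟨rfl, h⟩
  swap
  · exact sl_planes_not_max h (by simp; omega) hD
  have h2 := two_le_card_field (F := F)
  have h3 : Fintype.card F = 2 ∨ Fintype.card F = 3 ∨ Fintype.card F = 2 ^ 2 := by omega
  rcases h3 with h3 | h3 | h3
  · refine sl_lines_not_max (σ := RingEquiv.refl F) (fun _ => rfl) (fun x hx => ?_) ?_ (by omega) hD
    · simp [eq_one_of_card_two h3 hx]
    · linear_combination 3 * two_eq_zero_of_not_odd (F := F) (by rw [h3]; decide)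
  · refine sl_lines_not_max (σ := RingEquiv.refl F) (fun _ => rfl)
      (fun x hx => sq_eq_one_of_card_three h3 hx) ?_ (by omega) hD
    linear_combination 2 * three_eq_zero_of_card h3
  · obtain ⟨ρ, h4, h5, -⟩ := exists_invol_of_card_sq h3
    refine sl_lines_not_max h5 (mul_conj_of_four h3 h4) ?_ (by omega) hD
    linear_combination 3 * two_eq_zero_of_not_odd (F := F) (by rw [h3]; decide)

end Cfsg.Agent.S5635
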