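import Cfsg.Statements.S5655
import Mathlib
import Cfsg.Agent.Class.Max.C2U3


set_option autoImplicit false
open Cfsg

namespace Cfsg.Agent.S5655

open Cfsg.Agent.Class.Max

/-- Let F be the field with q² elements and n ≥ 13. Let D be a decomposition of F^n into t ≥ 2 pairwise orthogonal subspaces of equal dimension k, each non-degenerate for the standard unitary form, spanning F^n. Unless k = 2 and q = 2, the elements of SU_n(q) permuting the members of D form a maximal subgroup of SU_n(q). -/
theorem result {F : Type*} [Field F] [Fintype F] (n q : ℕ) (hF : Fintype.card F = q ^ 2) (hn : 13 ≤ n) {t : ℕ} (k : ℕ) (D : Fin t → Submodule F (Fin n → F)) (hD : Cfsg.Geo.IsNondegenerateMDecomposition (Cfsg.hermForm n F q) k D) (hex : ¬ (k = 2 ∧ q = 2)) : Cfsg.Geo.IsMaximalIn (Cfsg.GU n F q ⊓ Cfsg.Geo.specialLinear (Fin n) F) (Cfsg.Geo.decompositionStabilizer D ⊓ (Cfsg.GU n F q ⊓ Cfsg.Geo.specialLinear (Fin n) F)) := by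
  have h := hD.decomp.pos
  refine u_dstab_isMaximalIn hF hD ?_
  by_cases h2 : k = 2
  · exact Or.inr (Or.inl ⟨h2, fun e => hex ⟨h2, e⟩, by omega⟩)
  · omega

end Cfsg.Agent.S5655
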