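import Cfsg.Statements.S5673
import Cfsg.Agent.Class.Asch.ORed

set_option autoImplicit false
open Cfsg

namespace Cfsg.Agent.S5673

/-- Subgroup structure of the odd-dimensional orthogonal groups. Let F be a finite field of odd order and m ≥ 3, let Q be the standard quadratic form x₀² + Σ x_i y_i on F^(2m+1), and let Ω be the commutator subgroup of its isometry group, viewed inside GL_(2m+1)(F). Let H be a subgroup of Ω whose product with the scalar matrices in Ω is not all of Ω. Then either H is contained in a member of one of the geometric classes of subgroups of the isometry group (with the conditions built into InOrthogonalOddClass), or H is in the residual class: modulo scalars it is almost simple, and the perfect preimage of its socle acts absolutely irreducibly, is realisable over no proper subfield, and fixes no non-degenerate unitary form. -/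
theorem result {F : Type*} [Field F] [Fintype F] (hodd : Odd (Fintype.card F)) (m : ℕ) (hm : 3 ≤ m) (H : Subgroup (Matrix.GeneralLinearGroup (Unit ⊕ (Fin m ⊕ Fin m)) F)) (hH : H ≤ Cfsg.Geo.omegaGL (Cfsg.quadFormOdd m F)) (hproper : H ⊔ (Cfsg.Geo.scalars (Unit ⊕ (Fin m ⊕ Fin m)) F ⊓ Cfsg.Geo.omegaGL (Cfsg.quadFormOdd m F)) ≠ Cfsg.Geo.omegaGL (Cfsg.quadFormOdd m F)) : (∃ M : Subgroup (Matrix.GeneralLinearGroup (Unit ⊕ (Fin m ⊕ Fin m)) F), Cfsg.Geo.InOrthogonalOddClass m F M ∧ H ≤ M) ∨ Cfsg.Geo.InOrthogonalResidualClass H := by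
  have hQ := Class.Max.isNondegenerateQuadraticForm_odd hodd m
  have hI := hH.trans (Class.Asch.omegaGL_le _)
  rcases Class.Asch.oOdd (Q := Class.Max.qfOf hQ) (Class.Max.nd_qfOf hQ) (by simp; omega)
      ⟨m, by simp; omega⟩ hodd (Class.Asch.det_gram_odd m) hI with
    ⟨W, h0, h1, h⟩ | ⟨W, h0, h1, -, h2, -, h⟩ | ⟨t, k, D, h1, h⟩ | ⟨r, K, h1, h2, h3, h4, h⟩ |
    ⟨k, l, e, B, f₁, f₂, h1, h2, h3, h4, h5, h⟩ | ⟨F₀, r, B, h1, h2, h3, h⟩ |
    ⟨k, t, e, B, f₁, h1, h2, h3, h4, h5, h⟩ | h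
  · exact Or.inl ⟨_, Or.inl ⟨W, h0, h1, rfl⟩, le_inf h hI⟩
  · exact Or.inl ⟨_, Or.inr <| Or.inl ⟨W, h0, h1, h2, rfl⟩, le_inf h hI⟩
  · by_cases hk : k = 1
    · subst hk
      exact Or.inl ⟨_, Or.inr <| Or.inr <| Or.inr <| Or.inl ⟨t, D, h1.one rfl, h1.dec, rfl⟩,
        le_inf h hI⟩
    · have := h1.dec.decomp.decomp.pos
      exact Or.inl ⟨_, Or.inr <| Or.inr <| Or.inl ⟨t, k, D, by omega, h1.dec, rfl⟩, le_inf h hI⟩
  · exact Or.inl ⟨_, Or.inr <| Or.inr <| Or.inr <| Or.inr <| Or.inl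
      ⟨r, K, h1, fun h5 => h2 (by simp; omega), h3, h4, rfl⟩, le_inf h hI⟩
  · exact Or.inl ⟨_, Or.inr <| Or.inr <| Or.inr <| Or.inr <| Or.inr <| Or.inl
      ⟨k, l, e, B, f₁, f₂, h1, h2, h3, h4, h5, rfl⟩, le_inf h hI⟩
  · exact Or.inl ⟨_, Or.inr <| Or.inr <| Or.inr <| Or.inr <| Or.inr <| Or.inr <| Or.inl
      ⟨F₀, r, B, h1, h2, h3, rfl⟩, le_inf h hI⟩
  · exact Or.inl ⟨_, Or.inr <| Or.inr <| Or.inr <| Or.inr <| Or.inr <| Or.inr <| Or.inr
      ⟨k, t, e, B, f₁, h1, h2, h3, h4, h5, rfl⟩, le_inf h hI⟩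
  · exact Or.inr h

end Cfsg.Agent.S5673
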