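import Cfsg.Statements.S5677
import Mathlib
import Cfsg.Agent.Class.Max.C2O4


set_option autoImplicit false
open Cfsg

namespace Cfsg.Agent.S5677

open Cfsg.Agent.Class.Max

/-- Let F be a finite field of odd order q, m ≥ 6, Q the standard quadratic form on F^(2m+1) and Ω the commutator subgroup of its isometry group. Let D be a decomposition of F^(2m+1) into t ≥ 2 pairwise orthogonal, pairwise Q-isometric subspaces of equal dimension k > 1 on which the polar form is non-degenerate. Unless q = 3 and k = 3, the elements of Ω permuting the members of D form a maximal subgroup of Ω. -/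
theorem result {F : Type*} [Field F] [Fintype F] (hodd : Odd (Fintype.card F)) (m : ℕ) (hm : 6 ≤ m) {t : ℕ} (k : ℕ) (hk : 1 < k) (D : Fin t → Submodule F (Unit ⊕ (Fin m ⊕ Fin m) → F)) (hD : Cfsg.Geo.IsOrthogonalMDecomposition (Cfsg.quadFormOdd m F) k D) (hex : ¬ (Fintype.card F = 3 ∧ k = 3)) : Cfsg.Geo.IsMaximalIn (Cfsg.Geo.omegaGL (Cfsg.quadFormOdd m F)) (Cfsg.Geo.decompositionStabilizer D ⊓ Cfsg.Geo.omegaGL (Cfsg.quadFormOdd m F)) := by
  have h1 := finrank_of_isMDecomposition hD.decomp.decomp
  have h2 := hD.decomp.decomp.two_le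
  simp only [Fintype.card_sum, Fintype.card_unique, Fintype.card_fin] at h1
  have h3 : Odd (t * k) := by rw [h1]; exact ⟨m, by ring⟩
  obtain ⟨⟨a, ha⟩, b, hb⟩ := Nat.odd_mul.1 h3
  have h4 := Nat.odd_iff.1 hodd
  have h5 := Fintype.one_lt_card (α := F)
  refine o_dstab_isMaximalIn (isNondegenerateQuadraticForm_odd hodd m) hD hk (by omega)
    (fun h => by omega) (fun h => ?_) fun h => by omega
  have : Fintype.card F ≠ 3 := fun e => hex ⟨e, h⟩
  omega

end Cfsg.Agent.S5677
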