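import Cfsg.Statements.S5680
import Cfsg.Agent.Class.Max.C3O3

set_option autoImplicit false
open Cfsg

namespace Cfsg.Agent.S5680

/-- Let F be a finite field of odd order, m ≥ 6, Q the standard quadratic form on F^(2m+1) and Ω the commutator subgroup of its isometry group. Let K be a subfield of the algebra of (2m+1) × (2m+1) matrices over F containing the scalars, of prime degree r over F with r ≠ 2m + 1, whose elements are self-adjoint for the polar form of Q. Then the elements of Ω normalising K form a maximal subgroup of Ω. -/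
theorem result {F : Type*} [Field F] [Fintype F] (hodd : Odd (Fintype.card F)) (m : ℕ) (hm : 6 ≤ m) (r : ℕ) (hr : r.Prime) (hrn : 2 * m + 1 ≠ r) (K : Subalgebra F (Matrix (Unit ⊕ (Fin m ⊕ Fin m)) (Unit ⊕ (Fin m ⊕ Fin m)) F)) (hK : Cfsg.Geo.IsFieldSubalgebra r K) (hsa : Cfsg.Geo.IsSelfAdjointFor (QuadraticMap.polar (Cfsg.quadFormOdd m F)) K) : Cfsg.Geo.IsMaximalIn (Cfsg.Geo.omegaGL (Cfsg.quadFormOdd m F)) (Cfsg.Geo.subalgebraNormalizer K ⊓ Cfsg.Geo.omegaGL (Cfsg.quadFormOdd m F)) := by
-----
  have hQ := Class.Max.isNondegenerateQuadraticForm_odd hodd m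
  have hc : Fintype.card (Unit ⊕ (Fin m ⊕ Fin m)) = 2 * m + 1 := by simp; omega
  obtain ⟨k, hk⟩ : r ∣ 2 * m + 1 := by
    let := (Class.Max.isField_of hK).toField
    exact ⟨_, hc ▸ (Class.Max.mul_finrank_eq hK).symm⟩
  have h1 : k ≠ 1 := by rintro rfl; omega
  have h0 : k ≠ 0 := by rintro rfl; omega
  have h2 : k ≠ 2 := by rintro rfl; omega
  by_cases h3 : k = 3
  · subst h3
    exact Class.Max.o3_normalizer_isMaximalIn hodd hr (by omega) (by omega) (Or.inl (by omega))
      hQ hK hsa
  · have : r * 4 ≤ r * k := Nat.mul_le_mul_left _ (by omega)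
    exact Class.Max.oo_normalizer_isMaximalIn hodd hr (by have := hr.pos; omega) hQ hK hsa

end Cfsg.Agent.S5680
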