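import Cfsg.Statements.S5692
import Mathlib
import Cfsg.Agent.Class.Max.C2O4


set_option autoImplicit false
open Cfsg

namespace Cfsg.Agent.S5692

open Cfsg.Agent.Class.Max

/-- Let F be a finite field with q elements, n ≥ 13 even, Q a non-degenerate quadratic form on F^n of plus type (some subspace of dimension n/2 is totally singular), and Ω the commutator subgroup of the isometry group of Q, viewed inside GL_n(F). Let D be a decomposition of F^n into t ≥ 2 pairwise orthogonal, pairwise Q-isometric subspaces of equal dimension k ≥ 2 on which the polar form is non-degenerate, such that: if k is even, either every member is of plus type or t is even; if k is odd, q is odd and the discriminant of Q is a square. Exclude the cases k = 2 with q = 3, k = 2 with plus-type members and q ∈ {2, 4, 5}, k = 3 with q = 3, and k = 4 with plus-type members and q = 2. Then the elements of Ω permuting the members of D form a maximal subgroup of Ω. -/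
theorem result {F : Type*} [Field F] [Fintype F] {n : ℕ} (hn : 13 ≤ n) (heven : Even n) (Q : (Fin n → F) → F) (hQ : Cfsg.Geo.IsNondegenerateQuadraticForm Q) (hplus : Cfsg.Geo.IsPlusTypeOn Q ⊤) {t : ℕ} (k : ℕ) (hk : 2 ≤ k) (D : Fin t → Submodule F (Fin n → F)) (hD : Cfsg.Geo.IsOrthogonalMDecomposition Q k D) (hke : Even k → ((∀ i, Cfsg.Geo.IsPlusTypeOn Q (D i)) ∨ Even t)) (hko : Odd k → (Odd (Fintype.card F) ∧ Cfsg.Geo.HasSquareDiscriminant Q)) (hex : ¬ ((k = 2 ∧ (Fintype.card F = 3 ∨ ((∀ i, Cfsg.Geo.IsPlusTypeOn Q (D i)) ∧ (Fintype.card F = 2 ∨ Fintype.card F = 4 ∨ Fintype.card F = 5)))) ∨ (k = 3 ∧ Fintype.card F = 3) ∨ (k = 4 ∧ Fintype.card F = 2 ∧ ∀ i, Cfsg.Geo.IsPlusTypeOn Q (D i)))) : Cfsg.Geo.IsMaximalIn (Cfsg.Geo.omegaGL Q) (Cfsg.Geo.decompositionStabilizer D ⊓ Cfsg.Geo.omegaGL Q) := by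
  have h1 := finrank_of_isMDecomposition hD.decomp.decomp
  have h2 := hD.decomp.decomp.two_le
  rw [Fintype.card_fin] at h1
  have h5 := Fintype.one_lt_card (α := F)
  have hp : ∀ i, Geo.IsPlusTypeOn Q (D i) → ∀ j, Geo.IsPlusTypeOn Q (D j) := fun i ⟨U, h1, h2, h3⟩ j => by
    obtain ⟨e, he⟩ := hD.isometric i j
    refine ⟨((U.comap (D i).subtype).map e.toLinearMap).map (D j).subtype,
      Submodule.map_subtype_le _ _, ?_, ?_⟩
    · rintro _ ⟨_, ⟨x, hx, rfl⟩, rfl⟩
      exact (he x).trans (h2 _ hx)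
    · rw [Submodule.finrank_map_subtype_eq, LinearEquiv.finrank_map_eq,
        (Submodule.comapSubtypeEquivOfLe h1).finrank_eq, h3, e.finrank_eq]
  refine o_dstab_isMaximalIn hQ hD hk ?_ (fun h => ⟨by subst h; omega,
    fun e => hex (Or.inl ⟨h, Or.inl e⟩), ?_⟩) (fun h => ?_)
    fun h h' i hi => hex (Or.inr (Or.inr ⟨h, h', hp i hi⟩))
  · by_contra hc
    have : t * k ≤ 2 * 4 := Nat.mul_le_mul (by omega) (by omega)
    omega
  · by_contra hc
    push Not at hc
    obtain ⟨⟨i, hi⟩, h7⟩ := hc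
    have h3 : Fintype.card F ≠ 3 := fun e => hex (Or.inl ⟨h, Or.inl e⟩)
    have h6 : Fintype.card F ≠ 6 := fun e => by
      have := e ▸ FiniteField.isPrimePow_card F
      revert this
      decide
    exact hex (Or.inl ⟨h, Or.inr ⟨hp i hi, by omega⟩⟩)
  · have h3 : Fintype.card F ≠ 3 := fun e => hex (Or.inr (Or.inl ⟨h, e⟩))
    have := Nat.odd_iff.1 (hko (by rw [h]; decide)).1
    omega

end Cfsg.Agent.S5692
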