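import Cfsg.Statements.S5787
import Cfsg.Agent.Class.Asch.SpMax

set_option autoImplicit false
open Cfsg

namespace Cfsg.Agent.S5787

open Cfsg.Agent.Class.Asch

/-- Every maximal subgroup of Sp_4(q), q odd, is of one of the listed geometric types or lies in the residual class. Let F be a finite field of odd order q, f the standard alternating form on F^4 (coordinates Fin 2 ⊕ Fin 2), and H a maximal subgroup of the isometry group Sp_4(F) (inside GL_4(F)). Then H is the intersection with Sp_4(F) of one of: the stabiliser of a non-zero totally isotropic subspace; the stabiliser of a decomposition into two orthogonal non-degenerate 2-spaces; for q ≥ 5, of a decomposition into two totally isotropic 2-spaces; the normaliser of a degree-2 subfield K of the matrix algebra, self-adjoint with f(k v, v) = 0; for q ≥ 5, the normaliser of a degree-2 subfield closed under adjoints but not self-adjoint; a subfield group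 whose F₀-structure carries a non-zero multiple of f, |F| = |F₀|^r with r prime; for q = p prime, the normaliser of an absolutely irreducible symplectic-type 2-group of exponent 4, order 32, centre of order 2 and minus type inside the similarity group of f — or else H lies in the residual class of the symplectic case. -/
theorem result {F : Type*} [Field F] [Fintype F] (hodd : Odd (Fintype.card F)) (H : Subgroup (Matrix.GeneralLinearGroup (Fin 2 ⊕ Fin 2) F)) (hH : Cfsg.Geo.IsMaximalIn (Cfsg.spGL 2 F) H) :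
    (∃ W : Submodule F (Fin 2 ⊕ Fin 2 → F), W ≠ ⊥ ∧ Cfsg.Geo.IsTotallySingularFor (Cfsg.sympForm 2 F) W ∧ H = Cfsg.Geo.subspaceStabilizer W ⊓ Cfsg.spGL 2 F) ∨
    (∃ D : Fin 2 → Submodule F (Fin 2 ⊕ Fin 2 → F), Cfsg.Geo.IsNondegenerateMDecomposition (Cfsg.sympForm 2 F) 2 D ∧ H = Cfsg.Geo.decompositionStabilizer D ⊓ Cfsg.spGL 2 F) ∨
    (5 ≤ Fintype.card F ∧ ∃ D : Fin 2 → Submodule F (Fin 2 ⊕ Fin 2 → F), Cfsg.Geo.IsMDecomposition 2 D ∧ (∀ i, Cfsg.Geo.IsTotallySingularFor (Cfsg.sympForm 2 F) (D i)) ∧ H = Cfsg.Geo.decompositionStabilizer D ⊓ Cfsg.spGL 2 F) ∨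
    (∃ K : Subalgebra F (Matrix (Fin 2 ⊕ Fin 2) (Fin 2 ⊕ Fin 2) F), Cfsg.Geo.IsFieldSubalgebra 2 K ∧ Cfsg.Geo.IsSelfAdjointFor (Cfsg.sympForm 2 F) K ∧ (∀ k ∈ K, ∀ v : (Fin 2 ⊕ Fin 2 → F), (Cfsg.sympForm 2 F) (Matrix.mulVec k v) v = 0) ∧ H = Cfsg.Geo.subalgebraNormalizer K ⊓ Cfsg.spGL 2 F) ∨
    (5 ≤ Fintype.card F ∧ ∃ K : Subalgebra F (Matrix (Fin 2 ⊕ Fin 2) (Fin 2 ⊕ Fin 2) F), Cfsg.Geo.IsFieldSubalgebra 2 K ∧ Cfsg.Geo.IsAdjointClosedFor (Cfsg.sympForm 2 F) K ∧ ¬ Cfsg.Geo.IsSelfAdjointFor (Cfsg.sympForm 2 F) K ∧ H = Cfsg.Geo.subalgebraNormalizer K ⊓ Cfsg.spGL 2 F) ∨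
    (∃ (F₀ : Subfield F) (r : ℕ) (P : Matrix.GeneralLinearGroup (Fin 2 ⊕ Fin 2) F) (ζ : F), r.Prime ∧ Fintype.card F = Nat.card F₀ ^ r ∧ ζ ≠ 0 ∧ Cfsg.Geo.IsFormRationalStructure (Cfsg.sympForm 2 F) F₀ ζ P ∧ H = Cfsg.Geo.subfieldSubgroup F₀ P ⊓ Cfsg.spGL 2 F) ∨
    (∃ (p : ℕ) (R : Subgroup (Matrix.GeneralLinearGroup (Fin 2 ⊕ Fin 2) F)), p.Prime ∧ Fintype.card F = p ∧ Cfsg.Geo.IsSymplecticTypeGroup 2 R ∧ Cfsg.Geo.ActsAbsolutelyIrreducibly (Cfsg.Geo.matrixSet R) ∧ R ≤ Cfsg.Geo.similarityGroup (Cfsg.sympForm 2 F) ∧ Nat.card R = 32 ∧ Nat.card (Subgroup.center R) = 2 ∧ Cfsg.Geo.IsOfMinusType 2 R ∧ H = Cfsg.Geo.subgroupNormalizer R ⊓ Cfsg.spGL 2 F) ∨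
    Cfsg.Geo.InSymplecticResidualClass H := by
  have hQ : QS (spGL 2 F) := qs_Sp (by norm_num) (Or.inr (Or.inl ⟨rfl, by
    have := two_le_card_field (F := F); obtain ⟨k, hk⟩ := hodd; omega⟩))
  rcases spMax (by norm_num) hQ hH with h | h | ⟨t, k, D, h1, h2, ⟨j, h3⟩, hq, hD, h⟩ |
    ⟨ho, hq, h⟩ | ⟨r, K, hr, h1, h⟩ | ⟨ho, hq, h⟩ |
    ⟨ho, k, l, e, B, f₁, f₂, h1, ⟨j, h2⟩, h3, hq, hp, a1, a2, h⟩ | h |
    ⟨k, R, h1, hp, ho, a1, a2, a3, a4, a5, a6, h⟩ | ⟨ho, k, t, e, B, f₁, h1, h2, h3, hq, a1, a2, h⟩ |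
    ⟨ho, h⟩ | h
  · repeat (first | exact Or.inl h | exact h | right)
  · obtain ⟨W, h1, h2, h3, -⟩ := h
    exact absurd (two_le_finrank_of_nd (Class.Max.isSymplecticForm_sympForm 2) h1 h2) (by omega)
  · have h5 : t ≤ 4 := by nlinarith [hD.decomp.pos]
    have h6 : (k = 2 ∧ t = 2) := by
      interval_cases t <;> omega
    rcases h6 with ⟨rfl, rfl⟩
    · repeat (first | exact Or.inl ⟨D, hD, h⟩ | exact ⟨D, hD, h⟩ | right)
  · repeat (first | exact Or.inl ⟨hq rfl, h⟩ | exact ⟨hq rfl, h⟩ | right)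
  · have h2 := Nat.le_of_dvd (by norm_num) h1
    have h3 : r = 2 := by
      interval_cases r <;> first | omega | exact absurd hr (by decide)
    rcases h3 with rfl
    · repeat (first | exact Or.inl ⟨K, h⟩ | exact ⟨K, h⟩ | right)
  · repeat (first | exact Or.inl ⟨hq rfl, h⟩ | exact ⟨hq rfl, h⟩ | right)
  · have h5 : l ≤ 4 := by rcases Nat.eq_zero_or_pos k with rfl | hk <;> nlinarith
    exfalso
    interval_cases l <;> omega
  · repeat (first | exact Or.inl h | exact h | right)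
  · obtain rfl : k = 2 := Nat.pow_right_injective le_rfl (h1.symm.trans (by norm_num))
    repeat (first | exact Or.inl ⟨_, R, hp, rfl, a1, a2, a3, a4, a5, a6, h⟩ | exact ⟨_, R, hp, rfl, a1, a2, a3, a4, a5, a6, h⟩ | right)
  · exact absurd (cube_dims h1 h2 h3 (by norm_num)).1 (by norm_num)
  · exact absurd hodd ho
  · repeat (first | exact Or.inl h | exact h | right)

end Cfsg.Agent.S5787
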