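import Cfsg.Statements.S5793
import Cfsg.Agent.Class.Asch.SLCases

set_option autoImplicit false
open Cfsg

namespace Cfsg.Agent.S5793

open Cfsg.Agent.Class.Asch

/-- Every maximal subgroup of SL_5(q) is of one of the listed geometric types or lies in the residual class. Let F be a finite field with q elements (p its characteristic) and H a maximal subgroup of SL_5(F) (inside GL_5(F)). Then H is the intersection with SL_5(F) of one of: the stabiliser of a proper non-zero subspace; for q ≥ 5, the stabiliser of a decomposition into 5 independent 1-spaces; the normaliser of a degree-5 subfield of the matrix algebra; a subfield group for a subfield F₀ with |F| = |F₀|^r, r prime; for q = p prime with p ≡ 1 mod 5, the normaliser of an absolutely irreducible 5-subgroup R of exponent 5 and order 5^(1+2m) with centre of order 5, all of whose characteristic abelian subgroups are cyclic, F being the smallest field of characteristic p containing the fifth roots of unity (here R is extraspecial of order 125); for q odd, the similarity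 group of a non-degenerate quadratic form; the similarity group of a non-degenerate unitary form — or else H lies in the residual class of the linear case (modulo scalars H is almost simple, with absolutely irreducible perfect socle preimage realisable over no proper subfield and fixing no non-degenerate quadratic, symplectic or unitary form). -/
theorem result {F : Type*} [Field F] [Fintype F] (H : Subgroup (Matrix.GeneralLinearGroup (Fin 5) F)) (hH : Cfsg.Geo.IsMaximalIn (Cfsg.Geo.specialLinear (Fin 5) F) H) :
    (∃ W : Submodule F (Fin 5 → F), W ≠ ⊥ ∧ W ≠ ⊤ ∧ H = Cfsg.Geo.subspaceStabilizer W ⊓ Cfsg.Geo.specialLinear (Fin 5) F) ∨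
    (5 ≤ Fintype.card F ∧ ∃ D : Fin 5 → Submodule F (Fin 5 → F), Cfsg.Geo.IsMDecomposition 1 D ∧ H = Cfsg.Geo.decompositionStabilizer D ⊓ Cfsg.Geo.specialLinear (Fin 5) F) ∨
    (∃ K : Subalgebra F (Matrix (Fin 5) (Fin 5) F), Cfsg.Geo.IsFieldSubalgebra 5 K ∧ H = Cfsg.Geo.subalgebraNormalizer K ⊓ Cfsg.Geo.specialLinear (Fin 5) F) ∨
    (∃ (F₀ : Subfield F) (r : ℕ) (P : Matrix.GeneralLinearGroup (Fin 5) F), r.Prime ∧ Fintype.card F = Nat.card F₀ ^ r ∧ H = Cfsg.Geo.subfieldSubgroup F₀ P ⊓ Cfsg.Geo.specialLinear (Fin 5) F) ∨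
    ((∃ p : ℕ, p.Prime ∧ Fintype.card F = p ∧ (p % 5 = 1)) ∧ ∃ R : Subgroup (Matrix.GeneralLinearGroup (Fin 5) F), Cfsg.Geo.IsLinearSymplecticTypeData 5 R ∧ H = Cfsg.Geo.subgroupNormalizer R ⊓ Cfsg.Geo.specialLinear (Fin 5) F) ∨
    (Odd (Fintype.card F) ∧ ∃ Q : (Fin 5 → F) → F, Cfsg.Geo.IsNondegenerateQuadraticForm Q ∧ H = Cfsg.Geo.quadSimilarityGroup Q ⊓ Cfsg.Geo.specialLinear (Fin 5) F) ∨
    (∃ (σ : F ≃+* F) (f : (Fin 5 → F) → (Fin 5 → F) → F), Cfsg.Geo.IsUnitaryForm σ f ∧ H = Cfsg.Geo.similarityGroup f ⊓ Cfsg.Geo.specialLinear (Fin 5) F) ∨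
    Cfsg.Geo.InLinearResidualClass H := by
  have hι : 3 ≤ Fintype.card (Fin 5) := by simp
  rcases slMaxAlt hι (by simp) hH with h | ⟨t, m, D, hD, h⟩ | ⟨r, K, hr, hK, h⟩ |
    ⟨a, b, e, P, h1, h2, h⟩ | h | ⟨r, m, R, hR, h1, h⟩ | ⟨m, t, e, P, h1, h2, h⟩ | h | h | h | h
  · repeat (first | exact Or.inl h | exact h | right)
  · obtain ⟨h1, h2, h3⟩ := decomp_dims hD (by norm_num)
    have h4 : (m = 1 ∧ t = 5) := by
      interval_cases t <;> omega
    rcases h4 with ⟨rfl, rfl⟩
    · rcases sl_lines_case hι hH hD h with hq | h | h | h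
      · repeat (first | exact Or.inl ⟨hq, D, hD, h⟩ | exact ⟨hq, D, hD, h⟩ | right)
      all_goals repeat (first | exact Or.inl h | exact h | right)
  · have h1 : r ∣ 5 := by simpa using IsFieldSubalgebra.dvd_card hK
    have h2 := Nat.le_of_dvd (by norm_num) h1
    have h3 : r = 5 := by
      interval_cases r <;> first | omega | exact absurd hr (by decide)
    rcases h3 with rfl
    · repeat (first | exact Or.inl ⟨K, hK, h⟩ | exact ⟨K, hK, h⟩ | right)
  · have h3 : 5 = a * b := by simpa using Fintype.card_congr e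
    have h4 : a ≤ 3 := by nlinarith
    exfalso
    interval_cases a <;> omega
  · repeat (first | exact Or.inl h | exact h | right)
  · obtain rfl := prime_of_pow_eq hR.symplecticType.prime (s := 5) (by norm_num) h1 (by simp)
    have hq := c6_five hR
    repeat (first | exact Or.inl ⟨hq, R, hR, h⟩ | exact ⟨hq, R, hR, h⟩ | right)
  · exact absurd (wreath_dims e h1 h2 (by norm_num)).1 (by norm_num)
  · obtain ⟨f, hf, -⟩ := h
    exact absurd (even_card_of_symplectic hf) (by simp; decide)
  all_goals repeat (first | exact Or.inl h | exact h | right)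

end Cfsg.Agent.S5793
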