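import Mathlib
import Cfsg.Statements.S5796
import Cfsg.Agent.Class.Asch.SUSinger
-- import your own Cfsg.Agent.* helpers here

set_option autoImplicit false
open Cfsg

namespace Cfsg.Agent.S5796

open Cfsg.Agent.Class Cfsg.Agent.Class.Asch

/-- Every maximal subgroup of SU_5(q) is of one of the listed geometric types or lies in the residual class. Let F be the field with q² elements (characteristic p), f the standard unitary form Σ u_i v_i^q on F^5, and H a maximal subgroup of SU_5(q) (inside GL_5(F)). Then H is the intersection with SU_5(q) of one of: the stabiliser of a non-zero totally isotropic subspace; the stabiliser of a non-degenerate 1-space or 2-space; the stabiliser of a decomposition into five mutually orthogonal non-degenerate 1-spaces; for q ≥ 3, the normaliser of an adjoint-closed degree-5 subfield of the matrix algebra; a subfield group of odd prime index whose F₀-structure carries f; for q odd, a subfield group of index 2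 whose F₀-structure carries f; for q = p ≡ 4 mod 5 or q = p² with p ≡ 2, 3 mod 5, the normaliser of an absolutely irreducible 5-group of exponent 5, order 125 and centre of order 5 with all characteristic abelian subgroups cyclic inside the similarity group of f — or else H lies in the residual class of the unitary case. -/
theorem result {F : Type*} [Field F] [Fintype F] (q : ℕ) (hF : Fintype.card F = q ^ 2) (H : Subgroup (Matrix.GeneralLinearGroup (Fin 5) F)) (hH : Cfsg.Geo.IsMaximalIn (Cfsg.GU 5 F q ⊓ Cfsg.Geo.specialLinear (Fin 5) F) H) :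
    (∃ W : Submodule F (Fin 5 → F), W ≠ ⊥ ∧ Cfsg.Geo.IsTotallySingularFor (Cfsg.hermForm 5 F q) W ∧ H = Cfsg.Geo.subspaceStabilizer W ⊓ (Cfsg.GU 5 F q ⊓ Cfsg.Geo.specialLinear (Fin 5) F)) ∨
    (∃ W : Submodule F (Fin 5 → F), W ≠ ⊥ ∧ Cfsg.Geo.IsNondegenerateOn (Cfsg.hermForm 5 F q) W ∧ 2 * Module.finrank F W < 5 ∧ H = Cfsg.Geo.subspaceStabilizer W ⊓ (Cfsg.GU 5 F q ⊓ Cfsg.Geo.specialLinear (Fin 5) F)) ∨
    (∃ D : Fin 5 → Submodule F (Fin 5 → F), Cfsg.Geo.IsNondegenerateMDecomposition (Cfsg.hermForm 5 F q) 1 D ∧ H = Cfsg.Geo.decompositionStabilizer D ⊓ (Cfsg.GU 5 F q ⊓ Cfsg.Geo.specialLinear (Fin 5) F)) ∨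
    (3 ≤ q ∧ ∃ K : Subalgebra F (Matrix (Fin 5) (Fin 5) F), Cfsg.Geo.IsFieldSubalgebra 5 K ∧ Cfsg.Geo.IsAdjointClosedFor (Cfsg.hermForm 5 F q) K ∧ H = Cfsg.Geo.subalgebraNormalizer K ⊓ (Cfsg.GU 5 F q ⊓ Cfsg.Geo.specialLinear (Fin 5) F)) ∨
    (∃ (F₀ : Subfield F) (r : ℕ) (P : Matrix.GeneralLinearGroup (Fin 5) F), r.Prime ∧ Odd r ∧ Fintype.card F = Nat.card F₀ ^ r ∧ Cfsg.Geo.IsFormRationalStructure (Cfsg.hermForm 5 F q) F₀ 1 P ∧ H = Cfsg.Geo.subfieldSubgroup F₀ P ⊓ (Cfsg.GU 5 F q ⊓ Cfsg.Geo.specialLinear (Fin 5) F)) ∨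
    (Odd q ∧ ∃ (F₀ : Subfield F) (P : Matrix.GeneralLinearGroup (Fin 5) F), Fintype.card F = Nat.card F₀ ^ 2 ∧ Cfsg.Geo.IsFormRationalStructure (Cfsg.hermForm 5 F q) F₀ 1 P ∧ H = Cfsg.Geo.subfieldSubgroup F₀ P ⊓ (Cfsg.GU 5 F q ⊓ Cfsg.Geo.specialLinear (Fin 5) F)) ∨
    (∃ (p : ℕ) (R : Subgroup (Matrix.GeneralLinearGroup (Fin 5) F)), p.Prime ∧ CharP F p ∧ ((q = p ∧ p % 5 = 4) ∨ (q = p ^ 2 ∧ (p % 5 = 2 ∨ p % 5 = 3))) ∧ Cfsg.Geo.IsSymplecticTypeGroup 5 R ∧ Cfsg.Geo.ActsAbsolutelyIrreducibly (Cfsg.Geo.matrixSet R) ∧ R ≤ Cfsg.Geo.similarityGroup (Cfsg.hermForm 5 F q) ∧ Nat.card R = 125 ∧ Nat.card (Subgroup.center R) = 5 ∧ H = Cfsg.Geo.subgroupNormalizer R ⊓ (Cfsg.GU 5 F q ⊓ Cfsg.Geo.specialLinear (Fin 5) F)) ∨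
    Cfsg.Geo.InUnitaryResidualClass H := by
  have hU : U.UF F q := U.UF.of_card hF
  have hq2 := U.two_le_q F q
  have hn : 3 ≤ 5 := by norm_num
  rcases suMaxAlt hn (by norm_num) (by omega) hH with h | h | ⟨t, m, D, hD, h⟩ | ⟨m, D, hD, hti, h⟩ |
    ⟨r, K, hr, ho, hK, hA, h⟩ | ⟨k, l, e, B, f₁, f₂, h1, h2, h3, h4, h5, h6, h⟩ | h | h | ⟨he, h⟩ |
    ⟨r, k, R, hR, h⟩ | ⟨k, t, e, B, f₁, h1, h2, h3, h4, h5, h⟩ | h
  · repeat (first | exact Or.inl h | exact h | right)
  · repeat (first | exact Or.inl h | exact h | right)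
  · obtain ⟨h1, h2, h3⟩ := decomp_dims hD.decomp (by norm_num)
    have h4 : (m = 1 ∧ t = 5) := by
      interval_cases t <;> omega
    rcases h4 with ⟨rfl, rfl⟩
    · repeat (first | exact Or.inl ⟨D, hD, h⟩ | exact ⟨D, hD, h⟩ | right)
  · obtain ⟨h1, -, -⟩ := decomp_dims hD (by norm_num)
    omega
  · have h1 : r ∣ 5 := by simpa using IsFieldSubalgebra.dvd_card hK
    have h2 := Nat.le_of_dvd (by norm_num) h1
    obtain rfl : r = 5 := by
      interval_cases r <;> first | omega | exact absurd hr (by decide) | exact absurd ho (by decide)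
    have hq : 3 ≤ q := by
      rcases hq2.eq_or_lt with rfl | hq
      · exact (su5_singer_two hF hH hK hA h).elim
      · exact hq
    repeat (first | exact Or.inl ⟨hq, K, hK, hA, h⟩ | exact ⟨hq, K, hK, hA, h⟩ | right)
  · have h7 : 5 = k * l := by simpa using Fintype.card_congr e
    have h8 : k ≤ 3 := by nlinarith
    exfalso
    interval_cases k <;> omega
  · repeat (first | exact Or.inl h | exact h | right)
  · repeat (first | exact Or.inl h | exact h | right)
  · exact absurd he (by decide)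
  · obtain ⟨h1, h2, h3, -, h4, -, -⟩ := hR.props
    rw [Fintype.card_fin] at h4
    obtain rfl := prime_of_pow_eq h1.prime (s := 5) (by norm_num) h4 (by norm_num)
    obtain rfl : k = 1 := Nat.pow_right_injective (a := 5) (by norm_num) h4.symm
    obtain ⟨h5, h6, p, hp, hp1, hp2⟩ := hR.five hF
    repeat (first | exact Or.inl ⟨p, R, hp, hp1, hp2, h1, h2, hR.le_sim, h6, h5, h⟩ | right)
  · exact absurd (wreath_dims e h1 h2 (by norm_num)).1 (by norm_num)
  · repeat (first | exact Or.inl h | exact h | right)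

end Cfsg.Agent.S5796
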