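import Cfsg.Statements.S5826
import Cfsg.Agent.Class.Asch.OEven

set_option autoImplicit false
open Cfsg

namespace Cfsg.Agent.S5826

/-- Every maximal subgroup of Ω_8^-(q) is of one of the listed geometric types or lies in the residual class. Let F be a finite field with q elements, Q a non-degenerate quadratic form on F^8 of minus type (no totally singular 4-space), Ω the commutator subgroup of its isometry group, and H a maximal subgroup of Ω (inside GL_8(F)). Then H is the intersection with Ω of one of: the stabiliser of a non-zero totally singular subspace; for q odd, the stabiliser of a non-degenerate subspace of odd dimension; the stabiliser of a non-degenerate 2-space of minus type; for q ≥ 4, the stabiliser of a non-degenerate 2-space of plus type; the stabiliser of a non-degenerate 4-space; for q even, the stabiliser of the span of a non-singular vector; the normaliser of a degree-2 subfield of the matrix algebra;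 a subfield group of odd prime index whose F₀-structure carries a non-zero multiple of Q — or else H lies in the residual class of the orthogonal case (modulo scalars H is almost simple, with absolutely irreducible perfect socle preimage realisable over no proper subfield and fixing no non-degenerate unitary form). -/
theorem result {F : Type*} [Field F] [Fintype F] (Q : (Fin 8 → F) → F) (hQ : Cfsg.Geo.IsNondegenerateQuadraticForm Q) (hminus : ¬ Cfsg.Geo.IsPlusTypeOn Q ⊤) (H : Subgroup (Matrix.GeneralLinearGroup (Fin 8) F)) (hH : Cfsg.Geo.IsMaximalIn (Cfsg.Geo.omegaGL Q) H) :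
    (∃ W : Submodule F (Fin 8 → F), W ≠ ⊥ ∧ Cfsg.Geo.IsTotallySingularQuad Q W ∧ H = Cfsg.Geo.subspaceStabilizer W ⊓ Cfsg.Geo.omegaGL Q) ∨
    (Odd (Fintype.card F) ∧ ∃ W : Submodule F (Fin 8 → F), W ≠ ⊥ ∧ W ≠ ⊤ ∧ Odd (Module.finrank F W) ∧ Cfsg.Geo.IsNondegenerateOn (QuadraticMap.polar Q) W ∧ H = Cfsg.Geo.subspaceStabilizer W ⊓ Cfsg.Geo.omegaGL Q) ∨
    (∃ W : Submodule F (Fin 8 → F), Module.finrank F W = 2 ∧ Cfsg.Geo.IsNondegenerateOn (QuadraticMap.polar Q) W ∧ ¬ Cfsg.Geo.IsPlusTypeOn Q W ∧ H = Cfsg.Geo.subspaceStabilizer W ⊓ Cfsg.Geo.omegaGL Q) ∨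
    (4 ≤ Fintype.card F ∧ ∃ W : Submodule F (Fin 8 → F), Module.finrank F W = 2 ∧ Cfsg.Geo.IsNondegenerateOn (QuadraticMap.polar Q) W ∧ Cfsg.Geo.IsPlusTypeOn Q W ∧ H = Cfsg.Geo.subspaceStabilizer W ⊓ Cfsg.Geo.omegaGL Q) ∨
    (∃ W : Submodule F (Fin 8 → F), Module.finrank F W = 4 ∧ Cfsg.Geo.IsNondegenerateOn (QuadraticMap.polar Q) W ∧ H = Cfsg.Geo.subspaceStabilizer W ⊓ Cfsg.Geo.omegaGL Q) ∨
    (¬ Odd (Fintype.card F) ∧ ∃ v : (Fin 8 → F), Q v ≠ 0 ∧ H = Cfsg.Geo.subspaceStabilizer (Submodule.span F {v}) ⊓ Cfsg.Geo.omegaGL Q) ∨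
    (∃ K : Subalgebra F (Matrix (Fin 8) (Fin 8) F), Cfsg.Geo.IsFieldSubalgebra 2 K ∧ H = Cfsg.Geo.subalgebraNormalizer K ⊓ Cfsg.Geo.omegaGL Q) ∨
    (∃ (F₀ : Subfield F) (r : ℕ) (P : Matrix.GeneralLinearGroup (Fin 8) F) (ζ : F), r.Prime ∧ Odd r ∧ Fintype.card F = Nat.card F₀ ^ r ∧ ζ ≠ 0 ∧ Cfsg.Geo.IsQuadFormRationalStructure (fun v : Fin 8 → F => ζ * Q v) F₀ P ∧ H = Cfsg.Geo.subfieldSubgroup F₀ P ⊓ Cfsg.Geo.omegaGL Q) ∨
    Cfsg.Geo.InOrthogonalResidualClass H := by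
  have hq := Class.Max.nd_qfOf hQ
  have hm : ¬ Geo.IsPlusTypeOn ⇑(Class.Max.qfOf hQ) ⊤ := hminus
  rcases Class.Asch.oEven (Q := Class.Max.qfOf hQ) hq (n := 8) (by simp) (by simp) hH with
    ⟨W, h0, h1, -, h⟩ | ⟨W, h0, h1, h2, h3, h4, h5, h, -⟩ | h | ⟨t, k, D, h1, h2, h3, h4, -⟩ |
    ⟨m, D, -, -, h1, h2, -⟩ | ⟨K, h1, -, -, h⟩ | ⟨K, h1, -, -, -, -, h⟩ | h | h | h |
    ⟨F₀, r, B, ζ, h1, h2, h⟩ | h | h
  · exact Or.inl ⟨W, h0, h1, h⟩
  · by_cases ho : Odd (Module.finrank F W)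
    · exact Or.inr <| Or.inl ⟨h4 ho, W, h0, h1, ho, h3, h⟩
    have h6 := Submodule.finrank_eq_zero.not.2 h0
    rw [Nat.odd_iff] at ho
    obtain h7 | h7 : Module.finrank F W = 2 ∨ Module.finrank F W = 4 := by omega
    · by_cases hp : Geo.IsPlusTypeOn Q W
      · exact Or.inr <| Or.inr <| Or.inr <| Or.inl ⟨h5 h7 hp, W, h7, h3, hp, h⟩
      · exact Or.inr <| Or.inr <| Or.inl ⟨W, h7, h3, hp, h⟩
    · exact Or.inr <| Or.inr <| Or.inr <| Or.inr <| Or.inl ⟨W, h7, h3, h⟩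
  · exact Or.inr <| Or.inr <| Or.inr <| Or.inr <| Or.inr <| Or.inl h
  · refine absurd ?_ hm
    have h5 : k ≤ 4 := by nlinarith
    obtain ⟨rfl, rfl⟩ | ⟨rfl, rfl⟩ | ⟨rfl, rfl⟩ : (k = 1 ∧ t = 8) ∨ (k = 2 ∧ t = 4) ∨
        (k = 4 ∧ t = 2) := by interval_cases k <;> omega
    · exact (Class.Asch.IsOrthogonalMDecomposition.isPlus_iff
        (Class.QF.two_ne_zero_of_odd_card (h3 odd_one)) hq h4.dec (by decide) (m := 4)
        (by simp)).2 (Or.inl (by decide))
    · exact Class.Asch.IsOrthogonalMDecomposition.isPlus_of_even h4.dec (by decide) (by decide)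
    · exact Class.Asch.IsOrthogonalMDecomposition.isPlus_of_even h4.dec (by decide) (by decide)
  · exact absurd (Class.Asch.isPlus_of_ts_pair h1 h2) hm
  · exact Or.inr <| Or.inr <| Or.inr <| Or.inr <| Or.inr <| Or.inr <| Or.inl ⟨K, h1, h⟩
  · exact Or.inr <| Or.inr <| Or.inr <| Or.inr <| Or.inr <| Or.inr <| Or.inl ⟨K, h1, h⟩
  · exact absurd h.1 (by decide)
  · exact absurd h.1 (by decide)
  · exact absurd h.1 (by decide)
  · exact Or.inr <| Or.inr <| Or.inr <| Or.inr <| Or.inr <| Or.inr <| Or.inr <| Or.inl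
      ⟨F₀, r, B, ζ, h1, h2 hm, h⟩
  · exact absurd h.2 hm
  · exact Or.inr <| Or.inr <| Or.inr <| Or.inr <| Or.inr <| Or.inr <| Or.inr <| Or.inr h

end Cfsg.Agent.S5826
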