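import Cfsg.Statements.S5844
import Cfsg.Agent.Class.Asch.SpMax

set_option autoImplicit false
open Cfsg

namespace Cfsg.Agent.S5844

open Cfsg.Agent.Class.Asch

/-- Every maximal subgroup of Sp_10(q) is of one of the listed geometric types or lies in the residual class. Let F be a finite field with q elements (characteristic p), f the standard alternating form on F^10 (coordinates Fin 5 ⊕ Fin 5), and H a maximal subgroup of Sp_10(F) (inside GL_10(F)). Then H is the intersection with Sp_10(F) of one of: the stabiliser of a non-zero totally isotropic subspace; the stabiliser of a non-zero non-degenerate subspace of dimension less than 5; for q ≥ 3, the stabiliser of a decomposition into 5 mutually orthogonal non-degenerate 2-spaces; for q odd, of a decomposition into two totally isotropic 5-spaces; the normaliser of a degree-5 subfield K of the matrix algebra, self-adjoint with f(k v, v) = 0; for q odd, the normaliser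 of a degree-2 subfield closed under adjoints but not self-adjoint; for q odd, the stabiliser of a tensor decomposition of f into an alternating form on F^2 and a symmetric form on F^5; a subfield group (|F| = |F₀|^r, r prime) whose F₀-structure carries a non-zero multiple of f; for q even, the similarity group of a non-degenerate quadratic form polarising to f — or else H lies in the residual class of the symplectic case (modulo scalars H is almost simple, with absolutely irreducible perfect socle preimage realisable over no proper subfield and fixing no non-degenerate quadratic or unitary form). -/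
theorem result {F : Type*} [Field F] [Fintype F] (H : Subgroup (Matrix.GeneralLinearGroup (Fin 5 ⊕ Fin 5) F)) (hH : Cfsg.Geo.IsMaximalIn (Cfsg.spGL 5 F) H) :
    (∃ W : Submodule F (Fin 5 ⊕ Fin 5 → F), W ≠ ⊥ ∧ Cfsg.Geo.IsTotallySingularFor (Cfsg.sympForm 5 F) W ∧ H = Cfsg.Geo.subspaceStabilizer W ⊓ Cfsg.spGL 5 F) ∨
    (∃ W : Submodule F (Fin 5 ⊕ Fin 5 → F), W ≠ ⊥ ∧ Cfsg.Geo.IsNondegenerateOn (Cfsg.sympForm 5 F) W ∧ Module.finrank F W < 5 ∧ H = Cfsg.Geo.subspaceStabilizer W ⊓ Cfsg.spGL 5 F) ∨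
    (3 ≤ Fintype.card F ∧ ∃ D : Fin 5 → Submodule F (Fin 5 ⊕ Fin 5 → F), Cfsg.Geo.IsNondegenerateMDecomposition (Cfsg.sympForm 5 F) 2 D ∧ H = Cfsg.Geo.decompositionStabilizer D ⊓ Cfsg.spGL 5 F) ∨
    (Odd (Fintype.card F) ∧ ∃ D : Fin 2 → Submodule F (Fin 5 ⊕ Fin 5 → F), Cfsg.Geo.IsMDecomposition 5 D ∧ (∀ i, Cfsg.Geo.IsTotallySingularFor (Cfsg.sympForm 5 F) (D i)) ∧ H = Cfsg.Geo.decompositionStabilizer D ⊓ Cfsg.spGL 5 F) ∨
    (∃ K : Subalgebra F (Matrix (Fin 5 ⊕ Fin 5) (Fin 5 ⊕ Fin 5) F), Cfsg.Geo.IsFieldSubalgebra 5 K ∧ Cfsg.Geo.IsSelfAdjointFor (Cfsg.sympForm 5 F) K ∧ (∀ k ∈ K, ∀ v : (Fin 5 ⊕ Fin 5 → F), (Cfsg.sympForm 5 F) (Matrix.mulVec k v) v = 0) ∧ H = Cfsg.Geo.subalgebraNormalizer K ⊓ Cfsg.spGL 5 F) ∨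
    (Odd (Fintype.card F) ∧ ∃ K : Subalgebra F (Matrix (Fin 5 ⊕ Fin 5) (Fin 5 ⊕ Fin 5) F), Cfsg.Geo.IsFieldSubalgebra 2 K ∧ Cfsg.Geo.IsAdjointClosedFor (Cfsg.sympForm 5 F) K ∧ ¬ Cfsg.Geo.IsSelfAdjointFor (Cfsg.sympForm 5 F) K ∧ H = Cfsg.Geo.subalgebraNormalizer K ⊓ Cfsg.spGL 5 F) ∨
    (Odd (Fintype.card F) ∧ ∃ (e : (Fin 5 ⊕ Fin 5) ≃ Fin 2 × Fin 5) (P : Matrix.GeneralLinearGroup (Fin 5 ⊕ Fin 5) F) (f₁ : (Fin 2 → F) → (Fin 2 → F) → F) (f₂ : (Fin 5 → F) → (Fin 5 → F) → F), Cfsg.Geo.IsSymplecticForm f₁ ∧ Cfsg.Geo.IsSymmetricForm f₂ ∧ Cfsg.Geo.IsTensorFormStructure id (Cfsg.sympForm 5 F) f₁ f₂ e P ∧ H = Cfsg.Geo.tensorProductSubgroup 2 5 e P ⊓ Cfsg.spGL 5 F) ∨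
    (∃ (F₀ : Subfield F) (r : ℕ) (P : Matrix.GeneralLinearGroup (Fin 5 ⊕ Fin 5) F) (ζ : F), r.Prime ∧ Fintype.card F = Nat.card F₀ ^ r ∧ ζ ≠ 0 ∧ Cfsg.Geo.IsFormRationalStructure (Cfsg.sympForm 5 F) F₀ ζ P ∧ H = Cfsg.Geo.subfieldSubgroup F₀ P ⊓ Cfsg.spGL 5 F) ∨
    (¬ Odd (Fintype.card F) ∧ ∃ Q : (Fin 5 ⊕ Fin 5 → F) → F, Cfsg.Geo.IsNondegenerateQuadraticForm Q ∧ (∀ u v : (Fin 5 ⊕ Fin 5 → F), QuadraticMap.polar Q u v = (Cfsg.sympForm 5 F) u v) ∧ H = Cfsg.Geo.quadSimilarityGroup Q ⊓ Cfsg.spGL 5 F) ∨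
    Cfsg.Geo.InSymplecticResidualClass H := by
  have hQ : QS (spGL 5 F) := qs_Sp (by norm_num) (Or.inl (by norm_num))
  rcases spMax (by norm_num) hQ hH with h | h | ⟨t, k, D, h1, h2, ⟨j, h3⟩, hq, hD, h⟩ |
    ⟨ho, hq, h⟩ | ⟨r, K, hr, h1, h⟩ | ⟨ho, hq, h⟩ |
    ⟨ho, k, l, e, B, f₁, f₂, h1, ⟨j, h2⟩, h3, hq, hp, a1, a2, h⟩ | h |
    ⟨k, R, h1, hp, ho, a1, a2, a3, a4, a5, a6, h⟩ | ⟨ho, k, t, e, B, f₁, h1, h2, h3, hq, a1, a2, h⟩ |
    ⟨ho, h⟩ | h
  · repeat (first | exact Or.inl h | exact h | right)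
  · repeat (first | exact Or.inl h | exact h | right)
  · have h5 : t ≤ 10 := by nlinarith [hD.decomp.pos]
    have h6 : (k = 2 ∧ t = 5) := by
      interval_cases t <;> omega
    rcases h6 with ⟨rfl, rfl⟩
    · repeat (first | exact Or.inl ⟨hq rfl, D, hD, h⟩ | exact ⟨hq rfl, D, hD, h⟩ | right)
  · repeat (first | exact Or.inl ⟨ho, h⟩ | exact ⟨ho, h⟩ | right)
  · have h2 := Nat.le_of_dvd (by norm_num) h1
    have h3 : r = 5 := by
      interval_cases r <;> first | omega | exact absurd hr (by decide)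
    rcases h3 with rfl
    · repeat (first | exact Or.inl ⟨K, h⟩ | exact ⟨K, h⟩ | right)
  · repeat (first | exact Or.inl ⟨ho, h⟩ | exact ⟨ho, h⟩ | right)
  · have h5 : l ≤ 10 := by rcases Nat.eq_zero_or_pos k with rfl | hk <;> nlinarith
    have h6 : (k = 2 ∧ l = 5) := by
      interval_cases l <;> omega
    rcases h6 with ⟨rfl, rfl⟩
    · repeat (first | exact Or.inl ⟨ho, e, B, f₁, f₂, a1, a2, h⟩ | exact ⟨ho, e, B, f₁, f₂, a1, a2, h⟩ | right)
  · repeat (first | exact Or.inl h | exact h | right)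
  · exact absurd (prime_of_pow_eq Nat.prime_two (s := 5) (by norm_num) h1 (by norm_num)) (by norm_num)
  · exact absurd (cube_dims h1 h2 h3 (by norm_num)).1 (by norm_num)
  · repeat (first | exact Or.inl ⟨ho, h⟩ | exact ⟨ho, h⟩ | right)
  · repeat (first | exact Or.inl h | exact h | right)

end Cfsg.Agent.S5844
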