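import Cfsg.Statements.S5876
import Cfsg.Agent.Class.Asch.Comm
-- import your own Cfsg.Agent.* helpers here

set_option autoImplicit false
open Cfsg

namespace Cfsg.Agent.S5876

open Cfsg.Geo Cfsg.Agent.Class.Asch
open scoped Matrix commutatorElement

theorem abs_bound {K : Type*} [Group K] [Finite K] [Group.IsSolvable K] (d : K → ℕ) (n : ℕ)
    (hcomm : ∀ a b : K, d ⁅a, b⁆ ≤ 2 * d a)
    (hab : ∀ A : Subgroup K, A.Normal → ⁅A, A⁆ = ⊥ → ∀ a ∈ A, a ≠ 1 → n ≤ d a)
    {g : K} (hg : g ≠ 1) : n ≤ 4 * d g := by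
  set N := Subgroup.normalClosure ({g} : Set K) with hN
  have hgN : g ∈ N := Subgroup.subset_normalClosure (Set.mem_singleton g)
  have hcen : ∀ R : Subgroup K, R.Normal → (∀ x ∈ R, ⁅g, x⁆ = 1) → ⁅N, R⁆ = ⊥ := by
    intro R hR h
    rw [Subgroup.commutator_eq_bot_iff_le_centralizer]
    refine Subgroup.normalClosure_le_normal ?_
    rw [Set.singleton_subset_iff, SetLike.mem_coe, Subgroup.mem_centralizer_iff]
    exact fun x hx => (commutatorElement_eq_one_iff_mul_comm.1 (h x hx)).symm
  by_cases h0 : ⁅N, (⊤ : Subgroup K)⁆ = ⊥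
  · have := hab N inferInstance
      (eq_bot_iff.2 ((Subgroup.commutator_mono le_rfl le_top).trans h0.le)) g hgN hg
    omega
  obtain ⟨R, ⟨hRn, hR⟩, hmin⟩ := WellFounded.has_min (wellFounded_lt (α := Subgroup K))
    {R | R.Normal ∧ ⁅N, R⁆ ≠ ⊥} ⟨⊤, inferInstance, h0⟩
  have hlt : ∀ S : Subgroup K, S.Normal → S < R → ⁅N, S⁆ = ⊥ := fun S hS h => by
    by_contra h'
    exact hmin S ⟨hS, h'⟩ h
  obtain ⟨x, hx, hy⟩ : ∃ x ∈ R, ⁅g, x⁆ ≠ 1 := by
    by_contra h
    push Not at h
    exact hR (hcen R hRn h)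
  have hyM : ⁅g, x⁆ ∈ ⁅N, R⁆ := Subgroup.commutator_mem_commutator hgN hx
  have h1 := hcomm g x
  rcases (Subgroup.commutator_le_right N R).lt_or_eq with hM | hM
  · have := hab ⁅N, R⁆ inferInstance (eq_bot_iff.2 ((Subgroup.commutator_mono
      (Subgroup.commutator_le_left N R) le_rfl).trans (hlt _ inferInstance hM).le)) _ hyM hy
    omega
  · have hRne : R ≠ ⊥ := by
      rintro rfl
      exact hR (Subgroup.commutator_bot_right N)
    have h2 := hlt ⁅R, R⁆ inferInstance (Group.IsSolvable.commutator_lt_of_ne_bot hRne)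
    have h3 : ⁅⁅N, R⁆, ⁅R, R⁆⁆ = ⊥ := by
      refine Subgroup.commutator_commutator_eq_bot_of_rotate ?_ ?_
      · rw [Subgroup.commutator_comm]
        exact eq_bot_iff.2 ((Subgroup.commutator_mono le_rfl
          (Subgroup.commutator_le_right R ⁅R, R⁆)).trans h2.le)
      · rw [Subgroup.commutator_comm ⁅R, R⁆ N, h2, Subgroup.commutator_bot_left]
    rw [hM] at h3 hyM
    by_cases hz : ∀ x' ∈ R, ⁅⁅g, x⁆, x'⁆ = 1
    · have := hab (R ⊓ Subgroup.centralizer (R : Set K)) inferInstance (by
        rw [Subgroup.commutator_eq_bot_iff_le_centralizer]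
        exact inf_le_right.trans (Subgroup.centralizer_le inf_le_left)) _
        ⟨hyM, Subgroup.mem_centralizer_iff.2 fun x' hx' =>
          (commutatorElement_eq_one_iff_mul_comm.1 (hz x' hx')).symm⟩ hy
      omega
    · push Not at hz
      obtain ⟨x', hx', hz⟩ := hz
      have := hab ⁅R, R⁆ inferInstance (eq_bot_iff.2 ((Subgroup.commutator_mono
        (Subgroup.commutator_le_left R R) le_rfl).trans h3.le)) _
        (Subgroup.commutator_mem_commutator hyM hx') hz
      have := hcomm ⁅g, x⁆ x'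
      omega

variable {F : Type*} [Field F] {n : ℕ}

/-- The fixed space. -/
noncomputable abbrev fx (g : GL (Fin n) F) : Submodule F (Fin n → F) :=
  Module.End.eigenspace (Matrix.toLin' (g : Matrix (Fin n) (Fin n) F)) 1

theorem mem_fx {g : GL (Fin n) F} {v : Fin n → F} :
    v ∈ fx g ↔ (g : Matrix (Fin n) (Fin n) F) *ᵥ v = v := by
  rw [Module.End.mem_eigenspace_iff, one_smul, Matrix.toLin'_apply]

theorem finrank_fx_le (g : GL (Fin n) F) : Module.finrank F (fx g) ≤ n :=
  (Submodule.finrank_le _).trans (by simp)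

theorem fx_comm (a b : GL (Fin n) F) :
    n - Module.finrank F (fx ⁅a, b⁆) ≤ 2 * (n - Module.finrank F (fx a)) := by
  have h1 : fx a ⊓ (fx a).map (Matrix.toLin' (b : Matrix (Fin n) (Fin n) F)) ≤ fx ⁅a, b⁆ := by
    rintro _ ⟨hv, w, hw, rfl⟩
    rw [SetLike.mem_coe, mem_fx] at hv hw
    rw [Matrix.toLin'_apply] at hv
    have hw' : ((a⁻¹ : GL (Fin n) F) : Matrix (Fin n) (Fin n) F) *ᵥ w = w := by
      conv_lhs => rw [← hw]
      exact inv_mulVec_mulVec a w
    rw [mem_fx, Matrix.toLin'_apply, commutatorElement_def]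
    simp only [Units.val_mul, ← Matrix.mulVec_mulVec]
    rw [inv_mulVec_mulVec, hw', hv]
  have h2 := Submodule.finrank_mono h1
  have h3 := Submodule.finrank_sup_add_finrank_inf_eq (fx a)
    ((fx a).map (Matrix.toLin' (b : Matrix (Fin n) (Fin n) F)))
  have h4 : Module.finrank F (fx a ⊔ (fx a).map (Matrix.toLin' (b : Matrix (Fin n) (Fin n) F)) :
      Submodule F (Fin n → F)) ≤ n := (Submodule.finrank_le _).trans (by simp)
  rw [finrank_map_gl] at h3
  have := finrank_fx_le a
  omega

/-- Fixed-point spaces in primitive soluble linear groups. Let F be a finite field and G a soluble subgroup of GL_n(F) that acts irreducibly on F^n and primitively (G preserves no decomposition of F^n into two or more independent subspaces of equal dimension). Then every non-identity element g of G has fixed-point space {v : g v = v} of dimension at most 3n/4. -/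
theorem result {F : Type*} [Field F] [Fintype F] {n : ℕ} (G : Subgroup (Matrix.GeneralLinearGroup (Fin n) F)) (hsol : IsSolvable G) (hirr : Cfsg.Geo.ActsIrreducibly (Cfsg.Geo.matrixSet G)) (hprim : ∀ (m t : ℕ) (D : Fin t → Submodule F (Fin n → F)), 2 ≤ t → Cfsg.Geo.IsMDecomposition m D → ¬ G ≤ Cfsg.Geo.decompositionStabilizer D) (g : Matrix.GeneralLinearGroup (Fin n) F) (hg : g ∈ G) (hg1 : g ≠ 1) :
    4 * Module.finrank F (Module.End.eigenspace (Matrix.toLin' (g : Matrix (Fin n) (Fin n) F)) 1) ≤ 3 * n := by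
  rcases Nat.eq_zero_or_pos n with rfl | hn
  · have := finrank_fx_le g
    change 4 * Module.finrank F (fx g) ≤ _
    omega
  have : Nonempty (Fin n) := ⟨⟨0, hn⟩⟩
  have : Group.IsSolvable G := hsol
  have key := abs_bound (K := G) (fun a => n - Module.finrank F (fx (a : GL (Fin n) F))) n
    (fun a b => fx_comm (a : GL (Fin n) F) b) (fun A hA hAA a ha ha1 => by
      let S : Set (Matrix (Fin n) (Fin n) F) := {m | ∃ b ∈ A, m = ((b : G) : GL (Fin n) F)}
      have hS : ∀ x ∈ S, ∀ y ∈ S, x * y = y * x := by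
        rintro _ ⟨b, hb, rfl⟩ _ ⟨c, hc, rfl⟩
        have : ⁅b, c⁆ = 1 := by
          rw [← Subgroup.mem_bot, ← hAA]; exact Subgroup.commutator_mem_commutator hb hc
        rw [← Units.val_mul, ← Units.val_mul, ← Subgroup.coe_mul, ← Subgroup.coe_mul,
          commutatorElement_eq_one_iff_mul_comm.1 this]
      have hc : ∀ x ∈ Algebra.adjoin F S, ∀ y ∈ Algebra.adjoin F S, x * y = y * x :=
        fun x hx y hy => Algebra.commute_of_mem_adjoin_of_forall_mem_commute hy fun s hs =>
          (Algebra.commute_of_mem_adjoin_of_forall_mem_commute hx fun s' hs' =>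
            hS s hs s' hs').symm
      have hK : ∀ h ∈ G, ∀ x ∈ Algebra.adjoin F S, cj h x ∈ Algebra.adjoin F S := by
        intro h hh x hx
        have : (Algebra.adjoin F S).map (cj h).toAlgHom ≤ Algebra.adjoin F S := by
          rw [AlgHom.map_adjoin]
          refine Algebra.adjoin_mono ?_
          rintro _ ⟨_, ⟨b, hb, rfl⟩, rfl⟩
          exact ⟨_, hA.conj_mem b hb ⟨h, hh⟩, cj_coe h b⟩
        exact this ⟨x, hx, rfl⟩
      rcases field_or_idemSystem (irr_iff.2 hirr) _ hK hc with hf | ⟨t, e, he⟩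
      · have hne : (((a : G) : GL (Fin n) F) : Matrix (Fin n) (Fin n) F) - 1 ≠ 0 := fun e =>
          ha1 (Subtype.ext (Units.ext (sub_eq_zero.1 e)))
        have hm : (((a : G) : GL (Fin n) F) : Matrix (Fin n) (Fin n) F) - 1 ∈
            Algebra.adjoin F S :=
          Subalgebra.sub_mem _ (Algebra.subset_adjoin ⟨a, ha, rfl⟩) (Subalgebra.one_mem _)
        obtain ⟨y, hy, e⟩ := hf _ hm hne
        have : fx ((a : G) : GL (Fin n) F) = ⊥ := by
          refine eq_bot_iff.2 fun v hv => ?_
          rw [mem_fx] at hv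
          rw [Submodule.mem_bot, ← Matrix.one_mulVec v, ← e, hc _ hm _ hy, ← Matrix.mulVec_mulVec,
            Matrix.sub_mulVec, hv, Matrix.one_mulVec, sub_self, Matrix.mulVec_zero]
        change n ≤ n - Module.finrank F (fx ((a : G) : GL (Fin n) F))
        rw [this, finrank_bot, Nat.sub_zero]
      · obtain ⟨m, h1, h2⟩ := he.decomposition
        exact absurd h2 (hprim m t _ he.two_le h1))
    (g := ⟨g, hg⟩) (fun e => hg1 (congrArg Subtype.val e))
  have := finrank_fx_le g
  change 4 * Module.finrank F (fx g) ≤ _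
  simp only at key
  omega

end Cfsg.Agent.S5876
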