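import Cfsg.Statements.S5877
import Cfsg.Agent.Class.C6.Eig

set_option autoImplicit false
open Cfsg

namespace Cfsg.Agent.S5877

/-- Eigenspaces of elements normalising an absolutely irreducible extraspecial group. Let F be a finite field, r a prime, and R ≤ GL_n(F) an absolutely irreducible extraspecial r-group (an r-group whose centre equals its derived subgroup and has order r) of exponent r or 4. Let g ∈ GL_n(F) normalise the product of R with the scalar matrices, have prime order ϖ and not be scalar, and let W be the eigenspace of g for any c ∈ F (W may be the zero subspace). Then dim W ≤ 3n/4 if ϖ = 2, dim W ≤ 2n/3 if ϖ = 3, and dim W ≤ n/2 if ϖ > 3; moreover if ϖ = 3 and 3 does not divide n then dim W ≤ n/2. -/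
theorem result {F : Type*} [Field F] [Fintype F] {n r ϖ : ℕ} (R : Subgroup (Matrix.GeneralLinearGroup (Fin n) F)) (hr : r.Prime) (hR : IsPGroup r R) (hZ : Nat.card (Subgroup.center R) = r) (hext : commutator R = Subgroup.center R) (hexp : Monoid.exponent R = r ∨ Monoid.exponent R = 4) (hirr : Cfsg.Geo.ActsAbsolutelyIrreducibly (Cfsg.Geo.matrixSet R)) (g : Matrix.GeneralLinearGroup (Fin n) F) (hg : g ∈ Cfsg.Geo.subgroupNormalizer (R ⊔ Cfsg.Geo.scalars (Fin n) F)) (hϖ : ϖ.Prime) (hord : orderOf g = ϖ) (hns : g ∉ Cfsg.Geo.scalars (Fin n) F) (c : F) :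
    (ϖ = 2 → 4 * Module.finrank F (Module.End.eigenspace (Matrix.toLin' (g : Matrix (Fin n) (Fin n) F)) c) ≤ 3 * n) ∧
    (ϖ = 3 → 3 * Module.finrank F (Module.End.eigenspace (Matrix.toLin' (g : Matrix (Fin n) (Fin n) F)) c) ≤ 2 * n) ∧
    (3 < ϖ → 2 * Module.finrank F (Module.End.eigenspace (Matrix.toLin' (g : Matrix (Fin n) (Fin n) F)) c) ≤ n) ∧
    (ϖ = 3 → ¬ 3 ∣ n → 2 * Module.finrank F (Module.End.eigenspace (Matrix.toLin' (g : Matrix (Fin n) (Fin n) F)) c) ≤ n) := by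
  open Cfsg.Agent.Class.C6 commutatorElement in
  have h1 : ∀ a ∈ R, ∀ b ∈ R, ∃ c : F, c ^ r = 1 ∧ (a : Matrix (Fin n) (Fin n) F) * b =
      c • ((b : Matrix (Fin n) (Fin n) F) * a) := fun a ha b hb => by
    have h2 : ⁅(⟨a, ha⟩ : R), ⟨b, hb⟩⁆ ∈ Subgroup.center R :=
      hext.le (Subgroup.commutator_mem_commutator (Subgroup.mem_top _) (Subgroup.mem_top _))
    have h3 := congrArg (fun u : Subgroup.center R => (u.1.1 : Matrix (Fin n) (Fin n) F))
      (pow_card_eq_one' (x := (⟨_, h2⟩ : Subgroup.center R)))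
    obtain ⟨c, hc⟩ := hirr.2 (⁅(⟨a, ha⟩ : R), ⟨b, hb⟩⁆ : R).1 (by
      rintro _ ⟨s, hs, rfl⟩
      exact congrArg (fun u : R => (u.1 : Matrix (Fin n) (Fin n) F))
        (Subgroup.mem_center_iff.1 h2 ⟨s, hs⟩).symm)
    rcases isEmpty_or_nonempty (Fin n) with hn | hn
    · exact ⟨1, one_pow _, Subsingleton.elim _ _⟩
    refine ⟨c, smul_inj_of_unit (u := (1 : GL (Fin n) F)) ?_, ?_⟩
    · simpa [hc, hZ, smul_pow] using h3
    · rw [← one_mul ((b : Matrix (Fin n) (Fin n) F) * a), ← Matrix.smul_mul, ← hc, ← Units.val_mul,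
        ← Units.val_mul, ← Units.val_mul]
      congr 1
      simp [commutatorElement_def]
  have hN : Nice (R ⊔ Cfsg.Geo.scalars (Fin n) F) r := by
    refine ⟨fun x hx y hy => ?_, fun A hA => hirr.2 A ?_⟩
    · obtain ⟨a, ha, z, hz, rfl⟩ := Subgroup.mem_sup_of_normal_right.1 hx
      obtain ⟨b, hb, w, hw, rfl⟩ := Subgroup.mem_sup_of_normal_right.1 hy
      obtain ⟨z, hz⟩ := (Geo.mem_scalars_iff _).1 hz
      obtain ⟨w, hw⟩ := (Geo.mem_scalars_iff _).1 hw
      obtain ⟨c, h2, h3⟩ := h1 a ha b hb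
      exact ⟨c, h2, by simp [hz, hw, h3, smul_smul, mul_comm, mul_left_comm]⟩
    · rintro _ ⟨s, hs, rfl⟩
      exact hA s (Subgroup.mem_sup_left hs)
  have hns' : ∀ z : F, (g : Matrix (Fin n) (Fin n) F) ≠ z • 1 := fun z hz => by
    by_cases h0 : z = 0
    · rcases isEmpty_or_nonempty (Fin n) with hn | hn
      · exact hns (Subsingleton.elim g 1 ▸ one_mem _)
      · simp [h0] at hz
    · exact hns ((Geo.mem_scalars_iff _).2 ⟨Units.mk0 z h0, hz⟩)
  have hw : ∃ z : F, (g : Matrix (Fin n) (Fin n) F) ^ ϖ = z • 1 :=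
    ⟨1, by rw [← Units.val_pow_eq_pow_val, ← hord, pow_orderOf_eq_one]; simp⟩
  have hA := hN.eig_weak hr hg hns' c
  have hB := fun h => hN.eig_strong hr hg hns' hw h c
  rw [Fintype.card_fin] at hA hB
  have h2 := hr.two_le
  have h3 : ϖ = 3 → r ≠ 3 → _ := fun e e' => hB (Or.inl ⟨e ▸ by decide,
    (Nat.coprime_primes hϖ hr).2 (e ▸ e'.symm)⟩)
  refine ⟨fun _ => by nlinarith, fun e => ?_, fun e => hB ?_, fun e hn => h3 e ?_⟩
  · by_cases e' : r = 3
    · subst e'; omega
    · have := h3 e e'; omega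
  · by_cases e' : ϖ = r
    · exact Or.inr ⟨e', e' ▸ hϖ.five_le_of_ne_two_of_ne_three (by omega) (by omega)⟩
    · exact Or.inl ⟨hϖ.odd_of_ne_two (by omega), (Nat.coprime_primes hϖ hr).2 e'⟩
  · rintro rfl
    have h4 : ¬ ∀ a ∈ R, ∀ b ∈ R, a * b = b * a := fun h => by
      have : commutator R = ⊥ := by
        rw [commutator_eq_bot_iff]
        exact ⟨⟨fun a b => Subtype.ext (h _ a.2 _ b.2)⟩⟩
      rw [← hext, this] at hZ
      simp at hZ
    push Not at h4
    obtain ⟨a, ha, b, hb, h5⟩ := h4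
    obtain ⟨c, h6, h7⟩ := h1 a ha b hb
    have h8 := congrArg Matrix.det h7
    rw [Matrix.det_smul, Matrix.det_mul, Matrix.det_mul, mul_comm, Fintype.card_fin,
      right_eq_mul₀ (mul_ne_zero b.det_ne_zero a.det_ne_zero)] at h8
    have := Fact.mk Nat.prime_three
    exact hn (orderOf_eq_prime h6 (by rintro rfl; exact h5 (Units.ext (by simpa using h7))) ▸
      orderOf_dvd_of_pow_eq_one h8)

end Cfsg.Agent.S5877
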