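import Cfsg.Statements.S5938
import Cfsg.Agent.Class.PSL2Maximal

set_option autoImplicit false
open Cfsg

namespace Cfsg.Agent.S5938

open Cfsg.Agent.Class.Dickson in

/-- Let p be a prime with p ≡ ±1 (mod 8) and F a field with p elements. Then PSL_2(F) has a maximal subgroup isomorphic to the symmetric group S_4. -/
theorem result {F : Type*} [Field F] [Fintype F] (p : ℕ) [Fact p.Prime] (hF : Fintype.card F = p) (hp : p % 8 = 1 ∨ p % 8 = 7) : ∃ H : Subgroup (Matrix.ProjectiveSpecialLinearGroup (Fin 2) F), IsCoatom H ∧ Nonempty (H ≃* Equiv.Perm (Fin 4)) := by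
  have hpp : p.Prime := Fact.out
  have h5 : 5 ≤ p := by
    have := hpp.one_lt
    omega
  obtain ⟨H, ⟨e⟩⟩ := (S0803.result hF).2 (by
    rw [Nat.pow_mod]
    have : p % 16 < 16 := Nat.mod_lt _ (by norm_num)
    rw [← Nat.mod_mod_of_dvd p (show 8 ∣ 16 by norm_num)] at hp
    interval_cases p % 16 <;> simp_all)
  exact ⟨H, isCoatom_of_sym4 (hF ▸ hpp) (hF ▸ h5) e, ⟨e⟩⟩

end Cfsg.Agent.S5938
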