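import Cfsg.Statements.S5941
import Cfsg.Agent.Class.PSL2Maximal

set_option autoImplicit false
open Cfsg

namespace Cfsg.Agent.S5941

open Cfsg.Agent.Class.Dickson in

/-- Let K and F be finite fields of odd characteristic with #F = (#K)². Then PSL_2(F) has a maximal subgroup isomorphic to PGL_2(K). -/
theorem result {F K : Type*} [Field F] [Fintype F] [Field K] [Fintype K] (q : ℕ) (hK : Fintype.card K = q) (hF : Fintype.card F = q ^ 2) (hq : Odd q) : ∃ H : Subgroup (Matrix.ProjectiveSpecialLinearGroup (Fin 2) F), IsCoatom H ∧ Nonempty (H ≃* Matrix.ProjGenLinGroup (Fin 2) K) := by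
  subst hK
  have hodd : Odd (Fintype.card F) := hF ▸ hq.pow
  obtain ⟨H, ⟨e⟩⟩ := (S0805.result (K := K) rfl hodd 2 one_le_two hF.symm).2.2 even_two
  exact ⟨H, isCoatom_of_PGL (two_ne_zero_of_odd_card hodd) hF.symm e, ⟨e⟩⟩

end Cfsg.Agent.S5941
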