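import Cfsg.Statements.S5943
import Cfsg.Agent.Class.PSL2Maximal

set_option autoImplicit false
open Cfsg

namespace Cfsg.Agent.S5943

open Cfsg.Agent.Class.Dickson in

/-- Let K and F be finite fields of characteristic 2 with #K = q > 2 and #F = q^r for a prime r. Then PSL_2(F) has a maximal subgroup isomorphic to PSL_2(K) (which equals PGL_2(K) in characteristic 2). -/
theorem result {F K : Type*} [Field F] [Fintype F] [Field K] [Fintype K] (q r : ℕ) (hK : Fintype.card K = q) (hF : Fintype.card F = q ^ r) (hq : Even q) (hq2 : q ≠ 2) (hr : r.Prime) : ∃ H : Subgroup (Matrix.ProjectiveSpecialLinearGroup (Fin 2) F), IsCoatom H ∧ Nonempty (H ≃* Matrix.ProjectiveSpecialLinearGroup (Fin 2) K) := by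
  subst hK
  obtain ⟨f⟩ := exists_ringHom_of_card_pow hF.symm
  obtain ⟨H, ⟨e⟩⟩ := exists_subgroup_equiv_PSL f
  have h1 := Fintype.one_lt_card (α := K)
  have h2 : (2 : K) = 0 := by
    by_contra h
    have := KSG.M2.odd_card_of_two_ne h
    rw [Nat.card_eq_fintype_card] at this
    exact Nat.not_even_iff_odd.2 this hq
  have := Nat.even_iff.1 hq
  exact ⟨H, isCoatom_of_PSL_even h2 (by omega) hr hF.symm e, ⟨e⟩⟩

end Cfsg.Agent.S5943
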