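import Cfsg.Statements.S5949
import Mathlib
import Cfsg.Agent.Class.Elus.Lin

set_option autoImplicit false
open scoped MatrixGroups
open Cfsg

namespace Cfsg.Agent.S5949

theorem main {F : Type*} [Field F] [Fintype F] {n m r : ℕ} [Fact r.Prime] (hr0 : (r : F) ≠ 0)
    (hn : 1 ≤ n) (hmn : m ≤ n) (H : ∃ j, n - m < j ∧ j ≤ n ∧ orderOf (Fintype.card F : ZMod r) ∣ j)
    (Fix : Module.End F (Fin n → F) → Prop) (h1 : ∀ (c : F) g, c ≠ 0 → Fix g → Fix (c • g))
    (h2 : ∀ g (Q : Polynomial F), Squarefree Q → Polynomial.aeval g Q = 0 →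
      (Fix g ↔ ∃ ν, ν ≤ Class.Elus.degs g ∧ ν.sum = m)) :
    (∀ x : Matrix.SpecialLinearGroup (Fin n) F, Class.Elus.Adm r x.1 → Fix (Matrix.toLin' x.1)) ↔
      ((orderOf (Fintype.card F : ZMod r) = 1 ∧ (r ∣ m ∨ Class.Elus.Cond r n (Fintype.card F))) ∨
       (2 ≤ orderOf (Fintype.card F : ZMod r) ∧ orderOf (Fintype.card F : ZMod r) ≤ m ∧
        m % orderOf (Fintype.card F : ZMod r) ≤ n % orderOf (Fintype.card F : ZMod r))) := by
  classical
  have : Nonempty (Fin n) := ⟨⟨0, by omega⟩⟩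
  have hr : r.Prime := Fact.out
  have hpos := KSG.orderOf_card_pos (F := F) hr hr0
  let P : Multiset ℕ → Prop := fun μ => ∃ ν, ν ≤ μ ∧ ν.sum = m
  by_cases hi : orderOf (Fintype.card F : ZMod r) = 1
  · refine (Class.Elus.forall_SL_iff_one Fix P hi h1 h2
      ((Class.Elus.exists_le_replicate_iff one_pos (by simp; omega)).2 (one_dvd _))).trans ?_
    rw [and_iff_right hi, or_iff_left (b := 2 ≤ _ ∧ _) (by omega), or_comm, Fintype.card_fin]
    by_cases hc : Class.Elus.Cond r n (Fintype.card F)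
    · exact iff_of_true (Or.inr hc) (Or.inr hc)
    · obtain ⟨-, -, h3, -⟩ := (Class.Elus.exists_nonpow_iff
        (Class.Elus.orderOf_card_eq_one_iff.1 hi) (by omega)).2 hc
      exact or_congr (Class.Elus.exists_le_replicate_iff hr.pos
        (by rw [Nat.div_mul_cancel h3]; omega)) Iff.rfl
  · refine (Class.Elus.forall_SL_iff_two Fix P hr0 hi h1 h2).trans ?_
    simp only [P, Class.Elus.exists_le_replicate_add_iff hi, Fintype.card_fin]
    rw [Class.Elus.forall_exists_iff hpos hmn H]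
    simp only [hi, false_and, false_or]
    exact (and_iff_right (by omega)).symm

/-- Elements of prime order of PSL_n(q) with no fixed `m`-space. Here `T = PSL_n(F)` for a field `F` with `q = p^f` elements (`n ≥ 2`, `(n, q) ≠ (2, 2), (2, 3)`); an element of `T` of prime order `r` is represented by a matrix `x` of determinant 1 with `x^r` scalar and `x` not scalar; `i` denotes the multiplicative order of `q` modulo `r` (when `r ≠ p`), and `(a)_r` the `r`-part of `a`. Let `1 ≤ m ≤ n/2` and let `r` be a prime dividing the number of `m`-dimensional subspaces of `F^n`. Then every element of `T` of order `r` fixes some `m`-dimensional subspace (the action on `m`-spaces is `r`-elusive) if and only if `r ≠ p` and either (i) `i = 1` and (`r ∣ m`, or `(q−1)_r ≥ (n)_r` where in addition `q ≡ 1 (mod 4)` is required when `r = 2` and `n` is even), or (ii) `2 ≤ i ≤ m` and `n mod i ≥ m mod i`. -/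
theorem result {F : Type*} [Field F] [Fintype F] {p : ℕ} [Fact p.Prime] [CharP F p] {q : ℕ} (hq : Fintype.card F = q)
    (n m : ℕ) (hn : 2 ≤ n) (hT : (n, q) ≠ (2, 2) ∧ (n, q) ≠ (2, 3)) (hm : 1 ≤ m) (hmn : 2 * m ≤ n)
    (r : ℕ) [Fact r.Prime] (hrΩ : r ∣ Nat.card {W : Submodule F (Fin n → F) // Module.finrank F ↥W = m}) :
    (∀ x : Matrix.SpecialLinearGroup (Fin n) F,
      (∃ c : F, ((x ^ r : Matrix.SpecialLinearGroup (Fin n) F) : Matrix (Fin n) (Fin n) F) = c • (1 : Matrix (Fin n) (Fin n) F)) →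
      (∀ c : F, (x : Matrix (Fin n) (Fin n) F) ≠ c • (1 : Matrix (Fin n) (Fin n) F)) →
      ∃ W : Submodule F (Fin n → F), Module.finrank F ↥W = m ∧ W.map (Matrix.toLin' (x : Matrix (Fin n) (Fin n) F)) ≤ W) ↔
    (r ≠ p ∧
      ((orderOf (q : ZMod r) = 1 ∧ (r ∣ m ∨ (padicValNat r n ≤ padicValNat r (q - 1) ∧ (r = 2 → Even n → q % 4 = 1)))) ∨
       (2 ≤ orderOf (q : ZMod r) ∧ orderOf (q : ZMod r) ≤ m ∧ m % orderOf (q : ZMod r) ≤ n % orderOf (q : ZMod r)))) := by
  classical
  subst hq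
  have hr : r.Prime := Fact.out
  obtain ⟨j, j1, j2, j3⟩ := Class.Elus.exists_dvd_of_dvd_card_subspaces hr (by simp; omega) hrΩ
  rw [Module.finrank_fin_fun] at j1 j2
  have hrp : r ≠ p := by
    rintro rfl
    rw [Class.Elus.orderOf_card_char (F := F) r, zero_dvd_iff] at j3
    omega
  rw [and_iff_right hrp]
  have := main (KSG.natCast_ne_zero_of_prime_ne hr hrp) (by omega) (by omega) ⟨j, j1, j2, j3⟩
    (fun g => ∃ W : Submodule F (Fin n → F), Module.finrank F W = m ∧ W.map g ≤ W)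
    (fun c g hc ⟨W, a, b⟩ => ⟨W, a, by rwa [Class.Elus.map_smul_eq g hc]⟩)
    fun g Q a b => Class.Elus.exists_inv_iff_degs a b m
  simp only [Class.Elus.Adm, and_imp] at this
  exact this

end Cfsg.Agent.S5949
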