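import Cfsg.Statements.S5950
import Mathlib
import Cfsg.Agent.S5949

set_option autoImplicit false
open scoped MatrixGroups
open Cfsg

namespace Cfsg.Agent.S5950

theorem two_parts {n m : ℕ} (hmn : 2 * m < n) :
    (∀ μ : Multiset ℕ, (∀ a ∈ μ, 0 < a ∧ a ≤ 2) → μ.sum = n → ∃ ν : Multiset ℕ, ν ≤ μ ∧ ν.sum = m) ↔
      (Odd n ∨ Even m) := by
  constructor
  · intro h
    by_contra hc
    rw [not_or, Nat.not_odd_iff_even] at hc
    obtain ⟨⟨k, rfl⟩, h2⟩ := hc
    have := h (Multiset.replicate k 2) (fun a ha => by rw [Multiset.eq_of_mem_replicate ha]; omega)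
      (by simp; omega)
    rw [Class.Elus.exists_le_replicate_iff two_pos (by omega)] at this
    exact h2 (even_iff_two_dvd.2 this)
  · intro h μ h1 h2
    obtain ⟨e, b, rfl⟩ := Class.Elus.eq_replicate_add_of_mem (a := 1) (b := 2) (ν := μ)
      fun c hc => by have := h1 c hc; omega
    simp only [Multiset.sum_add, Multiset.sum_replicate, smul_eq_mul, mul_one] at h2
    rw [Class.Elus.exists_le_replicate_add_iff (by omega)]
    obtain ⟨a, c, a1, a2, a3, -⟩ := Class.Elus.exists_add_mul_eq (e := e) (b := b) (i := 2) (m := m)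
      (by omega) (by rw [Nat.odd_iff, Nat.even_iff] at h; omega)
    exact ⟨a, c, a1, a2, a3⟩

/-- Elements of prime order of PSL_n(q) fixing no decomposition `F^n = U ⊕ W` with `dim U = m`. Here `T = PSL_n(F)` for a field `F` with `q = p^f` elements (`n ≥ 2`, `(n, q) ≠ (2, 2), (2, 3)`); an element of `T` of prime order `r` is represented by a matrix `x` of determinant 1 with `x^r` scalar and `x` not scalar; `i` denotes the multiplicative order of `q` modulo `r` (when `r ≠ p`), and `(a)_r` the `r`-part of `a`. Let `n ≥ 3`, `1 ≤ m < n/2`, and let `r` be a prime dividing the number of such decompositions (unordered pairs `{U, W}` of complementary subspaces with `dim U = m`; since `m ≠ n − m` these are the ordered pairs with `dim U = m`). Then every element of `T` of order `r` fixes such a pair (fixes both `U` and `W` for some complementary `U, W` with `dim U = m`) if and only if one of: (i) `r = p > 2` and every partition of `n` into parts of size at most `p` contains, as a sub-multiset,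 a partition of `m`; (ii) `r = p = 2` and `n` is odd or `m` is even; (iii) `r ≠ p`, `i = 1`, and `r ∣ m` or `(q−1)_r ≥ (n)_r` (with `q ≡ 1 (mod 4)` required when `r = 2` and `n` is even); (iv) `r ≠ p`, `2 ≤ i ≤ m` and `n mod i ≥ m mod i`. -/
theorem result {F : Type*} [Field F] [Fintype F] {p : ℕ} [Fact p.Prime] [CharP F p] {q : ℕ} (hq : Fintype.card F = q)
    (n m : ℕ) (hn : 3 ≤ n) (hm : 1 ≤ m) (hmn : 2 * m < n)
    (r : ℕ) [Fact r.Prime]
    (hrΩ : r ∣ Nat.card {P : Submodule F (Fin n → F) × Submodule F (Fin n → F) // IsCompl P.1 P.2 ∧ Module.finrank F ↥P.1 = m}) :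
    (∀ x : Matrix.SpecialLinearGroup (Fin n) F,
      (∃ c : F, ((x ^ r : Matrix.SpecialLinearGroup (Fin n) F) : Matrix (Fin n) (Fin n) F) = c • (1 : Matrix (Fin n) (Fin n) F)) →
      (∀ c : F, (x : Matrix (Fin n) (Fin n) F) ≠ c • (1 : Matrix (Fin n) (Fin n) F)) →
      ∃ U W : Submodule F (Fin n → F), IsCompl U W ∧ Module.finrank F ↥U = m ∧
        U.map (Matrix.toLin' (x : Matrix (Fin n) (Fin n) F)) ≤ U ∧ W.map (Matrix.toLin' (x : Matrix (Fin n) (Fin n) F)) ≤ W) ↔
    ((r = p ∧ 2 < p ∧ (∀ μ : Multiset ℕ, (∀ a ∈ μ, 0 < a ∧ a ≤ p) → μ.sum = n → ∃ ν : Multiset ℕ, ν ≤ μ ∧ ν.sum = m)) ∨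
     (r = p ∧ p = 2 ∧ (Odd n ∨ Even m)) ∨
     (r ≠ p ∧
      ((orderOf (q : ZMod r) = 1 ∧ (r ∣ m ∨ (padicValNat r n ≤ padicValNat r (q - 1) ∧ (r = 2 → Even n → q % 4 = 1)))) ∨
       (2 ≤ orderOf (q : ZMod r) ∧ orderOf (q : ZMod r) ≤ m ∧ m % orderOf (q : ZMod r) ≤ n % orderOf (q : ZMod r))))) := by
  classical
  subst hq
  have hr : r.Prime := Fact.out
  have : Nonempty (Fin n) := ⟨⟨0, by omega⟩⟩
  let Fix : Module.End F (Fin n → F) → Prop := fun g => ∃ U W : Submodule F (Fin n → F),
    IsCompl U W ∧ Module.finrank F U = m ∧ U.map g ≤ U ∧ W.map g ≤ W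
  have h1 : ∀ (c : F) g, c ≠ 0 → Fix g → Fix (c • g) := fun c g hc ⟨U, W, a, b, d⟩ =>
    ⟨U, W, a, b, by rwa [Class.Elus.map_smul_eq g hc, Class.Elus.map_smul_eq g hc]⟩
  by_cases hrp : r = p
  · subst hrp
    have := Class.Elus.forall_SL_iff_char Fix (fun μ => ∃ ν, ν ≤ μ ∧ ν.sum = m) r h1
      (fun g _ => Class.Elus.exists_isCompl_iff_degs g m)
      ((Class.Elus.exists_le_replicate_iff one_pos (by simp; omega)).2 (one_dvd _))
    simp only [Class.Elus.Adm, and_imp, Fintype.card_fin] at this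
    refine this.trans ?_
    simp only [true_and, ne_eq, not_true, false_and, or_false, and_imp]
    rcases hr.eq_two_or_odd' with rfl | ho
    · simpa using two_parts hmn
    · have h2 : 2 < r := lt_of_le_of_ne hr.two_le (by rintro rfl; exact absurd ho (by decide))
      simp [h2, h2.ne']
  · have hr0 : (r : F) ≠ 0 := KSG.natCast_ne_zero_of_prime_ne hr hrp
    have e : {P : Submodule F (Fin n → F) × Submodule F (Fin n → F) // IsCompl P.1 P.2 ∧ Module.finrank F P.1 = m} ≃
        Σ U : {U : Submodule F (Fin n → F) // Module.finrank F U = m}, {W // IsCompl U.1 W} :=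
      { toFun := fun P => ⟨⟨P.1.1, P.2.2⟩, ⟨P.1.2, P.2.1⟩⟩
        invFun := fun x => ⟨(x.1.1, x.2.1), x.2.2, x.1.2⟩
        left_inv := fun _ => rfl
        right_inv := fun _ => rfl }
    have := Fintype.ofFinite {U : Submodule F (Fin n → F) // Module.finrank F U = m}
    rw [Nat.card_congr e, Nat.card_sigma, Finset.sum_congr rfl
      (g := fun _ => Fintype.card F ^ ((n - m) * m)) fun U _ => by
        have := Submodule.finrank_quotient_add_finrank U.1
        rw [Module.finrank_fin_fun, U.2] at this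
        rw [Class.Elus.card_isCompl, U.2, show Module.finrank F ((Fin n → F) ⧸ U.1) = n - m by omega],
      Finset.sum_const, smul_eq_mul, Finset.card_univ, ← Nat.card_eq_fintype_card] at hrΩ
    have h3 := ((Nat.Prime.dvd_mul hr).1 hrΩ).resolve_right fun h => by
      obtain ⟨f, hp, hf⟩ := FiniteField.card F p
      exact hrp ((Nat.prime_dvd_prime_iff_eq hr hp).1
        (hr.dvd_of_dvd_pow (hf ▸ hr.dvd_of_dvd_pow h)))
    have H := Class.Elus.exists_dvd_of_dvd_card_subspaces hr (by simp; omega) h3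
    rw [Module.finrank_fin_fun] at H
    have := S5949.main hr0 (by omega) (by omega) H Fix h1
      fun g _ _ _ => Class.Elus.exists_isCompl_iff_degs g m
    simp only [Class.Elus.Adm, and_imp] at this
    refine this.trans ?_
    simp only [hrp, false_and, false_or, ne_eq, not_false_iff, true_and]
    rfl

end Cfsg.Agent.S5950
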