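import Cfsg.Statements.S5951
import Mathlib
import Cfsg.Agent.Class.Elus.Lin

set_option autoImplicit false
open scoped MatrixGroups
open Cfsg

namespace Cfsg.Agent.S5951

theorem arith {i n m : ℕ} (hi : 0 < i) (hm : 2 * m ≤ n)
    (H : ∃ j, n - 2 * m < j ∧ j ≤ n ∧ i ∣ j) :
    (∀ e b, 1 ≤ b → e + b * i = n → ∃ a c a' c', a + a' ≤ e ∧ c + c' ≤ b ∧ a + c * i = m ∧
      a' + c' * i = n - 2 * m) ↔ i ≤ m ∧ 2 * (m % i) ≤ n % i := by
  obtain ⟨j, h1, h2, k, rfl⟩ := H
  have h3 : k ≤ n / i := (Nat.le_div_iff_mul_le hi).2 (by rwa [mul_comm])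
  have h4 := Nat.mod_add_div' n i
  have h5 : i * k ≤ n / i * i := by rw [mul_comm]; exact Nat.mul_le_mul_right i h3
  have h6 := Nat.mod_lt n hi
  constructor
  · intro h
    have hk : 1 ≤ k := Nat.pos_of_ne_zero (by rintro rfl; omega)
    obtain ⟨a, c, a', c', a1, a2, a3, a4⟩ := h _ _ (hk.trans h3) h4
    obtain ⟨a'', a5⟩ := Nat.exists_eq_add_of_le a1
    obtain ⟨c'', a6⟩ := Nat.exists_eq_add_of_le a2
    have a7 : a'' + c'' * i = m := by rw [a6, add_mul, add_mul] at h4; omega
    have a8 : m % i = a := by rw [← a3, Nat.add_mul_mod_self_right, Nat.mod_eq_of_lt (by omega)]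
    have a9 : m % i = a'' := by rw [← a7, Nat.add_mul_mod_self_right, Nat.mod_eq_of_lt (by omega)]
    refine ⟨?_, by omega⟩
    by_contra hc
    rw [Nat.mod_eq_of_lt (not_le.1 hc)] at a8 a9
    omega
  · rintro ⟨-, h⟩ e b - rfl
    have h7 : (e + b * i) % i ≤ e := by rw [Nat.add_mul_mod_self_right]; exact Nat.mod_le _ _
    obtain ⟨a, c, a1, a2, a3, a4⟩ := Class.Elus.exists_add_mul_eq (e := e) (b := b) (i := i) (m := m)
      (by omega) (by omega)
    obtain ⟨b', rfl⟩ := Nat.exists_eq_add_of_le a2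
    have h8 := Nat.mod_le m i
    obtain ⟨a', c', b1, b2, b3, -⟩ := Class.Elus.exists_add_mul_eq (e := e - a) (b := b') (i := i)
      (m := m) (by rw [add_mul] at hm; omega) (by
        rcases a4 with a4 | a4
        · omega
        · obtain rfl : b' = 0 := by omega
          rw [add_zero] at hm; omega)
    obtain ⟨b'', rfl⟩ := Nat.exists_eq_add_of_le b2
    refine ⟨a, c, e - a - a', b'', by omega, by omega, a3, ?_⟩
    rw [add_mul, add_mul]; omega

theorem iff_two {i e b m m' : ℕ} (hi : i ≠ 1) :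
    (∃ ν ν', ν + ν' ≤ Multiset.replicate e 1 + Multiset.replicate b i ∧ ν.sum = m ∧ ν'.sum = m') ↔
      ∃ a c a' c', a + a' ≤ e ∧ c + c' ≤ b ∧ a + c * i = m ∧ a' + c' * i = m' := by
  constructor
  · rintro ⟨ν, ν', h1, h2, h3⟩
    obtain ⟨a, c, -, -, rfl⟩ := (Class.Elus.le_replicate_add_iff hi.symm).1
      ((Multiset.le_add_right ν ν').trans h1)
    obtain ⟨a', c', -, -, rfl⟩ := (Class.Elus.le_replicate_add_iff hi.symm).1
      ((Multiset.le_add_left ν' _).trans h1)
    have h4 := Multiset.count_le_of_le 1 h1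
    have h5 := Multiset.count_le_of_le i h1
    simp [Multiset.count_replicate, hi, hi.symm] at h4 h5
    exact ⟨a, c, a', c', h4, h5, by simpa using h2, by simpa using h3⟩
  · rintro ⟨a, c, a', c', h1, h2, h3, h4⟩
    refine ⟨Multiset.replicate a 1 + Multiset.replicate c i,
      Multiset.replicate a' 1 + Multiset.replicate c' i, ?_, by simpa using h3, by simpa using h4⟩
    rw [add_add_add_comm, ← Multiset.replicate_add, ← Multiset.replicate_add]
    exact (Class.Elus.le_replicate_add_iff hi.symm).2 ⟨_, _, h1, h2, rfl⟩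

theorem iff_one {r k m m' : ℕ} (hr : 0 < r) (hm : 2 * m + m' = k * r) :
    (∃ ν ν', ν + ν' ≤ Multiset.replicate k r ∧ ν.sum = m ∧ ν'.sum = m') ↔ r ∣ m := by
  constructor
  · rintro ⟨ν, ν', h1, rfl, -⟩
    obtain ⟨c, -, rfl⟩ := Multiset.le_replicate_iff.1 ((Multiset.le_add_right ν ν').trans h1)
    simp
  · rintro ⟨c, rfl⟩
    have : 2 * c ≤ k := Nat.le_of_mul_le_mul_right (by nlinarith) hr
    obtain ⟨d, rfl⟩ := Nat.exists_eq_add_of_le this
    refine ⟨Multiset.replicate c r, Multiset.replicate d r, ?_, by simp [mul_comm], ?_⟩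
    · rw [← Multiset.replicate_add, Multiset.replicate_le_replicate]; omega
    · simp; nlinarith

/-- Elements of prime order of PSL_n(q) fixing no pair of subspaces `U < W` with `dim U = m`, `dim W = n − m`. Here `T = PSL_n(F)` for a field `F` with `q = p^f` elements (`n ≥ 2`, `(n, q) ≠ (2, 2), (2, 3)`); an element of `T` of prime order `r` is represented by a matrix `x` of determinant 1 with `x^r` scalar and `x` not scalar; `i` denotes the multiplicative order of `q` modulo `r` (when `r ≠ p`), and `(a)_r` the `r`-part of `a`. Let `1 ≤ m < n/2` and let `r` be a prime dividing the number of such pairs. Then every element of `T` of order `r` fixes such a pair (both `U` and `W`) if and only if `r ≠ p` and either (i) `i = 1` and (`r ∣ m`, or `(q−1)_r ≥ (n)_r` with `q ≡ 1 (mod 4)` required when `r = 2` and `n` is even), or (ii) `2 ≤ i ≤ m` and `n mod i ≥ 2 (m mod i)`. -/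
theorem result {F : Type*} [Field F] [Fintype F] {p : ℕ} [Fact p.Prime] [CharP F p] {q : ℕ} (hq : Fintype.card F = q)
    (n m : ℕ) (hn : 2 ≤ n) (hT : (n, q) ≠ (2, 2) ∧ (n, q) ≠ (2, 3)) (hm : 1 ≤ m) (hmn : 2 * m < n)
    (r : ℕ) [Fact r.Prime]
    (hrΩ : r ∣ Nat.card {P : Submodule F (Fin n → F) × Submodule F (Fin n → F) //
        P.1 ≤ P.2 ∧ Module.finrank F ↥P.1 = m ∧ Module.finrank F ↥P.2 = n - m}) :
    (∀ x : Matrix.SpecialLinearGroup (Fin n) F,
      (∃ c : F, ((x ^ r : Matrix.SpecialLinearGroup (Fin n) F) : Matrix (Fin n) (Fin n) F) = c • (1 : Matrix (Fin n) (Fin n) F)) →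
      (∀ c : F, (x : Matrix (Fin n) (Fin n) F) ≠ c • (1 : Matrix (Fin n) (Fin n) F)) →
      ∃ U W : Submodule F (Fin n → F), U ≤ W ∧ Module.finrank F ↥U = m ∧ Module.finrank F ↥W = n - m ∧
        U.map (Matrix.toLin' (x : Matrix (Fin n) (Fin n) F)) ≤ U ∧ W.map (Matrix.toLin' (x : Matrix (Fin n) (Fin n) F)) ≤ W) ↔
    (r ≠ p ∧
      ((orderOf (q : ZMod r) = 1 ∧ (r ∣ m ∨ (padicValNat r n ≤ padicValNat r (q - 1) ∧ (r = 2 → Even n → q % 4 = 1)))) ∨
       (2 ≤ orderOf (q : ZMod r) ∧ orderOf (q : ZMod r) ≤ m ∧ 2 * (m % orderOf (q : ZMod r)) ≤ n % orderOf (q : ZMod r)))) := by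
  classical
  subst hq
  have hr : r.Prime := Fact.out
  have : Nonempty (Fin n) := ⟨⟨0, by omega⟩⟩
  have e : {P : Submodule F (Fin n → F) × Submodule F (Fin n → F) //
      P.1 ≤ P.2 ∧ Module.finrank F ↥P.1 = m ∧ Module.finrank F ↥P.2 = n - m} ≃
      Σ W : {W : Submodule F (Fin n → F) // Module.finrank F W = n - m},
        {U : Submodule F W.1 // Module.finrank F U = m} :=
    { toFun := fun P => ⟨⟨P.1.2, P.2.2.2⟩, ⟨P.1.1.comap P.1.2.subtype,
        (Submodule.comapSubtypeEquivOfLe P.2.1).finrank_eq.trans P.2.2.1⟩⟩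
      invFun := fun x => ⟨(x.2.1.map x.1.1.subtype, x.1.1), Submodule.map_subtype_le _ _,
        (Submodule.finrank_map_subtype_eq _ _).trans x.2.2, x.1.2⟩
      left_inv := fun P => Subtype.ext (Prod.ext (by simpa using P.2.1) rfl)
      right_inv := fun x => Sigma.ext rfl (heq_of_eq (Subtype.ext
        (Submodule.comap_map_eq_of_injective (Submodule.injective_subtype _) _))) }
  have := Fintype.ofFinite {W : Submodule F (Fin n → F) // Module.finrank F W = n - m}
  have H : ∃ j, n - 2 * m < j ∧ j ≤ n ∧ orderOf (Fintype.card F : ZMod r) ∣ j := by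
    have h1 := hrΩ.mul_right (Class.Elus.qf (Fintype.card F) m)
    rw [Nat.card_congr e, Nat.card_sigma, Finset.sum_mul, Finset.sum_congr rfl
      (g := fun _ => ∏ j ∈ Finset.range m, (Fintype.card F ^ (n - m - m + j + 1) - 1)) fun W _ => by
        rw [Class.Elus.card_subspaces_mul (by rw [W.2]; omega), W.2],
      Finset.sum_const, smul_eq_mul, Finset.card_univ, ← Nat.card_eq_fintype_card] at h1
    rcases (Nat.Prime.dvd_mul hr).1 h1 with h | h
    · have h2 := Class.Elus.card_subspaces_symm (F := F) (V := Fin n → F) (m := m) (by simp; omega)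
      rw [Module.finrank_fin_fun] at h2
      rw [h2] at h
      obtain ⟨j, j1, j2, j3⟩ := Class.Elus.exists_dvd_of_dvd_card_subspaces hr (by simp; omega) h
      rw [Module.finrank_fin_fun] at j1 j2
      exact ⟨j, by omega, j2, j3⟩
    · obtain ⟨j, hj, h2⟩ := (hr.prime.dvd_finsetProd_iff _).1 h
      rw [Finset.mem_range] at hj
      exact ⟨_, by omega, by omega, (Class.Elus.dvd_pow_sub_one_iff Fintype.card_pos _).1 h2⟩
  have hrp : r ≠ p := by
    rintro rfl
    obtain ⟨j, j1, j2, j3⟩ := H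
    rw [Class.Elus.orderOf_card_char (F := F) r, zero_dvd_iff] at j3
    omega
  have hr0 : (r : F) ≠ 0 := KSG.natCast_ne_zero_of_prime_ne hr hrp
  have hpos := KSG.orderOf_card_pos (F := F) hr hr0
  have hmm : m + (n - 2 * m) = n - m := by omega
  let Fix : Module.End F (Fin n → F) → Prop := fun g => ∃ U W : Submodule F (Fin n → F), U ≤ W ∧
    Module.finrank F U = m ∧ Module.finrank F W = n - m ∧ U.map g ≤ U ∧ W.map g ≤ W
  let P : Multiset ℕ → Prop := fun μ => ∃ ν ν', ν + ν' ≤ μ ∧ ν.sum = m ∧ ν'.sum = n - 2 * m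
  have h1 : ∀ (c : F) g, c ≠ 0 → Fix g → Fix (c • g) := fun c g hc ⟨U, W, a, b, d, e⟩ =>
    ⟨U, W, a, b, d, by rwa [Class.Elus.map_smul_eq g hc, Class.Elus.map_smul_eq g hc]⟩
  have h2 : ∀ g (Q : Polynomial F), Squarefree Q → Polynomial.aeval g Q = 0 →
      (Fix g ↔ P (Class.Elus.degs g)) := fun g Q a b => by
    have := Class.Elus.exists_flag_iff_degs a b m (n - 2 * m)
    rwa [hmm] at this
  rw [and_iff_right hrp]
  by_cases hi : orderOf (Fintype.card F : ZMod r) = 1
  · have := Class.Elus.forall_SL_iff_one Fix P hi h1 h2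
      ((iff_one one_pos (by simp; omega)).2 (one_dvd _))
    simp only [Class.Elus.Adm, and_imp] at this
    refine this.trans ?_
    rw [and_iff_right hi, or_iff_left (b := 2 ≤ _ ∧ _) (by omega), or_comm, Fintype.card_fin]
    by_cases hc : Class.Elus.Cond r n (Fintype.card F)
    · exact iff_of_true (Or.inr hc) (Or.inr hc)
    · obtain ⟨-, -, h3, -⟩ := (Class.Elus.exists_nonpow_iff
        (Class.Elus.orderOf_card_eq_one_iff.1 hi) (by omega)).2 hc
      exact or_congr (iff_one hr.pos (by rw [Nat.div_mul_cancel h3]; omega)) Iff.rfl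
  · have := Class.Elus.forall_SL_iff_two Fix P hr0 hi h1 h2
    simp only [Class.Elus.Adm, and_imp] at this
    refine this.trans ?_
    simp only [P, iff_two hi, Fintype.card_fin]
    rw [arith hpos (by omega) H]
    simp only [hi, false_and, false_or]
    exact (and_iff_right (by omega)).symm

end Cfsg.Agent.S5951
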