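import Cfsg.Statements.S5952


set_option autoImplicit false
open Cfsg

namespace Cfsg.Agent.S5952

open Module

/-- Which dimensions of invariant subspaces a semisimple linear map has. Let `V` be a finite-dimensional vector space over a field `F` and `f` an invertible semisimple linear map of `V`. Suppose `V` is the internal direct sum of the fixed space `C_V(f)` (the eigenspace for 1) and subspaces `U_1, …, U_s`, each `f`-invariant of dimension `a ≥ 1` on which `f` acts irreducibly (no `f`-invariant subspaces other than 0 and `U_j`). Let `0 < m < dim V` and `ℓ = m mod a`. Then `f` leaves some `m`-dimensional subspace invariant if and only if `dim C_V(f) ≥ m`, or `a ≤ m` and `dim C_V(f) ≥ ℓ`. -/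
theorem result {F V : Type*} [Field F] [AddCommGroup V] [Module F V]
    [FiniteDimensional F V] (f : V →ₗ[F] V) (hf : Function.Bijective f) (hss : Module.End.IsSemisimple f)
    {s a : ℕ} (ha : 1 ≤ a) (U : Fin s → Submodule F V)
    (hUinv : ∀ j, (U j).map f ≤ U j) (hUdim : ∀ j, Module.finrank F ↥(U j) = a)
    (hUirr : ∀ j, ∀ W : Submodule F V, W ≤ U j → W.map f ≤ W → W = ⊥ ∨ W = U j)
    (hdec : DirectSum.IsInternal (fun o : Option (Fin s) => o.elim (Module.End.eigenspace f 1) U))
    (m : ℕ) (hm : 0 < m) (hmV : m < Module.finrank F V) :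
    (∃ W : Submodule F V, Module.finrank F ↥W = m ∧ W.map f ≤ W) ↔
    (m ≤ Module.finrank F ↥(Module.End.eigenspace f 1) ∨
      (a ≤ m ∧ m % a ≤ Module.finrank F ↥(Module.End.eigenspace f 1))) := by
  classical
  set C := Module.End.eigenspace f 1 with hC
  have hCinv : ∀ X : Submodule F V, X ≤ C → X.map f ≤ X := by
    rintro X hX _ ⟨x, hx, rfl⟩
    rw [Module.End.mem_eigenspace_iff.1 (hX hx), one_smul]
    exact hx
  have hinv : ∀ (X : Submodule F V) (J : Finset (Fin s)), X ≤ C →
      (X ⊔ J.sup U).map f ≤ X ⊔ J.sup U := fun X J hX => by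
    rw [Submodule.map_sup]
    refine sup_le_sup (hCinv X hX) ?_
    rw [Submodule.map_le_iff_le_comap, Finset.sup_le_iff]
    exact fun j hj => Submodule.map_le_iff_le_comap.1 ((hUinv j).trans (Finset.le_sup hj))
  have hinf : ∀ X Y : Submodule F V, X.map f ≤ X → Y.map f ≤ Y → (X ⊓ Y).map f ≤ X ⊓ Y :=
    fun X Y h1 h2 => (Submodule.map_inf_le f).trans (inf_le_inf h1 h2)
  have hdisj : ∀ (X : Submodule F V) (J : Finset (Fin s)) (j : Fin s), X ≤ C → j ∉ J →
      (X ⊔ J.sup U) ⊓ U j = ⊥ := fun X J j hX hj => by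
    refine ((hdec.submodule_iSupIndep (some j)).symm.mono_left (sup_le ?_ ?_)).eq_bot
    · exact hX.trans (le_iSup₂_of_le none (by simp) le_rfl)
    · exact Finset.sup_le fun i hi => le_iSup₂_of_le (some i)
        (fun e => hj (Option.some.inj e ▸ hi)) le_rfl
  have hdim : ∀ (X : Submodule F V) (J : Finset (Fin s)), X ≤ C →
      finrank F ↥(X ⊔ J.sup U) = finrank F X + J.card * a := fun X J hX => by
    induction J using Finset.induction_on with
    | empty => rw [Finset.sup_empty, sup_bot_eq, Finset.card_empty, zero_mul, add_zero]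
    | insert j J hj ih =>
      have := Submodule.finrank_sup_add_finrank_inf_eq (X ⊔ J.sup U) (U j)
      rw [hdisj X J j hX hj, finrank_bot, ih, hUdim] at this
      rw [Finset.sup_insert, sup_comm (U j), ← sup_assoc, Finset.card_insert_of_notMem hj]
      linarith
  have htop : C ⊔ Finset.univ.sup U = ⊤ := by
    rw [eq_top_iff, ← hdec.submodule_iSup_eq_top, iSup_le_iff]
    rintro (_ | j)
    · exact le_sup_left
    · exact le_sup_of_le_right (Finset.le_sup (Finset.mem_univ j))
  constructor
  · rintro ⟨W, rfl, hW⟩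
    have key : ∀ (J : Finset (Fin s)) (W : Submodule F V), W.map f ≤ W → W ≤ C ⊔ J.sup U →
        ∃ c k, c ≤ finrank F C ∧ finrank F W = c + k * a := fun J => by
      induction J using Finset.induction_on with
      | empty => exact fun W _ h => ⟨_, 0, Submodule.finrank_mono (by simpa using h), by simp⟩
      | insert j J hj ih =>
        intro W hW h
        rw [Finset.sup_insert, sup_comm (U j), ← sup_assoc] at h
        have hT := hinv C J le_rfl
        rcases hUirr j (U j ⊓ (W ⊔ (C ⊔ J.sup U))) inf_le_left (hinf _ _ (hUinv j)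
          (by rw [Submodule.map_sup]; exact sup_le_sup hW hT)) with h1 | h1
        · have h2 := sup_inf_assoc_of_le (U j) (le_sup_right : C ⊔ J.sup U ≤ W ⊔ (C ⊔ J.sup U))
          rw [h1, sup_bot_eq, inf_eq_right.2 (sup_le h le_sup_left)] at h2
          exact ih W hW (le_sup_left.trans h2.le)
        · obtain ⟨c, k, h2, h3⟩ := ih (W ⊓ (C ⊔ J.sup U)) (hinf _ _ hW hT) inf_le_right
          have h4 := Submodule.finrank_sup_add_finrank_inf_eq W (C ⊔ J.sup U)
          have h5 := Submodule.finrank_sup_add_finrank_inf_eq (C ⊔ J.sup U) (U j)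
          rw [hdisj C J j le_rfl hj, finrank_bot, hUdim] at h5
          rw [le_antisymm (sup_le h le_sup_left) (sup_le le_sup_right (inf_eq_left.1 h1))] at h4
          exact ⟨c, k + 1, h2, by linarith⟩
    obtain ⟨c, k, h1, h2⟩ := key Finset.univ W hW (htop ▸ le_top)
    rw [h2]
    rcases k with _ | k
    · exact Or.inl (by simpa using h1)
    · exact Or.inr ⟨by nlinarith, by
        rw [Nat.add_mul_mod_self_right]; exact (Nat.mod_le _ _).trans h1⟩
  · intro h
    have h1 := hdim C Finset.univ le_rfl
    rw [htop, finrank_top, Finset.card_univ, Fintype.card_fin] at h1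
    obtain ⟨c, k, hc, hk, rfl⟩ : ∃ c k, c ≤ finrank F C ∧ k ≤ s ∧ m = c + k * a := by
      rcases h with h | ⟨-, h⟩
      · exact ⟨m, 0, h, Nat.zero_le _, by simp⟩
      · rcases le_or_gt (m / a) s with h2 | h2
        · exact ⟨m % a, m / a, h, h2, (Nat.mod_add_div' m a).symm⟩
        · have : s * a ≤ m := (Nat.mul_le_mul_right a h2.le).trans (Nat.div_mul_le_self m a)
          exact ⟨m - s * a, s, by omega, le_rfl, by omega⟩
    obtain ⟨J, -, hJ⟩ := Finset.exists_subset_card_eq (s := (Finset.univ : Finset (Fin s)))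
      (n := k) (by simpa using hk)
    obtain ⟨X, hX, hXc⟩ : ∃ X : Submodule F V, X ≤ C ∧ finrank F X = c := by
      obtain ⟨b, hb⟩ := exists_linearIndependent_of_le_finrank hc
      refine ⟨(Submodule.span F (Set.range b)).map C.subtype, Submodule.map_subtype_le _ _, ?_⟩
      rw [Submodule.finrank_map_subtype_eq, finrank_span_eq_card hb, Fintype.card_fin]
    exact ⟨X ⊔ J.sup U, by rw [hdim X J hX, hXc, hJ], hinv X J hX⟩

end Cfsg.Agent.S5952
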