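import Cfsg.Statements.S5953
import Mathlib
import Cfsg.Agent.Class.Elus.Unit

set_option autoImplicit false
open scoped MatrixGroups
open Cfsg

namespace Cfsg.Agent.S5953

open Cfsg.Agent.Class Cfsg.Agent.Class.Elus Cfsg.Agent.Class.Wall Module

set_option maxHeartbeats 1000000 in

/-- Elements of prime order of PSU_n(q) with no fixed totally isotropic `m`-space. Here `T = PSU_n(q)` (`n ≥ 3`, `(n, q) ≠ (3, 2)`), realised through the matrices of determinant 1 over the field `F` with `q²` elements preserving the Hermitian form `h(u, v) = Σ u_i v_i^q`; an element of `T` of prime order `r` is such a matrix `x` with `x^r` scalar and `x` not scalar. For `r ≠ p` let `i` be the multiplicative order of `q` modulo `r`, `b = i/2` for `i` even and `b = i` for `i` odd, `c = i, i/2, 2i` according as `i ≡ 0, 2 (mod 4)` or `i` odd, and write `k = n mod c`, `ℓ = m mod b`, `ℓ' = m mod c`, `n' = ⌊n/b⌋`, `m' = ⌊m/b⌋`, `s = (r−1)/b`; `(a)_r` is the `r`-part of `a`. Let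 `1 ≤ m ≤ n/2` and let `r` be a prime dividing the number of totally isotropic `m`-spaces. Then every element of `T` of order `r` fixes a totally isotropic `m`-space if and only if either (i) `r = 2`, `p ≠ 2`, and (`m < n/2` or `(q+1)_2 ≤ (n)_2`); or (ii) `r ≠ p`, `r > 2`, `b ≤ m`, `k ≥ 2ℓ`, and either `i ≢ 2 (mod 4)`, or `i ≡ 2 (mod 4)`, `n' − 2m' ≥ s` and (`i > 2`, or `i = 2` and (`r ∣ m` or `(q+1)_r ≥ (n)_r`)). -/
theorem result {F : Type*} [Field F] [Fintype F] {p : ℕ} [Fact p.Prime] [CharP F p] {q : ℕ} (hq : Fintype.card F = q ^ 2)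
    (n m : ℕ) (hn : 3 ≤ n) (hT : (n, q) ≠ (3, 2)) (hm : 1 ≤ m) (hmn : 2 * m ≤ n)
    (r : ℕ) [Fact r.Prime]
    (hrΩ : r ∣ Nat.card {W : Submodule F (Fin n → F) // Module.finrank F ↥W = m ∧ (∀ u ∈ W, ∀ v ∈ W, Cfsg.hermForm n F q u v = 0)})
    (i b c : ℕ) (hi : i = orderOf (q : ZMod r)) (hb : b = if Even i then i / 2 else i)
    (hc : c = if i % 4 = 0 then i else if i % 4 = 2 then i / 2 else 2 * i) :
    (∀ x : Matrix.SpecialLinearGroup (Fin n) F, x ∈ Cfsg.SU n F q →
      (∃ z : F, ((x ^ r : Matrix.SpecialLinearGroup (Fin n) F) : Matrix (Fin n) (Fin n) F) = z • (1 : Matrix (Fin n) (Fin n) F)) →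
      (∀ z : F, (x : Matrix (Fin n) (Fin n) F) ≠ z • (1 : Matrix (Fin n) (Fin n) F)) →
      ∃ W : Submodule F (Fin n → F), Module.finrank F ↥W = m ∧ (∀ u ∈ W, ∀ v ∈ W, Cfsg.hermForm n F q u v = 0) ∧
        W.map (Matrix.toLin' (x : Matrix (Fin n) (Fin n) F)) ≤ W) ↔
    ((r = 2 ∧ p ≠ 2 ∧ (2 * m < n ∨ padicValNat 2 (q + 1) ≤ padicValNat 2 n)) ∨
     (r ≠ p ∧ 2 < r ∧ b ≤ m ∧ 2 * (m % b) ≤ n % c ∧
       (i % 4 ≠ 2 ∨ (i % 4 = 2 ∧ (r - 1) / b + 2 * (m / b) ≤ n / b ∧
         (2 < i ∨ (i = 2 ∧ (r ∣ m ∨ padicValNat r n ≤ padicValNat r (q + 1)))))))) := by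
  have := U.UF.of_card hq
  have hq2 := U.two_le_q F q
  have h := isUS_hermB (F := F) (q := q) n
  have hn' : finrank F (Fin n → F) = n := finrank_fin_fun F
  have : Nontrivial (Fin n → F) := nontrivial_of_finrank_pos (R := F) (by omega)
  have hP : ∀ W : Submodule F (Fin n → F), (∀ u ∈ W, ∀ v ∈ W, hermForm n F q u v = 0) ↔
      TSS (hermB n F q) (fun x => hermB n F q x x) W := fun W =>
    (forall₂_comm.trans (IsUS.tss_iff h).symm :)
  simp only [hP] at hrΩ
  refine Iff.trans (Iff.trans ?_ (eluU_su_iff (q := q) (r := r) fun g => ∃ W : Submodule F (Fin n → F),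
    (finrank F W = m ∧ TSS (hermB n F q) (fun x => hermB n F q x x) W) ∧ Inv g W)) ?_
  · simp only [← hP, and_assoc, inv_iff_map_le]
  have hd := IsUS.card_tss_mul_dvd h (m := m) (by omega)
  rw [hn'] at hd
  have hrq : ¬ r ∣ q := fun e => (Fact.out : r.Prime).one_lt.ne' (Nat.eq_one_of_dvd_coprimes
    (uf_coprime (by omega) n) ((hrΩ.mul_right _).trans hd) e)
  have hrp : r ≠ p := by
    rintro rfl
    exact hrq ((Fact.out : r.Prime).dvd_of_dvd_pow (hq ▸ char_dvd_card F r))
  have h0 : (r : F) ≠ 0 := KSG.natCast_ne_zero_of_prime_ne Fact.out hrp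
  have hA := forall₂_congr fun g (a : TyA (hermB n F q) (fun x => hermB n F q x x) r g) =>
    IsUS.exists_tss_iff h (m := m) a.pres h0 one_ne_zero (a.pow.trans (one_smul _ _).symm)
  have hB := forall_tyB_iff h (r := r) fun g a => (a.pow.elim fun z b => IsUS.exists_tss_iff h a.pres h0
    (by rintro rfl; have := IsUS.norm_of_pres h (b.1 ▸ a.pres.pow r); simp at this) b.1).trans
    ((a.shape h).2.2.2 m (by omega))
  by_cases hr2 : r = 2
  · subst hr2
    rw [eluU_iff h exists_inv_smul, hA, hB, IsUS.forall_tyA_pt_two h (Nat.odd_iff.2 (by omega)) hm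
      (by omega), hn']
    simp [hrp.symm]
  have := (Fact.out : r.Prime).two_le
  have hi2 := orderOf_eq_two_iff (q := q) hr2
  by_cases h1 : r ∣ q + 1
  · obtain rfl : i = 2 := hi.trans (hi2.2 h1)
    obtain rfl : b = 1 := hb
    rw [eluU_iff h exists_inv_smul, hA, hB, IsUS.forall_tyA_pt h h1 hr2 hm (by omega),
      nb_iff_odd hr2 h1 (by omega), hn']
    simp [hr2, hrp, Nat.mod_one, hm, show 2 < r by omega, or_comm]
  have hT := blk_cycFac h0 hi hb
  have c0 := hT.pos
  have e1 := div_lt_of_dvd_uf hq2 hr2 hrq hi hc (Nat.sub_le n (2 * m)) (hd.mul_left (q ^ 0)) hrΩ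
  rw [eluU_iff_coprime h exists_inv_smul ((Nat.Prime.coprime_iff_not_dvd Fact.out).2 h1),
    forall₃_congr fun g a1 a2 => imp_congr_right fun _ =>
      IsUS.exists_tss_iff h (m := m) a1 h0 one_ne_zero (a2.trans (one_smul _ _).symm),
    IsUS.forall_pow_iff h h0 hT, hn']
  have hi3 : i ≠ 2 := fun e => h1 (hi2.1 (hi ▸ e))
  have c6 := Nat.one_le_div_iff (a := m) c0
  have c7 := Nat.mod_lt m c0
  rcases blk_cases hr2 h0 hi hb hc with ⟨a1, a2, rfl⟩ | ⟨a1, a2, rfl⟩
  · have c1 := hT.card_cycFac h0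
    have c2 : (KSG.cycFac r F).card = (r - 1) / c := by rw [← c1, Nat.mul_div_cancel _ c0]
    have c3 : 2 ≤ (r - 1) / c := by
      have := Finset.card_pos.2 hT.ne
      by_contra c3
      rw [show (KSG.cycFac r F).card = 1 by omega] at c1
      have := Nat.odd_iff.1 ((Fact.out : r.Prime).odd_of_ne_two hr2)
      rw [if_pos (Nat.even_iff.2 (by omega))] at hb
      omega
    rw [hT.all_pt_fix a2 hmn e1, c2]
    have c4 := sub_div_mod c0 hmn
    have c8 := two_mul_div_mod c0 m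
    have c9 := Nat.mod_lt n c0
    have c10 := Nat.mod_lt (n - 2 * m) c0
    simp only [hr2, hrp, false_and, false_or, ne_eq, not_false_eq_true, true_and, a1, not_true, hi3, or_false]
    omega
  · rw [hT.all_pt_free a2 hmn]
    have c4 := sub_div_mod (c := 2 * b) (by omega) hmn
    rw [Nat.mul_div_mul_left m b two_pos, Nat.mul_mod_mul_left 2 m b] at c4
    have c9 := Nat.mod_lt n (show 0 < 2 * b by omega)
    have c10 := Nat.mod_lt (n - 2 * m) (show 0 < 2 * b by omega)
    simp only [hr2, hrp, false_and, false_or, ne_eq, not_false_eq_true, true_and, a1, true_or, and_true]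
    omega

end Cfsg.Agent.S5953
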