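import Cfsg.Statements.S5954
import Mathlib
import Cfsg.Agent.Class.Elus.Unit

set_option autoImplicit false
open scoped MatrixGroups
open Cfsg

namespace Cfsg.Agent.S5954

open Cfsg.Agent.Class Cfsg.Agent.Class.Elus Cfsg.Agent.Class.Wall Module

set_option maxHeartbeats 1000000 in

/-- Elements of prime order of PSU_n(q) with no fixed nondegenerate `m`-space. Here `T = PSU_n(q)` (`n ≥ 3`, `(n, q) ≠ (3, 2)`), realised through the matrices of determinant 1 over the field `F` with `q²` elements preserving the Hermitian form `h(u, v) = Σ u_i v_i^q`; an element of `T` of prime order `r` is such a matrix `x` with `x^r` scalar and `x` not scalar. For `r ≠ p` let `i` be the multiplicative order of `q` modulo `r`, `b = i/2` for `i` even and `b = i` for `i` odd, `c = i, i/2, 2i` according as `i ≡ 0, 2 (mod 4)` or `i` odd, and write `k = n mod c`, `ℓ = m mod b`, `ℓ' = m mod c`, `n' = ⌊n/b⌋`, `m' = ⌊m/b⌋`, `s = (r−1)/b`; `(a)_r` is the `r`-part of `a`. Let `1 ≤ m < n/2`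 and let `r` be a prime dividing the number of nondegenerate `m`-spaces. Then every element of `T` of order `r` fixes a nondegenerate `m`-space if and only if one of: (i) `r = p > 2` and every partition of `n` into parts of size at most `p` contains (as a sub-multiset) a partition of `m`; (ii) `r = p = 2` and (`n` is odd or `m` is even); (iii) `r = 2 ≠ p` and (`n` is odd, or `m` is even, or `(q+1)_2 ≥ (n)_2` and `q ≡ 3 (mod 4)`); (iv) `r ≠ p`, `r > 2`, and either `i ≠ 2`, `c ≤ m` and `k ≥ ℓ'`, or `i = 2` and (`r ∣ m` or `(q+1)_r ≥ (n)_r`). -/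
theorem result {F : Type*} [Field F] [Fintype F] {p : ℕ} [Fact p.Prime] [CharP F p] {q : ℕ} (hq : Fintype.card F = q ^ 2)
    (n m : ℕ) (hn : 3 ≤ n) (hT : (n, q) ≠ (3, 2)) (hm : 1 ≤ m) (hmn : 2 * m < n)
    (r : ℕ) [Fact r.Prime]
    (hrΩ : r ∣ Nat.card {W : Submodule F (Fin n → F) // Module.finrank F ↥W = m ∧ (∀ u ∈ W, u ≠ 0 → ∃ v ∈ W, Cfsg.hermForm n F q u v ≠ 0)})
    (i b c : ℕ) (hi : i = orderOf (q : ZMod r)) (hb : b = if Even i then i / 2 else i)
    (hc : c = if i % 4 = 0 then i else if i % 4 = 2 then i / 2 else 2 * i) :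
    (∀ x : Matrix.SpecialLinearGroup (Fin n) F, x ∈ Cfsg.SU n F q →
      (∃ z : F, ((x ^ r : Matrix.SpecialLinearGroup (Fin n) F) : Matrix (Fin n) (Fin n) F) = z • (1 : Matrix (Fin n) (Fin n) F)) →
      (∀ z : F, (x : Matrix (Fin n) (Fin n) F) ≠ z • (1 : Matrix (Fin n) (Fin n) F)) →
      ∃ W : Submodule F (Fin n → F), Module.finrank F ↥W = m ∧ (∀ u ∈ W, u ≠ 0 → ∃ v ∈ W, Cfsg.hermForm n F q u v ≠ 0) ∧
        W.map (Matrix.toLin' (x : Matrix (Fin n) (Fin n) F)) ≤ W) ↔
    ((r = p ∧ 2 < p ∧ (∀ μ : Multiset ℕ, (∀ a ∈ μ, 0 < a ∧ a ≤ p) → μ.sum = n → ∃ ν : Multiset ℕ, ν ≤ μ ∧ ν.sum = m)) ∨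
     (r = p ∧ p = 2 ∧ (Odd n ∨ Even m)) ∨
     (r = 2 ∧ p ≠ 2 ∧ (Odd n ∨ Even m ∨ (padicValNat 2 n ≤ padicValNat 2 (q + 1) ∧ q % 4 = 3))) ∨
     (r ≠ p ∧ 2 < r ∧ ((i ≠ 2 ∧ c ≤ m ∧ m % c ≤ n % c) ∨ (i = 2 ∧ (r ∣ m ∨ padicValNat r n ≤ padicValNat r (q + 1)))))) := by
  have := U.UF.of_card hq
  have hq2 := U.two_le_q F q
  have h := isUS_hermB (F := F) (q := q) n
  have h₁ := isUS_hermB (F := F) (q := q) m
  have hn' : finrank F (Fin n → F) = n := finrank_fin_fun F
  have hm' : finrank F (Fin m → F) = m := finrank_fin_fun F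
  have : Nontrivial (Fin n → F) := nontrivial_of_finrank_pos (R := F) (by omega)
  have hP := IsUS.isoS_iff h h₁
  simp only [hm', hermB_apply] at hP
  simp only [← hP] at hrΩ
  refine Iff.trans (Iff.trans ?_ (eluU_su_iff (q := q) (r := r) fun g => ∃ W : Submodule F (Fin n → F),
    IsoS (hermB n F q) (fun x => hermB n F q x x) (hermB m F q) (fun x => hermB m F q x x) W ∧ Inv g W)) ?_
  · simp only [hermB_apply, hP, and_assoc, inv_iff_map_le]
  have hr : r.Prime := Fact.out
  have := hr.two_le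
  have hpq : p ∣ q := (Fact.out : p.Prime).dvd_of_dvd_pow (hq ▸ char_dvd_card F p)
  have hC := forall₃_congr fun g (a1 : Pres (hermB n F q) (fun x => hermB n F q x x) g) (_ : g ^ r = 1) =>
    imp_congr_right fun _ : g ≠ 1 => IsUS.exists_isoS_iff h h₁ a1
  by_cases hrp : r = p
  · subst hrp
    rw [eluU_iff_coprime h exists_inv_smul ((Nat.Prime.coprime_iff_not_dvd hr).2 fun e =>
      hr.one_lt.ne' (Nat.dvd_one.1 ((Nat.dvd_add_right hpq).1 e))), hC, IsUS.forall_unip h (by omega), hn', hm']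
    by_cases hr2 : r = 2
    swap
    · simp [hr2, show 2 < r by omega]
    subst hr2
    simp only [lt_irrefl, false_and, and_false, true_and, false_or, ne_eq, not_true, or_false]
    rw [Nat.odd_iff, Nat.even_iff]
    constructor
    · intro H
      by_contra hc
      obtain ⟨ν, a1, a2⟩ := H (Multiset.replicate (n / 2) 2)
        (fun a ha => by rw [Multiset.eq_of_mem_replicate ha]; omega) (by simp; omega)
      obtain ⟨k, -, rfl⟩ := Multiset.le_replicate_iff.1 a1
      simp at a2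
      omega
    · intro H μ a1 a2
      obtain ⟨e, k, rfl⟩ := eq_replicate_add_of_mem (ν := μ) (a := 1) (b := 2) fun a ha => by
        have := a1 a ha; omega
      simp only [Multiset.sum_add, Multiset.sum_replicate, smul_eq_mul] at a2
      exact ⟨Multiset.replicate (m - 2 * min k (m / 2)) 1 + Multiset.replicate (min k (m / 2)) 2,
        add_le_add ((Multiset.replicate_le_replicate _).2 (by omega))
          ((Multiset.replicate_le_replicate _).2 (by omega)), by simp; omega⟩
  have h0 : (r : F) ≠ 0 := KSG.natCast_ne_zero_of_prime_ne hr hrp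
  have hrq : ¬ r ∣ q := fun e => by
    obtain ⟨p', a, b1, b2, rfl, -⟩ := U.exists_prime_pow F q
    obtain rfl := CharP.eq F b2 ‹CharP F p›
    exact hrp ((Nat.prime_dvd_prime_iff_eq hr b1).1 (hr.dvd_of_dvd_pow e))
  by_cases h1 : r ∣ q + 1
  · rw [eluU_iff h exists_inv_smul, and_iff_right fun g a => (IsUS.exists_isoS_iff h h₁ a.pres).2
      (pn_of_pow h1 a.pow (by omega)), forall_tyB_iff h fun g a =>
        (IsUS.exists_isoS_iff h h₁ a.pres).trans ((a.shape h).2.2.1 _ (by omega)), hn', hm']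
    by_cases hr2 : r = 2
    · subst hr2
      rw [nb_iff_two (Nat.odd_iff.2 (by omega)) (by omega), ← even_iff_two_dvd, ← Nat.not_even_iff_odd]
      simp only [hrp, Ne.symm hrp, ne_eq, not_false_eq_true, true_and, false_and, false_or, lt_irrefl, or_false,
        ← not_le]
      tauto
    · rw [nb_iff_odd hr2 h1 (by omega)]
      simp [hr2, hrp, hi.trans ((orderOf_eq_two_iff hr2).2 h1), show 2 < r by omega, or_comm]
  have hr2 : r ≠ 2 := by rintro rfl; omega
  have hT := blk_cycFac h0 hi hb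
  have hi3 : i ≠ 2 := fun e => h1 ((orderOf_eq_two_iff hr2).1 (hi ▸ e))
  have hd := IsUS.card_isoS_mul_dvd h h₁ (by omega)
  rw [hn', hm'] at hd
  have e1 := div_lt_of_dvd_uf hq2 hr2 hrq hi hc (show m ≤ n by omega)
    ((Nat.mul_dvd_mul_left _ (dvd_mul_right _ _)).trans hd) hrΩ
  have e2 := div_lt_of_dvd_uf hq2 hr2 hrq hi hc (Nat.sub_le n m)
    ((Nat.mul_dvd_mul_left _ (dvd_mul_left _ _)).trans hd) hrΩ
  have hcc := (blk_cases hr2 h0 hi hb hc).imp (·.2) (·.2)
  rw [eluU_iff_coprime h exists_inv_smul ((Nat.Prime.coprime_iff_not_dvd Fact.out).2 h1), hC,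
    IsUS.forall_pow_iff h h0 hT, hn', hm', hT.all_pn hcc (by omega)]
  have c0 : 0 < c := by have := hT.pos; omega
  have c4 := sub_div_mod c0 (show m ≤ n by omega)
  have c6 := Nat.one_le_div_iff (a := m) c0
  have c7 := Nat.mod_lt m c0
  have c9 := Nat.mod_lt n c0
  have c10 := Nat.mod_lt (n - m) c0
  simp only [hr2, hrp, false_and, false_or, ne_eq, not_false_eq_true, true_and, hi3, or_false]
  omega

end Cfsg.Agent.S5954
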