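import Cfsg.Statements.S5955
import Mathlib
import Cfsg.Agent.Class.Elus.Symp

set_option autoImplicit false
open scoped MatrixGroups
open Cfsg

namespace Cfsg.Agent.S5955

open Cfsg.Agent.Class Cfsg.Agent.Class.Elus Cfsg.Agent.Class.Wall Module

set_option maxHeartbeats 1000000 in

/-- Elements of prime order of PSp_n(q) with no fixed totally isotropic `m`-space. Here `T = PSp_n(q)` with `n = 2d ≥ 4`, `(n, q) ≠ (4, 2)`, realised through the symplectic matrices over the field `F` with `q` elements (preserving the standard alternating form); an element of `T` of prime order `r` is such a matrix `x` with `x^r` scalar and `x` not scalar. For `r ≠ p` let `i` be the multiplicative order of `q` modulo `r`, `c = i` for `i` even and `c = 2i` for `i` odd, and write `k = n mod c`, `ℓ = m mod i`, `ℓ' = m mod c`, `n' = ⌊n/i⌋`, `m' = ⌊m/i⌋`, `t = (r−1)/i`. Let `1 ≤ m ≤ n/2` and let `r` be a prime dividing the number of totally isotropic `m`-spaces. Then every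 element of `T` of order `r` fixes a totally isotropic `m`-space if and only if either (i) `r = 2 ≠ p` and (`m` is even or `q ≡ 1 (mod 4)`); or (ii) `r ≠ p`, `r > 2`, `i ≤ m`, `k ≥ 2ℓ`, and (`i` is odd or `n' − 2m' ≥ t`). -/
theorem result {F : Type*} [Field F] [Fintype F] {p : ℕ} [Fact p.Prime] [CharP F p] {q : ℕ} (hq : Fintype.card F = q)
    (d m : ℕ) (hd : 2 ≤ d) (hT : (d, q) ≠ (2, 2)) (hm : 1 ≤ m) (hmd : m ≤ d)
    (r : ℕ) [Fact r.Prime]
    (hrΩ : r ∣ Nat.card {W : Submodule F (Fin d ⊕ Fin d → F) // Module.finrank F ↥W = m ∧ (∀ u ∈ W, ∀ v ∈ W, Cfsg.sympForm d F u v = 0)})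
    (i c : ℕ) (hi : i = orderOf (q : ZMod r)) (hc : c = if Even i then i else 2 * i) :
    (∀ x : ↥(Matrix.symplecticGroup (Fin d) F),
      (∃ z : F, ((x ^ r : ↥(Matrix.symplecticGroup (Fin d) F)) : Matrix (Fin d ⊕ Fin d) (Fin d ⊕ Fin d) F) = z • (1 : Matrix (Fin d ⊕ Fin d) (Fin d ⊕ Fin d) F)) →
      (∀ z : F, (x : Matrix (Fin d ⊕ Fin d) (Fin d ⊕ Fin d) F) ≠ z • (1 : Matrix (Fin d ⊕ Fin d) (Fin d ⊕ Fin d) F)) →
      ∃ W : Submodule F (Fin d ⊕ Fin d → F), Module.finrank F ↥W = m ∧ (∀ u ∈ W, ∀ v ∈ W, Cfsg.sympForm d F u v = 0) ∧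
        W.map (Matrix.toLin' (x : Matrix (Fin d ⊕ Fin d) (Fin d ⊕ Fin d) F)) ≤ W) ↔
    ((r = 2 ∧ p ≠ 2 ∧ (Even m ∨ q % 4 = 1)) ∨
     (r ≠ p ∧ 2 < r ∧ i ≤ m ∧ 2 * (m % i) ≤ (2 * d) % c ∧ (Odd i ∨ (r - 1) / i + 2 * (m / i) ≤ (2 * d) / i))) := by
  subst hq
  obtain rfl : c = cc i := hc
  have h := isSS_sympB (F := F) d
  obtain ⟨l, rfl⟩ := Nat.exists_eq_add_of_le hmd
  have hn := finrank_symp (F := F) (m + l)
  have : Nontrivial (Fin (m + l) ⊕ Fin (m + l) → F) := nontrivial_of_finrank_pos (R := F) (by omega)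
  replace hrΩ : r ∣ Nat.card {W : Submodule F _ // finrank F W = m ∧
      TSS (sympB (m + l) F) (fun _ => 0) W} := by simpa only [IsSS.tss_iff h, sympB_apply] using hrΩ
  have e := eluP_sp_iff r fun g => ∃ W : Submodule F _, (finrank F W = m ∧
    TSS (sympB (m + l) F) (fun _ => 0) W) ∧ Inv g W
  conv_lhs at e => simp only [IsSS.tss_iff h, inv_iff_map_le]; simp only [and_assoc, sympB_apply]
  rw [e]
  have hrp := ne_char_of_coprime p (Nat.Coprime.of_dvd_left ⟨_, by
    rw [← IsSS.card_tss_mul h hn, mul_assoc]⟩ (qf2_coprime Fintype.card_pos (m + l))) hrΩ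
  by_cases hr2 : r = 2
  · subst hr2
    rw [IsSS.eluP_two_tss ((two_ne_zero_iff_char F p).2 hrp.symm) h hn]
    simp [hrp.symm]
  have hr := oddP_of p hr2 hrp hi
  have := hr.prime.two_le
  obtain ⟨a1, a3⟩ := IsSS.forall_tss h hr hn hrΩ
  rw [eluP_iff_odd h hr.odd exists_inv_smul, a3]
  have c0 := cc_pos hr.pos
  have c1 := div_mod_facts c0 (even_cc i).two_dvd (2 * (m + l))
  have c2 := div_mod_facts c0 (even_cc i).two_dvd (2 * m)
  have c3 := div_mod_facts c0 (even_cc i).two_dvd (2 * l)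
  have c4 := sub_div_mod c0 (show 2 * m ≤ 2 * (m + l) by omega)
  have c5 := Nat.zero_le ((r - 1) / i)
  have c6 := Nat.one_le_div_iff (a := m) hr.pos
  have c7 := Nat.div_pos (Nat.le_of_dvd (by omega) (hi ▸ ZMod.orderOf_dvd_card_sub_one
    (a := (Fintype.card F : ZMod r)) (by simpa [ZMod.natCast_eq_zero_iff] using hr.not_dvd_card))) hr.pos
  rw [show 2 * (m + l) - 2 * m = 2 * l by omega] at c4
  clear hrΩ a3
  rcases i.even_or_odd with he | he
  · have c8 := two_mul_div_mod hr.pos m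
    rw [cc_of_even he] at *
    simp only [he, Nat.not_odd_iff_even.2 he, true_and, false_and, false_or, hr2, hrp, ne_eq,
      not_false_eq_true]
    omega
  · rw [cc_of_odd he] at *
    rw [Nat.mul_div_mul_left m i two_pos, Nat.mul_mod_mul_left 2 m i] at c2 c4
    simp only [he, Nat.not_even_iff_odd.2 he, true_and, false_and, false_or, or_false, true_or, and_true,
      hr2, hrp, ne_eq, not_false_eq_true]
    omega

end Cfsg.Agent.S5955
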