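import Cfsg.Statements.S5956
import Mathlib
import Cfsg.Agent.Class.Elus.Symp

set_option autoImplicit false
open scoped MatrixGroups
open Cfsg

namespace Cfsg.Agent.S5956

open Cfsg.Agent.Class Cfsg.Agent.Class.Elus Cfsg.Agent.Class.Wall Module

set_option maxHeartbeats 1000000 in

/-- Elements of prime order of PSp_n(q) with no fixed nondegenerate `m`-space. Here `T = PSp_n(q)` with `n = 2d ≥ 4`, `(n, q) ≠ (4, 2)`, realised through the symplectic matrices over the field `F` with `q` elements (preserving the standard alternating form); an element of `T` of prime order `r` is such a matrix `x` with `x^r` scalar and `x` not scalar. For `r ≠ p` let `i` be the multiplicative order of `q` modulo `r`, `c = i` for `i` even and `c = 2i` for `i` odd, and write `k = n mod c`, `ℓ = m mod i`, `ℓ' = m mod c`, `n' = ⌊n/i⌋`, `m' = ⌊m/i⌋`, `t = (r−1)/i`. Let `m` be even with `2 ≤ m < n/2` and let `r` be a prime dividing the number of nondegenerate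 `m`-spaces. Then every element of `T` of order `r` fixes a nondegenerate `m`-space if and only if one of: (i) `r = p > 2` and every partition of `n` into parts of size at most `p` in which every odd part has even multiplicity contains (as a sub-multiset) a partition of `m` in which every odd part has even multiplicity; (ii) `r = p = 2` and (`n ≡ 2 (mod 4)` or `m ≡ 0 (mod 4)`); (iii) `r = 2 ≠ p`; (iv) `r ≠ p`, `r > 2`, `c ≤ m` and `k ≥ ℓ'`. -/
theorem result {F : Type*} [Field F] [Fintype F] {p : ℕ} [Fact p.Prime] [CharP F p] {q : ℕ} (hq : Fintype.card F = q)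
    (d m : ℕ) (hd : 2 ≤ d) (hT : (d, q) ≠ (2, 2)) (hm : 2 ≤ m) (hme : Even m) (hmd : m < d)
    (r : ℕ) [Fact r.Prime]
    (hrΩ : r ∣ Nat.card {W : Submodule F (Fin d ⊕ Fin d → F) // Module.finrank F ↥W = m ∧ (∀ u ∈ W, u ≠ 0 → ∃ v ∈ W, Cfsg.sympForm d F u v ≠ 0)})
    (i c : ℕ) (hi : i = orderOf (q : ZMod r)) (hc : c = if Even i then i else 2 * i) :
    (∀ x : ↥(Matrix.symplecticGroup (Fin d) F),
      (∃ z : F, ((x ^ r : ↥(Matrix.symplecticGroup (Fin d) F)) : Matrix (Fin d ⊕ Fin d) (Fin d ⊕ Fin d) F) = z • (1 : Matrix (Fin d ⊕ Fin d) (Fin d ⊕ Fin d) F)) →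
      (∀ z : F, (x : Matrix (Fin d ⊕ Fin d) (Fin d ⊕ Fin d) F) ≠ z • (1 : Matrix (Fin d ⊕ Fin d) (Fin d ⊕ Fin d) F)) →
      ∃ W : Submodule F (Fin d ⊕ Fin d → F), Module.finrank F ↥W = m ∧ (∀ u ∈ W, u ≠ 0 → ∃ v ∈ W, Cfsg.sympForm d F u v ≠ 0) ∧
        W.map (Matrix.toLin' (x : Matrix (Fin d ⊕ Fin d) (Fin d ⊕ Fin d) F)) ≤ W) ↔
    ((r = p ∧ 2 < p ∧ (∀ μ : Multiset ℕ, (∀ a ∈ μ, 0 < a ∧ a ≤ p) → (∀ a : ℕ, Odd a → Even (μ.count a)) → μ.sum = 2 * d →
        ∃ ν : Multiset ℕ, ν ≤ μ ∧ ν.sum = m ∧ ∀ a : ℕ, Odd a → Even (ν.count a))) ∨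
     (r = p ∧ p = 2 ∧ ((2 * d) % 4 = 2 ∨ m % 4 = 0)) ∨
     (r = 2 ∧ p ≠ 2) ∨
     (r ≠ p ∧ 2 < r ∧ c ≤ m ∧ m % c ≤ (2 * d) % c)) := by
  subst hq
  obtain rfl : c = cc i := hc
  have h := isSS_sympB (F := F) d
  obtain ⟨a, rfl⟩ := hme.two_dvd
  have h₁ := isSS_sympB (F := F) a
  have hn := finrank_symp (F := F) d
  have hn₁ := finrank_symp (F := F) a
  have : Nontrivial (Fin d ⊕ Fin d → F) := nontrivial_of_finrank_pos (R := F) (by omega)
  have hP := IsSS.isoS_iff h h₁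
  rw [hn₁] at hP
  simp only [← and_assoc, ← sympB_apply, ← hP, ← inv_iff_map_le] at hrΩ ⊢
  rw [eluP_sp_iff r fun g => ∃ W : Submodule F _, IsoS _ _ _ _ W ∧ Inv g W]
  have h3 := two_ne_zero_iff_char F p
  by_cases hr2 : r = 2
  · subst hr2
    by_cases h2 : (2 : F) = 0
    · obtain rfl : p = 2 := not_not.1 (mt h3.2 (not_not.2 h2))
      rw [eluP_two_iff_char h.toNd h2, IsSS.forall_invol_isoS h2 h h₁ hn hn₁ (by omega),
        Nat.odd_iff, Nat.even_iff]
      simp
      omega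
    · rw [eluP_two_iff h.toNd h2]
      exact iff_of_true ⟨fun g a1 a2 _ _ => IsSS.exists_isoS_of_sq h2 h h₁ (by omega) a1 (Or.inl a2),
        fun g a1 a2 => IsSS.exists_isoS_of_sq h2 h h₁ (by omega) a1 (Or.inr a2)⟩ (by simp [h3.1 h2])
  have hr : r.Prime := Fact.out
  have := hr.two_le
  rw [eluP_iff_odd h (hr.odd_of_ne_two hr2) exists_inv_smul]
  by_cases hrp : r = p
  · subst hrp
    rw [IsSS.forall_unip (h3.2 hr2) h h₁ (by omega), hn, hn₁]
    simp only [hr2, show 2 < r by omega, true_and, false_and, and_false, ne_eq, not_true, or_false,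
      and_assoc]
  have hr := oddP_of p hr2 hrp hi
  obtain ⟨a1, a2, a3⟩ := IsSS.forall_isoS h h₁ hr hn hn₁ (by omega) hrΩ
  rw [a3]
  have c0 := cc_pos hr.pos
  have c1 := div_mod_facts c0 (even_cc i).two_dvd (2 * d)
  have c2 := div_mod_facts c0 (even_cc i).two_dvd (2 * a)
  have c3 := div_mod_facts c0 (even_cc i).two_dvd (2 * d - 2 * a)
  have c4 := sub_div_mod c0 (show 2 * a ≤ 2 * d by omega)
  simp only [hr2, hrp, false_and, false_or, ne_eq, not_false_eq_true, true_and]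
  omega

end Cfsg.Agent.S5956
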