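import Cfsg.Statements.S5958
import Mathlib
import Cfsg.Agent.Class.Elus.Dec2

set_option autoImplicit false
open scoped MatrixGroups
open Cfsg

namespace Cfsg.Agent.S5958

open Polynomial Module LinearMap KSG Class.Elus in
theorem dec_irr {F : Type*} [Field F] {V : Type*} [AddCommGroup V] [Module F V]
    [FiniteDimensional F V] {f : End F V} {r k a t : ℕ} (hr : r.Prime) {z : F} (hz : ∀ c, c ^ r ≠ z)
    (hf : Function.Injective f) (h : f ^ r = z • 1)
    (h1 : elemDiv f = Multiset.replicate k (X ^ r - C z)) (hk : k * r = a * t) :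
    HasDec (Tr V) f a t := by
  rcases (Nat.Prime.dvd_mul hr).1 (hk ▸ dvd_mul_left r k) with ⟨b, rfl⟩ | ⟨b, rfl⟩
  · refine hasDec_of_degs (i := r) t f 0 k (by simp [degs, h1]) (by simpa using hk) ?_
    rw [Nat.mul_div_cancel_left _ hr.pos]
    exact (Nat.eq_of_mul_eq_mul_right hr.pos (by rw [hk]; ring)).le
  · rw [mul_comm r b]
    refine hasDec_of_freeDiv hr.ne_zero b f hf h ?_
    rw [freeDiv_of_isPP a (IsPP.of_irreducible (X_pow_sub_C_irreducible_of_prime hr hz)
      (monic_X_pow_sub_C z hr.ne_zero)), Multiset.nsmul_replicate, h1,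
      Nat.eq_of_mul_eq_mul_right hr.pos (show k * r = b * a * r by rw [hk]; ring)]

open Polynomial Module LinearMap KSG Class.Elus in
theorem dec_cyc {F : Type*} [Field F] [Fintype F] {V : Type*} [AddCommGroup V] [Module F V]
    [FiniteDimensional F V] {f : End F V} {r : ℕ} (hr : r.Prime) (hr0 : (r : F) ≠ 0)
    (hc : orderOf (Fintype.card F : ZMod r) = r - 1) (h : f ^ r = 1)
    (hn : finrank F V ≤ finrank F V % (r - 1) * r) : HasDec (Tr V) f 1 (finrank F V) := by
  have := Fact.mk hr
  have h2 := hr.two_le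
  have hm := monic_X_pow_sub_C (1 : F) hr.ne_zero
  have hΦ : ∀ b ∈ cycFac r F, b = cyclotomic r F := fun b hb =>
    (eq_of_monic_of_dvd_of_natDegree_le (mem_cycFac.1 hb).2.1 (cyclotomic.monic r F)
      (mem_cycFac.1 hb).2.2 (by
        rw [natDegree_of_mem_cycFac hr hr0 hb, hc, natDegree_cyclotomic, Nat.totient_prime hr])).symm
  obtain ⟨c, hc'⟩ := exists_mem_cycFac hr hr0
  have hirr : Irreducible (cyclotomic r F) := hΦ c hc' ▸ (mem_cycFac.1 hc').1
  obtain ⟨e, b, h1⟩ := eq_replicate_add_of_mem (a := X - C 1) (b := cyclotomic r F)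
    (ν := elemDiv f) fun d hd => (mem_elemDiv_of_pow_prime hr hr0 h hd).imp_right (hΦ d)
  have h3 := sum_degs f
  rw [degs, h1] at h3
  simp only [Multiset.map_add, Multiset.map_replicate, Multiset.sum_add, Multiset.sum_replicate,
    smul_eq_mul, natDegree_X_sub_C, mul_one, natDegree_cyclotomic, Nat.totient_prime hr] at h3
  obtain ⟨s, rfl⟩ := Nat.exists_eq_add_of_le' hr.one_le
  rw [Nat.add_sub_cancel] at *
  have h4 : finrank F V % s ≤ e := by rw [← h3, Nat.add_mul_mod_self_right]; exact Nat.mod_le _ _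
  obtain ⟨e', rfl⟩ := Nat.exists_eq_add_of_le (show b ≤ e by
    refine Nat.le_of_mul_le_mul_right (c := s) ?_ (by omega)
    nlinarith)
  have h5 : freeDiv 1 hm = {X - C 1, cyclotomic (s + 1) F} :=
    freeDiv_of_squarefree 1 hm (squarefree_X_pow_sub_C hr0 one_ne_zero) (fun d hd => by
      simp only [Multiset.insert_eq_cons, Multiset.mem_cons, Multiset.mem_singleton] at hd
      rcases hd with rfl | rfl
      exacts [⟨irreducible_X_sub_C 1, monic_X_sub_C 1⟩, ⟨hirr, cyclotomic.monic _ _⟩])
      (by simpa [mul_comm] using cyclotomic_prime_mul_X_sub_one F (s + 1))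
  have h6 : elemDiv f = b • freeDiv 1 hm + Multiset.replicate e' (X - C 1) := by
    rw [h1, h5, Multiset.insert_eq_cons, ← Multiset.singleton_add, nsmul_add,
      Multiset.nsmul_singleton, Multiset.nsmul_singleton, Multiset.replicate_add]
    abel
  have h7 : f ^ (s + 1) = (1 : F) • 1 := by simpa using h
  rw [show finrank F V = b * (s + 1) + e' by rw [← h3]; ring]
  exact HasDec.of_elemDiv_add h6 (fun U hU e => hasDec_of_freeDiv hr.ne_zero _ _
    (restrict_injective hU (injective_of_pow_eq hr.ne_zero one_ne_zero h7))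
    (restrict_pow_eq hU h7) e) fun U hU e =>
    hasDec_of_degs (i := 1) e' _ e' 0 (by simp [-map_one, degs, e]) (by simp) (by simp)

/-- Elements of odd prime order of PSL_n(q) and imprimitive subgroups. Here `T = PSL_n(F)` for a field `F` with `q = p^f` elements (`n ≥ 2`, `(n, q) ≠ (2, 2), (2, 3)`), `n = a·t` with `t ≥ 2`, and Ω is the set of direct-sum decompositions of `F^n` into `t` subspaces of dimension `a` (unordered; their number is the number of ordered ones divided by `t!`), whose stabilizers are the imprimitive subgroups of type GL_a(q) ≀ S_t (maximal except in some small cases; maximality is not assumed); an element of `T` of prime order `r` (a matrix `x` of determinant 1 with `x^r` scalar, `x` not scalar) fixes a point of Ω when it permutes the summands of some such decomposition. Let `r ≠ p` be an odd prime dividing the number of such decompositions, let `c` be the multiplicative order of `q` modulo `r`, and write `k = n mod c`, `ℓ = a mod c`. Then every element of `T` of order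 `r` stabilizes such a decomposition if and only if either `a = 1`, `c = r − 1 > 1` and `n ≤ k·r`, or `c ≤ a` and `k = t·ℓ`. -/
theorem result {F : Type*} [Field F] [Fintype F] {p : ℕ} [Fact p.Prime] [CharP F p] {q : ℕ} (hq : Fintype.card F = q)
    (n a t : ℕ) (hn : 2 ≤ n) (hT : (n, q) ≠ (2, 2) ∧ (n, q) ≠ (2, 3)) (hat : n = a * t) (ha : 1 ≤ a) (ht : 2 ≤ t)
    (r : ℕ) [Fact r.Prime] (hr2 : r ≠ 2) (hrp : r ≠ p) (hΩ : r ∣ Nat.card {D : Fin t → Submodule F (Fin n → F) // Cfsg.Geo.IsMDecomposition a D} / Nat.factorial t)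
    (c : ℕ) (hc : c = orderOf (q : ZMod r)) :
    (∀ x : Matrix.SpecialLinearGroup (Fin n) F,
      (∃ z : F, ((x ^ r : Matrix.SpecialLinearGroup (Fin n) F) : Matrix (Fin n) (Fin n) F) = z • (1 : Matrix (Fin n) (Fin n) F)) →
      (∀ z : F, (x : Matrix (Fin n) (Fin n) F) ≠ z • (1 : Matrix (Fin n) (Fin n) F)) →
      ∃ D : Fin t → Submodule F (Fin n → F), Cfsg.Geo.IsMDecomposition a D ∧
        ∃ σ : Equiv.Perm (Fin t), ∀ j, (D j).map (Matrix.toLin' (x : Matrix (Fin n) (Fin n) F)) = D (σ j)) ↔
    ((a = 1 ∧ 1 < c ∧ c = r - 1 ∧ n ≤ (n % c) * r) ∨ (c ≤ a ∧ n % c = t * (a % c))) := by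
  classical
  subst hq
  have hr : r.Prime := Fact.out
  have h2r := hr.two_le
  have : Nonempty (Fin n) := ⟨⟨0, by omega⟩⟩
  have hr0 : (r : F) ≠ 0 := KSG.natCast_ne_zero_of_prime_ne hr hrp
  have hpos : 0 < c := hc ▸ KSG.orderOf_card_pos hr hr0
  have hcr : c ≤ r - 1 := hc ▸ Nat.le_of_dvd (by omega) (Dvd.intro_left _ (KSG.card_cycFac_mul hr hr0))
  constructor
  · intro h
    by_cases hc1 : c = 1
    · exact Or.inr ⟨by omega, by simp [hc1, Nat.mod_one]⟩
    have hcn : c ≤ n := by
      simpa [hc] using Class.Elus.orderOf_le_of_dvd_card_GL hr hr0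
        ((Class.Elus.dvd_of_dvd_card_div_factorial (Geo.IsMDecomposition a)
          (fun D hD => hD.indep.injective (Class.Elus.IsMDec.ne_bot hD))
          (fun D σ hD => Class.Elus.IsMDec.comp hD σ) hΩ).trans
          (Class.Elus.card_mdec_dvd (by simpa using hat) ha ht))
    have key : ∀ e b, 0 < b → e + b * c = n → ∃ (g : Module.End F (Fin n → F))
        (D : Fin t → Submodule F (Fin n → F)) (σ : Equiv.Perm (Fin t)), g ^ r = 1 ∧
        Function.Injective g ∧ Module.finrank F (LinearMap.ker (g - 1)) = e ∧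
        Module.finrank F (LinearMap.range (g - 1)) = b * c ∧ Geo.IsMDecomposition a D ∧
        (∀ i, ∀ v ∈ D i, g v ∈ D (σ i)) ∧ σ ^ r = 1 := fun e b hb he => by
      obtain ⟨x, x1, x2, x3⟩ := Class.Elus.exists_SL_fix (n := Fin n) hr hr0 (hc ▸ hc1) (e := e) hb
        (by simpa [← hc] using he)
      obtain ⟨D, hD, σ, hσ⟩ := h x x1.1 x1.2
      have h1 : ∀ i, ∀ v ∈ D i, Matrix.toLin' x.1 v ∈ D (σ i) := fun i v hv => hσ i ▸ ⟨v, hv, rfl⟩
      have h3 := LinearMap.finrank_range_add_finrank_ker (Matrix.toLin' x.1 - 1)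
      rw [Module.finrank_fin_fun] at h3
      exact ⟨_, D, σ, x2, Class.Elus.injective_toLin'_SL x, x3, by omega, hD, h1,
        Class.Elus.perm_pow_eq_one hD.indep (Class.Elus.IsMDec.ne_bot hD) h1 (z := 1)
          (by simpa using x2) one_ne_zero⟩
    obtain ⟨g, D, σ, g1, g2, g3, g4, hD, g5, g6⟩ := key (n % c) (n / c) (Nat.div_pos hcn hpos)
      (Nat.mod_add_div' n c)
    have hk := Nat.mod_lt n hpos
    rcases le_or_gt c a with hca | hca
    · refine Or.inr ⟨hca, ?_⟩
      have h1 : ∀ j, σ j = j := fun j => by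
        by_contra hj
        have := (Class.Elus.le_finrank_range_aeval hr hD.indep g2 g5 g6 hj
          (Polynomial.cyclotomic_ne_zero r F) (by
            rw [Polynomial.natDegree_cyclotomic, Nat.totient_prime hr]; omega)).trans
          (Submodule.finrank_mono (Class.Elus.range_cyclotomic_le g1))
        rw [hD.finrank_eq, g3] at this
        omega
      have h2 := Class.Elus.sum_finrank_le_of_iSupIndep
        (hD.indep.mono fun i => inf_le_right (a := LinearMap.ker (g - 1))) fun i => inf_le_left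
      have h3 : t * (a % c) ≤ n % c := by
        refine le_trans ?_ (g3 ▸ h2)
        refine le_trans (by simp) (Finset.card_nsmul_le_sum _ _ (a % c) fun i _ => ?_)
        rw [← hD.finrank_eq i, hc]
        exact Class.Elus.mod_le_finrank_inf hr hr0 g1 fun v hv => h1 i ▸ g5 i v hv
      rw [hat, mul_comm a t, ← Nat.mul_mod_mod, Nat.mod_eq_of_lt (by omega)]
    · have hfix : ∀ (g : Module.End F (Fin n → F)) (D : Fin t → Submodule F (Fin n → F))
          (σ : Equiv.Perm (Fin t)), g ^ r = 1 → Geo.IsMDecomposition a D →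
          (∀ i, ∀ v ∈ D i, g v ∈ D (σ i)) → ∀ j, σ j = j → ∀ v ∈ D j, g v = v :=
        fun g D σ g1 hD g5 j hj => Class.Elus.apply_eq_of_finrank_lt hr hr0 g1
          (fun v hv => hj ▸ g5 j v hv) (by rw [hD.finrank_eq, ← hc]; exact hca)
      obtain ⟨g', D', σ', f1, f2, -, f4, hD', f5, f6⟩ := key (n - c) 1 one_pos (by omega)
      obtain ⟨j, hj⟩ : ∃ j, σ' j ≠ j := by
        by_contra! hj
        have : LinearMap.range (g' - 1) = ⊥ := by
          rw [LinearMap.range_eq_map, ← hD'.iSup_eq_top, Submodule.map_iSup, iSup_eq_bot]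
          refine fun i => eq_bot_iff.2 ?_
          rintro _ ⟨v, hv, rfl⟩
          exact sub_eq_zero.2 (hfix g' D' σ' f1 hD' f5 i (hj i) v hv)
        rw [this, finrank_bot] at f4
        omega
      have h1 := Class.Elus.mul_le_finrank_range hr hD'.indep f2 f5 f6 hj
      rw [hD'.finrank_eq, f4] at h1
      have h2 : a = 1 := by
        by_contra h2
        have : (r - 1) * 2 ≤ (r - 1) * a := Nat.mul_le_mul_left _ (by omega)
        omega
      subst h2
      have h3 := Class.Elus.finrank_range_mul_le hr hD.iSup_eq_top hD.finrank_eq g5 g2 g6 g1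
        (hfix g D σ g1 hD g5)
      refine Or.inl ⟨rfl, by omega, by omega, ?_⟩
      have h4 := Nat.mod_add_div' n c
      rw [g4, Fintype.card_fin, mul_one, show t = n by omega] at h3
      obtain ⟨s, rfl⟩ := Nat.exists_eq_add_of_le' hr.one_le
      rw [Nat.add_sub_cancel] at h3
      nlinarith
  · rintro h x ⟨z, hz⟩ -
    have hinj := Class.Elus.injective_toLin'_SL x
    suffices H : Class.Elus.HasDec (Class.Elus.Tr _) (Matrix.toLin' x.1) a t by
      obtain ⟨D, h1, -, h2⟩ := H.mdec hinj (by simpa using hat) ha ht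
      exact ⟨D, h1, h2⟩
    rcases Class.Elus.shape_SL x hz with ⟨d, g, a1, a2, a3⟩ | ⟨-, -, a1, a2, a3⟩
    · rw [a2]
      refine Class.Elus.HasDec.smul ?_ d
      rcases h with ⟨rfl, -, h1, h2⟩ | ⟨h1, h2⟩
      · have := dec_cyc hr hr0 (hc ▸ h1) a3 (by simpa [← h1] using h2)
        rw [Module.finrank_fin_fun] at this
        rwa [show t = n by omega]
      · obtain ⟨e, b, h3⟩ := Class.Elus.degs_of_pow_prime hr hr0 a3
        have h4 := Class.Elus.sum_degs g
        rw [← hc] at h3
        rw [h3] at h4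
        simp only [Multiset.sum_add, Multiset.sum_replicate, smul_eq_mul, mul_one,
          Module.finrank_fin_fun] at h4
        refine Class.Elus.hasDec_of_degs t g e b h3 (h4.trans hat) ?_
        have h5 := Nat.mod_lt n hpos
        have h6 := Nat.mod_add_div' a c
        refine Nat.le_of_lt_succ (Nat.lt_of_mul_lt_mul_right (a := c) ?_)
        nlinarith
    · exact dec_irr hr a2 hinj ((Class.Elus.toLin'_pow_eq_smul_one_iff x.1 r z).2 hz) a3
        (by rw [Nat.div_mul_cancel a1]; simpa using hat)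

end Cfsg.Agent.S5958
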