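import Cfsg.Statements.S5959
import Mathlib
import Cfsg.Agent.Class.Elus.Dec2

set_option autoImplicit false
open scoped MatrixGroups
open Cfsg

namespace Cfsg.Agent.S5959

/-- Elements of order `p` of PSL_n(q) and imprimitive subgroups: a necessary condition. Here `T = PSL_n(F)` for a field `F` with `q = p^f` elements (`n ≥ 2`, `(n, q) ≠ (2, 2), (2, 3)`), `n = a·t` with `t ≥ 2`, and Ω is the set of direct-sum decompositions of `F^n` into `t` subspaces of dimension `a` (unordered; their number is the number of ordered ones divided by `t!`), whose stabilizers are the imprimitive subgroups of type GL_a(q) ≀ S_t (maximal except in some small cases; maximality is not assumed); an element of `T` of prime order `r` (a matrix `x` of determinant 1 with `x^r` scalar, `x` not scalar) fixes a point of Ω when it permutes the summands of some such decomposition. Suppose `p > 2` divides the number of such decompositions. If every element of `T` of order `p` stabilizes such a decomposition, then every partition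 of `n` into parts of size at most `p` in which the part `p` occurs fewer than `a` times contains (as a sub-multiset) a partition of `a`. -/
theorem result {F : Type*} [Field F] [Fintype F] {p : ℕ} [Fact p.Prime] [CharP F p] {q : ℕ} (hq : Fintype.card F = q)
    (n a t : ℕ) (hn : 2 ≤ n) (hT : (n, q) ≠ (2, 2) ∧ (n, q) ≠ (2, 3)) (hat : n = a * t) (ha : 1 ≤ a) (ht : 2 ≤ t)
    (hp : 2 < p) (hΩ : p ∣ Nat.card {D : Fin t → Submodule F (Fin n → F) // Cfsg.Geo.IsMDecomposition a D} / Nat.factorial t)
    (h : ∀ x : Matrix.SpecialLinearGroup (Fin n) F,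
      (∃ z : F, ((x ^ p : Matrix.SpecialLinearGroup (Fin n) F) : Matrix (Fin n) (Fin n) F) = z • (1 : Matrix (Fin n) (Fin n) F)) →
      (∀ z : F, (x : Matrix (Fin n) (Fin n) F) ≠ z • (1 : Matrix (Fin n) (Fin n) F)) →
      ∃ D : Fin t → Submodule F (Fin n → F), Cfsg.Geo.IsMDecomposition a D ∧
        ∃ σ : Equiv.Perm (Fin t), ∀ j, (D j).map (Matrix.toLin' (x : Matrix (Fin n) (Fin n) F)) = D (σ j)) :
    (∀ μ : Multiset ℕ, (∀ b ∈ μ, 0 < b ∧ b ≤ p) → μ.sum = n → μ.count p < a → ∃ ν : Multiset ℕ, ν ≤ μ ∧ ν.sum = a) := by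
  classical
  intro μ hμ hs hc
  by_cases h0 : ∀ b ∈ μ, b = 1
  · rw [Multiset.eq_replicate_of_mem h0] at hs ⊢
    exact (Class.Elus.exists_le_replicate_iff one_pos (by simp at hs ⊢; nlinarith)).2 (one_dvd _)
  push Not at h0
  obtain ⟨b, hb, hb1⟩ := h0
  obtain ⟨x, x1, x2, x3⟩ := Class.Elus.exists_SL_unip (F := F) (n := Fin n) p hμ (by simpa using hs) hb hb1
  obtain ⟨D, hD, σ, hσ⟩ := h x x1.1 x1.2
  have hr : p.Prime := Fact.out
  have h1 : ∀ i, ∀ v ∈ D i, Matrix.toLin' x.1 v ∈ D (σ i) := fun i v hv => hσ i ▸ ⟨v, hv, rfl⟩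
  have h2 := Class.Elus.perm_pow_eq_one hD.indep (Class.Elus.IsMDec.ne_bot hD) h1 (z := 1)
    (r := p) (by simpa using x2) one_ne_zero
  have hj : σ ⟨0, by omega⟩ = ⟨0, by omega⟩ := by
    by_contra hj
    obtain ⟨k, rfl⟩ := Nat.exists_eq_succ_of_ne_zero hr.ne_zero
    have h3 := Class.Elus.le_finrank_range_aeval hr hD.indep (Class.Elus.injective_toLin'_SL x) h1 h2 hj
      (P := (Polynomial.X - Polynomial.C 1) ^ k) (pow_ne_zero _ (Polynomial.X_sub_C_ne_zero 1))
      (by simp [-map_one])
    have h4 : (Matrix.toLin' x.1 - 1) ^ (k + 1) = 0 := by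
      have := congrArg (Polynomial.aeval (Matrix.toLin' x.1))
        (sub_pow_char (Polynomial.X : Polynomial F) 1 (p := k + 1))
      simpa [x2] using this
    have h5 := Class.Elus.finrank_range_pow_of_unipotent h4
    rw [show Polynomial.aeval (Matrix.toLin' x.1) ((Polynomial.X - Polynomial.C 1 : Polynomial F) ^ k) =
      (Matrix.toLin' x.1 - 1) ^ k by simp, h5, x3, hD.finrank_eq] at h3
    exact absurd hc (not_lt.2 h3)
  rw [← x3, ← Class.Elus.exists_isCompl_iff_degs]
  exact ⟨_, _, Class.Elus.isCompl_of_dec hD.indep hD.iSup_eq_top _, hD.finrank_eq _,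
    (hσ _).le.trans (hj.symm ▸ le_rfl), Class.Elus.inv_iff_map_le.1 (Class.Elus.inv_iSup_ne h1 hj)⟩

end Cfsg.Agent.S5959
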