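import Cfsg.Statements.S5960
import Mathlib
import Cfsg.Agent.Class.Elus.Symp2

set_option autoImplicit false
open scoped MatrixGroups
open Cfsg

namespace Cfsg.Agent.S5960

open Cfsg.Agent.Class Cfsg.Agent.Class.Elus Cfsg.Agent.Class.Wall Module

set_option maxHeartbeats 1000000 in

/-- Involutions of PSp_n(q) and imprimitive subgroups. Here `T = PSp_n(q)`, `n = 2d ≥ 4`, `(n, q) ≠ (4, 2)`, realised through the symplectic matrices over the field `F` with `q` elements and the standard alternating form; `n = a·t` with `a` even and `t ≥ 2`, and Ω is the (nonempty) set of orthogonal decompositions of `F^n` into `t` nondegenerate subspaces of dimension `a` (unordered; counted as ordered ones divided by `t!`), whose stabilizers are the imprimitive subgroups of type Sp_a(q) ≀ S_t (maximality is not assumed); an element of `T` of prime order `r` (a symplectic matrix `x` with `x^r` scalar, `x` not scalar) fixes a point of Ω when it permutes the summands of some such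 decomposition. If the number of such decompositions is even, then every involution of `T` stabilizes one of them (the action is 2-elusive). -/
theorem result {F : Type*} [Field F] [Fintype F] {p : ℕ} [Fact p.Prime] [CharP F p] {q : ℕ} (hq : Fintype.card F = q)
    (d : ℕ) (hd : 2 ≤ d) (hT : (d, q) ≠ (2, 2))
    (a t : ℕ) (hat : 2 * d = a * t) (ha : 2 ≤ a) (hae : Even a) (ht : 2 ≤ t) (hΩ : 2 ∣ Nat.card {D : Fin t → Submodule F (Fin d ⊕ Fin d → F) // (Cfsg.Geo.IsMDecomposition a D ∧ (∀ j, ∀ u ∈ D j, u ≠ 0 → ∃ v ∈ D j, Cfsg.sympForm d F u v ≠ 0) ∧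
          (∀ j j', j ≠ j' → ∀ u ∈ D j, ∀ v ∈ D j', Cfsg.sympForm d F u v = 0))} / Nat.factorial t)
    (x : ↥(Matrix.symplecticGroup (Fin d) F))
    (hx1 : ∃ z : F, ((x ^ 2 : ↥(Matrix.symplecticGroup (Fin d) F)) : Matrix (Fin d ⊕ Fin d) (Fin d ⊕ Fin d) F) = z • (1 : Matrix (Fin d ⊕ Fin d) (Fin d ⊕ Fin d) F))
    (hx2 : ∀ z : F, (x : Matrix (Fin d ⊕ Fin d) (Fin d ⊕ Fin d) F) ≠ z • (1 : Matrix (Fin d ⊕ Fin d) (Fin d ⊕ Fin d) F)) :
    ∃ D : Fin t → Submodule F (Fin d ⊕ Fin d → F), (Cfsg.Geo.IsMDecomposition a D ∧ (∀ j, ∀ u ∈ D j, u ≠ 0 → ∃ v ∈ D j, Cfsg.sympForm d F u v ≠ 0) ∧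
          (∀ j j', j ≠ j' → ∀ u ∈ D j, ∀ v ∈ D j', Cfsg.sympForm d F u v = 0)) ∧
        ∃ σ : Equiv.Perm (Fin t), ∀ j, (D j).map (Matrix.toLin' (x : Matrix (Fin d ⊕ Fin d) (Fin d ⊕ Fin d) F)) = D (σ j) := by
  obtain ⟨b, rfl⟩ := hae.two_dvd
  obtain rfl : d = b * t := by nlinarith
  have h := isSS_sympB (F := F) (b * t)
  have hg : Pres (sympB (b * t) F) (fun _ => 0) (Matrix.toLin' x.1) := pres_isom (spEquiv _ F x)
  have : Nontrivial (Fin (b * t) ⊕ Fin (b * t) → F) :=
    nontrivial_of_finrank_pos (R := F) (by rw [finrank_symp]; omega)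
  obtain ⟨z, hz⟩ := hx1
  rw [SubmonoidClass.coe_pow, ← toLin'_pow_eq_smul_one_iff] at hz
  have h1 := mul_self_eq_one_iff.1 (mul_self_eq_one_of_pres h.toNd (hz ▸ hg.pow 2))
  rw [sq] at hz
  refine HasDec.sdec h hg ?_ (by simp; ring) (by omega) ht
  by_cases h2 : (2 : F) = 0
  · obtain rfl : z = 1 := h1.elim id fun e => by rw [e]; linear_combination -h2
    exact hasDec_sp_char h2 (by omega) t _ hg (by simpa using hz)
  · exact hasDec_sp_of_sq h2 b h1 t _ hg hz

end Cfsg.Agent.S5960
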