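import Cfsg.Statements.S5961
import Mathlib
import Cfsg.Agent.Class.Elus.Symp2

set_option autoImplicit false
open scoped MatrixGroups
open Cfsg

namespace Cfsg.Agent.S5961

open Cfsg.Agent.Class Cfsg.Agent.Class.Elus Cfsg.Agent.Class.Wall Module

set_option maxHeartbeats 1000000 in

/-- Elements of odd prime order of PSp_n(q) and imprimitive subgroups. Here `T = PSp_n(q)`, `n = 2d ≥ 4`, `(n, q) ≠ (4, 2)`, realised through the symplectic matrices over the field `F` with `q` elements and the standard alternating form; `n = a·t` with `a` even and `t ≥ 2`, and Ω is the (nonempty) set of orthogonal decompositions of `F^n` into `t` nondegenerate subspaces of dimension `a` (unordered; counted as ordered ones divided by `t!`), whose stabilizers are the imprimitive subgroups of type Sp_a(q) ≀ S_t (maximality is not assumed); an element of `T` of prime order `r` (a symplectic matrix `x` with `x^r` scalar, `x` not scalar) fixes a point of Ω when it permutes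 the summands of some such decomposition. Let `r ≠ p` be an odd prime dividing the number of such decompositions, let `i` be the multiplicative order of `q` modulo `r`, `c = i` if `i` is even and `c = 2i` if `i` is odd, and write `k = n mod c`, `ℓ = a mod c`. Then every element of `T` of order `r` stabilizes such a decomposition if and only if `c ≤ a` and `k = t·ℓ`. -/
theorem result {F : Type*} [Field F] [Fintype F] {p : ℕ} [Fact p.Prime] [CharP F p] {q : ℕ} (hq : Fintype.card F = q)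
    (d : ℕ) (hd : 2 ≤ d) (hT : (d, q) ≠ (2, 2))
    (a t : ℕ) (hat : 2 * d = a * t) (ha : 2 ≤ a) (hae : Even a) (ht : 2 ≤ t)
    (r : ℕ) [Fact r.Prime] (hr2 : r ≠ 2) (hrp : r ≠ p) (hΩ : r ∣ Nat.card {D : Fin t → Submodule F (Fin d ⊕ Fin d → F) // (Cfsg.Geo.IsMDecomposition a D ∧ (∀ j, ∀ u ∈ D j, u ≠ 0 → ∃ v ∈ D j, Cfsg.sympForm d F u v ≠ 0) ∧
          (∀ j j', j ≠ j' → ∀ u ∈ D j, ∀ v ∈ D j', Cfsg.sympForm d F u v = 0))} / Nat.factorial t)
    (i c : ℕ) (hi : i = orderOf (q : ZMod r)) (hc : c = if Even i then i else 2 * i) :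
    (∀ x : ↥(Matrix.symplecticGroup (Fin d) F),
      (∃ z : F, ((x ^ r : ↥(Matrix.symplecticGroup (Fin d) F)) : Matrix (Fin d ⊕ Fin d) (Fin d ⊕ Fin d) F) = z • (1 : Matrix (Fin d ⊕ Fin d) (Fin d ⊕ Fin d) F)) →
      (∀ z : F, (x : Matrix (Fin d ⊕ Fin d) (Fin d ⊕ Fin d) F) ≠ z • (1 : Matrix (Fin d ⊕ Fin d) (Fin d ⊕ Fin d) F)) →
      ∃ D : Fin t → Submodule F (Fin d ⊕ Fin d → F), (Cfsg.Geo.IsMDecomposition a D ∧ (∀ j, ∀ u ∈ D j, u ≠ 0 → ∃ v ∈ D j, Cfsg.sympForm d F u v ≠ 0) ∧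
          (∀ j j', j ≠ j' → ∀ u ∈ D j, ∀ v ∈ D j', Cfsg.sympForm d F u v = 0)) ∧
        ∃ σ : Equiv.Perm (Fin t), ∀ j, (D j).map (Matrix.toLin' (x : Matrix (Fin d ⊕ Fin d) (Fin d ⊕ Fin d) F)) = D (σ j)) ↔
    (c ≤ a ∧ (2 * d) % c = t * (a % c)) := by
  subst hq
  obtain rfl : c = cc i := hc
  obtain ⟨b, rfl⟩ := hae.two_dvd
  obtain rfl : d = b * t := by nlinarith
  have h := isSS_sympB (F := F) (b * t)
  have hn := finrank_symp (F := F) (b * t)
  have : Nontrivial (Fin (b * t) ⊕ Fin (b * t) → F) := nontrivial_of_finrank_pos (R := F) (by omega)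
  have hr := oddP_of p hr2 hrp hi
  have c0 := cc_pos hr.pos
  have hs : ∀ g, Pres (sympB (b * t) F) (fun _ => 0) g → HasDec (Ort (sympB (b * t) F)) g (2 * b) t →
      _ := fun g a1 a2 => HasDec.sdec h a1 a2 (by simp; ring) (by omega) ht
  refine (eluP_sp_iff r fun g => ∃ D : Fin t → Submodule F _, SDec (sympB (b * t) F) (2 * b) D ∧
    ∃ s : Equiv.Perm (Fin t), ∀ j, (D j).map g = D (s j)).trans ⟨fun H => ?_, fun H g a1 a2 a3 => ?_⟩
  swap
  · refine hs g a1 ((eluP_iff_odd h hr.odd fun g z a => a.smul z).2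
      (fun g b1 b2 _ => hasDec_sp_of_pow hr ?_ b1 b2) g a1 a2 a3)
    have h5 := Nat.mod_lt (2 * (b * t)) c0
    have h6 := Nat.mod_add_div' (2 * b) (cc i)
    have h7 := Nat.div_mul_le_self (2 * (b * t)) (cc i)
    refine Nat.le_of_lt_succ (Nat.lt_of_mul_lt_mul_right (a := cc i) ?_)
    nlinarith [H.2]
  have hcn : cc i ≤ 2 * (b * t) := hn ▸ IsSS.cc_le h hr ((dvd_of_dvd_card_div_factorial
    (SDec (sympB (b * t) F) (2 * b)) (fun D hD => hD.1.indep.injective (IsMDec.ne_bot hD.1))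
    (fun D σ hD => ⟨IsMDec.comp hD.1 σ, fun j => hD.2.1 _,
      fun j j' e => hD.2.2 _ _ (σ.injective.ne e)⟩) hΩ).trans (card_sdec_dvd h (by
        obtain ⟨g, a1, -, a2⟩ := exists_hasDec_sp hr b t 0 ⟨by simp, by simp⟩ (by simp)
        exact (hs g a1 a2).imp fun _ h => h.1)))
  have key : ∀ A, A ≠ 0 → A * cc i ≤ 2 * (b * t) → ∃ (g : End F _) (D : Fin t → Submodule F _)
      (σ : Equiv.Perm (Fin t)), Pres (sympB (b * t) F) (fun _ => 0) g ∧ g ^ r = 1 ∧
      Function.Injective g ∧ finrank F (LinearMap.ker (g - 1)) = 2 * (b * t) - A * cc i ∧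
      finrank F (LinearMap.range (g - 1)) = A * cc i ∧ SDec (sympB (b * t) F) (2 * b) D ∧
      (∀ i, ∀ v ∈ D i, g v ∈ D (σ i)) ∧ σ ^ r = 1 := fun A a1 a2 => by
    obtain ⟨g, b1, b2, b3, b4⟩ := IsSS.exists_fix h hr a1 (hn ▸ a2)
    obtain ⟨D, hD, σ, hσ⟩ := H g b1 ⟨1, by simpa using b2⟩ fun z e => b3 (by
      subst e
      obtain ⟨j, hj⟩ := hr.odd
      rwa [_root_.smul_pow, one_pow, hj, pow_succ, pow_mul, sq, mul_self_eq_one_of_pres h.toNd b1,
        one_pow, one_mul] at b2)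
    have h1 : ∀ i, ∀ v ∈ D i, g v ∈ D (σ i) := fun i v hv => hσ i ▸ ⟨v, hv, rfl⟩
    have h3 := LinearMap.finrank_range_add_finrank_ker (g - 1)
    exact ⟨g, D, σ, b1, b2, ((End.isUnit_iff _).1 (b1.isUnit h.toNd)).1, by omega, by omega, hD, h1,
      perm_pow_eq_one hD.1.indep (IsMDec.ne_bot hD.1) h1 (z := 1) (by simpa using b2) one_ne_zero⟩
  have hk := Nat.mod_lt (2 * (b * t)) c0
  have hm := Nat.mod_add_div' (2 * (b * t)) (cc i)
  rcases le_or_gt (cc i) (2 * b) with hca | hca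
  · obtain ⟨g, D, σ, g0, g1, g2, g3, g4, hD, g5, g6⟩ := key (2 * (b * t) / cc i)
      (Nat.div_pos hcn c0).ne' (by omega)
    refine ⟨hca, ?_⟩
    have h1 : ∀ j, σ j = j := fun j => by
      by_contra hj
      have := (le_finrank_range_aeval hr.prime hD.1.indep g2 g5 g6 hj
        (Polynomial.cyclotomic_ne_zero r F) (by
          rw [Polynomial.natDegree_cyclotomic, Nat.totient_prime hr.prime]
          exact Nat.sub_one_lt hr.prime.ne_zero)).trans (Submodule.finrank_mono (range_cyclotomic_le g1))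
      rw [hD.1.finrank_eq, g3] at this
      omega
    have h2 := sum_finrank_le_of_iSupIndep
      (hD.1.indep.mono fun i => inf_le_right (a := LinearMap.ker (g - 1))) fun i => inf_le_left
    have h3 : t * (2 * b % cc i) ≤ 2 * (b * t) - 2 * (b * t) / cc i * cc i := by
      refine le_trans ?_ (g3 ▸ h2)
      refine le_trans (by simp) (Finset.card_nsmul_le_sum _ _ (2 * b % cc i) fun j _ => ?_)
      rw [← hD.1.finrank_eq j]
      exact IsSS.mod_le_finrank_inf h hr g0 g1 ((IsSS.inf_perp_iff h _).2 (hD.2.1 j))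
        fun v hv => h1 j ▸ g5 j v hv
    rw [hat, mul_comm (2 * b) t, ← Nat.mul_mod_mod, Nat.mod_eq_of_lt (by omega)]
  · exfalso
    obtain ⟨g, D, σ, g0, g1, g2, -, g4, hD, g5, g6⟩ := key 1 one_ne_zero (by omega)
    obtain ⟨j, hj⟩ : ∃ j, σ j ≠ j := by
      by_contra! hj
      have : LinearMap.range (g - 1) = ⊥ := by
        rw [LinearMap.range_eq_map, ← hD.1.iSup_eq_top, Submodule.map_iSup, iSup_eq_bot]
        refine fun j => eq_bot_iff.2 ?_
        rintro _ ⟨v, hv, rfl⟩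
        have h1 := IsSS.mod_le_finrank_inf h hr g0 g1 ((IsSS.inf_perp_iff h _).2 (hD.2.1 j))
          fun v hv => hj j ▸ g5 j v hv
        rw [Nat.mod_eq_of_lt (by rwa [hD.1.finrank_eq])] at h1
        exact ((Submodule.eq_of_le_of_finrank_le inf_le_right h1).ge hv).1
      rw [this, finrank_bot] at g4
      omega
    have h1 := mul_le_finrank_range hr.prime hD.1.indep g2 g5 g6 hj
    rw [hD.1.finrank_eq, g4] at h1
    have h2 : i ≤ r - 1 := hi ▸ Nat.le_of_dvd (Nat.sub_pos_of_lt hr.prime.one_lt)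
      (Dvd.intro_left _ (KSG.card_cycFac_mul hr.prime hr.ne_zero))
    have h3 : (r - 1) * 2 ≤ (r - 1) * (2 * b) := Nat.mul_le_mul_left _ ha
    have h5 := Nat.odd_iff.1 hr.odd
    have := hr.prime.two_le
    rcases i.even_or_odd with he | he
    · rw [cc_of_even he] at h1; omega
    · rw [cc_of_odd he] at h1
      obtain rfl : i = r - 1 := by omega
      rw [Nat.odd_iff] at he; omega

end Cfsg.Agent.S5961
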