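import Cfsg.Statements.S5963
import Mathlib
import Cfsg.Agent.Class.Elus.Symp2

set_option autoImplicit false
open scoped MatrixGroups
open Cfsg

namespace Cfsg.Agent.S5963

open Cfsg.Agent.Class Cfsg.Agent.Class.Elus Cfsg.Agent.Class.Wall Module

set_option maxHeartbeats 1000000 in

/-- Derangements of odd prime order of PSp_n(q), q odd, on pairs of complementary totally isotropic subspaces. Here `T = PSp_n(q)`, `n = 2d ≥ 4`, `q` odd, realised through the symplectic matrices over the field `F` with `q` elements; Ω is the set of unordered pairs `{U, W}` of complementary totally isotropic `d`-spaces (`F^n = U ⊕ W`), whose stabilizers are the subgroups of type GL_d(q).2 (maximal except in some small cases; maximality is not assumed); an element of `T` of prime order `r` (a symplectic matrix `x` with `x^r` scalar, `x` not scalar) fixes such a pair when it fixes or interchanges `U` and `W`. For every odd prime `r ≠ p` dividing the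 number of such pairs, some element of `T` of order `r` fixes no such pair (the action is never `r`-elusive for odd `r ≠ p`). -/
theorem result {F : Type*} [Field F] [Fintype F] {p : ℕ} [Fact p.Prime] [CharP F p] {q : ℕ} (hq : Fintype.card F = q)
    (d : ℕ) (hd : 2 ≤ d) (hT : (d, q) ≠ (2, 2)) (hodd : Odd q)
    (r : ℕ) [Fact r.Prime] (hr2 : r ≠ 2) (hrp : r ≠ p) (hΩ : r ∣ Nat.card {P : Submodule F (Fin d ⊕ Fin d → F) × Submodule F (Fin d ⊕ Fin d → F) // IsCompl P.1 P.2 ∧ (∀ u ∈ P.1, ∀ v ∈ P.1, Cfsg.sympForm d F u v = 0) ∧ (∀ u ∈ P.2, ∀ v ∈ P.2, Cfsg.sympForm d F u v = 0)} / 2) :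
    ∃ x : ↥(Matrix.symplecticGroup (Fin d) F),
      (∃ z : F, ((x ^ r : ↥(Matrix.symplecticGroup (Fin d) F)) : Matrix (Fin d ⊕ Fin d) (Fin d ⊕ Fin d) F) = z • (1 : Matrix (Fin d ⊕ Fin d) (Fin d ⊕ Fin d) F)) ∧
      (∀ z : F, (x : Matrix (Fin d ⊕ Fin d) (Fin d ⊕ Fin d) F) ≠ z • (1 : Matrix (Fin d ⊕ Fin d) (Fin d ⊕ Fin d) F)) ∧
      ¬ (∃ U W : Submodule F (Fin d ⊕ Fin d → F), IsCompl U W ∧ (∀ u ∈ U, ∀ v ∈ U, Cfsg.sympForm d F u v = 0) ∧ (∀ u ∈ W, ∀ v ∈ W, Cfsg.sympForm d F u v = 0) ∧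
        ((U.map (Matrix.toLin' (x : Matrix (Fin d ⊕ Fin d) (Fin d ⊕ Fin d) F)) = U ∧ W.map (Matrix.toLin' (x : Matrix (Fin d ⊕ Fin d) (Fin d ⊕ Fin d) F)) = W) ∨
         (U.map (Matrix.toLin' (x : Matrix (Fin d ⊕ Fin d) (Fin d ⊕ Fin d) F)) = W ∧ W.map (Matrix.toLin' (x : Matrix (Fin d ⊕ Fin d) (Fin d ⊕ Fin d) F)) = U))) := by
  subst hq
  have h := isSS_sympB (F := F) d
  have hn := finrank_symp (F := F) d
  have : Nontrivial (Fin d ⊕ Fin d → F) := nontrivial_of_finrank_pos (R := F) (by omega)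
  have hr := oddP_of (F := F) p hr2 hrp rfl
  set i := orderOf (Fintype.card F : ZMod r)
  have hN : r ∣ Nat.card {P // LagP (sympB d F) P} := by
    refine dvd_of_dvd_card_div_two (LagP (sympB d F)) (fun P hP e => ?_)
      (fun P hP => ⟨hP.1.symm, hP.2.2, hP.2.1⟩) hΩ
    have := hP.finrank_eq h
    have h1 := hP.1.inf_eq_bot
    rw [← e, inf_idem] at h1
    rw [h1, finrank_bot] at this
    omega
  obtain ⟨a1, a2⟩ := IsSS.even_of_dvd_card_lagP h hr hN
  obtain ⟨B₀, h₀, hV⟩ := IsSS.exists_isHSum h (m := d) (l := 0) hn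
  have h1 := forall_tss_iff_even fType_sp hr a1 hV h (isSS_sympB 0) (IsSS.cap h hr)
    (IsSS.cap (isSS_sympB 0) hr) (by simpa [finrank_symp] using Nat.div_pos a2 hr.pos)
  have h2 : 0 < (r - 1) / i := Nat.div_pos (Nat.le_of_dvd (Nat.sub_pos_of_lt hr.prime.one_lt)
    (Dvd.intro_left _ (KSG.card_cycFac_mul hr.prime hr.ne_zero))) hr.pos
  rw [finrank_symp (F := F) 0, mul_zero, Nat.zero_div, iff_false_intro (by omega : ¬ (_ ∧ _)), iff_false,
    ← eluP_iff_odd h hr.odd exists_inv_smul, ← eluP_sp_iff] at h1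
  push Not at h1
  obtain ⟨x, ⟨z, b1⟩, b2, b3⟩ := h1
  refine ⟨x, ⟨z, b1⟩, b2, fun ⟨U, W, c1, c2, c3, c4⟩ => ?_⟩
  have c5 := LagP.finrank_eq (P := (U, W)) ⟨c1, c2, c3⟩ h
  rcases c4 with ⟨c4, -⟩ | ⟨c4, c6⟩
  · exact b3 U ⟨by simp at c5 ⊢; omega, (IsSS.tss_iff h).2 c2⟩ (inv_iff_map_le.2 c4.le)
  rw [SubmonoidClass.coe_pow, ← toLin'_pow_eq_smul_one_iff] at b1
  have hz := mul_self_eq_one_of_pres h.toNd (b1 ▸ (pres_isom (spEquiv d F x)).pow r)
  obtain ⟨j, hj⟩ := hr.odd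
  have c7 : ∀ k, U.map (Matrix.toLin' x.1 ^ (2 * k)) = U := fun k => by
    induction k with
    | zero => simp [End.one_eq_id]
    | succ k ih => rw [mul_add, pow_add, mul_one, sq, End.mul_eq_comp, End.mul_eq_comp,
        Submodule.map_comp, Submodule.map_comp, c4, c6, ih]
  have c8 : U.map (Matrix.toLin' x.1 ^ r) = W := by
    rw [hj, pow_succ', End.mul_eq_comp, Submodule.map_comp, c7, c4]
  rw [b1, Submodule.map_smul _ _ _ (left_ne_zero_of_mul_eq_one hz), End.one_eq_id, Submodule.map_id] at c8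
  have c9 := c1.inf_eq_bot
  rw [← c8, inf_idem] at c9
  have := c5.1
  rw [show (U, W).1 = ⊥ from c9, finrank_bot] at this
  omega

end Cfsg.Agent.S5963
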