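import Cfsg.Statements.S5972
import Mathlib
import Cfsg.Agent.Class.Elus.Orth4

set_option autoImplicit false
open scoped MatrixGroups
open Cfsg

namespace Cfsg.Agent.S5972

open Cfsg.Agent.Class Cfsg.Agent.Class.Elus Cfsg.Agent.Class.Wall Module

set_option maxHeartbeats 1000000 in

/-- Elements of prime order of Ω_n(q), n = 2d+1 ≥ 7, q odd, with no fixed totally singular `m`-space. Here `T = Ω_n(q)` is realised as the commutator subgroup of the isometry group of the quadratic form `x₀² + Σ xᵢyᵢ` over the field `F` with `q` elements (it has trivial centre, so its elements of prime order `r` are used directly); let `1 ≤ m ≤ d` and let `r` be a prime dividing the number of totally singular `m`-spaces. For `r ≠ p` let `i` be the multiplicative order of `q` modulo `r`, `c = i` for `i` even and `c = 2i` for `i` odd, and write `k = n mod c`, `ℓ = m mod i`, `n' = ⌊n/i⌋`, `m' = ⌊m/i⌋`, `t = (r−1)/i`. Then every element of `T` of order `r` fixes some totally singular `m`-space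 if and only if either (i) `r = 2` and (`m < (n−1)/2` or `q ≡ 1 (mod 4)`); or (ii) `r ≠ p` is odd, `i ≤ m`, `k > 2ℓ`, and (`i` is odd or `n' − 2m' ≥ t`). -/
theorem result {F : Type*} [Field F] [Fintype F] {p : ℕ} [Fact p.Prime] [CharP F p] {q : ℕ} (hq : Fintype.card F = q) (hqodd : Odd q)
    (d m : ℕ) (hd : 3 ≤ d) (hm : 1 ≤ m) (hmd : m ≤ d)
    (r : ℕ) [Fact r.Prime]
    (hrΩ : r ∣ Nat.card {W : Submodule F (Unit ⊕ (Fin d ⊕ Fin d) → F) // Module.finrank F ↥W = m ∧ (∀ w ∈ W, Cfsg.quadFormOdd d F w = 0)})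
    (i c : ℕ) (hi : i = orderOf (q : ZMod r)) (hc : c = if Even i then i else 2 * i) :
    (∀ x : GL (Unit ⊕ (Fin d ⊕ Fin d)) F, x ∈ Cfsg.Geo.omegaGL (Cfsg.quadFormOdd d F) → orderOf x = r →
      ∃ W : Submodule F (Unit ⊕ (Fin d ⊕ Fin d) → F), Module.finrank F ↥W = m ∧ (∀ w ∈ W, Cfsg.quadFormOdd d F w = 0) ∧
        W.map (Matrix.toLin' (x : Matrix (Unit ⊕ (Fin d ⊕ Fin d)) (Unit ⊕ (Fin d ⊕ Fin d)) F)) ≤ W) ↔
    ((r = 2 ∧ (m < d ∨ q % 4 = 1)) ∨
     (r ≠ p ∧ 2 < r ∧ i ≤ m ∧ 2 * (m % i) < (2 * d + 1) % c ∧ (Odd i ∨ (r - 1) / i + 2 * (m / i) ≤ (2 * d + 1) / i))) := by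
  subst hq
  obtain rfl : c = cc i := hc
  have h2 := Orth.two_ne_zero_of_odd_card hqodd
  have h := isOS_oddQF (F := F) h2 d
  have hn : finrank F (Unit ⊕ (Fin d ⊕ Fin d) → F) = 2 * d + 1 := by simp; omega
  simp only [← and_assoc]
  rw [elu_iff_orderOf _ (Orth.oddQF_apply d F) fun z => IsOS.eq_one_of_inOm h (by simp [hn])]
  simp only [← Orth.oddQF_apply, and_assoc] at hrΩ ⊢
  have hrp := ne_char_of_coprime p (IsOS.coprime_card_tss h (by omega)) hrΩ
  by_cases hr2 : r = 2
  · subst hr2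
    rw [IsOS.elu_two_tss h2 h (by omega) (by omega), hn]
    simp
    omega
  have hr := oddP_of p hr2 hrp hi
  have := hr.prime.two_le
  obtain ⟨a1, a3⟩ := IsOS.forall_tss h hr hn (by omega)
    (iff_false_intro fun p => by simpa [hn] using Plus.even p) hrΩ
  rw [IsOS.elu_iff_odd h (by omega) hr.odd, a3]
  have c0 := cc_pos hr.pos
  have c1 := div_mod_facts c0 (even_cc i).two_dvd (2 * d + 1)
  have c2 := div_mod_facts c0 (even_cc i).two_dvd (2 * m)
  have c3 := div_mod_facts c0 (even_cc i).two_dvd (2 * d + 1 - 2 * m)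
  have c4 := sub_div_mod c0 (show 2 * m ≤ 2 * d + 1 by omega)
  have c5 := Nat.zero_le ((r - 1) / i)
  have c6 := Nat.one_le_div_iff (a := m) hr.pos
  have c7 := Nat.div_pos (Nat.le_of_dvd (by omega) (hi ▸ ZMod.orderOf_dvd_card_sub_one
    (a := (Fintype.card F : ZMod r)) (by simpa [ZMod.natCast_eq_zero_iff] using hr.not_dvd_card))) hr.pos
  clear hrΩ a3
  rcases i.even_or_odd with he | he
  · have b1 := bl_of_even he (2 * d + 1) False
    have b3 := bl_of_even he (2 * d + 1 - 2 * m) False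
    have c8 := two_mul_div_mod hr.pos m
    rw [cc_of_even he] at *
    simp only [he, Nat.not_odd_iff_even.2 he, true_and, false_and, false_or, false_iff, hr2, hrp, ne_eq,
      not_false_eq_true] at b1 b3 ⊢
    omega
  · have b1 := bl_of_odd he (2 * d + 1) False
    have b3 := bl_of_odd he (2 * d + 1 - 2 * m) False
    rw [cc_of_odd he] at *
    rw [Nat.mul_div_mul_left _ _ two_pos, Nat.mul_mod_mul_left] at c2 c4
    simp only [he, Nat.not_even_iff_odd.2 he, true_and, false_and, false_or, or_false, true_or, and_true,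
      hr2, hrp, ne_eq, not_false_eq_true] at b1 b3 ⊢
    omega

end Cfsg.Agent.S5972
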