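import Cfsg.Statements.S5973
import Mathlib
import Cfsg.Agent.Class.Elus.Orth4

set_option autoImplicit false
open scoped MatrixGroups
open Cfsg

namespace Cfsg.Agent.S5973

open Cfsg.Agent.Class Cfsg.Agent.Class.Elus Cfsg.Agent.Class.Wall Module

set_option maxHeartbeats 1000000 in

/-- Elements of prime order of PΩ⁺_n(q), n = 2d ≥ 8, with no fixed totally singular `m`-space, `m < n/2`. Here `T = PΩ⁺_n(q)` is realised through `Ω⁺_n(q)`, the commutator subgroup of the isometry group of the quadratic form `Σ xᵢyᵢ` over the field `F` with `q` elements; an element of `T` of prime order `r` is an element `x` of `Ω⁺_n(q)` with `x^r` scalar and `x` not scalar. Let `1 ≤ m < d` and let `r` be a prime dividing the number of totally singular `m`-spaces. For `r ≠ p` let `i` be the multiplicative order of `q` modulo `r`, `c = i` for `i` even and `c = 2i` for `i` odd, and write `k = n mod c`, `ℓ = m mod i`, `n' = ⌊n/i⌋`, `m' = ⌊m/i⌋`, `t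 = (r−1)/i`. Then every element of `T` of order `r` fixes some totally singular `m`-space if and only if one of: (i) `r = 2 ≠ p` and either `q ≡ 1 (mod 4)`, or `q ≡ 3 (mod 4)`, `m ≤ n/2 − 2` and (`m` even or `n ≡ 2 (mod 4)`); (ii) `r ≠ p` odd, `i` odd, `i ≤ m` and `k ≥ 2ℓ`; (iii) `r ≠ p` odd, `i` even, `i ≤ m`, `n' − 2m' ≥ t`, and one of: `i ≥ 2ℓ`, `k = 0`, `n/i` odd and `n' − 2m' > t`; or `k ≥ 2ℓ` and `n'` even; or `k > 2ℓ` and `n'` odd. -/
theorem result {F : Type*} [Field F] [Fintype F] {p : ℕ} [Fact p.Prime] [CharP F p] {q : ℕ} (hq : Fintype.card F = q)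
    (d m : ℕ) (hd : 4 ≤ d) (hm : 1 ≤ m) (hmd : m < d)
    (r : ℕ) [Fact r.Prime]
    (hrΩ : r ∣ Nat.card {W : Submodule F (Fin d ⊕ Fin d → F) // Module.finrank F ↥W = m ∧ (∀ w ∈ W, Cfsg.quadFormPlus d F w = 0)})
    (i c : ℕ) (hi : i = orderOf (q : ZMod r)) (hc : c = if Even i then i else 2 * i) :
    (∀ x : GL (Fin d ⊕ Fin d) F, x ∈ Cfsg.Geo.omegaGL (Cfsg.quadFormPlus d F) →
      (∃ z : F, ((x ^ r : GL (Fin d ⊕ Fin d) F) : Matrix (Fin d ⊕ Fin d) (Fin d ⊕ Fin d) F) = z • (1 : Matrix (Fin d ⊕ Fin d) (Fin d ⊕ Fin d) F)) →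
      (∀ z : F, (x : Matrix (Fin d ⊕ Fin d) (Fin d ⊕ Fin d) F) ≠ z • (1 : Matrix (Fin d ⊕ Fin d) (Fin d ⊕ Fin d) F)) →
      ∃ W : Submodule F (Fin d ⊕ Fin d → F), Module.finrank F ↥W = m ∧ (∀ w ∈ W, Cfsg.quadFormPlus d F w = 0) ∧
        W.map (Matrix.toLin' (x : Matrix (Fin d ⊕ Fin d) (Fin d ⊕ Fin d) F)) ≤ W) ↔
    ((r = 2 ∧ p ≠ 2 ∧ (q % 4 = 1 ∨ (q % 4 = 3 ∧ m + 2 ≤ d ∧ (Even m ∨ (2 * d) % 4 = 2)))) ∨
     (r ≠ p ∧ 2 < r ∧ Odd i ∧ i ≤ m ∧ 2 * (m % i) ≤ (2 * d) % c) ∨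
     (r ≠ p ∧ 2 < r ∧ Even i ∧ i ≤ m ∧ (r - 1) / i + 2 * (m / i) ≤ (2 * d) / i ∧
       ((2 * (m % i) ≤ i ∧ (2 * d) % c = 0 ∧ Odd ((2 * d) / i) ∧ (r - 1) / i + 2 * (m / i) < (2 * d) / i) ∨
        (2 * (m % i) ≤ (2 * d) % c ∧ Even ((2 * d) / i)) ∨
        (2 * (m % i) < (2 * d) % c ∧ Odd ((2 * d) / i))))) := by
  subst hq
  obtain rfl : c = cc i := hc
  have h := isOS_plusQF (F := F) d
  have hn : finrank F (Fin d ⊕ Fin d → F) = 2 * d := by simp; omega
  have hpl : Plus F (Orth.plusQF d F) := Orth.isPlus_plusQF d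
  simp only [← and_assoc]
  rw [elu_iff _ (Orth.plusQF_apply d F)]
  simp only [← Orth.plusQF_apply, and_assoc] at hrΩ ⊢
  have hrp := ne_char_of_coprime p (IsOS.coprime_card_tss h (by omega)) hrΩ
  by_cases hr2 : r = 2
  · subst hr2
    have h2 := (two_ne_zero_iff_char F p).2 hrp.symm
    have := Orth.card_mod_two_of_two_ne_zero h2
    rw [IsOS.elu_two_tss h2 h (by omega) (by omega), IsOS.dsc_eq_one_iff h2 h hn, hn,
      isSquare_two_pow_iff h2, Nat.mul_div_cancel_left _ two_pos]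
    simp only [hpl, hrp.symm, Nat.even_iff, ne_eq, not_true, not_false_eq_true, true_and, true_iff,
      and_false, or_false, lt_irrefl, false_and]
    omega
  have hr := oddP_of p hr2 hrp hi
  have := hr.prime.two_le
  obtain ⟨a1, a3⟩ := IsOS.forall_tss h hr hn (by omega) (iff_true_intro hpl) hrΩ
  rw [IsOS.elu_iff_odd h (by omega) hr.odd, a3]
  have c0 := cc_pos hr.pos
  obtain ⟨c1, c1', c1'', -⟩ := div_mod_facts c0 (even_cc i).two_dvd (2 * d)
  obtain ⟨c2, c2', c2'', -⟩ := div_mod_facts c0 (even_cc i).two_dvd (2 * m)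
  obtain ⟨c3, c3', c3'', -⟩ := div_mod_facts c0 (even_cc i).two_dvd (2 * d - 2 * m)
  have c4 := sub_div_mod c0 (show 2 * m ≤ 2 * d by omega)
  have c5 := Nat.zero_le ((r - 1) / i)
  have c6 := Nat.one_le_div_iff (a := m) hr.pos
  have c7 := Nat.div_pos (Nat.le_of_dvd (by omega) (hi ▸ ZMod.orderOf_dvd_card_sub_one
    (a := (Fintype.card F : ZMod r)) (by simpa [ZMod.natCast_eq_zero_iff] using hr.not_dvd_card))) hr.pos
  clear hrΩ a3
  rcases i.even_or_odd with he | he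
  · have b1 := bl_of_even he (2 * d) True
    have b3 := bl_of_even he (2 * d - 2 * m) True
    have c8 := two_mul_div_mod hr.pos m
    rw [cc_of_even he] at *
    simp only [he, Nat.not_odd_iff_even.2 he, true_and, false_and, false_or, true_iff, hr2, hrp, ne_eq,
      not_false_eq_true, Nat.even_iff (n := 2 * d / i), Nat.odd_iff (n := 2 * d / i), and_false]
      at b1 b3 ⊢
    generalize bl i (2 * d) True = x, bl i (2 * d - 2 * m) True = y, 2 * d / i = n₁, 2 * d % i = k,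
      (2 * d - 2 * m) / i = e, (2 * d - 2 * m) % i = j, 2 * m / i = u, 2 * m % i = l, m / i = m',
      m % i = l', (r - 1) / i = t at *
    clear hn hi h hr hpl
    rcases c4 with c4 | c4 <;> rcases c8 with c8 | c8 <;> rcases b1 with b1 | b1 <;>
      rcases b3 with b3 | b3 <;> omega
  · have b1 := bl_of_odd he (2 * d) True
    have b3 := bl_of_odd he (2 * d - 2 * m) True
    rw [cc_of_odd he] at *
    rw [Nat.mul_div_mul_left m i two_pos, Nat.mul_mod_mul_left 2 m i] at *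
    simp only [he, Nat.not_even_iff_odd.2 he, true_and, false_and, false_or, or_false, or_true,
      hr2, hrp, ne_eq, not_false_eq_true, not_true, and_false] at b1 b3 ⊢
    omega

end Cfsg.Agent.S5973
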