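import Cfsg.Statements.S5974
import Mathlib
import Cfsg.Agent.Class.Elus.Char2

set_option autoImplicit false
open scoped MatrixGroups
open Cfsg

namespace Cfsg.Agent.S5974

open Cfsg.Agent.Class Cfsg.Agent.Class.Elus Cfsg.Agent.Class.Wall Module

set_option maxHeartbeats 1000000 in

/-- Elements of prime order of PΩ⁺_n(q), n = 2d ≥ 8, with no fixed nondegenerate hyperbolic `m`-space. Here `T = PΩ⁺_n(q)` is realised through `Ω⁺_n(q)`, the commutator subgroup of the isometry group of `Q = Σ xᵢyᵢ` over the field `F` with `q` elements; an element of `T` of prime order `r` is an element `x` of `Ω⁺_n(q)` with `x^r` scalar and `x` not scalar. A hyperbolic `m`-space is a subspace `W` of even dimension `m` on which the polar form of `Q` is nondegenerate and which contains a totally singular subspace of dimension `m/2`. Let `m` be even with `2 ≤ m < n/2`, and let `r` be a prime dividing the number of hyperbolic `m`-spaces, with `r = 2` or `r ≠ p`. For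 `r ≠ p` let `i` be the multiplicative order of `q` modulo `r`, `c = i` for `i` even and `c = 2i` for `i` odd, and write `k = n mod c`, `ℓ' = m mod c`. Then every element of `T` of order `r` fixes some hyperbolic `m`-space if and only if one of: (i) `r = 2` and (`n ≡ 2 (mod 4)`, or `m ≡ 0 (mod 4)`, or `q ≡ 1 (mod 4)`); (ii) `r ≠ p` odd, `i` odd, `c ≤ m` and `k ≥ ℓ'`; (iii) `r ≠ p` odd, `i` even, and either `k = 0` and (`n/i` odd, or `ℓ' = 0` and `m/i` even), or `i ≤ m` and (`k > ℓ' > 0`, or `k = ℓ' > 0` and `(n + m − 2k)/i` even, or `k > ℓ' = 0` and `m/i` even). -/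
theorem result {F : Type*} [Field F] [Fintype F] {p : ℕ} [Fact p.Prime] [CharP F p] {q : ℕ} (hq : Fintype.card F = q)
    (d m : ℕ) (hd : 4 ≤ d) (hm : 2 ≤ m) (hme : Even m) (hmd : m < d)
    (r : ℕ) [Fact r.Prime] (hr : r = 2 ∨ r ≠ p)
    (hrΩ : r ∣ Nat.card {W : Submodule F (Fin d ⊕ Fin d → F) // (Module.finrank F ↥W = m ∧ (∀ u ∈ W, u ≠ 0 → ∃ v ∈ W, QuadraticMap.polar (Cfsg.quadFormPlus d F) u v ≠ 0) ∧
          ∃ U : Submodule F (Fin d ⊕ Fin d → F), U ≤ W ∧ 2 * Module.finrank F ↥U = m ∧ ∀ u ∈ U, Cfsg.quadFormPlus d F u = 0)})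
    (i c : ℕ) (hi : i = orderOf (q : ZMod r)) (hc : c = if Even i then i else 2 * i) :
    (∀ x : GL (Fin d ⊕ Fin d) F, x ∈ Cfsg.Geo.omegaGL (Cfsg.quadFormPlus d F) →
      (∃ z : F, ((x ^ r : GL (Fin d ⊕ Fin d) F) : Matrix (Fin d ⊕ Fin d) (Fin d ⊕ Fin d) F) = z • (1 : Matrix (Fin d ⊕ Fin d) (Fin d ⊕ Fin d) F)) →
      (∀ z : F, (x : Matrix (Fin d ⊕ Fin d) (Fin d ⊕ Fin d) F) ≠ z • (1 : Matrix (Fin d ⊕ Fin d) (Fin d ⊕ Fin d) F)) →
      ∃ W : Submodule F (Fin d ⊕ Fin d → F), (Module.finrank F ↥W = m ∧ (∀ u ∈ W, u ≠ 0 → ∃ v ∈ W, QuadraticMap.polar (Cfsg.quadFormPlus d F) u v ≠ 0) ∧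
          ∃ U : Submodule F (Fin d ⊕ Fin d → F), U ≤ W ∧ 2 * Module.finrank F ↥U = m ∧ ∀ u ∈ U, Cfsg.quadFormPlus d F u = 0) ∧
        W.map (Matrix.toLin' (x : Matrix (Fin d ⊕ Fin d) (Fin d ⊕ Fin d) F)) ≤ W) ↔
    ((r = 2 ∧ ((2 * d) % 4 = 2 ∨ m % 4 = 0 ∨ q % 4 = 1)) ∨
     (r ≠ p ∧ 2 < r ∧ Odd i ∧ c ≤ m ∧ m % c ≤ (2 * d) % c) ∨
     (r ≠ p ∧ 2 < r ∧ Even i ∧
       (((2 * d) % c = 0 ∧ (Odd ((2 * d) / i) ∨ (m % c = 0 ∧ Even (m / i)))) ∨
        (i ≤ m ∧ ((m % c < (2 * d) % c ∧ 0 < m % c) ∨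
                  ((2 * d) % c = m % c ∧ 0 < m % c ∧ Even ((2 * d + m - 2 * ((2 * d) % c)) / i)) ∨
                  (0 < (2 * d) % c ∧ m % c = 0 ∧ Even (m / i))))))) := by
  subst hq
  obtain rfl : c = cc i := hc
  have h := isOS_plusQF (F := F) d
  have hn : finrank F (Fin d ⊕ Fin d → F) = 2 * d := by simp; omega
  obtain ⟨B₁, Q₁, h₁, hp⟩ := exists_isOS_plus_iff (F := F) (m := m) (by omega) hme True
  have hP : ∀ W : Submodule F (Fin d ⊕ Fin d → F), (finrank F W = m ∧ (∀ u ∈ W, u ≠ 0 → ∃ v ∈ W,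
      QuadraticMap.polar (Cfsg.quadFormPlus d F) u v ≠ 0) ∧ ∃ U : Submodule F (Fin d ⊕ Fin d → F),
      U ≤ W ∧ 2 * finrank F U = m ∧ ∀ u ∈ U, Cfsg.quadFormPlus d F u = 0) ↔
      IsoS (QuadraticMap.polarBilin (Orth.plusQF d F)) (Orth.plusQF d F) B₁ Q₁ W := by
    intro W
    rw [← plusType_iff (Orth.plusQF_apply d F) h h₁ (finrank_fin_fun F) (hp.2 trivial)]
    refine and_congr_right fun e => and_congr ⟨fun H w a1 a2 => ⟨?_, H w a1 a2⟩,
      fun H w a1 a2 => (H w a1 a2).2⟩ ⟨fun ⟨U, a1, a2, a3⟩ => ⟨U, a1, a3, a2.trans e.symm⟩,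
      fun ⟨U, a1, a2, a3⟩ => ⟨U, a1, a3.trans e, a2⟩⟩
    simpa only [QuadraticMap.polar_comm _ w] using H w a1 a2
  have hpl : Plus F (Orth.plusQF d F) ↔ True := iff_true_intro (Orth.isPlus_plusQF d)
  rw [elu_iff _ (Orth.plusQF_apply d F), elu_congr hP]
  simp only [hP] at hrΩ
  rw [Nat.even_iff] at hme
  by_cases hr2 : r = 2
  · subst hr2
    simp only [true_and, lt_self_iff_false, false_and, and_false, or_false]
    by_cases h2 : (2 : F) = 0
    · rw [IsOS.elu_two_isoS_char h2 h h₁ hn (finrank_fin_fun F) (by omega) (by omega) hpl hp]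
      have := char_dvd_card F p
      rw [not_not.1 (mt (two_ne_zero_iff_char F p).2 (not_not.2 h2))] at this
      simp only [wi, if_true]
      omega
    · rw [IsOS.elu_two_isoS h2 h h₁ (by simp; omega) (by simp; omega), hn,
        IsOS.dsc_eq_one_iff h2 h hn, IsOS.dsc_eq_one_iff h2 h₁ (d := m / 2) (by simp; omega),
        isSquare_two_pow_iff h2, hpl, hp, finrank_fin_fun]
      simp only [true_iff, Nat.even_iff]
      omega
  have hrp := hr.resolve_left hr2
  have hr := oddP_of p hr2 hrp hi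
  have := hr.prime.two_le
  obtain ⟨a1, a2, a3⟩ := IsOS.forall_isoS h h₁ hr hn (finrank_fin_fun F) (by omega) (by omega)
    (Or.inr (even_two_mul d)) hpl hp hrΩ
  rw [IsOS.elu_iff_odd h (by omega) hr.odd, a3]
  have c0 := cc_pos hr.pos
  have c1 := div_mod_facts c0 (even_cc i).two_dvd (2 * d)
  have c2 := div_mod_facts c0 (even_cc i).two_dvd m
  have c3 := div_mod_facts c0 (even_cc i).two_dvd (2 * d - m)
  have c4 := sub_div_mod c0 (show m ≤ 2 * d by omega)
  have c5 : m % cc i ≠ 2 * d % cc i ∨ _ := (em _).symm.imp_right (add_sub_div c0)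
  have c6 : 2 < r := by omega
  clear hrΩ a3 hP
  rcases i.even_or_odd with he | he
  · have b1 := bl_of_even he (2 * d) True
    have b2 := bl_of_even he m True
    have b3 := bl_of_even he (2 * d - m) (True ↔ True)
    rw [cc_of_even he] at *
    simp only [he, Nat.not_odd_iff_even.2 he, hr2, hrp, c6, Nat.even_iff (n := _ / i),
      Nat.odd_iff (n := _ / i), true_iff, true_and, false_and, and_false, false_or, ne_eq,
      not_false_eq_true] at b1 b2 b3 a1 a2 ⊢
    generalize bl i (2 * d) True = x1 at *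
    generalize bl i m True = x2 at *
    generalize bl i (2 * d - m) True = x3 at *
    generalize (2 * d + m - 2 * (2 * d % i)) / i = y0 at *
    generalize (2 * d) / i = y1 at *
    generalize m / i = y2 at *
    generalize (2 * d - m) / i = y3 at *
    generalize (2 * d) % i = z1 at *
    generalize m % i = z2 at *
    generalize (2 * d - m) % i = z3 at *
    rcases c4 with c4 | c4 <;> rcases b1 with b1 | b1 <;> rcases b3 with b3 | b3 <;> omega
  · have b1 := bl_of_odd he (2 * d) True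
    have b2 := bl_of_odd he m True
    have b3 := bl_of_odd he (2 * d - m) (True ↔ True)
    rw [cc_of_odd he] at *
    simp only [he, Nat.not_even_iff_odd.2 he, hr2, hrp, c6, true_and, false_and,
      and_false, false_or, or_false, or_true, ne_eq, not_false_eq_true, not_true] at b1 b2 b3 a1 a2 ⊢
    omega

end Cfsg.Agent.S5974
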