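import Cfsg.Statements.S5980
import Mathlib
import Cfsg.Agent.Class.Elus.Tens2

set_option autoImplicit false
open scoped MatrixGroups
open Cfsg

namespace Cfsg.Agent.S5980

open Cfsg.Agent.Class Cfsg.Agent.Class.Elus Cfsg.Agent.Class.Wall Module

set_option maxHeartbeats 1000000 in

/-- Elements of prime order of PSp_n(q), q odd, and the stabilizers of tensor decompositions Sp_a(q) ⊗ O_b(q). Here `T = PSp_{2d}(F)` for a field `F` with `q` elements, `q` odd, `d ≥ 2`, realised through the matrices preserving the standard alternating form `f`; `2d = a·b` with `a` even, `b ≥ 3`, and the bijection `e` and change of basis `P` exhibit `f` as a non-zero scalar multiple of the tensor product of a non-degenerate alternating form `f₁` on `F^a` and a non-degenerate symmetric bilinear form `f₂` on `F^b`; `H` is the subgroup of `T` stabilizing this tensor decomposition (the elements of `T` in the conjugate by `P` of the group of Kronecker products) — a subgroup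 of type Sp_a(q) ⊗ O^ε_b(q) (maximality is not assumed). Ω is the set of cosets of `H` in `T`, so an element of `T` of prime order `r` (`x ∈ T` with `x^r` scalar, `x` not scalar) fixes a point of Ω exactly when some `T`-conjugate of `x` lies in `H`. Let `r` be a prime dividing the index of `H`. Then every element of `T` of order `r` fixes a point of Ω if and only if `r = 2` and `a = 2`. -/
theorem result {F : Type*} [Field F] [Fintype F] {p : ℕ} [Fact p.Prime] [CharP F p] {q : ℕ} (hq : Fintype.card F = q)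
    (hodd : Odd q) (d : ℕ) (hd : 2 ≤ d) (a b : ℕ) (hab : 2 * d = a * b) (ha : Even a) (ha2 : 2 ≤ a) (hb : 3 ≤ b)
    (e : (Fin d ⊕ Fin d) ≃ Fin a × Fin b) (P : GL (Fin d ⊕ Fin d) F)
    (f₁ : (Fin a → F) → (Fin a → F) → F) (f₂ : (Fin b → F) → (Fin b → F) → F)
    (hf₁ : Cfsg.Geo.IsSymplecticForm f₁) (hf₂ : Cfsg.Geo.IsSymmetricForm f₂)
    (hS : Cfsg.Geo.IsTensorFormStructure id (Cfsg.sympForm d F) f₁ f₂ e P)
    (r : ℕ) [Fact r.Prime]
    (hΩ : r ∣ (Cfsg.Geo.tensorProductSubgroup a b e P).relIndex (Cfsg.spGL d F)) :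
    (∀ x ∈ Cfsg.spGL d F, (∃ z : F, ((x ^ r : GL (Fin d ⊕ Fin d) F) : Matrix (Fin d ⊕ Fin d) (Fin d ⊕ Fin d) F) = z • (1 : Matrix (Fin d ⊕ Fin d) (Fin d ⊕ Fin d) F)) →
      (∀ z : F, (x : Matrix (Fin d ⊕ Fin d) (Fin d ⊕ Fin d) F) ≠ z • (1 : Matrix (Fin d ⊕ Fin d) (Fin d ⊕ Fin d) F)) →
      ∃ g ∈ Cfsg.spGL d F, g⁻¹ * x * g ∈ Cfsg.Geo.tensorProductSubgroup a b e P) ↔ (r = 2 ∧ a = 2) := by
  subst hq
  have h2 := Orth.two_ne_zero_of_odd_card hodd
  obtain ⟨c, c0, hc⟩ := Max.exists_tm_eq (Asch.isSesq_of_bilinear hf₁.bilinear)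
    (Asch.isSesq_of_bilinear hf₂.bilinear) hS
  have g₁ := Max.symplectic_smul hf₁ c0
  let B₁ := LinearMap.mk₂ F (fun x y => c * f₁ x y) g₁.bilinear.1 g₁.bilinear.2 g₁.bilinear.3 g₁.bilinear.4
  let B₂ := LinearMap.mk₂ F f₂ hf₂.bilinear.1 hf₂.bilinear.2 hf₂.bilinear.3 hf₂.bilinear.4
  have h₁ : IsSS B₁ fun _ => 0 := ⟨⟨⟨fun _ => rfl,
    fun x hx => by_contra fun e => (g₁.nondegenerate x e).2.elim fun y h => h (hx y),
    fun x hx => by_contra fun e => (g₁.nondegenerate x e).1.elim fun y h => h (hx y)⟩,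
    fun x y => (g₁.skew y x).trans (neg_one_mul _).symm⟩, by simp, by simp,
    fun x => ⟨0, rfl, (g₁.alternating x).trans (by simp)⟩⟩
  have h₂ : IsOS B₂ _ := Herm.isTF_of_two_ne h2 ⟨⟨fun _ => rfl,
    fun x hx => by_contra fun e => (hf₂.nondegenerate x e).2.elim fun y h => h (hx y),
    fun x hx => by_contra fun e => (hf₂.nondegenerate x e).1.elim fun y h => h (hx y)⟩,
    fun x y => (hf₂.symm y x).trans (one_mul _).symm⟩
  have : Finite ((Fin d ⊕ Fin d → F) ≃ₗ[F] (Fin d ⊕ Fin d → F)) := DFunLike.finite _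
  rw [relIndex_eq forall_spGL_iff, Subgroup.relIndex_top_right] at hΩ
  have key := IsSS.eluP_kr (Max.tnOf e P) (isSS_sympB d) h₁ h₂ hc h2 (by simpa) (by simpa) (p := p)
    (hΩ.trans (Subgroup.index_dvd_card _))
  rw [finrank_fin_fun] at key
  rw [eluN_iff forall_spGL_iff, eluN_top (isSS_sympB d).toNd, ← key]
  have e1 : ∀ a b, ((Max.tnOf e P).kr a b).toLinearMap = (Max.tnOf e P).krL a b := fun a b =>
    LinearMap.ext ((Max.tnOf e P).ext (by simp))
  congr! with g y
  constructor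
  · rintro ⟨x, h1, rfl⟩
    obtain ⟨a, b, h⟩ := (Max.mem_tensorProductSubgroup_iff_NG e P x).1 h1
    exact ⟨a, b, (congrArg LinearEquiv.toLinearMap h).trans (e1 a b)⟩
  · rintro ⟨a, b, rfl⟩
    obtain ⟨x, hx⟩ := (Orth.glEquiv _ F).surjective ((Max.tnOf e P).kr a b)
    exact ⟨x, (Max.mem_tensorProductSubgroup_iff_NG e P x).2 ⟨a, b, hx⟩,
      (congrArg LinearEquiv.toLinearMap hx).trans (e1 a b)⟩

end Cfsg.Agent.S5980
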