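import Cfsg.Statements.S5983
import Mathlib
import Cfsg.Agent.Class.Elus.Symp2
import Cfsg.Agent.Class.Sp.Simple

set_option autoImplicit false
open scoped MatrixGroups
open Cfsg

namespace Cfsg.Agent.S5983

open Cfsg.Agent.Class Cfsg.Agent.Class.Elus Cfsg.Agent.Class.Wall Module

theorem aux {F V : Type*} [Field F] [Fintype F] [AddCommGroup V] [Module F V] [FiniteDimensional F V]
    [CharP F 2] {B : LinearMap.BilinForm F V} {Q : V → F} (h : IsSS B fun _ => 0) (hO : IsOS B Q) {d : ℕ}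
    (hd : 1 ≤ d) (hn : finrank F V = 2 * d) (r : ℕ) [hr : Fact r.Prime] {N : ℕ}
    (hN : N * Nat.card (Isom B Q) = Nat.card (Isom B fun _ => 0)) (hΩ : r ∣ N) :
    EluP B (fun _ => 0) r (fun g => ∃ k : End F V, Pres B Q k ∧
      IsoSim B (fun _ => 0) k B (fun _ => 0) g) ↔ r = 2 ∧ (Plus F Q ∨ Odd d) := by
  have : Nontrivial V := nontrivial_of_finrank_pos (R := F) (by omega)
  have h2 : (2 : F) = 0 := CharP.ofNat_eq_zero F 2
  have h' := h.isFormed fType_sp
  by_cases hr2 : r = 2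
  · subst hr2
    rw [eluP_two_iff_char h.toNd h2]
    simp only [true_and]
    constructor
    · intro H
      by_contra! H'
      obtain ⟨g, a1, a2, a3, a4⟩ := (IsSS.rz_true h2 h d).2 ⟨Nat.not_odd_iff_even.1 H'.2, by omega⟩
      obtain ⟨k, b1, b2⟩ := H g a1 a2 fun e => by rw [e, rk_one] at a3; omega
      have := ((IsOS.rz_true h2 hO d).1 ⟨k, b1, Sim.mul_eq_one b2.symm.sim a2,
        (IsoSim.rk_eq b2).trans a3, (IsoSim.alt_iff b2).trans a4⟩).2
      rw [wi, if_neg H'.1] at this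
      omega
    · intro H g a1 a2 a3
      have b1 : Rz B Q (rk g) (Alt B g) := by
        by_cases ha : Alt B g
        · obtain ⟨c1, c2⟩ := (IsSS.rz_true h2 h _).1 ⟨g, a1, a2, rfl, iff_true_intro ha⟩
          rw [eq_true ha, IsOS.rz_true h2 hO, wi]
          rw [Nat.even_iff] at c1
          refine ⟨Nat.even_iff.2 c1, ?_⟩
          split_ifs with hp
          · exact c2
          · have := Nat.odd_iff.1 (H.resolve_left hp)
            omega
        · rw [eq_false ha]
          exact IsOS.rz_false h2 hO _ (Nat.pos_of_ne_zero (mt rk_eq_zero_iff.1 a3))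
            (Rz.two_mul_le h2 h' ⟨g, a1, a2, rfl, Iff.rfl⟩)
      obtain ⟨k, c1, c2, c3, c4⟩ := b1
      exact ⟨k, c1, isoSim_of_invol h2 h' Isometric.refl (IsSS.pres h c1.map_B) a1 c2 a2 c3 c4⟩
  refine iff_of_false (fun H => ?_) fun e => hr2 e.1
  have hr := oddP_of (F := F) 2 hr2 hr2 rfl
  set i := orderOf (Fintype.card F : ZMod r)
  have e1 := hr.div_lt_of_dvd (IsSS.card_isom_ne_zero h) (IsOS.factorization_card hO hr (by omega))
    (IsSS.factorization_card h hr hn) hN.dvd hΩ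
  obtain ⟨u, b1, b2⟩ := hr.exists_sd (2 * d / cc i)
  have hc := cc_pos hr.pos
  have := ((IsSS.cap h hr).forall_iff hr h.toNd (Ψ := fun u => Multiset.card u * i ≤
      2 * dd i (finrank F V) (Plus F Q)) fun g u a1 a2 a3 a4 a5 => ?_).1 (fun g a1 a2 a3 =>
    H g a1 ⟨1, by simpa using a2⟩ (by
      rintro z rfl
      rcases mul_self_eq_one_iff.1 (mul_self_eq_one_of_pres h.toNd a1) with e | e
      · simp [e] at a3
      · simp [show z = 1 by rw [e]; linear_combination -h2] at a3)) u b1 (by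
      rintro rfl
      have := Nat.mul_pos (Nat.zero_lt_of_lt e1) hc
      rw [← b2] at this
      simp at this) (by rw [b2, hn]; exact Nat.div_mul_le_self _ _)
  · rw [b2, mul_le_iff_le_div hc] at this
    omega
  · rw [← (IsOS.cap hO hr).iff u a3 a4, ← a5]
    exact ⟨fun ⟨k, b1, b2⟩ => ⟨k, b1, b2.sim.elemDiv_eq⟩, fun ⟨k, b1, b2⟩ => ⟨k, b1,
      (simCl_of_pow h' a1 hr.odd hr.ne_zero a2).isoSim Isometric.refl (IsSS.pres h b1.map_B) b2.symm⟩⟩

set_option maxHeartbeats 1000000 in

/-- Elements of prime order of PSp_n(q), q even, and the subgroups of orthogonal type. Here `T = Sp_{2d}(F)` for a field `F` of characteristic 2 with `q` elements (`d ≥ 2`, `(d, q) ≠ (2, 2)`), realised as the invertible matrices preserving the standard alternating form; `Q` is a non-degenerate quadratic form on `F^{2d}` whose polar form is that alternating form, and `H` is the subgroup of `T` preserving `Q` up to a scalar (equivalently preserving `Q`) — a subgroup of type O^±_{2d}(q)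 (maximality is not assumed); `Q` is of plus type when `F^{2d}` contains a `d`-dimensional subspace on which `Q` vanishes, of minus type otherwise. Ω is the set of cosets of `H` in `T`, so an element of `T` of prime order `r` (`x ∈ T` with `x^r` scalar, `x` not scalar) fixes a point of Ω exactly when some `T`-conjugate of `x` preserves `Q`. Let `r` be a prime dividing the index of `H`. Then every element of `T` of order `r` fixes a point of Ω if and only if `r = 2` and either `Q` is of plus type or `d` is odd. -/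
theorem result {F : Type*} [Field F] [Fintype F] {p : ℕ} [Fact p.Prime] [CharP F p] {q : ℕ} (hq : Fintype.card F = q)
    (hp : p = 2) (d : ℕ) (hd : 2 ≤ d) (hT : (d, q) ≠ (2, 2)) (Q : (Fin d ⊕ Fin d → F) → F) (hQ : Cfsg.Geo.IsNondegenerateQuadraticForm Q)
    (hQf : ∀ u v, QuadraticMap.polar Q u v = Cfsg.sympForm d F u v)
    (r : ℕ) [Fact r.Prime]
    (hΩ : r ∣ (Cfsg.Geo.quadSimilarityGroup Q).relIndex (Cfsg.spGL d F)) :
    (∀ x ∈ Cfsg.spGL d F, (∃ z : F, ((x ^ r : GL (Fin d ⊕ Fin d) F) : Matrix (Fin d ⊕ Fin d) (Fin d ⊕ Fin d) F) = z • (1 : Matrix (Fin d ⊕ Fin d) (Fin d ⊕ Fin d) F)) →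
      (∀ z : F, (x : Matrix (Fin d ⊕ Fin d) (Fin d ⊕ Fin d) F) ≠ z • (1 : Matrix (Fin d ⊕ Fin d) (Fin d ⊕ Fin d) F)) →
      ∃ g ∈ Cfsg.spGL d F, g⁻¹ * x * g ∈ Cfsg.Geo.quadSimilarityGroup Q) ↔
    (r = 2 ∧ (Cfsg.Geo.IsPlusTypeOn Q ⊤ ∨ Odd d)) := by
  subst hp
  have h := isSS_sympB (F := F) d
  have hn := finrank_symp (F := F) d
  have : Nontrivial (Fin d ⊕ Fin d → F) := nontrivial_of_finrank_pos (R := F) (by omega)
  have h2 : (2 : F) = 0 := CharP.ofNat_eq_zero F 2
  have hO : IsOS (sympB d F) Q :=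
    ⟨⟨h.toNd, fun x y => by rw [h.symm]; simp only [RingHom.id_apply]; linear_combination -(sympB d F x y) * h2⟩,
      fun x y => by simp [← hQf, QuadraticMap.polar], fun a x => by simp [hQ.smul, sq],
      fun x => ⟨Q x, rfl, by
        rw [sympB_apply, Sp.form_self, RingHom.id_apply]; linear_combination -(Q x) * h2⟩⟩
  have hm : ∀ x : Matrix.symplecticGroup (Fin d) F, Sp.toGL x ∈ Geo.quadSimilarityGroup Q ↔
      Pres (sympB d F) Q (Matrix.toLin' x.1) := fun x => by
    refine ⟨fun ⟨c, hc⟩ => IsOS.pres_of_Q hO fun v => ?_, fun H => ⟨1, fun v => (H.map_Q v).trans (by simp)⟩⟩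
    have hc' : ∀ v, Q (Matrix.toLin' x.1 v) = c * Q v := hc
    obtain ⟨u, hu⟩ := exists_ne (0 : Fin d ⊕ Fin d → F)
    obtain ⟨w, hw⟩ : ∃ w, sympB d F u w ≠ 0 := by
      by_contra! H
      exact hu (h.left u H)
    have e1 := hc' (u + w)
    rw [map_add, IsOS.add' hO, IsOS.add' hO, hc', hc',
      show sympB d F (Matrix.toLin' x.1 u) (Matrix.toLin' x.1 w) = _ from
        (pres_isom (spEquiv d F x)).map_B u w] at e1
    rw [hc', show (c : F) = 1 from mul_right_cancel₀ hw (by linear_combination -e1), one_mul]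
  have hN : (Geo.quadSimilarityGroup Q).relIndex (spGL d F) * Nat.card (Isom (sympB d F) Q) =
      Nat.card (Isom (sympB d F) fun _ => 0) := by
    rw [← Nat.card_congr (spEquiv d F).toEquiv, Nat.card_congr (Sp.equivSpGL (m := d) (F := F)).toEquiv,
      ← Subgroup.index_mul_card ((Geo.quadSimilarityGroup Q).subgroupOf (spGL d F))]
    congr 1
    refine Nat.card_congr (Equiv.ofBijective (fun x => ((hm (Sp.equivSpGL.symm x.1)).1 x.2).toIsom h.toNd)
      ⟨fun x y e => ?_, fun g => ?_⟩).symm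
    · exact Subtype.ext (Sp.equivSpGL.symm.injective (Subtype.ext (Matrix.toLin'.injective
        (congrArg (fun x => x.1.toLinearMap) e))))
    · obtain ⟨x, hx⟩ := (spEquiv d F).surjective ⟨g.1, g.2.1, fun _ => rfl⟩
      have e : Matrix.toLin' x.1 = g.1.toLinearMap := congrArg (fun x => x.1.toLinearMap) hx
      exact ⟨⟨Sp.equivSpGL x, (hm x).2 (e ▸ pres_isom g)⟩, Subtype.ext (LinearEquiv.toLinearMap_injective e)⟩
  have hp : Geo.IsPlusTypeOn Q ⊤ ↔ Plus F Q := by simp [Geo.IsPlusTypeOn, Plus, Geo.IsTotallySingularQuad]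
  rw [hp, ← aux h hO (by omega) hn r hN hΩ, ← eluP_sp_iff, Subtype.forall' (p := (· ∈ spGL d F)),
    ← Sp.equivSpGL.forall_congr_right]
  refine forall_congr' fun x => imp_congr Iff.rfl (imp_congr Iff.rfl ⟨fun ⟨g, h1, h3⟩ => ?_, ?_⟩)
  · obtain ⟨g, rfl⟩ : ∃ y, Sp.toGL y = g := ⟨Sp.equivSpGL.symm ⟨g, h1⟩, Units.ext rfl⟩
    refine ⟨_, (hm (g⁻¹ * x * g)).1 (by rw [map_mul, map_mul, map_inv]; exact h3), (spEquiv d F g).1, (spEquiv d F g).2.1,
      fun _ => rfl, fun v => ?_⟩
    change g • (g⁻¹ * x * g) • v = x • g • v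
    simp only [mul_smul, smul_inv_smul]
  · rintro ⟨k, h1, e, h3, -, h4⟩
    obtain ⟨g, hg⟩ := (spEquiv d F).surjective ⟨e, h3, fun _ => rfl⟩
    obtain rfl : (spEquiv d F g).1 = e := congrArg Subtype.val hg
    refine ⟨Sp.toGL g, (Sp.equivSpGL g).2, ?_⟩
    have : Matrix.toLin' (g⁻¹ * x * g).1 = k := LinearMap.ext fun v => by
      change (g⁻¹ * x * g) • v = _
      rw [mul_smul, mul_smul, inv_smul_eq_iff]
      exact (h4 v).symm
    have := (hm _).2 (this ▸ h1)
    rwa [map_mul, map_mul, map_inv] at this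

end Cfsg.Agent.S5983
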