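import Cfsg.Statements.S5984
import Mathlib
import Cfsg.Agent.Class.Elus.Unit2

set_option autoImplicit false
open scoped MatrixGroups
open Cfsg

namespace Cfsg.Agent.S5984

open Cfsg.Agent.Class Cfsg.Agent.Class.Elus Cfsg.Agent.Class.Wall Module

set_option maxHeartbeats 1000000 in

/-- Elements of prime order of PSU_n(q) and the stabilizers of pairs of complementary totally singular subspaces. Here `T = PSU_n(q)` is realised through `SU_n(q)`, the matrices of determinant 1 over the field `F` with `q²` elements preserving the hermitian form `Σ uᵢ vᵢ^q`, with `n ≥ 4` even; `D` is a pair of complementary subspaces of dimension `n/2` on each of which the form vanishes identically, and `H` is the subgroup of `SU_n(q)` fixing or interchanging the two members — a subgroup of type GL_{n/2}(q²).2 (maximality is not assumed). Ω is the set of cosets of `H`, so an element of `T` of prime order `r` (`x ∈ SU_n(q)` with `x^r` scalar, `x` not scalar) fixes a point of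 Ω exactly when some `SU_n(q)`-conjugate of `x` lies in `H`. Let `r` be a prime dividing the index of `H`. Then every element of `T` of order `r` fixes a point of Ω if and only if `r = 2`, `q` is odd and `(q + 1)_2 ≤ (n)_2` (2-parts). -/
theorem result {F : Type*} [Field F] [Fintype F] {p : ℕ} [Fact p.Prime] [CharP F p] {q : ℕ} (hq : Fintype.card F = q ^ 2)
    (n : ℕ) (hn : 4 ≤ n) (he : Even n) (D : Fin 2 → Submodule F (Fin n → F)) (hD : Cfsg.Geo.IsMDecomposition (n / 2) D)
    (hDs : ∀ i, Cfsg.Geo.IsTotallySingularFor (Cfsg.hermForm n F q) (D i))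
    (r : ℕ) [Fact r.Prime]
    (hΩ : r ∣ (Cfsg.Geo.decompositionStabilizer D).relIndex (Cfsg.GU n F q ⊓ Cfsg.Geo.specialLinear (Fin n) F)) :
    (∀ x ∈ Cfsg.GU n F q ⊓ Cfsg.Geo.specialLinear (Fin n) F, (∃ z : F, ((x ^ r : GL (Fin n) F) : Matrix (Fin n) (Fin n) F) = z • (1 : Matrix (Fin n) (Fin n) F)) →
      (∀ z : F, (x : Matrix (Fin n) (Fin n) F) ≠ z • (1 : Matrix (Fin n) (Fin n) F)) →
      ∃ g ∈ Cfsg.GU n F q ⊓ Cfsg.Geo.specialLinear (Fin n) F, g⁻¹ * x * g ∈ Cfsg.Geo.decompositionStabilizer D) ↔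
    (r = 2 ∧ Odd q ∧ padicValNat 2 (q + 1) ≤ padicValNat 2 n) := by
  have := U.UF.of_card hq
  have h := isUS_hermB (F := F) (q := q) n
  have hn' : finrank F (Fin n → F) = n := finrank_fin_fun F
  have h2 : n = 2 * (n / 2) := (Nat.two_mul_div_two_of_even he).symm
  have hc : IsCompl (D 0) (D 1) := ⟨by simpa using hD.indep.pairwiseDisjoint (zero_ne_one' (Fin 2)),
    codisjoint_iff.2 (top_le_iff.1 (hD.iSup_eq_top.ge.trans (iSup_le (Fin.forall_fin_two.2 ⟨le_sup_left, le_sup_right⟩))))⟩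
  have hT : ∀ i, ∀ u ∈ D i, ∀ v ∈ D i, hermB n F q u v = 0 := fun i u hu v hv => hDs i v hv u hu
  have hm : ∀ g : GU n F q, Inv (guEquiv n F q g).1.toLinearMap (D 0) →
      Inv (guEquiv n F q g).1.toLinearMap (D 1) → g.1 ∈ Geo.decompositionStabilizer D := fun g a b =>
    ⟨1, fun i => Submodule.eq_of_le_of_finrank_eq (inv_iff_map_le.1 (by fin_cases i; exacts [a, b]))
      (LinearEquiv.finrank_map_eq (guEquiv n F q g).1 _)⟩
  constructor
  · intro H
    obtain ⟨φ, a1, a2⟩ := IsUS.exists_levi (V₁ := Fin (n / 2) → F) h hc (hT 0) (hT 1)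
      (by simp [hD.finrank_eq]) (by simp [hD.finrank_eq])
    rw [← hn']
    refine IsUS.eluU_lagU (p := p) h (d := n / 2) (by omega) (by omega) hΩ ?_
      ((eluU_gu_iff _).1 fun x a b c => ?_)
    · rw [← Nat.card_congr (guEquiv n F q).toEquiv, ← Subgroup.relIndex_subgroupOf inf_le_left,
        Subgroup.inf_subgroupOf_left]
      have : (Geo.specialLinear (Fin n) F).Normal := MonoidHom.normal_ker _
      refine relIndex_mul_card_dvd _ _ ((guEquiv n F q).symm.toMonoidHom.comp φ)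
        ((guEquiv n F q).symm.injective.comp a1) fun s => hm ((guEquiv n F q).symm (φ s)) ?_ ?_ <;>
        rw [MulEquiv.apply_symm_apply]
      exacts [(a2 s).1, (a2 s).2.1]
    obtain ⟨g, b1, s, b2⟩ := H x a b c
    let e := (guEquiv n F q ⟨g, b1.1⟩)
    have b3 : ∀ i, ∀ u ∈ (D i).map e.1.toLinearMap, Matrix.toLin' x.1 u ∈ (D (s i)).map e.1.toLinearMap := by
      rintro i _ ⟨u, hu, rfl⟩
      refine ⟨_, (b2 i).le ⟨u, hu, rfl⟩, ?_⟩
      change g • (g⁻¹ * x * g) • u = x • g • u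
      simp only [mul_smul, smul_inv_smul]
    have b4 : ∀ i, ∀ u ∈ (D i).map e.1.toLinearMap, ∀ v ∈ (D i).map e.1.toLinearMap,
        hermB n F q u v = 0 := by
      rintro i _ ⟨u, hu, rfl⟩ _ ⟨v, hv, rfl⟩
      exact (e.2.1 u v).trans (hT i u hu v hv)
    refine ⟨_, _, (Submodule.orderIsoMapComap e.1).isCompl hc,
      (LinearEquiv.finrank_map_eq _ _).trans (hD.finrank_eq 0), b4 0, b4 1, ?_⟩
    fin_cases s
    exacts [Or.inl ⟨b3 0, b3 1⟩, Or.inr ⟨b3 0, b3 1⟩]
  · rintro ⟨rfl, a1, a2⟩ x b1 b2 b3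
    obtain ⟨e, c1, c2, c3⟩ := (eluU_gu_iff _).2 (IsUS.eluU_conjInto h hc (hT 0) (hT 1) (by omega)
      (hD.finrank_eq 0) (hD.finrank_eq 1) a1 (hn'.symm ▸ a2)) x b1 b2 b3
    obtain ⟨g, rfl⟩ := (guEquiv n F q).surjective e
    have c4 : (guEquiv n F q (g⁻¹ * ⟨x, b1.1⟩ * g)).1.toLinearMap = (guEquiv n F q g).1.symm.toLinearMap *
        Matrix.toLin' x.1 * (guEquiv n F q g).1.toLinearMap := by
      rw [map_mul, map_mul, map_inv]; rfl
    rw [← c4] at c2 c3
    exact ⟨g, ⟨g.2, Units.ext ((LinearMap.det_toLin' _).symm.trans c1)⟩, hm _ c2 c3⟩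

end Cfsg.Agent.S5984
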