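import Cfsg.Statements.S5987
import Mathlib
import Cfsg.Agent.Class.Elus.Orth4

set_option autoImplicit false
open scoped MatrixGroups
open Cfsg

namespace Cfsg.Agent.S5987

open Cfsg.Agent.Class Cfsg.Agent.Class.Elus Cfsg.Agent.Class.Wall Module

set_option maxHeartbeats 1000000 in

/-- Elements of prime order of PΩ⁻_n(q) with no fixed totally singular `m`-space. Here `T = PΩ⁻_n(F)`, `n = 2d ≥ 8`, realised through `Ω⁻_n(q)`, the commutator subgroup of the isometry group of `Q = Σ_{i<d−1} xᵢyᵢ + z₁² + a z₁z₂ + b z₂²` with `z₁² + a z₁z₂ + b z₂²` anisotropic, over the field `F` with `q` elements; an element of `T` of prime order `r` is an element `x` of `Ω⁻_n(q)` with `x^r` scalar and `x` not scalar. Let `1 ≤ m ≤ d − 1` and let `r` be a prime dividing the number of totally singular `m`-spaces (subspaces of dimension `m` on which `Q` vanishes); for `r ≠ p` let `i` be the multiplicative order of `q` modulo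 `r`, `c = i` for `i` even and `c = 2i` for `i` odd, and write `k = n mod c`, `ℓ = m mod i`, `n' = ⌊n/i⌋`, `m' = ⌊m/i⌋`, `t = (r−1)/i`. Then every element of `T` of order `r` fixes some totally singular `m`-space if and only if one of: (i) `r = 2 ≠ p` and (`n ≡ 0 (mod 4)`, or `m` is even, or `q ≢ 7 (mod 8)`); (ii) `r ≠ p` odd, `i` odd, `i ≤ m` and (`k = 0` or `k > 2ℓ`); (iii) `r ≠ p` odd, `i` even, `i ≤ m`, `n' − 2m' ≥ t`, and one of: (a) `i ≥ 2ℓ`, `k = 0`, `n/i` even and `n' − 2m' > t` (all four); (b) `k ≥ 2ℓ` and `n'` odd; (c) `k > 2ℓ` and `n'` even. -/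
theorem result {F : Type*} [Field F] [Fintype F] {p : ℕ} [Fact p.Prime] [CharP F p] {q : ℕ} (hq : Fintype.card F = q)
    (d m : ℕ) (hd : 4 ≤ d) (hm : 1 ≤ m) (hmd : m + 1 ≤ d) (a b : F) (hab : ∀ x y : F, x ^ 2 + a * x * y + b * y ^ 2 = 0 → x = 0 ∧ y = 0)
    (r : ℕ) [Fact r.Prime]
    (hrΩ : r ∣ Nat.card {W : Submodule F ((Fin (d - 1) ⊕ Fin (d - 1)) ⊕ Fin 2 → F) // Module.finrank F ↥W = m ∧ Cfsg.Geo.IsTotallySingularQuad (Cfsg.quadFormMinus (d - 1) F a b) W})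
    (i c : ℕ) (hi : i = orderOf (q : ZMod r)) (hc : c = if Even i then i else 2 * i) :
    (∀ x : GL ((Fin (d - 1) ⊕ Fin (d - 1)) ⊕ Fin 2) F, x ∈ Cfsg.Geo.omegaGL (Cfsg.quadFormMinus (d - 1) F a b) →
      (∃ z : F, ((x ^ r : GL ((Fin (d - 1) ⊕ Fin (d - 1)) ⊕ Fin 2) F) : Matrix ((Fin (d - 1) ⊕ Fin (d - 1)) ⊕ Fin 2) ((Fin (d - 1) ⊕ Fin (d - 1)) ⊕ Fin 2) F) = z • (1 : Matrix ((Fin (d - 1) ⊕ Fin (d - 1)) ⊕ Fin 2) ((Fin (d - 1) ⊕ Fin (d - 1)) ⊕ Fin 2) F)) →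
      (∀ z : F, (x : Matrix ((Fin (d - 1) ⊕ Fin (d - 1)) ⊕ Fin 2) ((Fin (d - 1) ⊕ Fin (d - 1)) ⊕ Fin 2) F) ≠ z • (1 : Matrix ((Fin (d - 1) ⊕ Fin (d - 1)) ⊕ Fin 2) ((Fin (d - 1) ⊕ Fin (d - 1)) ⊕ Fin 2) F)) →
      ∃ W : Submodule F ((Fin (d - 1) ⊕ Fin (d - 1)) ⊕ Fin 2 → F), (Module.finrank F ↥W = m ∧ Cfsg.Geo.IsTotallySingularQuad (Cfsg.quadFormMinus (d - 1) F a b) W) ∧ W.map (Matrix.toLin' (x : Matrix ((Fin (d - 1) ⊕ Fin (d - 1)) ⊕ Fin 2) ((Fin (d - 1) ⊕ Fin (d - 1)) ⊕ Fin 2) F)) ≤ W) ↔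
    ((r = 2 ∧ p ≠ 2 ∧ (Even d ∨ Even m ∨ q % 8 ≠ 7)) ∨
     (r ≠ p ∧ 2 < r ∧ Odd i ∧ i ≤ m ∧ ((2 * d) % c = 0 ∨ 2 * (m % i) < (2 * d) % c)) ∨
     (r ≠ p ∧ 2 < r ∧ Even i ∧ i ≤ m ∧ (r - 1) / i + 2 * (m / i) ≤ (2 * d) / i ∧
       ((2 * (m % i) ≤ i ∧ (2 * d) % c = 0 ∧ Even ((2 * d) / i) ∧ (r - 1) / i + 2 * (m / i) < (2 * d) / i) ∨
        (2 * (m % i) ≤ (2 * d) % c ∧ Odd ((2 * d) / i)) ∨
        (2 * (m % i) < (2 * d) % c ∧ Even ((2 * d) / i))))) := by
  subst hq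
  obtain rfl : c = cc i := hc
  have h := isOS_minusQF (F := F) (d - 1) hab
  have hn : finrank F ((Fin (d - 1) ⊕ Fin (d - 1)) ⊕ Fin 2 → F) = 2 * d := by simp; omega
  have hpl : ¬ Plus F (Orth.minusQF (d - 1) F a b) := Orth.not_isPlus_minusQF _ hab
  rw [elu_iff _ (Orth.minusQF_apply (d - 1) F a b)]
  simp only [Geo.IsTotallySingularQuad, ← Orth.minusQF_apply] at hrΩ ⊢
  have hrp := ne_char_of_coprime p (IsOS.coprime_card_tss h (by omega)) hrΩ
  by_cases hr2 : r = 2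
  · subst hr2
    have h2 := (two_ne_zero_iff_char F p).2 hrp.symm
    have := Orth.card_mod_two_of_two_ne_zero h2
    rw [IsOS.elu_two_tss h2 h (by omega) (by omega), IsOS.dsc_eq_one_iff h2 h hn, hn,
      isSquare_two_pow_iff h2, Nat.mul_div_cancel_left _ two_pos]
    simp only [hpl, hrp.symm, Nat.even_iff, ne_eq, not_false_eq_true, true_and, false_iff,
      and_false, or_false, lt_irrefl, false_and, and_true]
    omega
  have hr := oddP_of p hr2 hrp hi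
  have := hr.prime.two_le
  obtain ⟨a1, a3⟩ := IsOS.forall_tss h hr hn (by omega) (iff_false_intro hpl) hrΩ
  rw [IsOS.elu_iff_odd h (by omega) hr.odd, a3]
  have c0 := cc_pos hr.pos
  obtain ⟨c1, c1', c1'', -⟩ := div_mod_facts c0 (even_cc i).two_dvd (2 * d)
  obtain ⟨c2, c2', c2'', -⟩ := div_mod_facts c0 (even_cc i).two_dvd (2 * m)
  obtain ⟨c3, c3', c3'', c9⟩ := div_mod_facts c0 (even_cc i).two_dvd (2 * d - 2 * m)
  have c4 := sub_div_mod c0 (show 2 * m ≤ 2 * d by omega)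
  have c5 := Nat.zero_le ((r - 1) / i)
  have c6 := Nat.one_le_div_iff (a := m) hr.pos
  have c7 := Nat.div_pos (Nat.le_of_dvd (by omega) (hi ▸ ZMod.orderOf_dvd_card_sub_one
    (a := (Fintype.card F : ZMod r)) (by simpa [ZMod.natCast_eq_zero_iff] using hr.not_dvd_card))) hr.pos
  clear hrΩ a3
  rcases i.even_or_odd with he | he
  · have b1 := bl_of_even he (2 * d) False
    have b3 := bl_of_even he (2 * d - 2 * m) False
    have c8 := two_mul_div_mod hr.pos m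
    rw [cc_of_even he] at *
    simp only [he, Nat.not_odd_iff_even.2 he, true_and, false_and, false_or, false_iff, hr2, hrp, ne_eq,
      not_false_eq_true, Nat.even_iff (n := 2 * d / i), Nat.odd_iff (n := 2 * d / i), and_false]
      at b1 b3 ⊢
    generalize bl i (2 * d) False = x, bl i (2 * d - 2 * m) False = y, 2 * d / i = n₁, 2 * d % i = k,
      (2 * d - 2 * m) / i = e, (2 * d - 2 * m) % i = j, 2 * m / i = u, 2 * m % i = l, m / i = m',
      m % i = l', (r - 1) / i = t at *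
    clear hn hi h hr hpl
    rcases c4 with c4 | c4 <;> rcases c8 with c8 | c8 <;> rcases b1 with b1 | b1 <;>
      rcases b3 with b3 | b3 <;> omega
  · have b1 := bl_of_odd he (2 * d) False
    have b3 := bl_of_odd he (2 * d - 2 * m) False
    rw [cc_of_odd he] at *
    rw [Nat.mul_div_mul_left m i two_pos, Nat.mul_mod_mul_left 2 m i] at *
    simp only [he, Nat.not_even_iff_odd.2 he, true_and, false_and, false_or, or_false,
      hr2, hrp, ne_eq, not_false_eq_true, and_false] at b1 b3 ⊢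
    generalize bl i (2 * d) False = x, bl i (2 * d - 2 * m) False = y, 2 * d / (2 * i) = n₁,
      2 * d % (2 * i) = k, (2 * d - 2 * m) / (2 * i) = e, (2 * d - 2 * m) % (2 * i) = j, m / i = m',
      m % i = l' at *
    omega

end Cfsg.Agent.S5987
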