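import Cfsg.Statements.S5991
import Mathlib
import Cfsg.Agent.Class.Elus.Unip

set_option autoImplicit false
open scoped MatrixGroups
open Cfsg

namespace Cfsg.Agent.S5991

open Cfsg.Agent.Class Cfsg.Agent.Class.Elus Cfsg.Agent.Class.Wall Module

set_option maxHeartbeats 1000000 in

/-- Elements of prime order of PΩ⁻_n(q), q odd, with no fixed nondegenerate `m`-space of odd dimension. Here `T = PΩ⁻_n(F)`, `n = 2d ≥ 8`, realised through `Ω⁻_n(q)`, the commutator subgroup of the isometry group of `Q = Σ_{i<d−1} xᵢyᵢ + z₁² + a z₁z₂ + b z₂²` with `z₁² + a z₁z₂ + b z₂²` anisotropic, over the field `F` with `q` elements; an element of `T` of prime order `r` is an element `x` of `Ω⁻_n(q)` with `x^r` scalar and `x` not scalar; `q` and `m` are odd, `1 ≤ m < n/2`. The nondegenerate `m`-spaces fall into two isometry classes, each an orbit of `T`, with equivalent actions; fix one such space `W₀` and let Ω be the set of nondegenerate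 `m`-spaces isometric to `W₀`. Let `r` be a prime dividing the size of Ω; for `r ≠ p` let `i` be the multiplicative order of `q` modulo `r`, `c = i` for `i` even and `c = 2i` for `i` odd, and write `k = n mod c`, `ℓ = m mod i`, `ℓ' = m mod c`, `n' = ⌊n/i⌋`, `m' = ⌊m/i⌋`, `t = (r−1)/i`. Then every element of `T` of order `r` fixes a member of Ω if and only if one of: (i) `r = 2` and (`n ≡ 0 (mod 4)` or `q ≢ 7 (mod 8)`); (ii) `r ≠ p` odd, `i` odd, and `k = 0` or (`c ≤ m` and `k > ℓ' > 0`); (iii) `r ≠ p` odd, `i` even, and either `k = 0` and `n/i` even, or `k > 0`, `i ≤ m` and `k > ℓ' > 0`. (For `r = p` there is always an element of order `p` fixing no member of Ω.) -/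
theorem result {F : Type*} [Field F] [Fintype F] {p : ℕ} [Fact p.Prime] [CharP F p] {q : ℕ} (hq : Fintype.card F = q)
    (hodd : Odd q) (d m : ℕ) (hd : 4 ≤ d) (hm : Odd m) (hmd : m < d) (a b : F) (hab : ∀ x y : F, x ^ 2 + a * x * y + b * y ^ 2 = 0 → x = 0 ∧ y = 0)
    (W₀ : Submodule F ((Fin (d - 1) ⊕ Fin (d - 1)) ⊕ Fin 2 → F)) (hW₀ : Module.finrank F ↥W₀ = m ∧ Cfsg.Geo.IsNondegenerateOn (QuadraticMap.polar (Cfsg.quadFormMinus (d - 1) F a b)) W₀)
    (r : ℕ) [Fact r.Prime]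
    (hrΩ : r ∣ Nat.card {W : Submodule F ((Fin (d - 1) ⊕ Fin (d - 1)) ⊕ Fin 2 → F) // Module.finrank F ↥W = m ∧ Cfsg.Geo.IsNondegenerateOn (QuadraticMap.polar (Cfsg.quadFormMinus (d - 1) F a b)) W ∧ Cfsg.Geo.AreIsometricFor (Cfsg.quadFormMinus (d - 1) F a b) W W₀})
    (i c : ℕ) (hi : i = orderOf (q : ZMod r)) (hc : c = if Even i then i else 2 * i) :
    (∀ x : GL ((Fin (d - 1) ⊕ Fin (d - 1)) ⊕ Fin 2) F, x ∈ Cfsg.Geo.omegaGL (Cfsg.quadFormMinus (d - 1) F a b) →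
      (∃ z : F, ((x ^ r : GL ((Fin (d - 1) ⊕ Fin (d - 1)) ⊕ Fin 2) F) : Matrix ((Fin (d - 1) ⊕ Fin (d - 1)) ⊕ Fin 2) ((Fin (d - 1) ⊕ Fin (d - 1)) ⊕ Fin 2) F) = z • (1 : Matrix ((Fin (d - 1) ⊕ Fin (d - 1)) ⊕ Fin 2) ((Fin (d - 1) ⊕ Fin (d - 1)) ⊕ Fin 2) F)) →
      (∀ z : F, (x : Matrix ((Fin (d - 1) ⊕ Fin (d - 1)) ⊕ Fin 2) ((Fin (d - 1) ⊕ Fin (d - 1)) ⊕ Fin 2) F) ≠ z • (1 : Matrix ((Fin (d - 1) ⊕ Fin (d - 1)) ⊕ Fin 2) ((Fin (d - 1) ⊕ Fin (d - 1)) ⊕ Fin 2) F)) →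
      ∃ W : Submodule F ((Fin (d - 1) ⊕ Fin (d - 1)) ⊕ Fin 2 → F), (Module.finrank F ↥W = m ∧ Cfsg.Geo.IsNondegenerateOn (QuadraticMap.polar (Cfsg.quadFormMinus (d - 1) F a b)) W ∧ Cfsg.Geo.AreIsometricFor (Cfsg.quadFormMinus (d - 1) F a b) W W₀) ∧ W.map (Matrix.toLin' (x : Matrix ((Fin (d - 1) ⊕ Fin (d - 1)) ⊕ Fin 2) ((Fin (d - 1) ⊕ Fin (d - 1)) ⊕ Fin 2) F)) ≤ W) ↔
    ((r = 2 ∧ (Even d ∨ q % 8 ≠ 7)) ∨
     (r ≠ p ∧ 2 < r ∧ Odd i ∧ ((2 * d) % c = 0 ∨ (c ≤ m ∧ 0 < m % c ∧ m % c < (2 * d) % c))) ∨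
     (r ≠ p ∧ 2 < r ∧ Even i ∧ (((2 * d) % c = 0 ∧ Even ((2 * d) / i)) ∨ (0 < (2 * d) % c ∧ i ≤ m ∧ 0 < m % c ∧ m % c < (2 * d) % c)))) := by
  subst hq
  obtain rfl : c = cc i := hc
  have h2 := Orth.two_ne_zero_of_odd_card hodd
  have h := isOS_minusQF (F := F) (d - 1) hab
  have hn : finrank F ((Fin (d - 1) ⊕ Fin (d - 1)) ⊕ Fin 2 → F) = 2 * d := by simp; omega
  have h₁ := isTF_restrict fType_orth h
    ((isNondegenerateOn_iff _ (Orth.minusQF_apply (d - 1) F a b) _).1 hW₀.2)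
  have hP := isomType_iff (Orth.minusQF_apply (d - 1) F a b) h hW₀
  have hpl : Plus F (Orth.minusQF (d - 1) F a b) ↔ False :=
    iff_false_intro (Orth.not_isPlus_minusQF _ hab)
  rw [elu_iff _ (Orth.minusQF_apply (d - 1) F a b), elu_congr hP]
  simp only [hP] at hrΩ
  have hm' := Nat.odd_iff.1 hm
  have hW := hW₀.1
  by_cases hr2 : r = 2
  · subst hr2
    simp only [true_and, lt_self_iff_false, false_and, and_false, or_false]
    rw [IsOS.elu_two_isoS h2 h h₁ (by omega) (by omega), hn, IsOS.dsc_eq_one_iff h2 h hn,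
      isSquare_two_pow_iff h2, hpl, hW]
    have := Orth.card_mod_two_of_two_ne_zero h2
    simp only [false_iff, Nat.not_even_iff_odd.2 hm, false_and, Nat.even_iff (n := 2 * d),
      Nat.even_iff (n := d), Nat.even_iff (n := 2 * d / 2), imp_false]
    omega
  by_cases hrp : r = p
  · subst hrp
    rw [IsOS.elu_iff_odd h (by omega) ((Fact.out : r.Prime).odd_of_ne_two hr2)]
    exact iff_of_false (IsOS.not_forall_unip_odd h h₁ (by simp [hn]) (by omega) (hW ▸ hm) (by omega))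
      (by simp [hr2])
  have hr := oddP_of p hr2 hrp hi
  have := hr.prime.two_le
  obtain ⟨a1, a2, a3⟩ := IsOS.forall_isoS h h₁ hr hn hW (by omega) (by omega)
    (Or.inr (even_two_mul d)) hpl (iff_false_intro fun p =>
      Nat.not_even_iff_odd.2 hm (hW ▸ Plus.even p)) hrΩ
  rw [IsOS.elu_iff_odd h (by omega) hr.odd, a3]
  have c0 := cc_pos hr.pos
  have c1 := div_mod_facts c0 (even_cc i).two_dvd (2 * d)
  have c2 := div_mod_facts c0 (even_cc i).two_dvd m
  have c3 := div_mod_facts c0 (even_cc i).two_dvd (2 * d - m)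
  have c4 := sub_div_mod c0 (show m ≤ 2 * d by omega)
  have c6 : 2 < r := by omega
  clear hrΩ a3 hP
  rcases i.even_or_odd with he | he
  · have b1 := bl_of_even he (2 * d) False
    have b2 := bl_of_even he m False
    have b3 := bl_of_even he (2 * d - m) (False ↔ False)
    rw [cc_of_even he] at *
    simp only [he, Nat.not_odd_iff_even.2 he, hr2, hrp, c6,
      Nat.even_iff (n := _ / i), true_iff, false_iff, true_and, false_and, false_or, ne_eq,
      not_false_eq_true] at b1 b2 b3 a1 a2 ⊢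
    omega
  · have b1 := bl_of_odd he (2 * d) False
    have b2 := bl_of_odd he m False
    have b3 := bl_of_odd he (2 * d - m) (False ↔ False)
    rw [cc_of_odd he] at *
    simp only [he, Nat.not_even_iff_odd.2 he, hr2, hrp, c6, true_and, false_and,
      and_false, false_or, or_false, or_true, ne_eq, not_false_eq_true, not_true] at b1 b2 b3 a1 a2 ⊢
    omega

end Cfsg.Agent.S5991
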