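import Cfsg.Statements.S5993
import Mathlib
import Cfsg.Agent.Class.Elus.Unip

set_option autoImplicit false
open scoped MatrixGroups
open Cfsg

namespace Cfsg.Agent.S5993

open Cfsg.Agent.Class Cfsg.Agent.Class.Elus Cfsg.Agent.Class.Wall Module

set_option maxHeartbeats 1000000 in

/-- Elements of prime order of Ω_n(q), nq odd, with no fixed elliptic `m`-space. Here `T = Ω_n(F)`, `n = 2d+1 ≥ 7`, `q` odd, realised as the commutator subgroup of the isometry group of `Q = x₀² + Σ xᵢyᵢ` over the field `F` with `q` elements (trivial centre, so its elements of prime order `r` are used directly); a nondegenerate `m`-space (even `m`) is a subspace on which the polar form of `Q` is nondegenerate; it is hyperbolic if it contains an `m/2`-dimensional subspace on which `Q` vanishes, elliptic otherwise. Let `m` be even with `2 ≤ m ≤ n − 1` (no restriction `m < n/2`) and let `r` be a prime dividing the number of elliptic `m`-spaces; for `r ≠ p` let `i` be the multiplicative order of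 `q` modulo `r`, `c = i` for `i` even and `c = 2i` for `i` odd, and write `k = n mod c`, `ℓ' = m mod c`. Then every element of `T` of order `r` fixes some elliptic `m`-space if and only if `r = 2`, or `r ≠ p` is odd and one of: (i) `i` odd, `c ≤ m` and `k > ℓ' > 0`; (ii) `i` even, `i ≤ m`, `k > ℓ'`, and `m/i` odd whenever `ℓ' = 0`. (For `r = p` there is always an element of order `p` fixing no elliptic `m`-space.) -/
theorem result {F : Type*} [Field F] [Fintype F] {p : ℕ} [Fact p.Prime] [CharP F p] {q : ℕ} (hq : Fintype.card F = q) (hqodd : Odd q)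
    (d m : ℕ) (hd : 3 ≤ d) (hm : 2 ≤ m) (hme : Even m) (hmn : m ≤ 2 * d)
    (r : ℕ) [Fact r.Prime]
    (hrΩ : r ∣ Nat.card {W : Submodule F (Unit ⊕ (Fin d ⊕ Fin d) → F) // Module.finrank F ↥W = m ∧ Cfsg.Geo.IsNondegenerateOn (QuadraticMap.polar (Cfsg.quadFormOdd d F)) W ∧ ¬ Cfsg.Geo.IsPlusTypeOn (Cfsg.quadFormOdd d F) W})
    (i c : ℕ) (hi : i = orderOf (q : ZMod r)) (hc : c = if Even i then i else 2 * i) :
    (∀ x : GL (Unit ⊕ (Fin d ⊕ Fin d)) F, x ∈ Cfsg.Geo.omegaGL (Cfsg.quadFormOdd d F) → orderOf x = r →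
      ∃ W : Submodule F (Unit ⊕ (Fin d ⊕ Fin d) → F), (Module.finrank F ↥W = m ∧ Cfsg.Geo.IsNondegenerateOn (QuadraticMap.polar (Cfsg.quadFormOdd d F)) W ∧ ¬ Cfsg.Geo.IsPlusTypeOn (Cfsg.quadFormOdd d F) W) ∧ W.map (Matrix.toLin' (x : Matrix (Unit ⊕ (Fin d ⊕ Fin d)) (Unit ⊕ (Fin d ⊕ Fin d)) F)) ≤ W) ↔
    (r = 2 ∨
     (r ≠ p ∧ 2 < r ∧ Odd i ∧ c ≤ m ∧ 0 < m % c ∧ m % c < (2 * d + 1) % c) ∨
     (r ≠ p ∧ 2 < r ∧ Even i ∧ i ≤ m ∧ m % c < (2 * d + 1) % c ∧ (0 < m % c ∨ Odd (m / i)))) := by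
  subst hq
  obtain rfl : c = cc i := hc
  have h2 := Orth.two_ne_zero_of_odd_card hqodd
  have h := isOS_oddQF (F := F) h2 d
  have hn : finrank F (Unit ⊕ (Fin d ⊕ Fin d) → F) = 2 * d + 1 := by simp; omega
  obtain ⟨B₁, Q₁, h₁, hp⟩ := exists_isOS_plus_iff (F := F) (m := m) (by omega) hme False
  have hP := minusType_iff (Orth.oddQF_apply d F) h h₁ (finrank_fin_fun F) hme hp.1
  rw [elu_iff_orderOf _ (Orth.oddQF_apply d F) fun z => IsOS.eq_one_of_inOm h (by simp [hn]),
    elu_congr hP]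
  simp only [hP] at hrΩ
  have hme' := Nat.even_iff.1 hme
  by_cases hr2 : r = 2
  · subst hr2
    rw [IsOS.elu_two_isoS h2 h h₁ (by simp; omega) (by simp; omega), hn]
    simp
  by_cases hrp : r = p
  · subst hrp
    rw [IsOS.elu_iff_odd h (by omega) ((Fact.out : r.Prime).odd_of_ne_two hr2)]
    refine iff_of_false (fun H => ?_) (by simp [hr2])
    obtain ⟨n, B₂, Q₂, h₂, hV⟩ := IsOS.exists_isSum h₁ h (by simp; omega)
    obtain ⟨j, a1, k, a2, a3, a4, -⟩ := IsOS.test_unip h2 h h₁ h₂ hV H (d / 2 - 1) (1 - d % 2) (d % 2)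
      (by omega) (by omega)
    have a6 := a4.resolve_right hp.1
    rw [finrank_fin_fun] at a3
    rcases (by omega : j + 3 * k = 1 ∨ j + 3 * k = 3) with e | e <;> omega
  have hr := oddP_of p hr2 hrp hi
  have := hr.prime.two_le
  obtain ⟨a1, a2, a3⟩ := IsOS.forall_isoS h h₁ hr hn (finrank_fin_fun F) (by omega) (by omega)
    (Or.inl hme) (iff_false_intro fun p => by simpa [hn] using Plus.even p) hp hrΩ
  rw [IsOS.elu_iff_odd h (by omega) hr.odd, a3]
  have c0 := cc_pos hr.pos
  have c1 := div_mod_facts c0 (even_cc i).two_dvd (2 * d + 1)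
  have c2 := div_mod_facts c0 (even_cc i).two_dvd m
  have c3 := div_mod_facts c0 (even_cc i).two_dvd (2 * d + 1 - m)
  have c4 := sub_div_mod c0 (show m ≤ 2 * d + 1 by omega)
  have c6 : 2 < r := by omega
  clear hrΩ a3 hP
  rcases i.even_or_odd with he | he
  · have b1 := bl_of_even he (2 * d + 1) False
    have b2 := bl_of_even he m False
    have b3 := bl_of_even he (2 * d + 1 - m) (False ↔ False)
    rw [cc_of_even he] at *
    simp only [he, Nat.not_odd_iff_even.2 he, hr2, hrp, c6,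
      Nat.odd_iff (n := _ / i), true_iff, false_iff, true_and, false_and, false_or, ne_eq,
      not_false_eq_true] at b1 b2 b3 a1 a2 ⊢
    omega
  · have b1 := bl_of_odd he (2 * d + 1) False
    have b2 := bl_of_odd he m False
    have b3 := bl_of_odd he (2 * d + 1 - m) (False ↔ False)
    rw [cc_of_odd he] at *
    simp only [he, Nat.not_even_iff_odd.2 he, hr2, hrp, c6, true_and, false_and,
      and_false, false_or, or_false, or_true, ne_eq, not_false_eq_true, not_true] at b1 b2 b3 a1 a2 ⊢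
    omega

end Cfsg.Agent.S5993
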