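import Cfsg.Statements.S5997
import Cfsg.Agent.Class.PSL2Max
import Cfsg.Agent.S3742

set_option autoImplicit false
open scoped MatrixGroups
open Cfsg

namespace Cfsg.Agent.S5997

open Cfsg.Agent.Class Cfsg.Agent.Class.Dickson KSG KSG.M2 Matrix MatrixGroups Subgroup
open Matrix.SpecialLinearGroup (toGL toGL_injective)

theorem exists_quat {F : Type*} [Field F] (h2 : (2 : F) ≠ 0) {R : Subgroup (GL (Fin 2) F)}
    (e : R ≃* QuaternionGroup 2) :
    ∃ g w : SL(2, F), QuatPair g w ∧ R = closure {toGL g, toGL w} := by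
  obtain ⟨i, hi⟩ : ∃ i : GL (Fin 2) F, i = e.symm (.a 1) := ⟨_, rfl⟩
  obtain ⟨j, hj⟩ : ∃ j : GL (Fin 2) F, j = e.symm (.xa 0) := ⟨_, rfl⟩
  have hij : i * j ≠ j * i := fun h => by
    rw [hi, hj, ← coe_mul, ← coe_mul, Subtype.coe_inj, ← map_mul, ← map_mul, e.symm.apply_eq_iff_eq] at h
    revert h; decide
  have hji : j * i * j⁻¹ = i⁻¹ := by
    rw [hi, hj, ← coe_inv, ← coe_inv, ← coe_mul, ← coe_mul, ← map_inv, ← map_inv, ← map_mul, ← map_mul]
    congr 2
  have hjj : j * j = i * i := by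
    rw [hi, hj, ← coe_mul, ← coe_mul, ← map_mul, ← map_mul]
    congr 2
  have h4 : i * i * (i * i) = 1 := by
    rw [hi, ← coe_mul, ← coe_mul, ← map_mul, ← map_mul, ← coe_one, ← map_one e.symm]
    congr 2
  have h1 : i * i ≠ 1 := fun h => by
    rw [hi, ← coe_mul, ← map_mul, OneMemClass.coe_eq_one, map_eq_one_iff _ e.symm.injective] at h
    revert h; decide
  have hz : IsScal ((i * i : GL (Fin 2) F) : Matrix (Fin 2) (Fin 2) F) := by
    by_contra h
    refine hij (Units.ext (comm_of_comm h ?_ ?_))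
    · exact congrArg Units.val (mul_assoc i i i)
    · rw [← hjj]; exact congrArg Units.val (mul_assoc j j j)
  have hz' : ((i * i : GL (Fin 2) F) : Matrix (Fin 2) (Fin 2) F) = -1 := by
    obtain ⟨c, hc⟩ := isScal_iff.1 hz
    have h6 := congrArg Units.val h4
    rw [Units.val_mul, hc] at h6
    have h5 := congrFun (congrFun h6 0) 0
    simp at h5
    rcases mul_self_eq_one_iff.1 h5 with rfl | rfl
    · exact absurd (Units.ext (by simpa using hc)) h1
    · simpa using hc
  have key : ∀ a : GL (Fin 2) F, ¬ IsScal (a : Matrix (Fin 2) (Fin 2) F) → a * a = i * i →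
      (a : Matrix (Fin 2) (Fin 2) F).det = 1 ∧ (a : Matrix (Fin 2) (Fin 2) F).trace = 0 := by
    intro a ha h
    have h5 := congrArg Units.val h
    rw [hz', Units.val_mul, sq_eq] at h5
    have := smul_add_inj ha (x := -(a : Matrix (Fin 2) (Fin 2) F).det)
      (y := (a : Matrix (Fin 2) (Fin 2) F).trace) (x' := -1) (y' := 0)
      (by rw [zero_smul, add_zero, neg_smul, neg_smul, one_smul, ← h5]; abel)
    exact ⟨neg_injective this.1, this.2⟩
  obtain ⟨hi1, hi2⟩ := key i (fun h => hij (Units.ext (h.comm _))) rfl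
  obtain ⟨hj1, -⟩ := key j (fun h => hij (Units.ext (h.comm _).symm)) hjj
  have ei : toGL (mkSL _ hi1) = i := Units.ext rfl
  have ej : toGL (mkSL _ hj1) = j := Units.ext rfl
  refine ⟨mkSL _ hi1, mkSL _ hj1, ⟨h2, hi2, toGL_injective ?_⟩, ?_⟩
  · simp only [map_mul, map_inv, ei, ej, hji]
  · rw [ei, ej]
    refine le_antisymm (fun x hx => ?_) ((closure_le _).2 ?_)
    · have hi' : i ∈ closure {i, j} := subset_closure (Or.inl rfl)
      have hj' : j ∈ closure {i, j} := subset_closure (Or.inr rfl)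
      have : ∀ q : QuaternionGroup 2, ∃ n : Fin 4, q = .a 1 ^ (n : ℕ) ∨ q = .xa 0 * .a 1 ^ (n : ℕ) := by
        decide
      obtain ⟨n, h | h⟩ := this (e ⟨x, hx⟩)
      · have := congrArg (fun q => (e.symm q : GL (Fin 2) F)) h
        simp only [MulEquiv.symm_apply_apply, map_pow, coe_pow] at this
        exact this ▸ hi ▸ pow_mem hi' n
      · have := congrArg (fun q => (e.symm q : GL (Fin 2) F)) h
        simp only [MulEquiv.symm_apply_apply, map_pow, map_mul, coe_pow, coe_mul] at this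
        exact this ▸ hi ▸ hj ▸ mul_mem hj' (pow_mem hi' n)
    · rw [hi, hj]
      rintro _ (rfl | rfl) <;> exact SetLike.coe_mem _

theorem trace_three {F : Type*} [Field F] {g : SL(2, F)} (hs : ¬ IsScal (g : Matrix (Fin 2) (Fin 2) F))
    (h : IsScal ((g : Matrix (Fin 2) (Fin 2) F) ^ 3)) : (g : Matrix (Fin 2) (Fin 2) F).trace ^ 2 = 1 := by
  have h2 := sq_eq (g : Matrix (Fin 2) (Fin 2) F)
  rw [g.det_coe, one_smul] at h2
  rw [show (g : Matrix (Fin 2) (Fin 2) F) ^ 3 = (-(g : Matrix (Fin 2) (Fin 2) F).trace) • 1 +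
    ((g : Matrix (Fin 2) (Fin 2) F).trace ^ 2 - 1) • (g : Matrix (Fin 2) (Fin 2) F) by
      simp only [pow_succ, pow_zero, one_mul, h2, sub_mul, smul_mul_assoc, smul_sub]; module] at h
  exact sub_eq_zero.1 ((isScal_smul_add hs).1 h)

/-- Elements of prime order of PSL_2(p) and the normalizer of a quaternion subgroup. Here `T = PSL_2(F)` for the field `F` with `p` elements, `p ≥ 5` prime; `R` is a subgroup of GL_2(F) isomorphic to the quaternion group of order 8 (an absolutely irreducible 2-group of symplectic type), and `H` is the subgroup of matrices of determinant 1 normalizing `R` — a subgroup of type 2^{1+2}.O₂⁻(2), isomorphic modulo scalars to A₄ or S₄ (maximality is not assumed). Ω is the set of cosets of `H` in `T`, so an element of `T` of prime order `r` (a matrix `x` of determinant 1 with `x^r` scalar, `x` not scalar) fixes a point of Ω exactly when some conjugate of `x` by a matrix of determinant 1 normalizes `R`. Let `r` be a prime dividing the index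 of `H`. Then every element of `T` of order `r` fixes a point of Ω if and only if `r = 2` or `r = 3`. -/
theorem result {F : Type*} [Field F] [Fintype F] {p : ℕ} [Fact p.Prime] [CharP F p] (hF : Fintype.card F = p) (hp : 5 ≤ p)
    (R : Subgroup (GL (Fin 2) F)) (hR : Nonempty (↥R ≃* QuaternionGroup 2))
    (r : ℕ) [Fact r.Prime]
    (hΩ : r ∣ (Cfsg.Geo.subgroupNormalizer R).relIndex (Cfsg.Geo.specialLinear (Fin 2) F)) :
    (∀ x ∈ Cfsg.Geo.specialLinear (Fin 2) F, (∃ z : F, ((x ^ r : GL (Fin 2) F) : Matrix (Fin 2) (Fin 2) F) = z • (1 : Matrix (Fin 2) (Fin 2) F)) →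
      (∀ z : F, (x : Matrix (Fin 2) (Fin 2) F) ≠ z • (1 : Matrix (Fin 2) (Fin 2) F)) →
      ∃ g ∈ Cfsg.Geo.specialLinear (Fin 2) F, g⁻¹ * x * g ∈ Cfsg.Geo.subgroupNormalizer R) ↔ (r = 2 ∨ r = 3) := by
  have hpp : p.Prime := Fact.out
  have hr : r.Prime := Fact.out
  have h2 : (2 : F) ≠ 0 := two_ne_zero_of_charP p (by omega)
  obtain ⟨e⟩ := hR
  obtain ⟨g, w, h, hR⟩ := exists_quat h2 e
  have hg : toGL g ∈ R := hR ▸ subset_closure (Or.inl rfl)
  have hw : toGL w ∈ R := hR ▸ subset_closure (Or.inr rfl)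
  have hSL : ∀ x : SL(2, F), toGL x ∈ Cfsg.Geo.specialLinear (Fin 2) F := fun x =>
    Matrix.SpecialLinearGroup.coeToGL_det x
  have hSL' : ∀ x ∈ Cfsg.Geo.specialLinear (Fin 2) F, ∃ y : SL(2, F), toGL y = x := fun x hx =>
    ⟨mkSL x (congrArg Units.val hx), Units.ext rfl⟩
  constructor
  · intro H
    by_contra hr2
    obtain ⟨⟨x, hx⟩, ho⟩ := exists_prime_orderOf_dvd_card' r (hΩ.trans (relIndex_dvd_card _ _))
    rw [Subgroup.orderOf_mk] at ho
    obtain ⟨x, rfl⟩ := hSL' x hx
    have key : ∀ y : SL(2, F), orderOf (toGL y) = r → y = 1 ∨ y = -1 → False := by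
      intro y hy h1
      have : toGL y ^ 2 = 1 := by rcases h1 with rfl | rfl <;> rw [← map_pow] <;> simp
      exact hr2 (Or.inl ((Nat.prime_dvd_prime_iff_eq hr Nat.prime_two).1
        (hy ▸ orderOf_dvd_of_pow_eq_one this)))
    obtain ⟨c, hc, hN⟩ := H _ hx ⟨1, by rw [← ho, pow_orderOf_eq_one]; simp⟩
      fun z hz => key x ho (SL_isScal_iff.1 (isScal_iff.2 ⟨z, hz⟩))
    obtain ⟨c, rfl⟩ := hSL' c hc
    rw [← map_inv, ← map_mul, ← map_mul] at hN
    have ho' : orderOf (toGL (c⁻¹ * x * c)) = r := by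
      rw [← ho, map_mul, map_mul, map_inv]
      simpa using (MulAut.conj (toGL c)⁻¹).orderOf_eq (toGL x)
    generalize c⁻¹ * x * c = y at hN ho'
    have h1 : orderOf (R.normalizerMonoidHom ⟨_, hN⟩) ∣ r :=
      ho' ▸ Subgroup.orderOf_mk _ hN ▸ orderOf_map_dvd _ _
    have h3 := orderOf_dvd_natCard (R.normalizerMonoidHom ⟨_, hN⟩)
    rw [Nat.card_congr ((MulAut.congr e).trans S3742.result.some).toEquiv, card_sym4] at h3
    have h4 : R.normalizerMonoidHom ⟨_, hN⟩ = 1 := by
      rcases (Nat.dvd_prime hr).1 h1 with h1 | h1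
      · exact orderOf_eq_one_iff.1 h1
      · rw [h1, show 24 = 2 ^ 3 * 3 from rfl] at h3
        exact absurd (((Nat.Prime.dvd_mul hr).1 h3).imp
          (fun h => (Nat.prime_dvd_prime_iff_eq hr Nat.prime_two).1 (hr.dvd_of_dvd_pow h))
          (Nat.prime_dvd_prime_iff_eq hr Nat.prime_three).1) hr2
    have h5 : ∀ u : SL(2, F), toGL u ∈ R → y * u * y⁻¹ = u := fun u hu => toGL_injective (by
      simpa using congrArg (fun φ : MulAut R => (φ ⟨_, hu⟩ : GL (Fin 2) F)) h4)
    exact key y ho' (h.eq_of_centralizes (h5 g hg) (h5 w hw))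
  · intro hr2 x hx ⟨z, hz⟩ hs
    obtain ⟨x, rfl⟩ := hSL' x hx
    replace hs : ¬ IsScal (x : Matrix (Fin 2) (Fin 2) F) := fun h => by
      obtain ⟨z, hz⟩ := isScal_iff.1 h
      exact hs z hz
    replace hz : IsScal ((x : Matrix (Fin 2) (Fin 2) F) ^ r) := isScal_iff.2 ⟨z, hz⟩
    have key : ∀ c : SL(2, F), (c : Matrix (Fin 2) (Fin 2) F).trace = (x : Matrix (Fin 2) (Fin 2) F).trace →
        (c : Matrix (Fin 2) (Fin 2) F).trace ^ 2 ≠ 4 → toGL c ∈ Cfsg.Geo.subgroupNormalizer R →
        ∃ g ∈ Cfsg.Geo.specialLinear (Fin 2) F, g⁻¹ * toGL x * g ∈ Cfsg.Geo.subgroupNormalizer R := by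
      intro c h1 h3 h4
      obtain ⟨b, rfl⟩ := isConj_iff.1 (SL_isConj_of_trace' h1 h3)
      exact ⟨toGL b, hSL b, by simpa [mul_assoc] using h4⟩
    rcases hr2 with rfl | rfl
    · refine key g ?_ h.disc (le_normalizer hg)
      rw [sq, sq_eq, sub_eq_neg_add, ← neg_smul] at hz
      rw [h.trace_left, (isScal_smul_add hs).1 hz]
    · obtain ⟨c, hc1, hc2⟩ := h.exists_cycle
      have hc3 : c * (g * w) * c⁻¹ = g := by
        rw [← conj_mul, hc1, hc2, ← mul_assoc, h.anticomm, neg_mul, mul_assoc, h.sq_right]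
        simp
      have hN : ∀ c' : SL(2, F), c' = c ∨ c' = -c → toGL c' ∈ Cfsg.Geo.subgroupNormalizer R := by
        intro c' hc'
        have : ∀ u : SL(2, F), c' * u * c'⁻¹ = c * u * c⁻¹ := by
          rcases hc' with rfl | rfl <;> simp
        refine mem_normalizer_fintype fun n hn => ?_
        have h3 : R.map (MulAut.conj (toGL c')).toMonoidHom ≤ R := by
          conv_lhs => rw [hR, MonoidHom.map_closure]
          rw [closure_le]
          rintro _ ⟨_, rfl | rfl, rfl⟩
          · simpa [← map_mul, ← map_inv, this, hc1] using hw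
          · simpa [← map_mul, ← map_inv, this, hc2] using mul_mem hg hw
        exact h3 ⟨n, hn, rfl⟩
      have ht : (c : Matrix (Fin 2) (Fin 2) F).trace ^ 2 = 1 := by
        refine trace_three (fun hs => ?_) (SL_isScal_iff.2 (h.eq_of_centralizes (c := c ^ 3) ?_ ?_))
        · refine h.kleinPair.ne (congrArg _ ?_)
          rcases SL_isScal_iff.1 hs with rfl | rfl <;> simpa using hc1
        · rw [show c ^ 3 * g * (c ^ 3)⁻¹ = c * (c * (c * g * c⁻¹) * c⁻¹) * c⁻¹ by
            simp [pow_succ, mul_assoc], hc1, hc2, hc3]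
        · rw [show c ^ 3 * w * (c ^ 3)⁻¹ = c * (c * (c * w * c⁻¹) * c⁻¹) * c⁻¹ by
            simp [pow_succ, mul_assoc], hc2, hc3, hc1]
      have h4 : (1 : F) ≠ 4 := fun h => by
        have := (CharP.cast_eq_zero_iff F p 3).1 (by push_cast; linear_combination -h)
        have := Nat.le_of_dvd (by norm_num) this
        omega
      rcases sq_eq_sq_iff_eq_or_eq_neg.1 (ht.trans (trace_three hs hz).symm) with h5 | h5
      · exact key c h5 (by rwa [ht]) (hN c (Or.inl rfl))
      · exact key (-c) (by simp [h5]) (by simpa [ht] using h4) (hN _ (Or.inr rfl))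

end Cfsg.Agent.S5997
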